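import Mathlib
import Cfsg.Agent.Lib.Helper43.MiBase
import Cfsg.Agent.Lib.Helper43.OPlRoot

set_option autoImplicit false

namespace Cfsg.Agent.Lib.Helper43.MiRoot

open Matrix
open Cfsg.Agent.Lib.Helper94.Basic Cfsg.Agent.Lib.Helper94.GLAux Cfsg.Agent.Lib.Helper94.Tv
  Cfsg.Agent.Lib.Helper94.QuadAbs Cfsg.Agent.Lib.Helper94.OrthSiegel
  Cfsg.Agent.Lib.Helper43.MiBase
open Cfsg.Agent.Lib.Helper43.OPlRoot (sg_add_left sg_inv sg_swap sg_self sg_conj_sim swap_inj
  exists_other)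
open Cfsg.Agent.Lib.Helper94.SympAbs (bil_zero_left bil_zero_right bil_neg_left bil_neg_right
  bil_sub_left bil_sub_right)

section General

variable {F : Type*} [Field F] {ι : Type} [Fintype ι] [DecidableEq ι] {Q : (ι → F) → F}

/-- additivity in the first argument for a nonsingular second argument -/
theorem sg_add_left_gen (hQ : Cfsg.Geo.IsNondegenerateQuadraticForm Q) (u v w : ι → F)
    (hu : Q u = 0) (hv : Q v = 0) (huv : QuadraticMap.polar Q u v = 0)
    (huw : QuadraticMap.polar Q u w = 0) (hvw : QuadraticMap.polar Q v w = 0) :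
    sg hQ (u + v) w = sg hQ v (Q w • u) * (sg hQ u w * sg hQ v w) := by
  have hbl := hQ.polar_bilinear
  have huv0 : Q (u + v) = 0 := by rw [Q_add Q, hu, hv, huv]; ring
  have huvw : QuadraticMap.polar Q (u + v) w = 0 := by rw [hbl.add_left, huw, hvw, add_zero]
  have hww : QuadraticMap.polar Q w w = 2 * Q w := B_self hQ w
  have hwv : QuadraticMap.polar Q w v = 0 := by rw [B_comm]; exact hvw
  have hwu : QuadraticMap.polar Q w u = 0 := by rw [B_comm]; exact huw
  have hvu : QuadraticMap.polar Q v u = 0 := by rw [B_comm]; exact huv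
  have huu : QuadraticMap.polar Q u u = 0 := polar_self_sing hQ u hu
  have hvv : QuadraticMap.polar Q v v = 0 := polar_self_sing hQ v hv
  have hvQu : QuadraticMap.polar Q v (Q w • u) = 0 := by rw [hbl.smul_right, hvu, mul_zero]
  apply gl_ext
  intro x
  rw [Units.val_mul, Units.val_mul, ← Matrix.mulVec_mulVec, ← Matrix.mulVec_mulVec,
    sg_mulVec hQ _ _ hv hvw, sg_mulVec hQ _ _ hu huw, sg_mulVec hQ _ _ hv hvQu,
    sg_mulVec hQ _ _ huv0 huvw]
  simp only [hbl.add_right, hbl.smul_right, bil_sub_right hbl, hbl.add_left, hbl.smul_left, huv,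
    huw, hvw, hww, hwv, hwu, hvu, huu, hvv, hQ.smul, hu]
  module

end General

section Frame

variable {F : Type*} [Field F] [Fintype F] {m : ℕ} {A B : F}

omit [Fintype F] in
theorem frame_perp {a b : Fin m ⊕ Fin m} (hab' : b ≠ a.swap) (t : F) :
    QuadraticMap.polar (Cfsg.quadFormMinus m F A B) (E a) (t • E b) = 0 := by
  rw [polar_E, Pi.smul_apply, E_ne (Ne.symm hab'), smul_zero]

omit [Fintype F] in
theorem wv_perp (a : Fin m ⊕ Fin m) (z : Fin 2 → F) :
    QuadraticMap.polar (Cfsg.quadFormMinus m F A B) (E a) (wv z) = 0 := by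
  rw [polar_E, wv_fr]

theorem Q_smul_E (hm : Hy m F A B) (t : F) (b : Fin m ⊕ Fin m) :
    Cfsg.quadFormMinus m F A B (t • E b) = 0 := by
  rw [(hQ hm).smul, Q_E, mul_zero]

/-- the binary polar form is nondegenerate -/
theorem Bw_nondeg (hm : Hy m F A B) {z : Fin 2 → F} (h : ∀ u, Bw A B z u = 0) : z = 0 := by
  by_contra hz
  have h1 : (wv z : MI m → F) ≠ 0 := by
    intro h0
    exact hz (wv_inj (h0.trans wv_zero.symm))
  obtain ⟨-, x, hx⟩ := (hQ hm).nondegenerate (wv z) h1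
  apply hx
  rw [polar_wv]
  exact h (fun j => x (Sum.inr j))

/-- the action of a frame root element -/
theorem frame_mulVec (hm : Hy m F A B) {a b : Fin m ⊕ Fin m} (hab' : b ≠ a.swap) (t : F)
    (x : MI m → F) :
    ((sg (hQ hm) (E a) (t • E b) : GL (MI m) F) : Matrix (MI m) (MI m) F) *ᵥ x =
      x + (t * x (Sum.inl a.swap)) • E b - (t * x (Sum.inl b.swap)) • E a := by
  rw [sg_mulVec (hQ hm) _ _ (Q_E a) (frame_perp hab' t), Q_smul_E hm, polar_E,
    (hQ hm).polar_bilinear.smul_left, polar_E]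
  module

/-- the action of a short root element -/
theorem short_mulVec (hm : Hy m F A B) (a : Fin m ⊕ Fin m) (z : Fin 2 → F) (x : MI m → F) :
    ((sg (hQ hm) (E a) (wv z) : GL (MI m) F) : Matrix (MI m) (MI m) F) *ᵥ x =
      x + x (Sum.inl a.swap) • wv z -
        QuadraticMap.polar (Cfsg.quadFormMinus m F A B) (wv z) x • E a -
        (N A B z * x (Sum.inl a.swap)) • E a := by
  rw [sg_mulVec (hQ hm) _ _ (Q_E a) (wv_perp a z), Q_wv, polar_E]

theorem frame_symm (hm : Hy m F A B) {a b : Fin m ⊕ Fin m} (hab' : b ≠ a.swap) (t : F) :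
    sg (hQ hm) (E a) (t • E b) = sg (hQ hm) (E b) ((-t) • E a) := by
  rw [sg_swap (hQ hm) _ _ (Q_E a) (Q_smul_E hm t b) (frame_perp hab' t), sg_smul_left, smul_neg,
    neg_smul]

theorem frame_add (hm : Hy m F A B) {a b : Fin m ⊕ Fin m} (hab' : b ≠ a.swap) (s t : F) :
    sg (hQ hm) (E a) ((s + t) • E b) =
      sg (hQ hm) (E a) (s • E b) * sg (hQ hm) (E a) (t • E b) := by
  rw [sg_mul (hQ hm) _ _ _ (Q_E a) (frame_perp hab' s) (frame_perp hab' t), add_smul]

theorem frame_eq_one (hm : Hy m F A B) {b d : Fin m ⊕ Fin m} (hbd : d ≠ b) (hbd' : d ≠ b.swap)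
    {u : F} (h : sg (hQ hm) (E b) (u • E d) = 1) : u = 0 := by
  have h1 := congrArg (fun g : GL (MI m) F =>
    ((g : Matrix (MI m) (MI m) F) *ᵥ (E b.swap : MI m → F)) (Sum.inl d)) h
  simp only [frame_mulVec hm hbd', Units.val_one, Matrix.one_mulVec] at h1
  have h2 : d ≠ b.swap := hbd'
  have h3 : d.swap ≠ b.swap := fun h => hbd (swap_inj h)
  simpa [E_fr, h2, h3, Sum.swap_swap, hbd] using h1

theorem short_eq_one (hm : Hy m F A B) (a : Fin m ⊕ Fin m) {z : Fin 2 → F}
    (h : sg (hQ hm) (E a) (wv z) = 1) : z = 0 := by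
  funext j
  have h1 := congrArg (fun g : GL (MI m) F =>
    ((g : Matrix (MI m) (MI m) F) *ᵥ (E a.swap : MI m → F)) (Sum.inr j)) h
  simp only [short_mulVec hm, Units.val_one, Matrix.one_mulVec] at h1
  simpa [E_fr, E_an, wv_an] using h1

/-- the commutator relation for frame root elements -/
theorem frame_rel (hm : Hy m F A B) {a b d : Fin m ⊕ Fin m} (hba : b ≠ a) (hba' : b ≠ a.swap)
    (hda : d ≠ a) (hda' : d ≠ a.swap) (hdb : d ≠ b) (hdb' : d ≠ b.swap) (s t : F) :
    sg (hQ hm) (E a) (s • E b) * sg (hQ hm) (E a.swap) (t • E d) *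
        (sg (hQ hm) (E a) (s • E b))⁻¹ =
      sg (hQ hm) (E a.swap) (t • E d) * sg (hQ hm) (E b) ((s * t) • E d) := by
  have hbl := (hQ hm).polar_bilinear
  rw [sg_conj (hQ hm) _ (sg_isom (hQ hm) _ _), frame_mulVec hm hba', frame_mulVec hm hba']
  have h1 : (E a.swap : MI m → F) + (s * (E a.swap : MI m → F) (Sum.inl a.swap)) • E b -
      (s * (E a.swap : MI m → F) (Sum.inl b.swap)) • E a = E a.swap + s • E b := by
    rw [E_self, E_ne (fun h => hba (swap_inj h)), mul_one, mul_zero, zero_smul, sub_zero]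
  have h2 : t • (E d : MI m → F) + (s * (t • (E d : MI m → F)) (Sum.inl a.swap)) • E b -
      (s * (t • (E d : MI m → F)) (Sum.inl b.swap)) • E a = t • E d := by
    rw [Pi.smul_apply, Pi.smul_apply, E_ne (Ne.symm hda'), E_ne (Ne.symm hdb')]
    simp
  rw [h1, h2]
  have hdsw : d ≠ a.swap.swap := by rw [Sum.swap_swap]; exact hda
  rw [sg_add_left (hQ hm) _ _ _ (Q_E _) (Q_smul_E hm s b) (Q_smul_E hm t d)
    (by rw [polar_E, Sum.swap_swap, Pi.smul_apply, E_ne (Ne.symm hba), smul_zero])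
    (frame_perp hdsw t)
    (by rw [hbl.smul_left, frame_perp hdb' t, mul_zero])]
  rw [sg_smul_left, smul_smul]

/-- the commutator relation for short root elements -/
theorem short_rel (hm : Hy m F A B) {a b : Fin m ⊕ Fin m} (hba : b ≠ a) (hba' : b ≠ a.swap)
    (z u : Fin 2 → F) :
    sg (hQ hm) (E a) (wv z) * sg (hQ hm) (E b) (wv u) * (sg (hQ hm) (E a) (wv z))⁻¹ =
      sg (hQ hm) (E b) (wv u) * sg (hQ hm) (E b) ((-(Bw A B z u)) • E a) := by
  rw [sg_conj (hQ hm) _ (sg_isom (hQ hm) _ _), short_mulVec hm, short_mulVec hm]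
  have h1 : (E b : MI m → F) + (E b : MI m → F) (Sum.inl a.swap) • wv z -
      QuadraticMap.polar (Cfsg.quadFormMinus m F A B) (wv z) (E b) • E a -
      (N A B z * (E b : MI m → F) (Sum.inl a.swap)) • E a = E b := by
    rw [E_ne (Ne.symm hba'), B_comm, wv_perp]
    simp
  have h2 : (wv u : MI m → F) + (wv u : MI m → F) (Sum.inl a.swap) • wv z -
      QuadraticMap.polar (Cfsg.quadFormMinus m F A B) (wv z) (wv u) • E a -
      (N A B z * (wv u : MI m → F) (Sum.inl a.swap)) • E a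
      = wv u + (-(Bw A B z u)) • E a := by
    rw [wv_fr, polar_wv_wv]
    simp only [mul_zero, zero_smul, add_zero, sub_zero]
    module
  rw [h1, h2]
  have hab' : a ≠ b.swap := fun h => hba' (by rw [h, Sum.swap_swap])
  rw [sg_mul (hQ hm) _ _ _ (Q_E b) (wv_perp b u) (frame_perp hab' _)]

/-- the relation between long and short root elements -/
theorem short_rel2 (hm : Hy m F A B) {a b : Fin m ⊕ Fin m} (hba : b ≠ a) (hba' : b ≠ a.swap)
    (t : F) (z : Fin 2 → F) :
    sg (hQ hm) (E a.swap) (t • E b) * sg (hQ hm) (E a) (wv z) *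
        (sg (hQ hm) (E a.swap) (t • E b))⁻¹ =
      sg (hQ hm) (E b) ((t * N A B z) • E a) *
        (sg (hQ hm) (E a) (wv z) * sg (hQ hm) (E b) (wv (t • z))) := by
  have hbl := (hQ hm).polar_bilinear
  have hb2 : b ≠ a.swap.swap := by rw [Sum.swap_swap]; exact hba
  rw [sg_conj (hQ hm) _ (sg_isom (hQ hm) _ _), frame_mulVec hm hb2, frame_mulVec hm hb2]
  have h1 : (E a : MI m → F) + (t * (E a : MI m → F) (Sum.inl a.swap.swap)) • E b -
      (t * (E a : MI m → F) (Sum.inl b.swap)) • E a.swap = E a + t • E b := by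
    rw [Sum.swap_swap, E_self, E_ne (fun h => hba' (by rw [← h, Sum.swap_swap])), mul_one,
      mul_zero, zero_smul, sub_zero]
  have h2 : (wv z : MI m → F) + (t * (wv z : MI m → F) (Sum.inl a.swap.swap)) • E b -
      (t * (wv z : MI m → F) (Sum.inl b.swap)) • E a.swap = wv z := by
    rw [wv_fr, wv_fr]
    simp
  rw [h1, h2, sg_add_left_gen (hQ hm) _ _ _ (Q_E a) (Q_smul_E hm t b) (frame_perp hba' t)
    (wv_perp a z) (by rw [hbl.smul_left, wv_perp, mul_zero]), Q_wv, sg_smul_left, sg_smul_left,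
    smul_smul, wv_smul]

end Frame

section Proj

variable {F : Type*} [Field F] [Fintype F] {m : ℕ} {A B : F}

theorem rt_add (hm : Hy m F A B) (a w w' : MI m → F) (ha : Cfsg.quadFormMinus m F A B a = 0)
    (hw : QuadraticMap.polar (Cfsg.quadFormMinus m F A B) a w = 0)
    (hw' : QuadraticMap.polar (Cfsg.quadFormMinus m F A B) a w' = 0) :
    rt hm a (w + w') = rt hm a w * rt hm a w' := by
  unfold rt
  rw [← QuotientGroup.mk_mul]
  congr 1
  apply omega_ext
  show sg (hQ hm) a (w + w') = sg (hQ hm) a w * sg (hQ hm) a w'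
  rw [sg_mul (hQ hm) a w w' ha hw hw']

theorem rt_eq_one (hm : Hy m F A B) {a w : MI m → F} (h : sg (hQ hm) a w = 1) :
    rt hm a w = 1 := by
  unfold rt
  have : T hm a w = 1 := by
    apply omega_ext
    rw [T_coe, h]
    rfl
  rw [this, QuotientGroup.mk_one]

theorem rt_conj (hm : Hy m F A B) (g : ↥(Cfsg.Omega F (Cfsg.quadFormMinus m F A B)))
    (a w : MI m → F) :
    (QuotientGroup.mk g : Cfsg.POmega F (Cfsg.quadFormMinus m F A B)) * rt hm a w *
        (QuotientGroup.mk g)⁻¹ =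
      rt hm ((((g : ↥(Cfsg.isometryGroup F (Cfsg.quadFormMinus m F A B))) : GL (MI m) F) :
          Matrix (MI m) (MI m) F) *ᵥ a)
        ((((g : ↥(Cfsg.isometryGroup F (Cfsg.quadFormMinus m F A B))) : GL (MI m) F) :
          Matrix (MI m) (MI m) F) *ᵥ w) := by
  unfold rt
  rw [← QuotientGroup.mk_inv, ← QuotientGroup.mk_mul, ← QuotientGroup.mk_mul]
  congr 1
  apply omega_ext
  rw [T_coe]
  exact sg_conj (hQ hm) _ ((mem_isometryGroup_iff _ _).1 g.1.2) a w

/-- the frame root elements in `PΩ` -/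
noncomputable def X (hm : Hy m F A B) (a b : Fin m ⊕ Fin m) (t : F) :
    Cfsg.POmega F (Cfsg.quadFormMinus m F A B) :=
  rt hm (E a) (t • E b)

/-- the short root elements in `PΩ` -/
noncomputable def S (hm : Hy m F A B) (a : Fin m ⊕ Fin m) (z : Fin 2 → F) :
    Cfsg.POmega F (Cfsg.quadFormMinus m F A B) :=
  rt hm (E a) (wv z)

theorem X_add (hm : Hy m F A B) {a b : Fin m ⊕ Fin m} (hab' : b ≠ a.swap) (s t : F) :
    X hm a b (s + t) = X hm a b s * X hm a b t := by
  unfold X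
  rw [add_smul, rt_add hm _ _ _ (Q_E a) (frame_perp hab' s) (frame_perp hab' t)]

theorem X_zero (hm : Hy m F A B) (a b : Fin m ⊕ Fin m) : X hm a b (0 : F) = 1 := by
  unfold X
  rw [zero_smul]
  exact rt_eq_one hm (sg_zero_right (hQ hm) _)

theorem X_neg (hm : Hy m F A B) {a b : Fin m ⊕ Fin m} (hab' : b ≠ a.swap) (t : F) :
    X hm a b (-t) = (X hm a b t)⁻¹ := by
  apply eq_inv_of_mul_eq_one_left
  rw [← X_add hm hab', neg_add_cancel, X_zero]

theorem X_symm (hm : Hy m F A B) {a b : Fin m ⊕ Fin m} (hab' : b ≠ a.swap) (t : F) :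
    X hm a b t = X hm b a (-t) := by
  unfold X rt
  congr 1
  apply omega_ext
  rw [T_coe, T_coe]
  exact frame_symm hm hab' t

/-- the commutator relation in `PΩ` -/
theorem X_rel (hm : Hy m F A B) {a b d : Fin m ⊕ Fin m} (hba : b ≠ a) (hba' : b ≠ a.swap)
    (hda : d ≠ a) (hda' : d ≠ a.swap) (hdb : d ≠ b) (hdb' : d ≠ b.swap) (s t : F) :
    X hm a b s * X hm a.swap d t * (X hm a b s)⁻¹ = X hm a.swap d t * X hm b d (s * t) := by
  unfold X rt
  rw [← QuotientGroup.mk_inv, ← QuotientGroup.mk_mul, ← QuotientGroup.mk_mul,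
    ← QuotientGroup.mk_mul]
  congr 1
  apply omega_ext
  exact frame_rel hm hba hba' hda hda' hdb hdb' s t

theorem X_eq_one (hm : Hy m F A B) {b d : Fin m ⊕ Fin m} (hdb : d ≠ b) (hdb' : d ≠ b.swap)
    {u : F} (h : X hm b d u = 1) : u = 0 := by
  obtain ⟨c, hcb, hcb', hcd, hcd'⟩ := exists_other hm.hm b d
  unfold X rt at h
  rw [QuotientGroup.eq_one_iff] at h
  have h1 := Subgroup.mem_center_iff.1 h (T hm (E b.swap) ((1 : F) • E c))
  have h2 : sg (hQ hm) (E b.swap) ((1 : F) • E c) * sg (hQ hm) (E b) (u • E d) =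
      sg (hQ hm) (E b) (u • E d) * sg (hQ hm) (E b.swap) ((1 : F) • E c) := by
    have := congrArg (fun s : ↥(Cfsg.Omega F (Cfsg.quadFormMinus m F A B)) =>
      ((s : ↥(Cfsg.isometryGroup F (Cfsg.quadFormMinus m F A B))) : GL (MI m) F)) h1
    exact this
  have h3 := frame_rel hm (a := b) (b := d) (d := c) hdb hdb' hcb hcb' hcd hcd' u 1
  rw [← h2, mul_inv_cancel_right] at h3
  have h4 : sg (hQ hm) (E d) ((u * 1) • E c) = 1 := by
    have := h3.symm
    rwa [mul_eq_left] at this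
  rw [mul_one] at h4
  exact frame_eq_one hm hcd hcd' h4

theorem X_inj (hm : Hy m F A B) {b d : Fin m ⊕ Fin m} (hdb : d ≠ b) (hdb' : d ≠ b.swap)
    {s t : F} (h : X hm b d s = X hm b d t) : s = t := by
  have h1 : X hm b d (s - t) = 1 := by
    rw [sub_eq_add_neg, X_add hm hdb', X_neg hm hdb', h, mul_inv_cancel]
  exact sub_eq_zero.1 (X_eq_one hm hdb hdb' h1)

theorem S_add (hm : Hy m F A B) (a : Fin m ⊕ Fin m) (z u : Fin 2 → F) :
    S hm a (z + u) = S hm a z * S hm a u := by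
  unfold S
  rw [wv_add, rt_add hm _ _ _ (Q_E a) (wv_perp a z) (wv_perp a u)]

theorem S_zero (hm : Hy m F A B) (a : Fin m ⊕ Fin m) : S hm a (0 : Fin 2 → F) = 1 := by
  unfold S
  rw [wv_zero]
  exact rt_eq_one hm (sg_zero_right (hQ hm) _)

theorem S_neg (hm : Hy m F A B) (a : Fin m ⊕ Fin m) (z : Fin 2 → F) :
    S hm a (-z) = (S hm a z)⁻¹ := by
  apply eq_inv_of_mul_eq_one_left
  rw [← S_add hm, neg_add_cancel, S_zero]

/-- the commutator relation for short root elements in `PΩ` -/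
theorem S_rel (hm : Hy m F A B) {a b : Fin m ⊕ Fin m} (hba : b ≠ a) (hba' : b ≠ a.swap)
    (z u : Fin 2 → F) :
    S hm a z * S hm b u * (S hm a z)⁻¹ = S hm b u * X hm b a (-(Bw A B z u)) := by
  unfold X S rt
  rw [← QuotientGroup.mk_inv, ← QuotientGroup.mk_mul, ← QuotientGroup.mk_mul,
    ← QuotientGroup.mk_mul]
  congr 1
  apply omega_ext
  exact short_rel hm hba hba' z u

/-- the relation between long and short root elements in `PΩ` -/
theorem S_rel2 (hm : Hy m F A B) {a b : Fin m ⊕ Fin m} (hba : b ≠ a) (hba' : b ≠ a.swap)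
    (t : F) (z : Fin 2 → F) :
    X hm a.swap b t * S hm a z * (X hm a.swap b t)⁻¹ =
      X hm b a (t * N A B z) * (S hm a z * S hm b (t • z)) := by
  unfold X S rt
  rw [← QuotientGroup.mk_inv, ← QuotientGroup.mk_mul, ← QuotientGroup.mk_mul,
    ← QuotientGroup.mk_mul, ← QuotientGroup.mk_mul]
  congr 1
  apply omega_ext
  exact short_rel2 hm hba hba' t z

theorem S_eq_one (hm : Hy m F A B) (a : Fin m ⊕ Fin m) {z : Fin 2 → F} (h : S hm a z = 1) :
    z = 0 := by
  obtain ⟨b, hba, hba', -, -⟩ := exists_other hm.hm a a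
  unfold S rt at h
  rw [QuotientGroup.eq_one_iff] at h
  apply Bw_nondeg hm
  intro u
  have h1 := Subgroup.mem_center_iff.1 h (T hm (E b) (wv u))
  have h2 : sg (hQ hm) (E b) (wv u) * sg (hQ hm) (E a) (wv z) =
      sg (hQ hm) (E a) (wv z) * sg (hQ hm) (E b) (wv u) := by
    have := congrArg (fun s : ↥(Cfsg.Omega F (Cfsg.quadFormMinus m F A B)) =>
      ((s : ↥(Cfsg.isometryGroup F (Cfsg.quadFormMinus m F A B))) : GL (MI m) F)) h1
    exact this
  have h3 := short_rel hm hba hba' z u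
  rw [← h2, mul_inv_cancel_right] at h3
  have h4 : sg (hQ hm) (E b) ((-(Bw A B z u)) • E a) = 1 := by
    have := h3.symm
    rwa [mul_eq_left] at this
  have hab' : a ≠ b.swap := fun h => hba' (by rw [h, Sum.swap_swap])
  have h5 := frame_eq_one hm (Ne.symm hba) hab' h4
  exact neg_eq_zero.1 h5

theorem S_inj (hm : Hy m F A B) (a : Fin m ⊕ Fin m) {z u : Fin 2 → F}
    (h : S hm a z = S hm a u) : z = u := by
  have h1 : S hm a (z - u) = 1 := by
    rw [sub_eq_add_neg, S_add hm, S_neg hm, h, mul_inv_cancel]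
  exact sub_eq_zero.1 (S_eq_one hm a h1)

end Proj

end Cfsg.Agent.Lib.Helper43.MiRoot
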