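import Mathlib
import Cfsg.Agent.Lib.Helper37.HypStmt2
import Cfsg.Agent.Lib.Helper44.OTyp3
import Cfsg.Agent.Lib.Helper44.NegPairs

set_option autoImplicit false

/-! S5992 pieces BFE / BFO: common core (block finding for an isometry of odd prime order). -/

namespace Cfsg.Agent.Lib.Helper43.HypBFCore

open Module QuadraticMap Polynomial UniqueFactorizationMonoid
open Cfsg.Agent.Lib.Helper44.QSpace Cfsg.Agent.Lib.Helper44.OTyp2
open Cfsg.Agent.Lib.Helper40.RecipPoly Cfsg.Agent.Lib.Helper44.NegPairs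
open Cfsg.Agent.Lib.Helper37.HypStmt Cfsg.Agent.Lib.Helper37.HypStmt2

universe u

section poly
variable {F : Type*} [Field F] {V : Type*} [AddCommGroup V] [Module F V]

theorem pow_mem (φ : Module.End F V) (Y : Submodule F V) (hY : ∀ y ∈ Y, φ y ∈ Y) (n : ℕ)
    (y : V) (hy : y ∈ Y) : (φ ^ n) y ∈ Y := by
  induction n with
  | zero =>
    rw [pow_zero, Module.End.one_apply]
    exact hy
  | succ n ih =>
    rw [pow_succ', Module.End.mul_apply]
    exact hY _ ih

theorem aeval_mem (φ : Module.End F V) (Y : Submodule F V) (hY : ∀ y ∈ Y, φ y ∈ Y) (g : F[X])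
    (y : V) (hy : y ∈ Y) : aeval φ g y ∈ Y := by
  induction g using Polynomial.induction_on' with
  | add a b ha hb =>
    rw [map_add, LinearMap.add_apply]
    exact Y.add_mem ha hb
  | monomial n a =>
    rw [aeval_monomial, Module.End.mul_apply, Module.algebraMap_end_apply]
    exact Y.smul_mem _ (pow_mem φ Y hY n y hy)

theorem aeval_comm (φ : Module.End F V) (f g : F[X]) (v : V) :
    aeval φ f (aeval φ g v) = aeval φ g (aeval φ f v) := by
  rw [← Module.End.mul_apply, ← Module.End.mul_apply, ← map_mul, ← map_mul, mul_comm]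

theorem aeval_X_apply (φ : Module.End F V) (f : F[X]) (v : V) :
    aeval φ f (φ v) = φ (aeval φ f v) := by
  have h := aeval_comm φ f X v
  rw [aeval_X] at h
  exact h

theorem aeval_pow_apply (φ : Module.End F V) (f : F[X]) (n : ℕ) (v : V) :
    aeval φ f ((φ ^ n) v) = (φ ^ n) (aeval φ f v) := by
  have h := aeval_comm φ f (X ^ n) v
  rw [map_pow, aeval_X] at h
  exact h

theorem exists_ker_of_prod (φ : Module.End F V) (Y : Submodule F V) (hY : ∀ y ∈ Y, φ y ∈ Y)
    (s : Multiset F[X]) : ∀ u ∈ Y, u ≠ 0 → aeval φ s.prod u = 0 →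
      ∃ P ∈ s, ∃ u' ∈ Y, u' ≠ 0 ∧ aeval φ P u' = 0 := by
  induction s using Multiset.induction_on with
  | empty =>
    intro u _ hu0 h
    rw [Multiset.prod_zero, map_one, Module.End.one_apply] at h
    exact absurd h hu0
  | cons P s ih =>
    intro u hu hu0 h
    rw [Multiset.prod_cons, map_mul, Module.End.mul_apply] at h
    by_cases h0 : aeval φ s.prod u = 0
    · obtain ⟨P', hP', u', hu', hu'0, h'⟩ := ih u hu hu0 h0
      exact ⟨P', Multiset.mem_cons_of_mem hP', u', hu', hu'0, h'⟩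
    · exact ⟨P, Multiset.mem_cons_self P s, _, aeval_mem φ Y hY _ u hu, h0, h⟩

/-- the cyclic subspace spanned by `v, φ v, …, φ^(n-1) v` -/
def cyc (φ : Module.End F V) (n : ℕ) (v : V) : Submodule F V :=
  Submodule.span F (Set.range fun a : Fin n => (φ ^ (a : ℕ)) v)

theorem finrank_cyc_le (φ : Module.End F V) (n : ℕ) (v : V) : finrank F (cyc φ n v) ≤ n := by
  have h := finrank_range_le_card (R := F) (fun a : Fin n => (φ ^ (a : ℕ)) v)
  rw [Fintype.card_fin] at h
  exact h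

theorem mem_cyc_self (φ : Module.End F V) (n : ℕ) (hn : 0 < n) (v : V) : v ∈ cyc φ n v := by
  apply Submodule.subset_span
  refine ⟨⟨0, hn⟩, ?_⟩
  show (φ ^ 0) v = v
  rw [pow_zero, Module.End.one_apply]

theorem cyc_le (φ : Module.End F V) (Y : Submodule F V) (hY : ∀ y ∈ Y, φ y ∈ Y) (n : ℕ) (v : V)
    (hv : v ∈ Y) : cyc φ n v ≤ Y := by
  apply Submodule.span_le.mpr
  rintro _ ⟨a, rfl⟩
  exact pow_mem φ Y hY _ v hv

theorem cyc_inv (φ : Module.End F V) (P : F[X]) (hPm : P.Monic) (v : V)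
    (hv : aeval φ P v = 0) :
    ∀ w ∈ cyc φ P.natDegree v, φ w ∈ cyc φ P.natDegree v := by
  have hn : (φ ^ P.natDegree) v ∈ cyc φ P.natDegree v := by
    have h2 : aeval φ P v = (φ ^ P.natDegree) v
        + ∑ j ∈ Finset.range P.natDegree, P.coeff j • (φ ^ j) v := by
      conv_lhs => rw [hPm.as_sum]
      rw [map_add, map_pow, aeval_X, LinearMap.add_apply, map_sum, LinearMap.sum_apply]
      congr 1
      apply Finset.sum_congr rfl
      intro j _
      rw [map_mul, aeval_C, map_pow, aeval_X, Module.End.mul_apply, Module.algebraMap_end_apply]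
    rw [hv] at h2
    have h3 : (φ ^ P.natDegree) v
        = - ∑ j ∈ Finset.range P.natDegree, P.coeff j • (φ ^ j) v :=
      eq_neg_of_add_eq_zero_left h2.symm
    rw [h3]
    apply Submodule.neg_mem
    apply Submodule.sum_mem
    intro j hj
    apply Submodule.smul_mem
    apply Submodule.subset_span
    exact ⟨⟨j, Finset.mem_range.mp hj⟩, rfl⟩
  intro w hw
  refine Submodule.span_induction ?_ ?_ ?_ ?_ hw
  · rintro _ ⟨a, rfl⟩
    show φ ((φ ^ (a : ℕ)) v) ∈ _
    rw [← Module.End.mul_apply, ← pow_succ']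
    by_cases h : (a : ℕ) + 1 < P.natDegree
    · exact Submodule.subset_span ⟨⟨(a : ℕ) + 1, h⟩, rfl⟩
    · have h4 : (a : ℕ) + 1 = P.natDegree := by
        have := a.2
        omega
      rw [h4]
      exact hn
  · rw [map_zero]
    exact Submodule.zero_mem _
  · intro x y _ _ hx hy
    rw [map_add]
    exact Submodule.add_mem _ hx hy
  · intro c x _ hx
    rw [map_smul]
    exact Submodule.smul_mem _ c hx

variable (Q : QuadraticForm F V)

/-- the vectors of `A` orthogonal to `C` -/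
def lker (A C : Submodule F V) : Submodule F V where
  carrier := {a | a ∈ A ∧ ∀ c ∈ C, polar Q a c = 0}
  add_mem' := by
    rintro a b ⟨ha, ha'⟩ ⟨hb, hb'⟩
    refine ⟨A.add_mem ha hb, fun c hc => ?_⟩
    rw [polar_add_left, ha' c hc, hb' c hc, add_zero]
  zero_mem' := ⟨A.zero_mem, fun c _ => by simp [polar]⟩
  smul_mem' := by
    rintro k a ⟨ha, ha'⟩
    refine ⟨A.smul_mem k ha, fun c hc => ?_⟩
    rw [polar_smul_left, ha' c hc, smul_zero]

theorem mem_lker (A C : Submodule F V) (a : V) :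
    a ∈ lker Q A C ↔ a ∈ A ∧ ∀ c ∈ C, polar Q a c = 0 := Iff.rfl

theorem lker_eq_bot [FiniteDimensional F V] (i : ℕ) (φ φ' : Module.End F V) (h1 : φ * φ' = 1)
    (hφ : ∀ v, Q (φ v) = Q v)
    (hInv : ∀ R : Submodule F V, (∀ v ∈ R, φ v ∈ R) → (∀ v ∈ R, φ v = v → v = 0) →
      i ∣ finrank F R)
    (A C : Submodule F V) (hA : ∀ v ∈ A, φ v ∈ A) (hC' : ∀ v ∈ C, φ' v ∈ C)
    (hAfix : ∀ v ∈ A, φ v = v → v = 0) (hAi : finrank F A ≤ i)
    (a₀ c₀ : V) (ha₀ : a₀ ∈ A) (hc₀ : c₀ ∈ C) (hne : polar Q a₀ c₀ ≠ 0) :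
    ∀ a ∈ A, (∀ c ∈ C, polar Q a c = 0) → a = 0 := by
  have hLinv : ∀ v ∈ lker Q A C, φ v ∈ lker Q A C := by
    rintro v ⟨hv, hv'⟩
    refine ⟨hA v hv, fun c hc => ?_⟩
    have h3 := adj_pow Q φ φ' h1 hφ 1 v c
    rw [pow_one, pow_one] at h3
    rw [h3]
    exact hv' _ (hC' c hc)
  have hLle : lker Q A C ≤ A := fun v hv => hv.1
  have hdvd := hInv (lker Q A C) hLinv (fun v hv => hAfix v (hLle hv))
  have hlt : lker Q A C < A := by
    refine lt_of_le_of_ne hLle ?_
    intro h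
    have h3 : a₀ ∈ lker Q A C := by
      rw [h]
      exact ha₀
    exact hne (h3.2 c₀ hc₀)
  have hfl := Submodule.finrank_lt_finrank_of_lt hlt
  have h0 : finrank F (lker Q A C) = 0 := by
    rcases Nat.eq_zero_or_pos (finrank F (lker Q A C)) with h | h
    · exact h
    · have := Nat.le_of_dvd h hdvd
      omega
  have hbot : lker Q A C = ⊥ := Submodule.finrank_eq_zero.mp h0
  intro a ha hac
  have h3 : a ∈ lker Q A C := ⟨ha, hac⟩
  rw [hbot] at h3
  exact (Submodule.mem_bot F).mp h3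

theorem polar_kill (φ φ' : Module.End F V) (h1 : φ * φ' = 1) (h2 : φ' * φ = 1)
    (hφ : ∀ v, Q (φ v) = Q v) (P P' : F[X]) (c : F) (hrev : P'.reverse = C c * P) (u : V)
    (hu : aeval φ P u = 0) (z : V) : polar Q u (aeval φ P' z) = 0 := by
  have hφ' : ∀ v, Q (φ' v) = Q v := by
    intro v
    have h3 := hφ (φ' v)
    rw [← Module.End.mul_apply, h1, Module.End.one_apply] at h3
    exact h3.symm
  rw [← adj_aeval Q φ' φ h2 hφ' P' u z]
  have h3 : u = (φ ^ P'.natDegree) ((φ' ^ P'.natDegree) u) := by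
    rw [← Module.End.mul_apply, pow_cancel φ' φ h1, Module.End.one_apply]
  have hcomm : ∀ (n : ℕ) (w : V), aeval φ P ((φ' ^ n) w) = (φ' ^ n) (aeval φ P w) := by
    intro n
    induction n with
    | zero =>
      intro w
      rw [pow_zero, Module.End.one_apply, Module.End.one_apply]
    | succ n ih =>
      intro w
      rw [pow_succ', Module.End.mul_apply, Module.End.mul_apply]
      have h5 : aeval φ P (φ' ((φ' ^ n) w)) = φ' (aeval φ P ((φ' ^ n) w)) := by
        have h6 : φ' (aeval φ P ((φ' ^ n) w)) = φ' (aeval φ P (φ (φ' ((φ' ^ n) w)))) := by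
          rw [← Module.End.mul_apply φ φ', h1, Module.End.one_apply]
        rw [h6, aeval_X_apply, ← Module.End.mul_apply φ' φ, h2, Module.End.one_apply]
      rw [h5, ih]
  have h4 : aeval φ' P' u = c • aeval φ P ((φ' ^ P'.natDegree) u) := by
    conv_lhs => rw [h3]
    rw [← Module.End.mul_apply, rev_id P' φ φ' h2, hrev, map_mul, aeval_C, Module.End.mul_apply,
      Module.algebraMap_end_apply]
  rw [h4, hcomm, hu, map_zero, smul_zero]
  simp [polar]

theorem split_polar (φ φ' : Module.End F V) (h1 : φ * φ' = 1) (h2 : φ' * φ = 1)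
    (hφ : ∀ v, Q (φ v) = Q v) (r : ℕ) (hr0 : (r : F) ≠ 0) (hφr : φ ^ r = 1)
    (Y : Submodule F V) (hY : ∀ y ∈ Y, φ y ∈ Y) (P P' : F[X]) (c : F)
    (hrev : P'.reverse = C c * P) (hP'dvd : P' ∣ X ^ r - C (1 : F)) (u : V)
    (hu : aeval φ P u = 0) (y : V) (hy : y ∈ Y) :
    ∃ w ∈ Y, aeval φ P' w = 0 ∧ polar Q u y = polar Q u w := by
  obtain ⟨R, hR⟩ := hP'dvd
  have hsep : (P' * R).Separable := hR ▸ separable_X_pow_sub_C (1 : F) hr0 one_ne_zero
  obtain ⟨a, b, hab⟩ := hsep.isCoprime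
  refine ⟨aeval φ (b * R) y, aeval_mem φ Y hY _ y hy, ?_, ?_⟩
  · rw [← Module.End.mul_apply, ← map_mul]
    have h3 : P' * (b * R) = b * (X ^ r - C 1) := by
      rw [hR]
      ring
    rw [h3, map_mul, Module.End.mul_apply, map_sub, map_pow, aeval_X, aeval_C, map_one, hφr,
      sub_self, LinearMap.zero_apply, map_zero]
  · have h3 : aeval φ (a * P' + b * R) y = y := by rw [hab, map_one, Module.End.one_apply]
    have e1 : aeval φ (a * P') y = aeval φ P' (aeval φ a y) := by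
      rw [mul_comm, map_mul, Module.End.mul_apply]
    rw [map_add, LinearMap.add_apply, e1] at h3
    conv_lhs => rw [← h3]
    rw [polar_add_right, polar_kill Q φ φ' h1 h2 hφ P P' c hrev u hu, zero_add]

end poly

section finite
variable {F : Type*} [Field F] [Fintype F] {V : Type*} [AddCommGroup V] [Module F V]

theorem two_ne_zero_of_odd (h : Odd (Fintype.card F)) : (2 : F) ≠ 0 := by
  intro h2
  have h5 : ringChar F = 2 := by
    have h3 : ((2 : ℕ) : F) = 0 := by
      rw [Nat.cast_ofNat]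
      exact h2
    have h4 := (ringChar.spec F 2).mp h3
    have hpr := CharP.char_is_prime F (ringChar F)
    exact (Nat.prime_dvd_prime_iff_eq hpr Nat.prime_two).mp h4
  have h6 := FiniteField.even_card_of_char_two h5
  rcases h with ⟨k, hk⟩
  omega

/-- an irreducible factor of `X ^ r - 1` with a nonzero kernel vector in `Y` -/
theorem exists_P {p : ℕ} [Fact p.Prime] [CharP F p] (r : ℕ) [Fact r.Prime] (hrp : r ≠ p)
    (φ : Module.End F V) (hφr : φ ^ r = 1) (Y : Submodule F V) (hY : ∀ y ∈ Y, φ y ∈ Y)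
    (hfix : ∀ y ∈ Y, φ y = y → y = 0) (hne : Y ≠ ⊥) :
    ∃ P : F[X], Irreducible P ∧ P.Monic ∧ P ∣ X ^ r - C (1 : F) ∧ P ≠ X - C 1 ∧
      P.natDegree = orderOf ((Fintype.card F : ℕ) : ZMod r) ∧
      ∃ u ∈ Y, u ≠ 0 ∧ aeval φ P u = 0 := by
  classical
  have hr : r.Prime := Fact.out
  obtain ⟨y₀, hy₀, hy₀0⟩ := Submodule.exists_mem_ne_zero_of_ne_bot hne
  obtain ⟨g, hg⟩ : ∃ g : F[X], g = X ^ r - C (1 : F) := ⟨_, rfl⟩
  have hgm : g.Monic := by
    rw [hg]
    exact monic_X_pow_sub_C (1 : F) hr.ne_zero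
  have hprod : (normalizedFactors g).prod = g := Cfsg.Agent.S2568.prod_nf g hgm
  have hgy : aeval φ g y₀ = 0 := by
    rw [hg, map_sub, map_pow, aeval_X, aeval_C, map_one, hφr, sub_self, LinearMap.zero_apply]
  rw [← hprod] at hgy
  obtain ⟨P, hP, u, hu, hu0, hPu⟩ := exists_ker_of_prod φ Y hY _ y₀ hy₀ hy₀0 hgy
  have hPirr := irreducible_of_normalized_factor P hP
  have hPm := Cfsg.Agent.S2568.monic_of_mem_nf g P hP
  have hPdvd : P ∣ X ^ r - C (1 : F) := hg ▸ dvd_of_mem_normalizedFactors hP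
  have hP1 : P ≠ X - C 1 := by
    intro h
    apply hu0
    apply hfix u hu
    rw [h, map_sub, aeval_X, aeval_C, map_one, LinearMap.sub_apply, Module.End.one_apply,
      sub_eq_zero] at hPu
    exact hPu
  have hnd : ¬ r ∣ Fintype.card F := by
    obtain ⟨k, hk1, hk⟩ := FiniteField.card F p
    rw [hk]
    intro h
    exact hrp ((Nat.prime_dvd_prime_iff_eq hr hk1).mp (hr.dvd_of_dvd_pow h))
  have hord : orderOf ((Fintype.card F : ℕ) : ZMod r) ∣ r - 1 := by
    apply orderOf_dvd_of_pow_eq_one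
    apply ZMod.pow_card_sub_one_eq_one
    rw [Ne, ZMod.natCast_eq_zero_iff]
    exact hnd
  obtain ⟨t, ht⟩ := hord
  obtain ⟨S, -, -, hS, hdiv⟩ := Cfsg.Agent.S2568.cyclo_facts (F := F) (p := p) r _ t hr hrp
    rfl (by rw [ht, mul_comm])
  refine ⟨P, hPirr, hPm, hPdvd, hP1, ?_, u, hu, hu0, hPu⟩
  rcases (hdiv P hPirr hPm).mp hPdvd with h | h
  · exact absurd h hP1
  · exact (hS P h).2.2

/-- reciprocal data of an irreducible factor of `X ^ r - 1` -/
theorem recip_facts {p : ℕ} [Fact p.Prime] [CharP F p] (r : ℕ) [Fact r.Prime] (hr2 : r ≠ 2)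
    (P : F[X]) (hPirr : Irreducible P) (hPm : P.Monic) (hPdvd : P ∣ X ^ r - C (1 : F))
    (hP1 : P ≠ X - C 1) :
    P.coeff 0 ≠ 0 ∧ P.reverse = C (P.coeff 0) * rstar (RingHom.id F) P ∧
    Irreducible (rstar (RingHom.id F) P) ∧ (rstar (RingHom.id F) P).Monic ∧
    rstar (RingHom.id F) P ∣ X ^ r - C (1 : F) ∧
    (rstar (RingHom.id F) P).natDegree = P.natDegree ∧
    (rstar (RingHom.id F) P).reverse = C ((rstar (RingHom.id F) P).coeff 0) * P ∧
    (rstar (RingHom.id F) P).coeff 0 ≠ 0 ∧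
    IsCoprime P (X - C 1) ∧ IsCoprime (rstar (RingHom.id F) P) (X - C 1) ∧
    (Even (orderOf ((Fintype.card F : ℕ) : ZMod r)) →
      0 < orderOf ((Fintype.card F : ℕ) : ZMod r) → rstar (RingHom.id F) P = P) ∧
    (Odd (orderOf ((Fintype.card F : ℕ) : ZMod r)) → IsCoprime P (rstar (RingHom.id F) P)) := by
  classical
  have hr : r.Prime := Fact.out
  have hid2 : ∀ x : F, (RingHom.id F) ((RingHom.id F) x) = x := fun x => rfl
  have hXr0 : (X ^ r - C (1 : F)).coeff 0 ≠ 0 := by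
    rw [coeff_sub, coeff_X_pow, coeff_C_zero, if_neg hr.ne_zero.symm, zero_sub]
    exact neg_ne_zero.mpr one_ne_zero
  have hP0 : P.coeff 0 ≠ 0 := coeff0_of_dvd hPdvd hXr0
  obtain ⟨Ps, hPs⟩ : ∃ Ps, Ps = rstar (RingHom.id F) P := ⟨_, rfl⟩
  rw [← hPs]
  have hrev1 : P.reverse = C (P.coeff 0) * Ps := by
    rw [hPs]
    unfold rstar
    rw [Polynomial.map_id, RingHom.id_apply, ← mul_assoc, ← C_mul, mul_inv_cancel₀ hP0, C_1,
      one_mul]
  have hPs0 : Ps.coeff 0 ≠ 0 := by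
    rw [hPs, rstar_coeff_zero _ P hPm]
    exact inv_ne_zero hP0
  have hss : rstar (RingHom.id F) Ps = P := by
    rw [hPs]
    exact rstar_star _ hid2 P hPm hP0
  have hrev2 : Ps.reverse = C (Ps.coeff 0) * P := by
    conv_rhs => rw [← hss]
    unfold rstar
    rw [Polynomial.map_id, RingHom.id_apply, ← mul_assoc, ← C_mul, mul_inv_cancel₀ hPs0, C_1,
      one_mul]
  have hPsirr : Irreducible Ps := hPs ▸ rstar_irreducible (RingHom.id F) hid2 P hPirr hPm hP0
  have hPsm : Ps.Monic := hPs ▸ rstar_monic (RingHom.id F) P hP0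
  have hPsdvd : Ps ∣ X ^ r - C (1 : F) := by
    obtain ⟨R, hR⟩ := hPdvd
    have h3 := rstar_X_pow_sub_one (F := F) (RingHom.id F) r hr.pos
    rw [hR, rstar_mul, ← hPs] at h3
    exact ⟨rstar (RingHom.id F) R, by rw [hR]; exact h3.symm⟩
  have hPsdeg : Ps.natDegree = P.natDegree := hPs ▸ rstar_natDegree (RingHom.id F) P hP0
  have hPs1 : Ps ≠ X - C 1 := by
    intro h
    apply hP1
    rw [← hss, h]
    exact rstar_X_sub_one (RingHom.id F)
  have hcopL : ∀ A : F[X], Irreducible A → A.Monic → A ≠ X - C 1 → IsCoprime A (X - C 1) := by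
    intro A hA hAm hA1
    rw [hA.coprime_iff_not_dvd]
    intro hdvd
    exact hA1 (eq_of_monic_of_associated hAm (monic_X_sub_C 1)
      (hA.associated_of_dvd (irreducible_X_sub_C 1) hdvd))
  have hcrit : rstar (RingHom.id F) P = P ↔ ∃ k : ℕ, r ∣ Fintype.card F ^ k + 1 :=
    rstar_eq_iff (p := p) (RingHom.id F) 1 0 (by rw [pow_zero]) (fun x => by simp) hid2 r hr
      P hPirr hPm hP1 hPdvd
  rw [← hPs] at hcrit
  have h2ne : (2 : ZMod r) ≠ 0 := by
    intro h
    have h7 : ((2 : ℕ) : ZMod r) = 0 := by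
      rw [Nat.cast_ofNat]
      exact h
    have h8 := (ZMod.natCast_eq_zero_iff _ _).mp h7
    exact hr2 ((Nat.prime_dvd_prime_iff_eq hr Nat.prime_two).mp h8)
  obtain ⟨Xq, hXq⟩ : ∃ Xq : ZMod r, Xq = ((Fintype.card F : ℕ) : ZMod r) := ⟨_, rfl⟩
  rw [← hXq]
  refine ⟨hP0, hrev1, hPsirr, hPsm, hPsdvd, hPsdeg, hrev2, hPs0, hcopL P hPirr hPm hP1,
    hcopL Ps hPsirr hPsm hPs1, ?_, ?_⟩
  · rintro ⟨j, hj⟩ hipos
    rw [hcrit]
    refine ⟨j, ?_⟩
    have h1 : (Xq ^ j) ^ 2 = 1 := by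
      rw [← pow_mul, mul_comm, two_mul, ← hj, pow_orderOf_eq_one]
    have h2 : Xq ^ j ≠ 1 := by
      apply pow_ne_one_of_lt_orderOf
      · omega
      · omega
    have h4 : (Xq ^ j - 1) * (Xq ^ j + 1) = 0 := by linear_combination h1
    have h5 : Xq ^ j + 1 = 0 := by
      rcases mul_eq_zero.mp h4 with h | h
      · exact absurd (sub_eq_zero.mp h) h2
      · exact h
    rw [← ZMod.natCast_eq_zero_iff, Nat.cast_add, Nat.cast_pow, Nat.cast_one, ← hXq]
    exact h5
  · intro hodd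
    rw [hPirr.coprime_iff_not_dvd]
    intro hdvd
    have heq : Ps = P := (eq_of_monic_of_associated hPm hPsm
      (hPirr.associated_of_dvd hPsirr hdvd)).symm
    obtain ⟨k, hk⟩ := hcrit.mp heq
    have hk' : Xq ^ k = -1 := by
      rw [← ZMod.natCast_eq_zero_iff, Nat.cast_add, Nat.cast_pow, Nat.cast_one, ← hXq] at hk
      exact eq_neg_of_add_eq_zero_left hk
    have h3 : orderOf Xq ∣ 2 * k := by
      apply orderOf_dvd_of_pow_eq_one
      rw [mul_comm, pow_mul, hk', neg_one_sq]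
    have h4 : orderOf Xq ∣ k := Nat.Coprime.dvd_of_dvd_mul_left
      (Nat.Coprime.symm (Nat.coprime_two_left.mpr hodd)) h3
    have h5 := orderOf_dvd_iff_pow_eq_one.mp h4
    rw [hk'] at h5
    apply h2ne
    linear_combination -h5

end finite

section concrete

open scoped Matrix

theorem setup {F : Type u} [Field F] [Fintype F] (p : ℕ) [Fact p.Prime] [CharP F p] (d r : ℕ)
    [Fact r.Prime] (hrp : r ≠ p) (hInvDim : InvDim.{u}) (x : Matrix.GeneralLinearGroup (I d) F)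
    (hx : x ∈ Cfsg.isometryGroup F (Cfsg.quadFormOdd d F)) (hxr : x ^ r = 1) :
    ∃ φ φ' : Module.End F (I d → F), φ * φ' = 1 ∧ φ' * φ = 1 ∧ φ ^ r = 1 ∧
      (∀ v, φ v = (x : Matrix (I d) (I d) F) *ᵥ v) ∧ (∀ v, oddQ d F (φ v) = oddQ d F v) ∧
      (∀ R : Submodule F (I d → F), (∀ v ∈ R, φ v ∈ R) → (∀ v ∈ R, φ v = v → v = 0) →
        orderOf ((Fintype.card F : ℕ) : ZMod r) ∣ finrank F R) := by
  refine ⟨Matrix.toLinAlgEquiv' (x : Matrix (I d) (I d) F),
    Matrix.toLinAlgEquiv' ((x⁻¹ : Matrix.GeneralLinearGroup (I d) F) : Matrix (I d) (I d) F),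
    ?_, ?_, ?_, ?_, ?_, ?_⟩
  · rw [← map_mul, ← Units.val_mul, mul_inv_cancel, Units.val_one, map_one]
  · rw [← map_mul, ← Units.val_mul, inv_mul_cancel, Units.val_one, map_one]
  · rw [← map_pow, ← Units.val_pow_eq_pow_val, hxr, Units.val_one, map_one]
  · intro v
    rw [Matrix.toLinAlgEquiv'_apply]
  · intro v
    rw [Matrix.toLinAlgEquiv'_apply]
    exact hx v v
  · intro R hR hfix
    apply hInvDim F p d r hrp x hxr R
    · apply Submodule.map_le_iff_le_comap.mpr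
      intro v hv
      rw [Submodule.mem_comap, Matrix.toLin'_apply, ← Matrix.toLinAlgEquiv'_apply]
      exact hR v hv
    · rw [Submodule.eq_bot_iff]
      rintro v ⟨hv, hv'⟩
      apply hfix v hv
      rw [Matrix.toLinAlgEquiv'_apply]
      exact (mem_Fx _ v).mp hv'

/-- translation of the hypotheses on `Y` -/
theorem transl {F : Type u} [Field F] (d : ℕ) (x : Matrix (I d) (I d) F)
    (φ : Module.End F (I d → F)) (hφa : ∀ v, φ v = x *ᵥ v) (Y : Submodule F (I d → F))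
    (hYs : Stab x Y) (hYnd : NDeg d F Y) (hYfix : Y ⊓ Fx x = ⊥) :
    (∀ y ∈ Y, φ y ∈ Y) ∧ (∀ y ∈ Y, φ y = y → y = 0) ∧
    (∀ u ∈ Y, u ≠ 0 → ∃ y ∈ Y, polar (oddQ d F) u y ≠ 0) := by
  refine ⟨?_, ?_, ?_⟩
  · intro y hy
    rw [hφa, ← Matrix.toLin'_apply]
    exact hYs (Submodule.mem_map_of_mem hy)
  · intro y hy hfix
    have h3 : y ∈ Y ⊓ Fx x := ⟨hy, (mem_Fx x y).mpr (by rw [← hφa]; exact hfix)⟩
    rw [hYfix] at h3
    exact (Submodule.mem_bot F).mp h3
  · intro u hu hu0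
    exact (hYnd u hu hu0).2

/-- translation of the conclusion -/
theorem transl_back {F : Type u} [Field F] (d : ℕ) (x : Matrix (I d) (I d) F)
    (φ : Module.End F (I d → F)) (hφa : ∀ v, φ v = x *ᵥ v) (B : Submodule F (I d → F))
    (hB : ∀ v ∈ B, φ v ∈ B)
    (hrad : ∀ b ∈ B, (∀ z ∈ B, polar (oddQ d F) b z = 0) → b = 0) :
    Stab x B ∧ NDeg d F B := by
  constructor
  · apply Submodule.map_le_iff_le_comap.mpr
    intro v hv
    rw [Submodule.mem_comap, Matrix.toLin'_apply, ← hφa]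
    exact hB v hv
  · intro w hw hw0
    have h3 : ∃ z ∈ B, polar (oddQ d F) w z ≠ 0 := by
      by_contra hcon
      push_neg at hcon
      exact hw0 (hrad w hw hcon)
    obtain ⟨z, hz, hwz⟩ := h3
    refine ⟨⟨z, hz, ?_⟩, ⟨z, hz, hwz⟩⟩
    rw [polar_comm]
    exact hwz

end concrete

end Cfsg.Agent.Lib.Helper43.HypBFCore
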