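import Mathlib
import Cfsg.Agent.Lib.Helper43.HypBFCore

set_option autoImplicit false

/-! S5992 piece BFO: block finding, `i` odd. -/

namespace Cfsg.Agent.Lib.Helper43.HypBFO

open Module QuadraticMap Polynomial
open Cfsg.Agent.Lib.Helper44.QSpace Cfsg.Agent.Lib.Helper44.OTyp2
open Cfsg.Agent.Lib.Helper40.RecipPoly Cfsg.Agent.Lib.Helper44.NegPairs
open Cfsg.Agent.Lib.Helper37.HypStmt Cfsg.Agent.Lib.Helper37.HypStmt2
open Cfsg.Agent.Lib.Helper43.HypBFCore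

universe u

section abstract
variable {F : Type*} [Field F] [Fintype F] {V : Type*} [AddCommGroup V] [Module F V]
  [FiniteDimensional F V]

theorem bfo {p : ℕ} [Fact p.Prime] [CharP F p] (r : ℕ) [Fact r.Prime]
    (hr2 : r ≠ 2) (hrp : r ≠ p) (hodd : Odd (orderOf ((Fintype.card F : ℕ) : ZMod r)))
    (Q : QuadraticForm F V) (φ φ' : Module.End F V) (h1 : φ * φ' = 1) (h2 : φ' * φ = 1)
    (hφr : φ ^ r = 1) (hφ : ∀ v, Q (φ v) = Q v)
    (hInv : ∀ R : Submodule F V, (∀ v ∈ R, φ v ∈ R) → (∀ v ∈ R, φ v = v → v = 0) →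
      orderOf ((Fintype.card F : ℕ) : ZMod r) ∣ finrank F R)
    (Y : Submodule F V) (hY : ∀ y ∈ Y, φ y ∈ Y) (hYfix : ∀ y ∈ Y, φ y = y → y = 0)
    (hYnd : ∀ u ∈ Y, u ≠ 0 → ∃ y ∈ Y, polar Q u y ≠ 0) (hYne : Y ≠ ⊥) :
    ∃ B : Submodule F V, B ≤ Y ∧ (∀ v ∈ B, φ v ∈ B) ∧
      (∀ b ∈ B, (∀ z ∈ B, polar Q b z = 0) → b = 0) ∧
      finrank F B = 2 * orderOf ((Fintype.card F : ℕ) : ZMod r) := by
  have hr : r.Prime := Fact.out
  have hr0 : (r : F) ≠ 0 := by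
    rw [Ne, CharP.cast_eq_zero_iff F p]
    intro h
    exact hrp ((Nat.prime_dvd_prime_iff_eq Fact.out hr).mp h).symm
  obtain ⟨P, hPirr, hPm, hPdvd, hP1, hPdeg, u, huY, hu0, hPu⟩ :=
    exists_P (p := p) r hrp φ hφr Y hY hYfix hYne
  obtain ⟨i, hi⟩ : ∃ i, i = orderOf ((Fintype.card F : ℕ) : ZMod r) := ⟨_, rfl⟩
  rw [← hi] at hPdeg hInv hodd ⊢
  have hipos : 0 < i := hPdeg ▸ hPirr.natDegree_pos
  obtain ⟨hP0, hrev1, hPsirr, hPsm, hPsdvd, hPsdeg, hrev2, hPs0, hL, hLs, -, hcop'⟩ :=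
    recip_facts (p := p) r hr2 P hPirr hPm hPdvd hP1
  rw [← hi] at hcop'
  have hcop := hcop' hodd
  obtain ⟨Ps, hPs⟩ : ∃ Ps, Ps = rstar (RingHom.id F) P := ⟨_, rfl⟩
  rw [← hPs] at hrev1 hPsirr hPsm hPsdvd hPsdeg hrev2 hPs0 hLs hcop
  rw [hPdeg] at hPsdeg
  -- the two kernels are totally singular
  have hts : ∀ x, aeval φ P x = 0 → Q x = 0 := fun x hx =>
    ts_ker Q φ φ' h1 h2 hφ P Ps _ hP0 hrev1 hcop hL x hx
  have hts' : ∀ x, aeval φ Ps x = 0 → Q x = 0 := fun x hx =>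
    ts_ker Q φ φ' h1 h2 hφ Ps P _ hPs0 hrev2 hcop.symm hLs x hx
  have hpol : ∀ (A : F[X]), (∀ x, aeval φ A x = 0 → Q x = 0) → ∀ x y, aeval φ A x = 0 →
      aeval φ A y = 0 → polar Q x y = 0 := by
    intro A hA x y hx hy
    unfold polar
    rw [hA _ (by rw [map_add, hx, hy, add_zero]), hA x hx, hA y hy]
    simp
  -- the partner vector
  obtain ⟨y, hyY, hy⟩ := hYnd u huY hu0
  obtain ⟨w, hwY, hPw, hpolw⟩ := split_polar Q φ φ' h1 h2 hφ r hr0 hφr Y hY P Ps _ hrev2 hPsdvd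
    u hPu y hyY
  rw [hpolw] at hy
  have hw0 : w ≠ 0 := by
    rintro rfl
    apply hy
    simp [polar]
  have hφ'pow : φ' = φ ^ (r - 1) := by
    have h3 : φ ^ r = φ ^ (r - 1) * φ := by
      rw [← pow_succ, Nat.sub_add_cancel hr.pos]
    calc φ' = φ ^ r * φ' := by rw [hφr, one_mul]
      _ = φ ^ (r - 1) * (φ * φ') := by rw [h3, mul_assoc]
      _ = φ ^ (r - 1) := by rw [h1, mul_one]
  -- kernels intersected with `Y` are invariant
  have hKinv : ∀ A : F[X], ∀ z ∈ LinearMap.ker (aeval φ A) ⊓ Y,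
      φ z ∈ LinearMap.ker (aeval φ A) ⊓ Y := by
    intro A z hz
    have hz1 : aeval φ A z = 0 := LinearMap.mem_ker.mp hz.1
    refine ⟨LinearMap.mem_ker.mpr ?_, hY z hz.2⟩
    rw [aeval_X_apply, hz1, map_zero]
  -- generic facts on a cyclic block
  have hblock : ∀ (A : F[X]), A.Monic → A.natDegree = i → ∀ v ∈ Y, v ≠ 0 → aeval φ A v = 0 →
      ∃ U : Submodule F V, U ≤ LinearMap.ker (aeval φ A) ⊓ Y ∧ (∀ z ∈ U, φ z ∈ U) ∧
        (∀ z ∈ U, φ' z ∈ U) ∧ (∀ z ∈ U, φ z = z → z = 0) ∧ finrank F U = i ∧ v ∈ U := by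
    intro A hAm hAdeg v hvY hv0 hAv
    obtain ⟨U, hU⟩ : ∃ U, U = cyc φ A.natDegree v := ⟨_, rfl⟩
    have hUK : U ≤ LinearMap.ker (aeval φ A) ⊓ Y :=
      hU ▸ cyc_le φ _ (hKinv A) _ v ⟨LinearMap.mem_ker.mpr hAv, hvY⟩
    have hUinv : ∀ z ∈ U, φ z ∈ U := hU ▸ cyc_inv φ A hAm v hAv
    have hUinv' : ∀ z ∈ U, φ' z ∈ U := by
      intro z hz
      rw [hφ'pow]
      exact pow_mem φ U hUinv _ z hz
    have hUle : finrank F U ≤ i := by
      rw [hU, ← hAdeg]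
      exact finrank_cyc_le φ _ v
    have hvU : v ∈ U := by
      rw [hU]
      exact mem_cyc_self φ _ (hAdeg ▸ hipos) v
    have hUfix : ∀ z ∈ U, φ z = z → z = 0 := fun z hz => hYfix z (hUK hz).2
    refine ⟨U, hUK, hUinv, hUinv', hUfix, ?_, hvU⟩
    have hdvd := hInv U hUinv hUfix
    have hpos : 0 < finrank F U := by
      rcases Nat.eq_zero_or_pos (finrank F U) with h | h
      · exfalso
        have hbot : U = ⊥ := Submodule.finrank_eq_zero.mp h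
        rw [hbot] at hvU
        exact hv0 ((Submodule.mem_bot F).mp hvU)
      · exact h
    have := Nat.le_of_dvd hpos hdvd
    omega
  obtain ⟨U, hUK, hUinv, hUinv', hUfix, hUdim, huU⟩ := hblock P hPm hPdeg u huY hu0 hPu
  obtain ⟨U₂, hU₂K, hU₂inv, hU₂inv', hU₂fix, hU₂dim, hwU₂⟩ := hblock Ps hPsm hPsdeg w hwY hw0 hPw
  have hUU : ∀ a ∈ U, ∀ b ∈ U, polar Q a b = 0 := fun a ha b hb =>
    hpol P hts a b (LinearMap.mem_ker.mp (hUK ha).1) (LinearMap.mem_ker.mp (hUK hb).1)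
  have hU₂U₂ : ∀ a ∈ U₂, ∀ b ∈ U₂, polar Q a b = 0 := fun a ha b hb =>
    hpol Ps hts' a b (LinearMap.mem_ker.mp (hU₂K ha).1) (LinearMap.mem_ker.mp (hU₂K hb).1)
  have hk1 : ∀ a ∈ U, (∀ c ∈ U₂, polar Q a c = 0) → a = 0 :=
    lker_eq_bot Q i φ φ' h1 hφ hInv U U₂ hUinv hU₂inv' hUfix hUdim.le u w huU hwU₂ hy
  have hk2 : ∀ a ∈ U₂, (∀ c ∈ U, polar Q a c = 0) → a = 0 :=
    lker_eq_bot Q i φ φ' h1 hφ hInv U₂ U hU₂inv hUinv' hU₂fix hU₂dim.le w u hwU₂ huU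
      (by rw [polar_comm]; exact hy)
  refine ⟨U ⊔ U₂, sup_le (fun z hz => (hUK hz).2) (fun z hz => (hU₂K hz).2), ?_, ?_, ?_⟩
  · intro v hv
    obtain ⟨a, ha, c, hc, rfl⟩ := Submodule.mem_sup.mp hv
    rw [map_add]
    exact Submodule.add_mem _ (Submodule.mem_sup_left (hUinv a ha))
      (Submodule.mem_sup_right (hU₂inv c hc))
  · intro b hb hrad
    obtain ⟨a, ha, c, hc, rfl⟩ := Submodule.mem_sup.mp hb
    have ha0 : a = 0 := by
      apply hk1 a ha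
      intro z hz
      have h3 := hrad z (Submodule.mem_sup_right hz)
      rw [polar_add_left, hU₂U₂ c hc z hz, add_zero] at h3
      exact h3
    have hc0 : c = 0 := by
      apply hk2 c hc
      intro z hz
      have h3 := hrad z (Submodule.mem_sup_left hz)
      rw [polar_add_left, hUU a ha z hz, zero_add] at h3
      exact h3
    rw [ha0, hc0, add_zero]
  · have hinf : U ⊓ U₂ = ⊥ := by
      rw [Submodule.eq_bot_iff]
      rintro z ⟨hz1, hz2⟩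
      exact hk1 z hz1 (fun c hc => hU₂U₂ z hz2 c hc)
    have h3 := Submodule.finrank_sup_add_finrank_inf_eq U U₂
    rw [hinf, finrank_bot, hUdim, hU₂dim] at h3
    omega

end abstract

theorem main : InvDim.{u} → BlockFindO.{u} := by
  intro hInvDim F _ _ p _ _ hodd d r _ hr2 hrp hio x hx hxr Y hYs hYnd hYfix hYne
  obtain ⟨φ, φ', h1, h2, hφr, hφa, hφQ, hInv⟩ := setup p d r hrp hInvDim x hx hxr
  obtain ⟨hY, hYfix', hYnd'⟩ := transl d (x : Matrix (I d) (I d) F) φ hφa Y hYs hYnd hYfix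
  obtain ⟨B, hBY, hBinv, hBrad, hBdim⟩ := bfo (p := p) r hr2 hrp hio
    (oddQ d F) φ φ' h1 h2 hφr hφQ hInv Y hY hYfix' hYnd' hYne
  obtain ⟨hS, hN⟩ := transl_back d (x : Matrix (I d) (I d) F) φ hφa B hBinv hBrad
  exact ⟨B, hBY, hS, hN, hBdim⟩

end Cfsg.Agent.Lib.Helper43.HypBFO
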