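import Mathlib
import Cfsg.Prelude.Def_Classical
import Cfsg.Prelude.Def_GeometricClasses
import Cfsg.Agent.H41.FixFree
import Cfsg.Agent.Lib.Helper37.HypStmt
import Cfsg.Agent.Lib.Helper43.HypBFCore
import Cfsg.Agent.Lib.Helper43.HypBFO
import Cfsg.Agent.Lib.Helper44.WittND2

set_option autoImplicit false

/-! Generic (any finite field, ANY characteristic, any quadratic space / any index type) versions
of the S5992 block pieces: `bfe_all` (block finding, `i` even, no `2 ≠ 0`), `fix_nd`,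
`blocks_abs` (abstract `Blocks`), `blocks_mat` (matrix version over any index type). -/

namespace Cfsg.Agent.Lib.Helper43.GenBlocks

open Module QuadraticMap Polynomial
open Cfsg.Agent.Lib.Helper44.QSpace Cfsg.Agent.Lib.Helper44.OTyp2
open Cfsg.Agent.Lib.Helper44.WittND Cfsg.Agent.Lib.Helper44.WittND2
open Cfsg.Agent.Lib.Helper37.HypStmt
open Cfsg.Agent.Lib.Helper43.HypBFCore

universe u

section abstract
variable {F : Type*} [Field F] [Fintype F] {V : Type*} [AddCommGroup V] [Module F V]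
  [FiniteDimensional F V]

theorem isopow (Q : QuadraticForm F V) (φ : Module.End F V) (hφ : ∀ v, Q (φ v) = Q v) (n : ℕ)
    (a b : V) : polar Q ((φ ^ n) a) ((φ ^ n) b) = polar Q a b := by
  induction n generalizing a b with
  | zero => rw [pow_zero, Module.End.one_apply, Module.End.one_apply]
  | succ n ih =>
    rw [pow_succ', Module.End.mul_apply, Module.End.mul_apply]
    have h : polar Q (φ ((φ ^ n) a)) (φ ((φ ^ n) b)) = polar Q ((φ ^ n) a) ((φ ^ n) b) := by
      unfold polar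
      rw [← map_add, hφ, hφ, hφ]
    rw [h, ih]

theorem hinv_all (r : ℕ) [Fact r.Prime] (φ : Module.End F V) (hφr : φ ^ r = 1) :
    ∀ R : Submodule F V, (∀ v ∈ R, φ v ∈ R) → (∀ v ∈ R, φ v = v → v = 0) →
      orderOf ((Fintype.card F : ℕ) : ZMod r) ∣ finrank F R :=
  fun R h1 h2 => Cfsg.Agent.H41.orderOf_dvd_finrank_of_fixedPointFree r φ hφr R h1 h2

/-- the sum over an orbit is fixed -/
theorem orbit_sum_fixed (ψ : Module.End F V) (n : ℕ) (hψ : ψ ^ n = 1) (w : V) :
    ψ ((∑ a ∈ Finset.range n, ψ ^ a) w) = (∑ a ∈ Finset.range n, ψ ^ a) w := by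
  have h := mul_geom_sum ψ n
  rw [hψ, sub_self] at h
  have h3 := congrArg (fun g : Module.End F V => g w) h
  simp only [Module.End.mul_apply, LinearMap.sub_apply, Module.End.one_apply,
    LinearMap.zero_apply] at h3
  exact sub_eq_zero.mp h3

theorem polar_sum_right (Q : QuadraticForm F V) (u : V) (s : Finset ℕ) (f : ℕ → V) :
    polar Q u (∑ a ∈ s, f a) = ∑ a ∈ s, polar Q u (f a) :=
  map_sum (polarBilin Q u) f s

/-- block finding, `i` even, any characteristic -/
theorem bfe_all {p : ℕ} [Fact p.Prime] [CharP F p] (r : ℕ) [Fact r.Prime]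
    (hr2 : r ≠ 2) (hrp : r ≠ p) (hev : Even (orderOf ((Fintype.card F : ℕ) : ZMod r)))
    (Q : QuadraticForm F V) (φ φ' : Module.End F V) (h1 : φ * φ' = 1) (h2 : φ' * φ = 1)
    (hφr : φ ^ r = 1) (hφ : ∀ v, Q (φ v) = Q v)
    (Y : Submodule F V) (hY : ∀ y ∈ Y, φ y ∈ Y) (hYfix : ∀ y ∈ Y, φ y = y → y = 0)
    (hYnd : ∀ u ∈ Y, u ≠ 0 → ∃ y ∈ Y, polar Q u y ≠ 0) (hYne : Y ≠ ⊥) :
    ∃ B : Submodule F V, B ≤ Y ∧ (∀ v ∈ B, φ v ∈ B) ∧
      (∀ b ∈ B, (∀ z ∈ B, polar Q b z = 0) → b = 0) ∧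
      finrank F B = orderOf ((Fintype.card F : ℕ) : ZMod r) := by
  have hr : r.Prime := Fact.out
  have hInv := hinv_all r φ hφr
  have hr0 : (r : F) ≠ 0 := by
    rw [Ne, CharP.cast_eq_zero_iff F p]
    intro h
    exact hrp ((Nat.prime_dvd_prime_iff_eq Fact.out hr).mp h).symm
  obtain ⟨P, hPirr, hPm, hPdvd, hP1, hPdeg, u, huY, hu0, hPu⟩ :=
    exists_P (p := p) r hrp φ hφr Y hY hYfix hYne
  obtain ⟨i, hi⟩ : ∃ i, i = orderOf ((Fintype.card F : ℕ) : ZMod r) := ⟨_, rfl⟩
  rw [← hi] at hPdeg hInv hev ⊢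
  have hipos : 0 < i := hPdeg ▸ hPirr.natDegree_pos
  obtain ⟨hP0, hrev1, -, -, -, -, -, -, -, -, hself, -⟩ :=
    recip_facts (p := p) r hr2 P hPirr hPm hPdvd hP1
  rw [← hi] at hself
  have hrs := hself hev hipos
  rw [hrs] at hrev1
  have hodd : Odd r := hr.odd_of_ne_two hr2
  have key : ∃ v ∈ Y, aeval φ P v = 0 ∧ ∃ a : ℕ, polar Q v ((φ ^ a) v) ≠ 0 := by
    by_contra hcon
    push_neg at hcon
    have hzero : ∀ w ∈ Y, aeval φ P w = 0 → polar Q u w = 0 := by
      intro w hw hPw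
      have hii : ∀ a : ℕ, polar Q u (((φ ^ 2) ^ a) w) = - polar Q u w := by
        intro a
        have hw' : (φ ^ a) w ∈ Y := pow_mem φ Y hY a w hw
        have hPw' : aeval φ P ((φ ^ a) w) = 0 := by rw [aeval_pow_apply, hPw, map_zero]
        have h3 := hcon (u + (φ ^ a) w) (Y.add_mem huY hw')
          (by rw [map_add, hPu, hPw', add_zero]) a
        have h4 := hcon u huY hPu a
        have h5 := hcon ((φ ^ a) w) hw' hPw' a
        rw [map_add, polar_add_left, polar_add_right, polar_add_right, h4, h5,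
          isopow Q φ hφ a w u, polar_comm Q w u] at h3
        have e : ((φ ^ 2) ^ a) w = (φ ^ a) ((φ ^ a) w) := by
          rw [← pow_mul, two_mul, pow_add, Module.End.mul_apply]
        rw [e]
        linear_combination h3
      obtain ⟨s, hs⟩ : ∃ s : V, s = (∑ a ∈ Finset.range r, (φ ^ 2) ^ a) w := ⟨_, rfl⟩
      have hs' : s = ∑ a ∈ Finset.range r, ((φ ^ 2) ^ a) w := by
        rw [hs, LinearMap.sum_apply]
      have hsY : s ∈ Y := by
        rw [hs']
        exact Submodule.sum_mem _ (fun a _ =>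
          pow_mem (φ ^ 2) Y (fun y hy => pow_mem φ Y hY 2 y hy) a w hw)
      have hψr : (φ ^ 2) ^ r = 1 := by rw [← pow_mul, mul_comm, pow_mul, hφr, one_pow]
      have hs2 : (φ ^ 2) s = s := by
        rw [hs]
        exact orbit_sum_fixed (φ ^ 2) r hψr w
      have hsfix : φ s = s := by
        obtain ⟨t, ht⟩ := hodd
        have h6 : ∀ n : ℕ, ((φ ^ 2) ^ n) s = s := by
          intro n
          induction n with
          | zero => rw [pow_zero, Module.End.one_apply]
          | succ n ih => rw [pow_succ, Module.End.mul_apply, hs2, ih]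
        have h7 : (φ ^ r) s = s := by rw [hφr, Module.End.one_apply]
        rw [ht, pow_succ', Module.End.mul_apply, pow_mul, h6] at h7
        exact h7
      have hs0 : s = 0 := hYfix s hsY hsfix
      have h8 : polar Q u s = ∑ a ∈ Finset.range r, polar Q u (((φ ^ 2) ^ a) w) := by
        rw [hs']
        exact polar_sum_right Q u _ _
      have h9 : polar Q u (0 : V) = 0 := by simp [polar]
      rw [hs0, Finset.sum_congr rfl (fun a _ => hii a), Finset.sum_const, Finset.card_range,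
        nsmul_eq_mul, h9] at h8
      have h10 : (r : F) * polar Q u w = 0 := by linear_combination h8
      exact (mul_eq_zero.mp h10).resolve_left hr0
    obtain ⟨y, hyY, hy⟩ := hYnd u huY hu0
    apply hy
    obtain ⟨w, hwY, hPw, hpol⟩ := split_polar Q φ φ' h1 h2 hφ r hr0 hφr Y hY P P _ hrev1 hPdvd
      u hPu y hyY
    rw [hpol]
    exact hzero w hwY hPw
  obtain ⟨v, hvY, hPv, a, hva⟩ := key
  have hv0 : v ≠ 0 := by
    rintro rfl
    apply hva
    simp [polar]
  have hφ'pow : φ' = φ ^ (r - 1) := by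
    have h3 : φ ^ r = φ ^ (r - 1) * φ := by
      rw [← pow_succ, Nat.sub_add_cancel hr.pos]
    calc φ' = φ ^ r * φ' := by rw [hφr, one_mul]
      _ = φ ^ (r - 1) * (φ * φ') := by rw [h3, mul_assoc]
      _ = φ ^ (r - 1) := by rw [h1, mul_one]
  obtain ⟨B, hB⟩ : ∃ B, B = cyc φ P.natDegree v := ⟨_, rfl⟩
  have hBY : B ≤ Y := hB ▸ cyc_le φ Y hY _ v hvY
  have hBinv : ∀ w ∈ B, φ w ∈ B := hB ▸ cyc_inv φ P hPm v hPv
  have hBinv' : ∀ w ∈ B, φ' w ∈ B := by
    intro w hw
    rw [hφ'pow]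
    exact pow_mem φ B hBinv _ w hw
  have hBle : finrank F B ≤ i := by
    rw [hB, ← hPdeg]
    exact finrank_cyc_le φ _ v
  have hvB : v ∈ B := by
    rw [hB]
    exact mem_cyc_self φ _ (hPdeg ▸ hipos) v
  have hBfix : ∀ w ∈ B, φ w = w → w = 0 := fun w hw => hYfix w (hBY hw)
  refine ⟨B, hBY, hBinv, ?_, ?_⟩
  · exact lker_eq_bot Q i φ φ' h1 hφ hInv B B hBinv hBinv' hBfix hBle v ((φ ^ a) v) hvB
      (pow_mem φ B hBinv a v hvB) hva
  · have hdvd := hInv B hBinv hBfix
    have hpos : 0 < finrank F B := by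
      rcases Nat.eq_zero_or_pos (finrank F B) with h | h
      · exfalso
        have hbot : B = ⊥ := Submodule.finrank_eq_zero.mp h
        rw [hbot] at hvB
        exact hv0 ((Submodule.mem_bot F).mp hvB)
      · exact h
    have := Nat.le_of_dvd hpos hdvd
    omega

/-- the fixed space of an isometry of order prime to the characteristic is nondegenerate -/
theorem fix_nd (r : ℕ) (hr0 : (r : F) ≠ 0) (Q : QuadraticForm F V) (hS : Sep Q)
    (φ : Module.End F V) (hφr : φ ^ r = 1) (hφ : ∀ v, Q (φ v) = Q v) (u : V) (hu : φ u = u)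
    (hrad : ∀ y, φ y = y → polar Q u y = 0) : u = 0 := by
  apply hS
  intro w
  obtain ⟨s, hs⟩ : ∃ s : V, s = (∑ a ∈ Finset.range r, φ ^ a) w := ⟨_, rfl⟩
  have hs' : s = ∑ a ∈ Finset.range r, (φ ^ a) w := by
    rw [hs, LinearMap.sum_apply]
  have hsfix : φ s = s := by
    rw [hs]
    exact orbit_sum_fixed φ r hφr w
  have hupow : ∀ a : ℕ, (φ ^ a) u = u := by
    intro a
    induction a with
    | zero => rw [pow_zero, Module.End.one_apply]
    | succ n ih => rw [pow_succ, Module.End.mul_apply, hu, ih]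
  have h8 : polar Q u s = ∑ a ∈ Finset.range r, polar Q u ((φ ^ a) w) := by
    rw [hs']
    exact polar_sum_right Q u _ _
  have h9 : ∀ a ∈ Finset.range r, polar Q u ((φ ^ a) w) = polar Q u w := by
    intro a _
    have h := isopow Q φ hφ a u w
    rw [hupow a] at h
    exact h
  rw [hrad s hsfix, Finset.sum_congr rfl h9, Finset.sum_const, Finset.card_range,
    nsmul_eq_mul] at h8
  exact (mul_eq_zero.mp h8.symm).resolve_left hr0

theorem ndsub_sup (Q : QuadraticForm F V) {A C : Submodule F V} (hA : NDsub Q A)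
    (hC : NDsub Q C) (hAC : ∀ a ∈ A, ∀ c ∈ C, polar Q a c = 0) : NDsub Q (A ⊔ C) := by
  intro x hx hxy
  obtain ⟨a, ha, c, hc, rfl⟩ := Submodule.mem_sup.mp hx
  have ha0 : a = 0 := by
    apply hA a ha
    intro y hy
    have h := hxy y (Submodule.mem_sup_left hy)
    rw [polar_add_left, polar_comm Q c y, hAC y hy c hc, add_zero] at h
    exact h
  have hc0 : c = 0 := by
    apply hC c hc
    intro y hy
    have h := hxy y (Submodule.mem_sup_right hy)
    rw [polar_add_left, hAC a ha y hy, zero_add] at h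
    exact h
  rw [ha0, hc0, add_zero]

/-- abstract `Blocks`: invariant nondegenerate subspaces of dimension `j c` without fixed
vectors, orthogonal to the fixed space (any characteristic). -/
theorem blocks_abs {p : ℕ} [Fact p.Prime] [CharP F p] (r : ℕ) [Fact r.Prime]
    (hr2 : r ≠ 2) (hrp : r ≠ p) (Q : QuadraticForm F V) (hS : Sep Q)
    (φ φ' : Module.End F V) (h1 : φ * φ' = 1) (h2 : φ' * φ = 1)
    (hφr : φ ^ r = 1) (hφ : ∀ v, Q (φ v) = Q v) (Fx : Submodule F V)
    (hFx : ∀ v, v ∈ Fx ↔ φ v = v) (j : ℕ)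
    (hj : j * cc (orderOf ((Fintype.card F : ℕ) : ZMod r)) + finrank F Fx ≤ finrank F V) :
    ∃ E : Submodule F V, (∀ v ∈ E, φ v ∈ E) ∧ NDsub Q E ∧
      finrank F E = j * cc (orderOf ((Fintype.card F : ℕ) : ZMod r)) ∧
      E ⊓ Fx = ⊥ ∧ ∀ u ∈ E, ∀ v ∈ Fx, polar Q u v = 0 := by
  have hr : r.Prime := Fact.out
  have hr0 : (r : F) ≠ 0 := by
    rw [Ne, CharP.cast_eq_zero_iff F p]
    intro h
    exact hrp ((Nat.prime_dvd_prime_iff_eq Fact.out hr).mp h).symm
  obtain ⟨c, hc⟩ : ∃ c, c = cc (orderOf ((Fintype.card F : ℕ) : ZMod r)) := ⟨_, rfl⟩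
  rw [← hc] at hj ⊢
  have hφ'pow : φ' = φ ^ (r - 1) := by
    have h3 : φ ^ r = φ ^ (r - 1) * φ := by
      rw [← pow_succ, Nat.sub_add_cancel hr.pos]
    calc φ' = φ ^ r * φ' := by rw [hφr, one_mul]
      _ = φ ^ (r - 1) * (φ * φ') := by rw [h3, mul_assoc]
      _ = φ ^ (r - 1) := by rw [h1, mul_one]
  have hFN : NDsub Q Fx := by
    intro u hu hrad
    exact fix_nd r hr0 Q hS φ hφr hφ u ((hFx u).mp hu) (fun y hy => hrad y ((hFx y).mpr hy))
  have hFinv : ∀ v ∈ Fx, φ v ∈ Fx := by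
    intro v hv
    rw [(hFx v).mp hv]
    exact hv
  revert hj
  induction j with
  | zero =>
    intro _
    refine ⟨⊥, ?_, ?_, ?_, bot_inf_eq _, ?_⟩
    · intro v hv
      rw [(Submodule.mem_bot F).mp hv, map_zero]
      exact Submodule.zero_mem _
    · intro x hx _
      exact (Submodule.mem_bot F).mp hx
    · rw [zero_mul]
      exact finrank_bot F V
    · intro u hu v _
      rw [(Submodule.mem_bot F).mp hu]
      simp [polar]
  | succ j ih =>
    intro hj
    have hj' : j * c + finrank F Fx ≤ finrank F V := by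
      have : j * c ≤ (j + 1) * c := Nat.mul_le_mul_right _ (Nat.le_succ j)
      omega
    obtain ⟨E, hEinv, hEN, hEd, hEF, hEperp⟩ := ih hj'
    obtain ⟨G, hG⟩ : ∃ G, G = E ⊔ Fx := ⟨_, rfl⟩
    have hGN : NDsub Q G := hG ▸ ndsub_sup Q hEN hFN hEperp
    have hEG : E ≤ G := hG ▸ le_sup_left
    have hFG : Fx ≤ G := hG ▸ le_sup_right
    have hGinv : ∀ v ∈ G, φ v ∈ G := by
      intro v hv
      rw [hG] at hv ⊢
      obtain ⟨a, ha, b, hb, rfl⟩ := Submodule.mem_sup.mp hv
      rw [map_add]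
      exact Submodule.add_mem _ (Submodule.mem_sup_left (hEinv a ha))
        (Submodule.mem_sup_right (hFinv b hb))
    have hGinv' : ∀ v ∈ G, φ' v ∈ G := by
      intro v hv
      rw [hφ'pow]
      exact pow_mem φ G hGinv _ v hv
    obtain ⟨Y, hYdef⟩ : ∃ Y, Y = LinearMap.BilinForm.orthogonal (polarBilin Q) G := ⟨_, rfl⟩
    have hYmem : ∀ y, y ∈ Y ↔ ∀ g ∈ G, polar Q g y = 0 := by
      intro y
      rw [hYdef]
      exact Iff.rfl
    have hGY : G ⊓ Y = ⊥ := by
      rw [Submodule.eq_bot_iff]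
      rintro v ⟨hv1, hv2⟩
      apply hGN v hv1
      intro y hy
      rw [polar_comm]
      exact (hYmem v).mp hv2 y hy
    have hYN : NDsub Q Y := by
      rw [hYdef]
      apply ndsub_orth hS
      rw [← hYdef]
      exact hGY
    have hYdim : finrank F Y = finrank F V - finrank F G := by
      rw [hYdef]
      exact LinearMap.BilinForm.finrank_orthogonal (nondegenerate_of_sep hS) G
    have hYinv : ∀ y ∈ Y, φ y ∈ Y := by
      intro y hy
      rw [hYmem] at hy ⊢
      intro g hg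
      have h3 := isopow Q φ hφ 1 (φ' g) y
      rw [pow_one, ← Module.End.mul_apply φ φ', h1, Module.End.one_apply] at h3
      rw [h3]
      exact hy _ (hGinv' g hg)
    have hYfix : ∀ y ∈ Y, φ y = y → y = 0 := by
      intro y hy hfix
      have h3 : y ∈ G ⊓ Y := ⟨hFG ((hFx y).mpr hfix), hy⟩
      rw [hGY] at h3
      exact (Submodule.mem_bot F).mp h3
    have hGd : finrank F G = j * c + finrank F Fx := by
      have h := Submodule.finrank_sup_add_finrank_inf_eq E Fx
      rw [hEF, finrank_bot, add_zero, hEd, ← hG] at h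
      exact h
    have hGle : finrank F G ≤ finrank F V := Submodule.finrank_le G
    by_cases hY : Y = ⊥
    · have hY0 : finrank F Y = 0 := by
        rw [hY]
        exact finrank_bot F V
      have hc0 : c = 0 := by
        have : (j + 1) * c = j * c + c := by ring
        omega
      refine ⟨E, hEinv, hEN, ?_, hEF, hEperp⟩
      rw [hEd, hc0, mul_zero, mul_zero]
    · have hYnd' : ∀ u ∈ Y, u ≠ 0 → ∃ y ∈ Y, polar Q u y ≠ 0 := by
        intro u hu hu0
        by_contra hcon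
        push_neg at hcon
        exact hu0 (hYN u hu hcon)
      obtain ⟨B, hBY, hBinv, hBN, hBd⟩ : ∃ B : Submodule F V, B ≤ Y ∧ (∀ v ∈ B, φ v ∈ B) ∧
          NDsub Q B ∧ finrank F B = c := by
        rcases Nat.even_or_odd (orderOf ((Fintype.card F : ℕ) : ZMod r)) with hev | hod
        · obtain ⟨B, h3, h4, h5, h6⟩ := bfe_all (p := p) r hr2 hrp hev Q φ φ' h1 h2 hφr hφ Y
            hYinv hYfix hYnd' hY
          refine ⟨B, h3, h4, h5, ?_⟩
          rw [h6, hc]
          unfold cc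
          rw [if_pos hev]
        · obtain ⟨B, h3, h4, h5, h6⟩ := Cfsg.Agent.Lib.Helper43.HypBFO.bfo (p := p) r hr2 hrp hod
            Q φ φ' h1 h2 hφr hφ (hinv_all r φ hφr) Y hYinv hYfix hYnd' hY
          refine ⟨B, h3, h4, h5, ?_⟩
          rw [h6, hc]
          unfold cc
          rw [if_neg (Nat.not_even_iff_odd.mpr hod)]
      have hEB : ∀ a ∈ E, ∀ b ∈ B, polar Q a b = 0 :=
        fun a ha b hb => (hYmem b).mp (hBY hb) a (hEG ha)
      have hBF : B ⊓ Fx = ⊥ := by
        rw [Submodule.eq_bot_iff]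
        rintro v ⟨hv1, hv2⟩
        exact hYfix v (hBY hv1) ((hFx v).mp hv2)
      have hEBbot : E ⊓ B = ⊥ := by
        apply le_bot_iff.mp
        rw [← hGY]
        exact inf_le_inf hEG hBY
      refine ⟨E ⊔ B, ?_, ndsub_sup Q hEN hBN hEB, ?_, ?_, ?_⟩
      · intro v hv
        obtain ⟨a, ha, b, hb, rfl⟩ := Submodule.mem_sup.mp hv
        rw [map_add]
        exact Submodule.add_mem _ (Submodule.mem_sup_left (hEinv a ha))
          (Submodule.mem_sup_right (hBinv b hb))
      · have h := Submodule.finrank_sup_add_finrank_inf_eq E B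
        rw [hEBbot, finrank_bot, add_zero, hEd, hBd] at h
        rw [h]
        ring
      · rw [Submodule.eq_bot_iff]
        rintro v ⟨hv1, hv2⟩
        obtain ⟨e, he, b, hb, rfl⟩ := Submodule.mem_sup.mp hv1
        have hfix := (hFx _).mp hv2
        rw [map_add] at hfix
        have h3 : φ e - e = b - φ b := by
          rw [sub_eq_sub_iff_add_eq_add, hfix, add_comm]
        have h4 : φ e - e ∈ E ⊓ B :=
          ⟨E.sub_mem (hEinv e he) he, by rw [h3]; exact B.sub_mem hb (hBinv b hb)⟩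
        rw [hEBbot, Submodule.mem_bot] at h4
        have he0 : e = 0 := by
          have h5 : e ∈ E ⊓ Fx := ⟨he, (hFx e).mpr (sub_eq_zero.mp h4)⟩
          rw [hEF, Submodule.mem_bot] at h5
          exact h5
        have hb0 : b = 0 := by
          rw [h4] at h3
          have h5 : b ∈ B ⊓ Fx := ⟨hb, (hFx b).mpr (sub_eq_zero.mp h3.symm).symm⟩
          rw [hBF, Submodule.mem_bot] at h5
          exact h5
        rw [he0, hb0, add_zero]
      · intro u hu v hv
        obtain ⟨e, he, b, hb, rfl⟩ := Submodule.mem_sup.mp hu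
        rw [polar_add_left, hEperp e he v hv, zero_add, polar_comm]
        exact (hYmem b).mp (hBY hb) v (hFG hv)

end abstract

section concrete

open scoped Matrix

/-- the linear maps of a matrix of `GL` -/
theorem setup_mat {ι : Type} [Fintype ι] [DecidableEq ι] {F : Type u} [Field F]
    (Q : QuadraticForm F (ι → F)) (r : ℕ) (x : Matrix.GeneralLinearGroup ι F)
    (hx : ∀ v : ι → F, Q ((x : Matrix ι ι F) *ᵥ v) = Q v) (hxr : x ^ r = 1) :
    ∃ φ φ' : Module.End F (ι → F), φ * φ' = 1 ∧ φ' * φ = 1 ∧ φ ^ r = 1 ∧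
      (∀ v, φ v = (x : Matrix ι ι F) *ᵥ v) ∧ (∀ v, Q (φ v) = Q v) := by
  refine ⟨Matrix.toLinAlgEquiv' (x : Matrix ι ι F),
    Matrix.toLinAlgEquiv' ((x⁻¹ : Matrix.GeneralLinearGroup ι F) : Matrix ι ι F),
    ?_, ?_, ?_, ?_, ?_⟩
  · rw [← map_mul, ← Units.val_mul, mul_inv_cancel, Units.val_one, map_one]
  · rw [← map_mul, ← Units.val_mul, inv_mul_cancel, Units.val_one, map_one]
  · rw [← map_pow, ← Units.val_pow_eq_pow_val, hxr, Units.val_one, map_one]
  · intro v
    rw [Matrix.toLinAlgEquiv'_apply]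
  · intro v
    rw [Matrix.toLinAlgEquiv'_apply]
    exact hx v

theorem stab_of_inv {ι : Type} [Fintype ι] [DecidableEq ι] {F : Type u} [Field F]
    (x : Matrix ι ι F) (φ : Module.End F (ι → F)) (hφa : ∀ v, φ v = x *ᵥ v)
    (B : Submodule F (ι → F)) (hB : ∀ v ∈ B, φ v ∈ B) : B.map (Matrix.toLin' x) ≤ B := by
  apply Submodule.map_le_iff_le_comap.mpr
  intro v hv
  rw [Submodule.mem_comap, Matrix.toLin'_apply, ← hφa]
  exact hB v hv

theorem inv_of_stab {ι : Type} [Fintype ι] [DecidableEq ι] {F : Type u} [Field F]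
    (x : Matrix ι ι F) (φ : Module.End F (ι → F)) (hφa : ∀ v, φ v = x *ᵥ v)
    (B : Submodule F (ι → F)) (hB : B.map (Matrix.toLin' x) ≤ B) : ∀ v ∈ B, φ v ∈ B := by
  intro y hy
  rw [hφa, ← Matrix.toLin'_apply]
  exact hB (Submodule.mem_map_of_mem hy)

theorem ndeg_of_ndsub {ι : Type} [Fintype ι] [DecidableEq ι] {F : Type u} [Field F]
    (Q : QuadraticForm F (ι → F)) (B : Submodule F (ι → F)) (hrad : NDsub Q B) :
    Cfsg.Geo.IsNondegenerateOn (QuadraticMap.polar (⇑Q)) B := by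
  intro w hw hw0
  have h3 : ∃ z ∈ B, polar Q w z ≠ 0 := by
    by_contra hcon
    push_neg at hcon
    exact hw0 (hrad w hw hcon)
  obtain ⟨z, hz, hwz⟩ := h3
  refine ⟨⟨z, hz, ?_⟩, ⟨z, hz, hwz⟩⟩
  rw [polar_comm]
  exact hwz

theorem ndsub_of_ndeg {ι : Type} [Fintype ι] [DecidableEq ι] {F : Type u} [Field F]
    (Q : QuadraticForm F (ι → F)) (B : Submodule F (ι → F))
    (h : Cfsg.Geo.IsNondegenerateOn (QuadraticMap.polar (⇑Q)) B) : NDsub Q B := by
  intro w hw hrad
  by_contra hw0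
  obtain ⟨-, ⟨z, hz, hwz⟩⟩ := h w hw hw0
  exact hwz (hrad z hz)

/-- `Blocks` for matrices over any index type and any nondegenerate quadratic form. -/
theorem blocks_mat {ι : Type} [Fintype ι] [DecidableEq ι] {F : Type u} [Field F] [Fintype F]
    (p : ℕ) [Fact p.Prime] [CharP F p] (Q : QuadraticForm F (ι → F)) (hS : Sep Q)
    (r : ℕ) [Fact r.Prime] (hr2 : r ≠ 2) (hrp : r ≠ p)
    (x : Matrix.GeneralLinearGroup ι F)
    (hx : ∀ v : ι → F, Q ((x : Matrix ι ι F) *ᵥ v) = Q v) (hxr : x ^ r = 1) (j : ℕ)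
    (hj : j * cc (orderOf ((Fintype.card F : ℕ) : ZMod r)) +
      finrank F ↥(LinearMap.ker (Matrix.toLin' (x : Matrix ι ι F) - LinearMap.id)) ≤
        Fintype.card ι) :
    ∃ E : Submodule F (ι → F), E.map (Matrix.toLin' (x : Matrix ι ι F)) ≤ E ∧
      Cfsg.Geo.IsNondegenerateOn (QuadraticMap.polar (⇑Q)) E ∧
      finrank F ↥E = j * cc (orderOf ((Fintype.card F : ℕ) : ZMod r)) ∧
      E ⊓ LinearMap.ker (Matrix.toLin' (x : Matrix ι ι F) - LinearMap.id) = ⊥ ∧
      ∀ u ∈ E, ∀ v ∈ LinearMap.ker (Matrix.toLin' (x : Matrix ι ι F) - LinearMap.id),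
        QuadraticMap.polar (⇑Q) u v = 0 := by
  obtain ⟨φ, φ', h1, h2, hφr, hφa, hφQ⟩ := setup_mat Q r x hx hxr
  have hFx : ∀ v, v ∈ LinearMap.ker (Matrix.toLin' (x : Matrix ι ι F) - LinearMap.id) ↔
      φ v = v := by
    intro v
    rw [LinearMap.mem_ker, LinearMap.sub_apply, Matrix.toLin'_apply, LinearMap.id_apply,
      sub_eq_zero, hφa]
  have hcard : finrank F (ι → F) = Fintype.card ι := Module.finrank_fintype_fun_eq_card F
  rw [← hcard] at hj
  obtain ⟨E, hEinv, hEN, hEd, hEF, hEperp⟩ := blocks_abs (p := p) r hr2 hrp Q hS φ φ' h1 h2 hφr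
    hφQ _ hFx j hj
  exact ⟨E, stab_of_inv _ φ hφa E hEinv, ndeg_of_ndsub Q E hEN, hEd, hEF, hEperp⟩

end concrete

end Cfsg.Agent.Lib.Helper43.GenBlocks
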