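import Mathlib
import Cfsg.Agent.Lib.Helper43.HypBFCore

set_option autoImplicit false

/-! S5992 piece BFE: block finding, `i` even. -/

namespace Cfsg.Agent.Lib.Helper43.HypBFE

open Module QuadraticMap Polynomial
open Cfsg.Agent.Lib.Helper44.QSpace Cfsg.Agent.Lib.Helper44.OTyp2
open Cfsg.Agent.Lib.Helper40.RecipPoly Cfsg.Agent.Lib.Helper44.NegPairs
open Cfsg.Agent.Lib.Helper37.HypStmt Cfsg.Agent.Lib.Helper37.HypStmt2
open Cfsg.Agent.Lib.Helper43.HypBFCore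

universe u

section abstract
variable {F : Type*} [Field F] [Fintype F] {V : Type*} [AddCommGroup V] [Module F V]
  [FiniteDimensional F V]

theorem bfe {p : ℕ} [Fact p.Prime] [CharP F p] (h2F : (2 : F) ≠ 0) (r : ℕ) [Fact r.Prime]
    (hr2 : r ≠ 2) (hrp : r ≠ p) (hev : Even (orderOf ((Fintype.card F : ℕ) : ZMod r)))
    (Q : QuadraticForm F V) (φ φ' : Module.End F V) (h1 : φ * φ' = 1) (h2 : φ' * φ = 1)
    (hφr : φ ^ r = 1) (hφ : ∀ v, Q (φ v) = Q v)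
    (hInv : ∀ R : Submodule F V, (∀ v ∈ R, φ v ∈ R) → (∀ v ∈ R, φ v = v → v = 0) →
      orderOf ((Fintype.card F : ℕ) : ZMod r) ∣ finrank F R)
    (Y : Submodule F V) (hY : ∀ y ∈ Y, φ y ∈ Y) (hYfix : ∀ y ∈ Y, φ y = y → y = 0)
    (hYnd : ∀ u ∈ Y, u ≠ 0 → ∃ y ∈ Y, polar Q u y ≠ 0) (hYne : Y ≠ ⊥) :
    ∃ B : Submodule F V, B ≤ Y ∧ (∀ v ∈ B, φ v ∈ B) ∧
      (∀ b ∈ B, (∀ z ∈ B, polar Q b z = 0) → b = 0) ∧
      finrank F B = orderOf ((Fintype.card F : ℕ) : ZMod r) := by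
  have hr : r.Prime := Fact.out
  have hr0 : (r : F) ≠ 0 := by
    rw [Ne, CharP.cast_eq_zero_iff F p]
    intro h
    exact hrp ((Nat.prime_dvd_prime_iff_eq Fact.out hr).mp h).symm
  obtain ⟨P, hPirr, hPm, hPdvd, hP1, hPdeg, u, huY, hu0, hPu⟩ :=
    exists_P (p := p) r hrp φ hφr Y hY hYfix hYne
  obtain ⟨i, hi⟩ : ∃ i, i = orderOf ((Fintype.card F : ℕ) : ZMod r) := ⟨_, rfl⟩
  rw [← hi] at hPdeg hInv hev ⊢
  have hipos : 0 < i := hPdeg ▸ hPirr.natDegree_pos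
  obtain ⟨hP0, hrev1, -, -, -, -, -, -, -, -, hself, -⟩ :=
    recip_facts (p := p) r hr2 P hPirr hPm hPdvd hP1
  rw [← hi] at hself
  have hrs := hself hev hipos
  rw [hrs] at hrev1
  -- a non-singular vector killed by `P`
  have key : ∃ v ∈ Y, aeval φ P v = 0 ∧ Q v ≠ 0 := by
    by_contra hcon
    push_neg at hcon
    obtain ⟨y, hyY, hy⟩ := hYnd u huY hu0
    apply hy
    obtain ⟨w, hwY, hPw, hpol⟩ := split_polar Q φ φ' h1 h2 hφ r hr0 hφr Y hY P P _ hrev1 hPdvd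
      u hPu y hyY
    rw [hpol]
    unfold polar
    rw [hcon _ (Y.add_mem huY hwY) (by rw [map_add, hPu, hPw, add_zero]), hcon u huY hPu,
      hcon w hwY hPw]
    simp
  obtain ⟨v, hvY, hPv, hQv⟩ := key
  have hv0 : v ≠ 0 := by
    rintro rfl
    exact hQv (QuadraticMap.map_zero Q)
  have hφ'pow : φ' = φ ^ (r - 1) := by
    have h3 : φ ^ r = φ ^ (r - 1) * φ := by
      rw [← pow_succ, Nat.sub_add_cancel hr.pos]
    calc φ' = φ ^ r * φ' := by rw [hφr, one_mul]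
      _ = φ ^ (r - 1) * (φ * φ') := by rw [h3, mul_assoc]
      _ = φ ^ (r - 1) := by rw [h1, mul_one]
  obtain ⟨B, hB⟩ : ∃ B, B = cyc φ P.natDegree v := ⟨_, rfl⟩
  have hBY : B ≤ Y := hB ▸ cyc_le φ Y hY _ v hvY
  have hBinv : ∀ w ∈ B, φ w ∈ B := hB ▸ cyc_inv φ P hPm v hPv
  have hBinv' : ∀ w ∈ B, φ' w ∈ B := by
    intro w hw
    rw [hφ'pow]
    exact pow_mem φ B hBinv _ w hw
  have hBle : finrank F B ≤ i := by
    rw [hB, ← hPdeg]
    exact finrank_cyc_le φ _ v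
  have hvB : v ∈ B := by
    rw [hB]
    exact mem_cyc_self φ _ (hPdeg ▸ hipos) v
  have hBfix : ∀ w ∈ B, φ w = w → w = 0 := fun w hw => hYfix w (hBY hw)
  have hvv : polar Q v v ≠ 0 := by
    rw [polar_self']
    exact mul_ne_zero h2F hQv
  refine ⟨B, hBY, hBinv, ?_, ?_⟩
  · exact lker_eq_bot Q i φ φ' h1 hφ hInv B B hBinv hBinv' hBfix hBle v v hvB hvB hvv
  · have hdvd := hInv B hBinv hBfix
    have hpos : 0 < finrank F B := by
      rcases Nat.eq_zero_or_pos (finrank F B) with h | h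
      · exfalso
        have hbot : B = ⊥ := Submodule.finrank_eq_zero.mp h
        rw [hbot] at hvB
        exact hv0 ((Submodule.mem_bot F).mp hvB)
      · exact h
    have := Nat.le_of_dvd hpos hdvd
    omega

end abstract

theorem main : InvDim.{u} → BlockFindE.{u} := by
  intro hInvDim F _ _ p _ _ hodd d r _ hr2 hrp hev x hx hxr Y hYs hYnd hYfix hYne
  obtain ⟨φ, φ', h1, h2, hφr, hφa, hφQ, hInv⟩ := setup p d r hrp hInvDim x hx hxr
  obtain ⟨hY, hYfix', hYnd'⟩ := transl d (x : Matrix (I d) (I d) F) φ hφa Y hYs hYnd hYfix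
  obtain ⟨B, hBY, hBinv, hBrad, hBdim⟩ := bfe (p := p) (two_ne_zero_of_odd hodd) r hr2 hrp hev
    (oddQ d F) φ φ' h1 h2 hφr hφQ hInv Y hY hYfix' hYnd' hYne
  obtain ⟨hS, hN⟩ := transl_back d (x : Matrix (I d) (I d) F) φ hφa B hBinv hBrad
  exact ⟨B, hBY, hS, hN, hBdim⟩

end Cfsg.Agent.Lib.Helper43.HypBFE
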