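import Mathlib
import Cfsg.Agent.Lib.Helper45.EPStmt
import Cfsg.Agent.Lib.Helper43.GenBlocks
import Cfsg.Agent.Lib.Helper44.NegPairs

/-!
# S5988 / BLOCKSA: invariant nondegenerate blocks for the plus form, all `q`

Direct instance of the generic `Cfsg.Agent.Lib.Helper43.GenBlocks.blocks_mat`.
-/

set_option autoImplicit false

universe u

open scoped Matrix

namespace Cfsg.Agent.Lib.Helper43.EPBLOCKSA

open Cfsg.Agent.Lib.Helper45.EPStmt
open Cfsg.Agent.Lib.Helper37.HypStmt (cc)
open Cfsg.Agent.Lib.Helper94.OPStmt (P NP FxP NDegP StabP)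
open Cfsg.Agent.Lib.Helper43.GenBlocks Cfsg.Agent.Lib.Helper44.NegPairs
open Cfsg.Agent.Lib.Helper44.QSpace

theorem main : BlocksA.{u} := by
  intro F _ _ p _ _ d r _ hr2 hrp x hx hxr j hj
  have hx' : ∀ v : P d → F,
      plusQ d F ((x : Matrix (P d) (P d) F) *ᵥ v) = plusQ d F v := by
    intro v
    exact hx v v
  have hcard : Fintype.card (P d) = 2 * d := by
    unfold P
    rw [Fintype.card_sum, Fintype.card_fin]
    ring
  have hj' : j * cc (orderOf ((Fintype.card F : ℕ) : ZMod r)) +
      Module.finrank F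
        ↥(LinearMap.ker (Matrix.toLin' (x : Matrix (P d) (P d) F) - LinearMap.id)) ≤
        Fintype.card (P d) := by
    rw [hcard]
    exact hj
  exact blocks_mat p (plusQ d F) (sep_plusQ d) r hr2 hrp x hx' hxr j hj'

end Cfsg.Agent.Lib.Helper43.EPBLOCKSA
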