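import Mathlib

set_option autoImplicit false

namespace Cfsg.Agent.Lib.Helper43.Cayley

variable {R : Type*} [CommRing R]

/-- the Cayley relation `c = (1 - y)/(1 + y)`, symmetric in `c` and `y` -/
def Rel (c y : R) : Prop := c + c * y + y = 1

theorem Rel.symm {c y : R} (h : Rel c y) : Rel y c := by
  unfold Rel at *
  linear_combination h

theorem Rel.mul_eq_two {c y : R} (h : Rel c y) : (1 + c) * (1 + y) = 2 := by
  unfold Rel at h
  linear_combination h

theorem Rel.isUnit_left {c y : R} (h : Rel c y) (h2 : IsUnit (2 : R)) : IsUnit (1 + c) := by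
  have h1 := h.mul_eq_two
  rw [← h1] at h2
  exact isUnit_of_mul_isUnit_left h2

theorem Rel.isUnit_right {c y : R} (h : Rel c y) (h2 : IsUnit (2 : R)) : IsUnit (1 + y) :=
  h.symm.isUnit_left h2

theorem Rel.unique {c c' y : R} (h : Rel c y) (h' : Rel c' y) (hu : IsUnit (1 + y)) : c = c' := by
  unfold Rel at *
  have h1 : (c - c') * (1 + y) = 0 := by linear_combination h - h'
  have h2 := (hu.mul_left_eq_zero).1 h1
  exact sub_eq_zero.1 h2

/-- the Cayley transform -/
noncomputable def cay (y : R) : R := (1 - y) * Ring.inverse (1 + y)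

theorem rel_cay {y : R} (hu : IsUnit (1 + y)) : Rel (cay y) y := by
  unfold Rel cay
  have h1 : Ring.inverse (1 + y) * (1 + y) = 1 := Ring.inverse_mul_cancel _ hu
  linear_combination (1 - y) * h1

theorem neg_of_rel_of_unitary (σ : R →+* R) {c y : R} (h : Rel c y) (hc : σ c * c = 1)
    (hu : IsUnit (1 + c)) : σ y = -y := by
  have h1 : σ c + σ c * σ y + σ y = 1 := by
    have := congrArg σ h
    simpa [Rel] using this
  unfold Rel at h
  have h2 : (σ y + y) * (1 + c) = 0 := by
    linear_combination c * h1 - (1 + σ y) * hc + h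
  have h3 := (hu.mul_left_eq_zero).1 h2
  exact eq_neg_of_add_eq_zero_left h3

theorem unitary_of_rel_of_neg (σ : R →+* R) {c y : R} (h : Rel c y) (hy : σ y = -y)
    (hu1 : IsUnit (1 + y)) (hu2 : IsUnit (1 - y)) : σ c * c = 1 := by
  have h1 : σ c + σ c * σ y + σ y = 1 := by
    have := congrArg σ h
    simpa [Rel] using this
  rw [hy] at h1
  unfold Rel at h
  have h2 : (σ c * c - 1) * ((1 - y) * (1 + y)) = 0 := by
    linear_combination (c * (1 + y)) * h1 + (1 + y) * h
  have h3 := ((hu2.mul hu1).mul_left_eq_zero).1 h2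
  exact sub_eq_zero.1 h3

/-- Counting the "unitary" elements of a finite commutative ring with involution by the Cayley
transform. -/
theorem card_unitary [Finite R] (σ : R →+* R) (h2 : IsUnit (2 : R))
    (hY : ∀ y, σ y = -y → IsUnit (1 + y))
    (hK1 : ∀ x, σ x * x = 1 → IsUnit (1 + x) ∨ IsUnit (1 - x))
    (hK2 : ∀ x, σ x * x = 1 → ¬ (IsUnit (1 + x) ∧ IsUnit (1 - x))) :
    Nat.card {x : R // σ x * x = 1} = 2 * Nat.card {y : R // σ y = -y} := by
  classical
  have hYm : ∀ y, σ y = -y → IsUnit (1 - y) := by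
    intro y hy
    have h1 : σ (-y) = -(-y) := by rw [map_neg, hy]
    have h2' := hY (-y) h1
    rwa [← sub_eq_add_neg] at h2'
  have hmem : ∀ y : {y : R // σ y = -y}, σ (cay y.1) * cay y.1 = 1 := fun y =>
    unitary_of_rel_of_neg σ (rel_cay (hY y.1 y.2)) y.2 (hY y.1 y.2) (hYm y.1 y.2)
  have hmem' : ∀ y : {y : R // σ y = -y}, σ (-cay y.1) * (-cay y.1) = 1 := fun y => by
    rw [map_neg, neg_mul_neg]
    exact hmem y
  let f : Bool × {y : R // σ y = -y} → {x : R // σ x * x = 1} := fun by' =>
    if by'.1 then ⟨cay by'.2.1, hmem by'.2⟩ else ⟨-cay by'.2.1, hmem' by'.2⟩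
  have hf1 : ∀ y, (f (true, y)).1 = cay y.1 := fun y => rfl
  have hf2 : ∀ y, (f (false, y)).1 = -cay y.1 := fun y => rfl
  have hu : ∀ y : {y : R // σ y = -y}, IsUnit (1 + cay y.1) := fun y =>
    (rel_cay (hY y.1 y.2)).isUnit_left h2
  have hbij : Function.Bijective f := by
    constructor
    · rintro ⟨b, y⟩ ⟨b', y'⟩ h
      have hval := congrArg Subtype.val h
      have hb : b = b' := by
        cases b <;> cases b'
        · rfl
        · exfalso
          rw [hf1, hf2] at hval
          apply hK2 (cay y'.1) (hmem y')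
          refine ⟨hu y', ?_⟩
          rw [← hval, sub_neg_eq_add]
          exact hu y
        · exfalso
          rw [hf1, hf2] at hval
          apply hK2 (cay y.1) (hmem y)
          refine ⟨hu y, ?_⟩
          rw [hval, sub_neg_eq_add]
          exact hu y'
        · rfl
      subst hb
      have hc : cay y.1 = cay y'.1 := by
        cases b
        · rw [hf2, hf2] at hval
          exact neg_injective hval
        · rw [hf1, hf1] at hval
          exact hval
      have h1 : Rel y.1 (cay y.1) := (rel_cay (hY y.1 y.2)).symm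
      have h2' : Rel y'.1 (cay y.1) := by
        rw [hc]
        exact (rel_cay (hY y'.1 y'.2)).symm
      have h3 : y.1 = y'.1 := h1.unique h2' (hu y)
      rw [Subtype.ext h3]
    · rintro ⟨x, hx⟩
      have key : ∀ x : R, σ x * x = 1 → IsUnit (1 + x) →
          ∃ y : {y : R // σ y = -y}, cay y.1 = x := by
        intro x hx hux
        have hr : Rel (cay x) x := rel_cay hux
        have hy : σ (cay x) = -cay x := neg_of_rel_of_unitary σ hr.symm hx hux
        refine ⟨⟨cay x, hy⟩, ?_⟩
        exact (rel_cay (hY _ hy)).unique hr.symm (hY _ hy)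
      rcases hK1 x hx with h | h
      · obtain ⟨y, hy⟩ := key x hx h
        refine ⟨(true, y), ?_⟩
        apply Subtype.ext
        rw [hf1, hy]
      · have hx' : σ (-x) * (-x) = 1 := by
          rw [map_neg, neg_mul_neg]
          exact hx
        have h' : IsUnit (1 + -x) := by
          rw [← sub_eq_add_neg]
          exact h
        obtain ⟨y, hy⟩ := key (-x) hx' h'
        refine ⟨(false, y), ?_⟩
        apply Subtype.ext
        rw [hf2, hy, neg_neg]
  rw [← Nat.card_eq_of_bijective f hbij, Nat.card_prod, Nat.card_eq_fintype_card, Fintype.card_bool]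

end Cfsg.Agent.Lib.Helper43.Cayley
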