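import Mathlib

set_option autoImplicit false

namespace Cfsg.Agent.Lib.Helper43.CycIndex

/-- in a finite cyclic group, a subgroup of index `M` is the group of `M`-th powers -/
theorem eq_range_pow {G : Type*} [CommGroup G] [IsCyclic G] [Finite G] (M : ℕ) (H : Subgroup G)
    (hH : Nat.card H * M = Nat.card G) : H = (powMonoidHom M : G →* G).range := by
  have hpos : 0 < Nat.card G := Nat.card_pos
  have hM : 0 < M := by
    rcases Nat.eq_zero_or_pos M with h | h
    · rw [h, mul_zero] at hH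
      omega
    · exact h
  have hd : 0 < Nat.card H := Nat.card_pos
  have hK : Nat.card (powMonoidHom (Nat.card H) : G →* G).ker = Nat.card H := by
    rw [IsCyclic.card_powMonoidHom_ker]
    exact Nat.gcd_eq_right (Dvd.intro _ hH)
  have h1 : H = (powMonoidHom (Nat.card H) : G →* G).ker := by
    apply Subgroup.eq_of_le_of_card_ge
    · intro h hh
      rw [MonoidHom.mem_ker, powMonoidHom_apply]
      have h2 : (⟨h, hh⟩ : H) ^ Nat.card H = 1 := pow_card_eq_one'
      exact congrArg Subtype.val h2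
    · rw [hK]
  have h2 : (powMonoidHom M : G →* G).range = (powMonoidHom (Nat.card H) : G →* G).ker := by
    apply Subgroup.eq_of_le_of_card_ge
    · rintro _ ⟨x, rfl⟩
      rw [MonoidHom.mem_ker, powMonoidHom_apply, powMonoidHom_apply, ← pow_mul, mul_comm, hH]
      exact pow_card_eq_one'
    · rw [hK, IsCyclic.card_powMonoidHom_range, Nat.gcd_eq_right (Dvd.intro_left _ hH)]
      exact (Nat.div_eq_of_eq_mul_left hM hH.symm).ge
  rw [h2]
  exact h1

theorem sup_range_pow {G : Type*} [CommGroup G] (n M : ℕ) :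
    (powMonoidHom n : G →* G).range ⊔ (powMonoidHom M : G →* G).range =
      (powMonoidHom (Nat.gcd n M) : G →* G).range := by
  apply le_antisymm
  · apply sup_le
    · rintro _ ⟨x, rfl⟩
      obtain ⟨k, hk⟩ := Nat.gcd_dvd_left n M
      refine ⟨x ^ k, ?_⟩
      rw [powMonoidHom_apply, powMonoidHom_apply, ← pow_mul, mul_comm, ← hk]
    · rintro _ ⟨x, rfl⟩
      obtain ⟨k, hk⟩ := Nat.gcd_dvd_right n M
      refine ⟨x ^ k, ?_⟩
      rw [powMonoidHom_apply, powMonoidHom_apply, ← pow_mul, mul_comm, ← hk]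
  · rintro _ ⟨x, rfl⟩
    have h1 : x ^ (Nat.gcd n M) = (x ^ (Nat.gcdA n M)) ^ n * (x ^ (Nat.gcdB n M)) ^ M := by
      rw [← zpow_natCast x (Nat.gcd n M), Nat.gcd_eq_gcd_ab, zpow_add, mul_comm (n : ℤ),
        mul_comm (M : ℤ), zpow_mul, zpow_mul, zpow_natCast, zpow_natCast]
    rw [powMonoidHom_apply, h1]
    exact Subgroup.mul_mem_sup ⟨_, rfl⟩ ⟨_, rfl⟩

theorem index_sup_pow {G : Type*} [CommGroup G] [IsCyclic G] [Finite G] (n M : ℕ)
    (H : Subgroup G) (hH : Nat.card H * M = Nat.card G) :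
    ((powMonoidHom n : G →* G).range ⊔ H).index = Nat.gcd n M := by
  rw [eq_range_pow M H hH, sup_range_pow, IsCyclic.index_powMonoidHom_range]
  apply Nat.gcd_eq_right
  exact dvd_trans (Nat.gcd_dvd_right n M) (Dvd.intro_left _ hH)

end Cfsg.Agent.Lib.Helper43.CycIndex
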