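import Mathlib
import Cfsg.Prelude.Def_Classical

set_option autoImplicit false

namespace Cfsg.Agent.Lib.Helper43.F2Quad

/-- the nontrivial character of `ZMod 2` -/
def chi (x : ZMod 2) : ℤ := if x = 0 then 1 else -1

theorem chi_add (x y : ZMod 2) : chi (x + y) = chi x * chi y := by
  revert x y; decide

theorem chi_add_one (x : ZMod 2) : chi (x + 1) = - chi x := by
  revert x; decide

theorem chi_zero : chi 0 = 1 := rfl

theorem chi_one : chi 1 = -1 := rfl

theorem zmod2_cases (x : ZMod 2) : x = 0 ∨ x = 1 := by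
  revert x; decide

theorem zmod2_mul_self (x : ZMod 2) : x * x = x := by
  revert x; decide

section Abstract

variable {V : Type*} [AddCommGroup V]

/-- the character sum of a function `q : V → ZMod 2` -/
def charSum [Fintype V] (q : V → ZMod 2) : ℤ := ∑ v, chi (q v)

theorem sum_chi_pairing_eq_zero [Fintype V] (f : V → V → ZMod 2)
    (hadd : ∀ u u' t, f (u + u') t = f u t + f u' t) (t : V) (u0 : V) (hu0 : f u0 t = 1) :
    ∑ u, chi (f u t) = 0 := by
  have h1 : ∑ u, chi (f u t) = ∑ u, chi (f (u + u0) t) :=
    (Equiv.sum_comp (Equiv.addRight u0) (fun u => chi (f u t))).symm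
  have h2 : ∑ u, chi (f (u + u0) t) = - ∑ u, chi (f u t) := by
    rw [← Finset.sum_neg_distrib]
    apply Finset.sum_congr rfl
    intro u _
    rw [hadd, hu0, chi_add_one]
  linarith

theorem polar_zero_left (f : V → V → ZMod 2)
    (hadd : ∀ u u' t, f (u + u') t = f u t + f u' t) (t : V) : f 0 t = 0 := by
  have h := hadd 0 0 t
  rw [add_zero] at h
  have h3 : f 0 t + f 0 t = 0 := CharTwo.add_self_eq_zero _
  rw [h3] at h
  exact h

theorem quad_zero (q : V → ZMod 2) (f : V → V → ZMod 2)
    (hq : ∀ u v, q (u + v) = q u + q v + f u v)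
    (hadd : ∀ u u' t, f (u + u') t = f u t + f u' t) : q 0 = 0 := by
  have h := hq 0 0
  rw [add_zero, polar_zero_left f hadd, add_zero] at h
  have h3 : q 0 + q 0 = 0 := CharTwo.add_self_eq_zero _
  rw [h3] at h
  exact h

theorem polar_symm (q : V → ZMod 2) (f : V → V → ZMod 2)
    (hq : ∀ u v, q (u + v) = q u + q v + f u v) (u v : V) : f u v = f v u := by
  have h1 := hq u v
  have h2 := hq v u
  rw [add_comm v u] at h2
  have h3 : q u + q v + f u v = q v + q u + f v u := h1.symm.trans h2
  linear_combination h3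

theorem polar_self (q : V → ZMod 2) (f : V → V → ZMod 2)
    (hq : ∀ u v, q (u + v) = q u + q v + f u v)
    (hadd : ∀ u u' t, f (u + u') t = f u t + f u' t) (h2 : ∀ v : V, v + v = 0) (u : V) :
    f u u = 0 := by
  have h := hq u u
  rw [h2 u, quad_zero q f hq hadd] at h
  have h3 : q u + q u = 0 := CharTwo.add_self_eq_zero _
  rw [h3, zero_add] at h
  exact h.symm

theorem charSum_sq [Fintype V] (q : V → ZMod 2) (f : V → V → ZMod 2)
    (hq : ∀ u v, q (u + v) = q u + q v + f u v)
    (hadd : ∀ u u' t, f (u + u') t = f u t + f u' t)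
    (hnd : ∀ t, t ≠ 0 → ∃ u, f u t = 1) :
    charSum q ^ 2 = Fintype.card V := by
  have hf0 := polar_zero_left f hadd
  have hq0 := quad_zero q f hq hadd
  have hsymm := polar_symm q f hq
  calc charSum q ^ 2 = ∑ u, ∑ v, chi (q u) * chi (q v) := by
        rw [sq, charSum, Finset.sum_mul_sum]
    _ = ∑ u, ∑ t, chi (q t) * chi (f u t) := by
        apply Finset.sum_congr rfl
        intro u _
        rw [← Equiv.sum_comp (Equiv.addRight u) (fun v => chi (q u) * chi (q v))]
        apply Finset.sum_congr rfl
        intro t _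
        simp only [Equiv.coe_addRight]
        rw [← chi_add, ← chi_add]
        congr 1
        rw [hq t u, hsymm t u]
        have h3 : q u + q u = 0 := CharTwo.add_self_eq_zero _
        linear_combination h3
    _ = ∑ t, chi (q t) * ∑ u, chi (f u t) := by
        rw [Finset.sum_comm]
        simp [Finset.mul_sum]
    _ = chi (q 0) * ∑ u, chi (f u 0) := by
        apply Finset.sum_eq_single 0
        · intro t _ ht
          obtain ⟨u0, hu0⟩ := hnd t ht
          rw [sum_chi_pairing_eq_zero f hadd t u0 hu0, mul_zero]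
        · intro h
          exact absurd (Finset.mem_univ _) h
    _ = Fintype.card V := by
        have h4 : ∀ u, f u 0 = 0 := fun u => by rw [hsymm, hf0]
        simp [h4, hq0, chi]

/-- if `q + f(·,w)` is equivalent to `q` by a bijection then `q w = 0` -/
theorem quad_eq_zero_of_equiv [Fintype V] (q : V → ZMod 2) (f : V → V → ZMod 2)
    (hq : ∀ u v, q (u + v) = q u + q v + f u v)
    (hadd : ∀ u u' t, f (u + u') t = f u t + f u' t)
    (hnd : ∀ t, t ≠ 0 → ∃ u, f u t = 1) (hV : Nonempty V)
    (w : V) (g : V ≃ V) (hg : ∀ v, q v + f v w = q (g v)) : q w = 0 := by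
  rcases zmod2_cases (q w) with h | h
  · exact h
  · exfalso
    have h1 : charSum (fun v => q v + f v w) = charSum q := by
      unfold charSum
      rw [← Equiv.sum_comp g (fun v => chi (q v))]
      apply Finset.sum_congr rfl
      intro v _
      exact congrArg chi (hg v)
    have h2 : charSum (fun v => q v + f v w) = - charSum q := by
      unfold charSum
      rw [← Equiv.sum_comp (Equiv.addRight w) (fun v => chi (q v)), ← Finset.sum_neg_distrib]
      apply Finset.sum_congr rfl
      intro v _
      simp only [Equiv.coe_addRight]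
      rw [hq v w, h, ← chi_add_one]
      congr 1
      have h3 : (1 : ZMod 2) + 1 = 0 := by decide
      linear_combination -h3
    have h3 : charSum q = 0 := by linarith
    have h4 := charSum_sq q f hq hadd hnd
    rw [h3] at h4
    have h5 : (0 : ℤ) < (Fintype.card V : ℤ) := by
      exact_mod_cast Fintype.card_pos
    rw [← h4] at h5
    norm_num at h5

end Abstract

section Transvection

variable {V : Type*} [AddCommGroup V] [Module (ZMod 2) V]

/-- if `q w = 0`, the transvection `v ↦ v + f(v,w) w` carries `q` to `q + f(·,w)` -/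
theorem exists_equiv_of_quad_eq_zero (q : V → ZMod 2) (f : V → V → ZMod 2)
    (hq : ∀ u v, q (u + v) = q u + q v + f u v)
    (hadd : ∀ u u' t, f (u + u') t = f u t + f u' t)
    (w : V) (hw : q w = 0) :
    ∃ g : V ≃ₗ[ZMod 2] V, ∀ v, q v + f v w = q (g v) := by
  have h2 : ∀ v : V, v + v = 0 := by
    intro v
    have h3 : ((1 : ZMod 2) + 1) • v = 0 := by
      have h4 : (1 : ZMod 2) + 1 = 0 := by decide
      rw [h4, zero_smul]
    rwa [add_smul, one_smul] at h3
  have hq0 := quad_zero q f hq hadd
  have hww : f w w = 0 := polar_self q f hq hadd h2 w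
  let ℓ : V →ₗ[ZMod 2] ZMod 2 :=
    { toFun := fun v => f v w
      map_add' := fun u v => hadd u v w
      map_smul' := by
        intro c v
        rcases zmod2_cases c with rfl | rfl
        · simp [polar_zero_left f hadd]
        · simp }
  have hℓ : ∀ v, ℓ v = f v w := fun v => rfl
  let T : V →ₗ[ZMod 2] V := LinearMap.id + ℓ.smulRight w
  have hT : ∀ v, T v = v + f v w • w := fun v => rfl
  have hinv : Function.Involutive T := by
    intro v
    rw [hT, hT, hadd]
    rcases zmod2_cases (f v w) with h | h
    · simp [h, polar_zero_left f hadd]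
    · rw [h, one_smul, hww, add_zero, one_smul, add_assoc, h2 w, add_zero]
  refine ⟨LinearEquiv.ofInvolutive T hinv, ?_⟩
  intro v
  rw [LinearEquiv.coe_ofInvolutive, hT]
  rcases zmod2_cases (f v w) with h | h
  · rw [h, zero_smul, add_zero, add_zero]
  · rw [h, one_smul, hq v w, hw, h, add_zero]

end Transvection

section Plus

open Cfsg

/-- the polar form of the plus-type quadratic form -/
def polarPlus (m : ℕ) (u v : Fin m ⊕ Fin m → ZMod 2) : ZMod 2 :=
  quadFormPlus m (ZMod 2) (u + v) - quadFormPlus m (ZMod 2) u - quadFormPlus m (ZMod 2) v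

theorem polarPlus_eq (m : ℕ) (u v : Fin m ⊕ Fin m → ZMod 2) :
    polarPlus m u v = ∑ i : Fin m, (u (.inl i) * v (.inr i) + v (.inl i) * u (.inr i)) := by
  unfold polarPlus quadFormPlus
  rw [← Finset.sum_sub_distrib, ← Finset.sum_sub_distrib]
  apply Finset.sum_congr rfl
  intro i _
  simp only [Pi.add_apply]
  ring

theorem polarPlus_add_left (m : ℕ) (u u' t : Fin m ⊕ Fin m → ZMod 2) :
    polarPlus m (u + u') t = polarPlus m u t + polarPlus m u' t := by
  rw [polarPlus_eq, polarPlus_eq, polarPlus_eq, ← Finset.sum_add_distrib]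
  apply Finset.sum_congr rfl
  intro i _
  simp only [Pi.add_apply]
  ring

theorem quadFormPlus_add (m : ℕ) (u v : Fin m ⊕ Fin m → ZMod 2) :
    quadFormPlus m (ZMod 2) (u + v) =
      quadFormPlus m (ZMod 2) u + quadFormPlus m (ZMod 2) v + polarPlus m u v := by
  unfold polarPlus
  ring

theorem polarPlus_nondeg (m : ℕ) (t : Fin m ⊕ Fin m → ZMod 2) (ht : t ≠ 0) :
    ∃ u, polarPlus m u t = 1 := by
  classical
  have h1 : ∃ j, t j ≠ 0 := by
    by_contra hcon
    simp only [not_exists, not_not] at hcon
    exact ht (funext hcon)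
  obtain ⟨j, hj⟩ := h1
  have hj1 : t j = 1 := (zmod2_cases (t j)).resolve_left hj
  rcases j with i | i
  · refine ⟨Pi.single (Sum.inr i) 1, ?_⟩
    rw [polarPlus_eq, Finset.sum_eq_single i]
    · simp [hj1]
    · intro b _ hb
      simp [hb]
    · intro h
      exact absurd (Finset.mem_univ _) h
  · refine ⟨Pi.single (Sum.inl i) 1, ?_⟩
    rw [polarPlus_eq, Finset.sum_eq_single i]
    · simp [hj1]
    · intro b _ hb
      simp [hb]
    · intro h
      exact absurd (Finset.mem_univ _) h

end Plus

end Cfsg.Agent.Lib.Helper43.F2Quad
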