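import Mathlib
import Cfsg.Prelude.Def_Classical
import Cfsg.Agent.Lib.Helper43.F2Quad

set_option autoImplicit false

namespace Cfsg.Agent.Lib.Helper43.F2Sing

open Cfsg.Agent.Lib.Helper43.F2Quad

section Singular

variable {V : Type*} [AddCommGroup V] [Module (ZMod 2) V] [Fintype V]

open Classical in
theorem sum_chi_sub (f : V → V → ZMod 2) (hadd2 : ∀ v u u', f v (u + u') = f v u + f v u')
    (U : Submodule (ZMod 2) V) [Fintype U] (v : V) :
    ∑ u : U, chi (f v u) = if (∀ u ∈ U, f v u = 0) then (Fintype.card U : ℤ) else 0 := by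
  split_ifs with h
  · have h1 : ∀ u : U, chi (f v u) = 1 := by
      intro u
      rw [h u u.2]
      rfl
    simp [h1]
  · simp only [not_forall] at h
    obtain ⟨u0, hu0, hne⟩ := h
    have h1 : f v u0 = 1 := (zmod2_cases _).resolve_left hne
    have e1 : ∑ u : U, chi (f v u) = ∑ u : U, chi (f v ((u + (⟨u0, hu0⟩ : U) : U) : V)) :=
      (Equiv.sum_comp (Equiv.addRight (⟨u0, hu0⟩ : U)) (fun u : U => chi (f v u))).symm
    have e2 : ∑ u : U, chi (f v ((u + (⟨u0, hu0⟩ : U) : U) : V)) = - ∑ u : U, chi (f v u) := by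
      rw [← Finset.sum_neg_distrib]
      apply Finset.sum_congr rfl
      intro u _
      rw [Submodule.coe_add, hadd2, h1, chi_add_one]
    linarith

omit [Module (ZMod 2) V] [Fintype V] in
theorem polar_add_right (q : V → ZMod 2) (f : V → V → ZMod 2)
    (hq : ∀ u v, q (u + v) = q u + q v + f u v)
    (hadd : ∀ u u' t, f (u + u') t = f u t + f u' t) (v u u' : V) :
    f v (u + u') = f v u + f v u' := by
  rw [polar_symm q f hq v, hadd, polar_symm q f hq u v, polar_symm q f hq u' v]

open Classical in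
theorem card_mul_card_perp (q : V → ZMod 2) (f : V → V → ZMod 2)
    (hq : ∀ u v, q (u + v) = q u + q v + f u v)
    (hadd : ∀ u u' t, f (u + u') t = f u t + f u' t)
    (hnd : ∀ t, t ≠ 0 → ∃ u, f u t = 1)
    (U : Submodule (ZMod 2) V) [Fintype U] :
    (Fintype.card U : ℤ) * ((Finset.univ.filter (fun v : V => ∀ u ∈ U, f v u = 0)).card : ℤ) =
      Fintype.card V := by
  have hsymm := polar_symm q f hq
  have hadd2 := polar_add_right q f hq hadd
  have h1 : ∑ v : V, ∑ u : U, chi (f v u) =
      (Fintype.card U : ℤ) * ((Finset.univ.filter (fun v : V => ∀ u ∈ U, f v u = 0)).card : ℤ) := by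
    simp_rw [sum_chi_sub f hadd2 U]
    rw [Finset.sum_ite, Finset.sum_const, Finset.sum_const_zero, add_zero, nsmul_eq_mul, mul_comm]
  have h2 : ∑ v : V, ∑ u : U, chi (f v u) = Fintype.card V := by
    rw [Finset.sum_comm]
    rw [Finset.sum_eq_single (0 : U)]
    · have h3 : ∀ v, f v 0 = 0 := by
        intro v
        rw [hsymm, polar_zero_left f hadd]
      simp only [Submodule.coe_zero, h3]
      simp [chi]
    · intro u _ hu
      have hu' : (u : V) ≠ 0 := by
        intro h
        exact hu (Subtype.ext h)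
      obtain ⟨v0, hv0⟩ := hnd _ hu'
      exact sum_chi_pairing_eq_zero f hadd _ v0 hv0
    · intro h
      exact absurd (Finset.mem_univ _) h
  rw [← h1, h2]

omit [Fintype V] in
theorem singular_perp (q : V → ZMod 2) (f : V → V → ZMod 2)
    (hq : ∀ u v, q (u + v) = q u + q v + f u v)
    (U : Submodule (ZMod 2) V) (hU : ∀ u ∈ U, q u = 0) :
    ∀ v ∈ U, ∀ u ∈ U, f v u = 0 := by
  intro v hv u hu
  have h := hq v u
  rw [hU _ (U.add_mem hv hu), hU v hv, hU u hu, zero_add, zero_add] at h
  exact h.symm

open Classical in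
theorem card_eq_filter (U : Submodule (ZMod 2) V) [Fintype U] :
    Fintype.card U = (Finset.univ.filter (fun v : V => v ∈ U)).card := by
  rw [Fintype.card_subtype]

open Classical in
theorem filter_subset_perp (q : V → ZMod 2) (f : V → V → ZMod 2)
    (hq : ∀ u v, q (u + v) = q u + q v + f u v)
    (U : Submodule (ZMod 2) V) (hU : ∀ u ∈ U, q u = 0) :
    Finset.univ.filter (fun v : V => v ∈ U) ⊆
      Finset.univ.filter (fun v : V => ∀ u ∈ U, f v u = 0) := by
  intro v hv
  rw [Finset.mem_filter] at hv ⊢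
  exact ⟨Finset.mem_univ _, singular_perp q f hq U hU v hv.2⟩

/-- a totally singular subspace has at most `sqrt |V|` elements -/
theorem card_sq_le (q : V → ZMod 2) (f : V → V → ZMod 2)
    (hq : ∀ u v, q (u + v) = q u + q v + f u v)
    (hadd : ∀ u u' t, f (u + u') t = f u t + f u' t)
    (hnd : ∀ t, t ≠ 0 → ∃ u, f u t = 1)
    (U : Submodule (ZMod 2) V) [Fintype U] (hU : ∀ u ∈ U, q u = 0) :
    Fintype.card U ^ 2 ≤ Fintype.card V := by
  classical
  have h1 := card_mul_card_perp q f hq hadd hnd U
  have h2 := Finset.card_le_card (filter_subset_perp q f hq U hU)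
  rw [← card_eq_filter] at h2
  have h3 : Fintype.card U * (Finset.univ.filter (fun v : V => ∀ u ∈ U, f v u = 0)).card =
      Fintype.card V := by
    exact_mod_cast h1
  rw [← h3, sq]
  exact Nat.mul_le_mul_left _ h2

open Classical in
theorem charSum_eq_sum_perp (q : V → ZMod 2) (f : V → V → ZMod 2)
    (hq : ∀ u v, q (u + v) = q u + q v + f u v)
    (hadd : ∀ u u' t, f (u + u') t = f u t + f u' t)
    (U : Submodule (ZMod 2) V) [Fintype U] (hU : ∀ u ∈ U, q u = 0) :
    charSum q = ∑ v ∈ Finset.univ.filter (fun v : V => ∀ u ∈ U, f v u = 0), chi (q v) := by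
  have hadd2 := polar_add_right q f hq hadd
  have hpos : (0 : ℤ) < Fintype.card U := by
    exact_mod_cast Fintype.card_pos
  have h1 : (Fintype.card U : ℤ) * charSum q = ∑ u : U, ∑ v : V, chi (q v) * chi (f v u) := by
    have h2 : ∀ u : U, ∑ v : V, chi (q v) * chi (f v u) = charSum q := by
      intro u
      unfold charSum
      rw [← Equiv.sum_comp (Equiv.addRight (u : V)) (fun v => chi (q v))]
      apply Finset.sum_congr rfl
      intro v _
      simp only [Equiv.coe_addRight]
      rw [hq v u, hU u u.2, add_zero, chi_add]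
    simp [h2]
  have h3 : ∑ u : U, ∑ v : V, chi (q v) * chi (f v u) =
      (Fintype.card U : ℤ) *
        ∑ v ∈ Finset.univ.filter (fun v : V => ∀ u ∈ U, f v u = 0), chi (q v) := by
    rw [Finset.sum_comm]
    simp_rw [← Finset.mul_sum, sum_chi_sub f hadd2 U]
    rw [Finset.mul_sum, Finset.sum_filter]
    apply Finset.sum_congr rfl
    intro v _
    split_ifs <;> ring
  have h4 := h1.trans h3
  exact mul_left_cancel₀ (ne_of_gt hpos) h4

/-- with a totally singular subspace of half dimension the character sum is positive -/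
theorem charSum_eq_card_of_sq (q : V → ZMod 2) (f : V → V → ZMod 2)
    (hq : ∀ u v, q (u + v) = q u + q v + f u v)
    (hadd : ∀ u u' t, f (u + u') t = f u t + f u' t)
    (hnd : ∀ t, t ≠ 0 → ∃ u, f u t = 1)
    (U : Submodule (ZMod 2) V) [Fintype U] (hU : ∀ u ∈ U, q u = 0)
    (hsq : Fintype.card U ^ 2 = Fintype.card V) : charSum q = Fintype.card U := by
  classical
  have h1 := card_mul_card_perp q f hq hadd hnd U
  have hpos : 0 < Fintype.card U := Fintype.card_pos
  have h3 : Fintype.card U * (Finset.univ.filter (fun v : V => ∀ u ∈ U, f v u = 0)).card =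
      Fintype.card U * Fintype.card U := by
    rw [← sq, hsq]
    exact_mod_cast h1
  have h4 : (Finset.univ.filter (fun v : V => ∀ u ∈ U, f v u = 0)).card = Fintype.card U :=
    Nat.eq_of_mul_eq_mul_left hpos h3
  have h5 : Finset.univ.filter (fun v : V => v ∈ U) =
      Finset.univ.filter (fun v : V => ∀ u ∈ U, f v u = 0) := by
    apply Finset.eq_of_subset_of_card_le (filter_subset_perp q f hq U hU)
    rw [h4, ← card_eq_filter]
  rw [charSum_eq_sum_perp q f hq hadd U hU, ← h5]
  have h6 : ∀ v ∈ Finset.univ.filter (fun v : V => v ∈ U), chi (q v) = 1 := by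
    intro v hv
    rw [Finset.mem_filter] at hv
    rw [hU v hv.2]
    rfl
  rw [Finset.sum_congr rfl h6, Finset.sum_const, ← card_eq_filter]
  simp

end Singular

end Cfsg.Agent.Lib.Helper43.F2Sing
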