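import Mathlib
import Cfsg.Prelude.Def_Classical
import Cfsg.Agent.Lib.Helper43.F2Quad
import Cfsg.Agent.Lib.Helper43.F2Sing

set_option autoImplicit false

namespace Cfsg.Agent.Lib.Helper43.F2PlusMinus

open Cfsg Cfsg.Agent.Lib.Helper43.F2Quad Cfsg.Agent.Lib.Helper43.F2Sing

theorem card_submodule {V : Type*} [AddCommGroup V] [Module (ZMod 2) V]
    (U : Submodule (ZMod 2) V) [Fintype U] :
    Fintype.card U = 2 ^ Module.finrank (ZMod 2) U := by
  rw [Module.card_eq_pow_finrank (K := ZMod 2) (V := U), ZMod.card]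

section Plus

theorem card_plus_space (m : ℕ) : Fintype.card (Fin m ⊕ Fin m → ZMod 2) = 2 ^ (2 * m) := by
  rw [Fintype.card_fun, ZMod.card, Fintype.card_sum, Fintype.card_fin, two_mul]

/-- the embedding of the first `m` coordinates -/
def inlMap (m : ℕ) : (Fin m → ZMod 2) →ₗ[ZMod 2] (Fin m ⊕ Fin m → ZMod 2) where
  toFun := fun x => Sum.elim x 0
  map_add' := by
    intro x y
    funext j
    rcases j with i | i <;> simp
  map_smul' := by
    intro c x
    funext j
    rcases j with i | i <;> simp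

theorem inlMap_injective (m : ℕ) : Function.Injective (inlMap m) := by
  intro x y h
  funext i
  have := congrFun h (Sum.inl i)
  simpa [inlMap] using this

/-- the standard maximal totally singular subspace of the plus form -/
def plusSing (m : ℕ) : Submodule (ZMod 2) (Fin m ⊕ Fin m → ZMod 2) := LinearMap.range (inlMap m)

theorem plusSing_singular (m : ℕ) : ∀ u ∈ plusSing m, quadFormPlus m (ZMod 2) u = 0 := by
  rintro _ ⟨x, rfl⟩
  simp [quadFormPlus, inlMap]

theorem finrank_plusSing (m : ℕ) : Module.finrank (ZMod 2) (plusSing m) = m := by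
  unfold plusSing
  rw [LinearMap.finrank_range_of_inj (inlMap_injective m), Module.finrank_fin_fun]

theorem plus_bound (m : ℕ) (U : Submodule (ZMod 2) (Fin m ⊕ Fin m → ZMod 2))
    (hU : ∀ u ∈ U, quadFormPlus m (ZMod 2) u = 0) : Module.finrank (ZMod 2) U ≤ m := by
  classical
  have : Fintype U := Fintype.ofFinite U
  have h1 := card_sq_le (quadFormPlus m (ZMod 2)) (polarPlus m) (quadFormPlus_add m)
    (polarPlus_add_left m) (polarPlus_nondeg m) U hU
  rw [card_submodule, card_plus_space, ← pow_mul] at h1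
  have h2 := (Nat.pow_le_pow_iff_right (by norm_num : 1 < 2)).mp h1
  omega

theorem charSum_plus (m : ℕ) : charSum (quadFormPlus m (ZMod 2)) = 2 ^ m := by
  classical
  have : Fintype (plusSing m) := Fintype.ofFinite _
  have h := charSum_eq_card_of_sq (quadFormPlus m (ZMod 2)) (polarPlus m) (quadFormPlus_add m)
    (polarPlus_add_left m) (polarPlus_nondeg m) (plusSing m) (plusSing_singular m)
    (by rw [card_submodule, finrank_plusSing, card_plus_space, ← pow_mul, mul_comm])
  rw [h, card_submodule, finrank_plusSing]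
  norm_num

end Plus

section Minus

/-- the polar form of the minus-type quadratic form -/
def polarMinus (k : ℕ) (u v : (Fin k ⊕ Fin k) ⊕ Fin 2 → ZMod 2) : ZMod 2 :=
  quadFormMinus k (ZMod 2) 1 1 (u + v) - quadFormMinus k (ZMod 2) 1 1 u -
    quadFormMinus k (ZMod 2) 1 1 v

theorem polarMinus_eq (k : ℕ) (u v : (Fin k ⊕ Fin k) ⊕ Fin 2 → ZMod 2) :
    polarMinus k u v =
      ∑ i : Fin k, (u (.inl (.inl i)) * v (.inl (.inr i)) + v (.inl (.inl i)) * u (.inl (.inr i)))
        + (u (.inr 0) * v (.inr 1) + v (.inr 0) * u (.inr 1)) := by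
  unfold polarMinus quadFormMinus
  have h2 : (2 : ZMod 2) = 0 := by decide
  have hs : ∑ i : Fin k, (u + v) (.inl (.inl i)) * (u + v) (.inl (.inr i)) =
      ∑ i : Fin k, u (.inl (.inl i)) * u (.inl (.inr i)) +
      ∑ i : Fin k, v (.inl (.inl i)) * v (.inl (.inr i)) +
      ∑ i : Fin k, (u (.inl (.inl i)) * v (.inl (.inr i)) + v (.inl (.inl i)) * u (.inl (.inr i))) := by
    rw [← Finset.sum_add_distrib, ← Finset.sum_add_distrib]
    apply Finset.sum_congr rfl
    intro i _
    simp only [Pi.add_apply]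
    ring
  rw [hs]
  simp only [Pi.add_apply]
  linear_combination (u (.inr 0) * v (.inr 0) + u (.inr 1) * v (.inr 1)) * h2

theorem polarMinus_add_left (k : ℕ) (u u' t : (Fin k ⊕ Fin k) ⊕ Fin 2 → ZMod 2) :
    polarMinus k (u + u') t = polarMinus k u t + polarMinus k u' t := by
  rw [polarMinus_eq, polarMinus_eq, polarMinus_eq]
  have hs : ∑ i : Fin k, ((u + u') (.inl (.inl i)) * t (.inl (.inr i)) +
        t (.inl (.inl i)) * (u + u') (.inl (.inr i))) =
      ∑ i : Fin k, (u (.inl (.inl i)) * t (.inl (.inr i)) + t (.inl (.inl i)) * u (.inl (.inr i))) +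
      ∑ i : Fin k, (u' (.inl (.inl i)) * t (.inl (.inr i)) + t (.inl (.inl i)) * u' (.inl (.inr i))) := by
    rw [← Finset.sum_add_distrib]
    apply Finset.sum_congr rfl
    intro i _
    simp only [Pi.add_apply]
    ring
  rw [hs]
  simp only [Pi.add_apply]
  ring

theorem quadFormMinus_add (k : ℕ) (u v : (Fin k ⊕ Fin k) ⊕ Fin 2 → ZMod 2) :
    quadFormMinus k (ZMod 2) 1 1 (u + v) =
      quadFormMinus k (ZMod 2) 1 1 u + quadFormMinus k (ZMod 2) 1 1 v + polarMinus k u v := by
  unfold polarMinus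
  ring

theorem polarMinus_nondeg (k : ℕ) (t : (Fin k ⊕ Fin k) ⊕ Fin 2 → ZMod 2) (ht : t ≠ 0) :
    ∃ u, polarMinus k u t = 1 := by
  classical
  have h1 : ∃ j, t j ≠ 0 := by
    by_contra hcon
    simp only [not_exists, not_not] at hcon
    exact ht (funext hcon)
  obtain ⟨j, hj⟩ := h1
  have hj1 : t j = 1 := (zmod2_cases (t j)).resolve_left hj
  rcases j with (i | i) | i
  · refine ⟨Pi.single (Sum.inl (Sum.inr i)) 1, ?_⟩
    rw [polarMinus_eq, Finset.sum_eq_single i]
    · simp [hj1]
    · intro b _ hb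
      simp [hb]
    · intro h
      exact absurd (Finset.mem_univ _) h
  · refine ⟨Pi.single (Sum.inl (Sum.inl i)) 1, ?_⟩
    rw [polarMinus_eq, Finset.sum_eq_single i]
    · simp [hj1]
    · intro b _ hb
      simp [hb]
    · intro h
      exact absurd (Finset.mem_univ _) h
  · have hi : ∀ i : Fin 2, i = 0 ∨ i = 1 := by decide
    rcases hi i with rfl | rfl
    · refine ⟨Pi.single (Sum.inr 1) 1, ?_⟩
      rw [polarMinus_eq]
      simp [hj1]
    · refine ⟨Pi.single (Sum.inr 0) 1, ?_⟩
      rw [polarMinus_eq]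
      simp [hj1]

theorem card_minus_space (k : ℕ) :
    Fintype.card ((Fin k ⊕ Fin k) ⊕ Fin 2 → ZMod 2) = 2 ^ (2 * (k + 1)) := by
  rw [Fintype.card_fun, ZMod.card, Fintype.card_sum, Fintype.card_sum, Fintype.card_fin,
    Fintype.card_fin]
  congr 1
  ring

/-- the embedding of the first `k` coordinates -/
def inllMap (k : ℕ) : (Fin k → ZMod 2) →ₗ[ZMod 2] ((Fin k ⊕ Fin k) ⊕ Fin 2 → ZMod 2) where
  toFun := fun x => Sum.elim (Sum.elim x 0) 0
  map_add' := by
    intro x y
    funext j
    rcases j with (i | i) | i <;> simp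
  map_smul' := by
    intro c x
    funext j
    rcases j with (i | i) | i <;> simp

theorem inllMap_injective (k : ℕ) : Function.Injective (inllMap k) := by
  intro x y h
  funext i
  have := congrFun h (Sum.inl (Sum.inl i))
  simpa [inllMap] using this

/-- the standard maximal totally singular subspace of the minus form -/
def minusSing (k : ℕ) : Submodule (ZMod 2) ((Fin k ⊕ Fin k) ⊕ Fin 2 → ZMod 2) :=
  LinearMap.range (inllMap k)

theorem minusSing_singular (k : ℕ) :
    ∀ u ∈ minusSing k, quadFormMinus k (ZMod 2) 1 1 u = 0 := by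
  rintro _ ⟨x, rfl⟩
  simp [quadFormMinus, inllMap]

theorem finrank_minusSing (k : ℕ) : Module.finrank (ZMod 2) (minusSing k) = k := by
  unfold minusSing
  rw [LinearMap.finrank_range_of_inj (inllMap_injective k), Module.finrank_fin_fun]

theorem sum_aniso : ∑ z : Fin 2 → ZMod 2, chi (z 0 ^ 2 + z 0 * z 1 + z 1 ^ 2) = -2 := by
  decide

theorem charSum_minus (k : ℕ) : charSum (quadFormMinus k (ZMod 2) 1 1) = -2 ^ (k + 1) := by
  unfold charSum
  rw [← Equiv.sum_comp (Equiv.sumArrowEquivProdArrow (Fin k ⊕ Fin k) (Fin 2) (ZMod 2)).symm,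
    Fintype.sum_prod_type]
  have h1 : ∀ (x : Fin k ⊕ Fin k → ZMod 2) (z : Fin 2 → ZMod 2),
      chi (quadFormMinus k (ZMod 2) 1 1
        ((Equiv.sumArrowEquivProdArrow (Fin k ⊕ Fin k) (Fin 2) (ZMod 2)).symm (x, z))) =
      chi (quadFormPlus k (ZMod 2) x) * chi (z 0 ^ 2 + z 0 * z 1 + z 1 ^ 2) := by
    intro x z
    rw [← chi_add]
    congr 1
    simp [quadFormMinus, quadFormPlus, Equiv.sumArrowEquivProdArrow]
  simp_rw [h1, ← Finset.mul_sum, sum_aniso, ← Finset.sum_mul]
  have h2 := charSum_plus k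
  unfold charSum at h2
  rw [h2]
  ring

theorem minus_bound (k : ℕ) (U : Submodule (ZMod 2) ((Fin k ⊕ Fin k) ⊕ Fin 2 → ZMod 2))
    (hU : ∀ u ∈ U, quadFormMinus k (ZMod 2) 1 1 u = 0) : Module.finrank (ZMod 2) U ≤ k := by
  classical
  have : Fintype U := Fintype.ofFinite U
  have h1 := card_sq_le (quadFormMinus k (ZMod 2) 1 1) (polarMinus k) (quadFormMinus_add k)
    (polarMinus_add_left k) (polarMinus_nondeg k) U hU
  rw [card_submodule, card_minus_space, ← pow_mul] at h1
  have h2 := (Nat.pow_le_pow_iff_right (by norm_num : 1 < 2)).mp h1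
  by_contra hcon
  have h3 : Module.finrank (ZMod 2) U = k + 1 := by omega
  have h4 := charSum_eq_card_of_sq (quadFormMinus k (ZMod 2) 1 1) (polarMinus k)
    (quadFormMinus_add k) (polarMinus_add_left k) (polarMinus_nondeg k) U hU
    (by rw [card_submodule, h3, card_minus_space, ← pow_mul, mul_comm])
  rw [charSum_minus] at h4
  have h5 : (0 : ℤ) < Fintype.card U := by exact_mod_cast Fintype.card_pos
  have h6 : (0 : ℤ) < 2 ^ (k + 1) := by positivity
  linarith

end Minus

end Cfsg.Agent.Lib.Helper43.F2PlusMinus
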