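import Mathlib

set_option autoImplicit false

namespace Cfsg.Agent.Lib.Helper43.FinFieldPow

theorem neg_one_ne_one {F : Type*} [Field F] [Fintype F] (hq : Odd (Fintype.card F)) :
    (-1 : F) ≠ 1 := by
  apply Ring.neg_one_ne_one_of_char_ne_two
  intro h
  have h1 := FiniteField.even_card_of_char_two h
  rcases hq with ⟨k, hk⟩
  omega

theorem odd_part (n : ℕ) (hn : n ≠ 0) : ∃ n', n = 2 ^ padicValNat 2 n * n' ∧ Odd n' := by
  obtain ⟨n', hn'⟩ : 2 ^ padicValNat 2 n ∣ n := pow_padicValNat_dvd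
  refine ⟨n', hn', ?_⟩
  rw [← Nat.not_even_iff_odd]
  intro he
  obtain ⟨t, ht⟩ := he.two_dvd
  have h1 : 2 ^ (padicValNat 2 n + 1) ∣ n := ⟨t, by rw [pow_succ, mul_assoc, ← ht]; exact hn'⟩
  exact pow_succ_padicValNat_not_dvd hn h1

theorem pow_half_order {F : Type*} [Field F] (μ : F) (a : ℕ) (ha : 1 ≤ a)
    (hμ : orderOf μ = 2 ^ a) : μ ^ (2 ^ (a - 1)) = -1 := by
  have h1 : (μ ^ (2 ^ (a - 1))) ^ 2 = 1 := by
    rw [← pow_mul, ← pow_succ, Nat.sub_add_cancel ha, ← hμ, pow_orderOf_eq_one]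
  have h2 : μ ^ (2 ^ (a - 1)) ≠ 1 := by
    apply pow_ne_one_of_lt_orderOf (by positivity)
    rw [hμ]
    exact Nat.pow_lt_pow_right (by norm_num) (by omega)
  rcases sq_eq_one_iff.mp h1 with h | h
  · exact absurd h h2
  · exact h

/-- an element of the field of order `d` for `d ∣ q - 1` -/
theorem exists_orderOf_eq {F : Type*} [Field F] [Fintype F] (d : ℕ)
    (hd : d ∣ Fintype.card F - 1) : ∃ ζ : F, ζ ≠ 0 ∧ orderOf ζ = d := by
  classical
  have hN0 : Fintype.card F - 1 ≠ 0 := by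
    have := Fintype.one_lt_card (α := F)
    omega
  obtain ⟨g, hg⟩ := IsCyclic.exists_generator (α := Fˣ)
  have hord : orderOf g = Fintype.card F - 1 := by
    rw [orderOf_eq_card_of_forall_mem_zpowers hg, Nat.card_eq_fintype_card, Fintype.card_units]
  refine ⟨((g ^ (orderOf g / d) : Fˣ) : F), Units.ne_zero _, ?_⟩
  rw [orderOf_units, orderOf_pow_orderOf_div (by rw [hord]; exact hN0) (by rw [hord]; exact hd)]

end Cfsg.Agent.Lib.Helper43.FinFieldPow
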