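import Mathlib
import Cfsg.Agent.Lib.Helper43.H90Fin

set_option autoImplicit false

namespace Cfsg.Agent.Lib.Helper43.FrobInv

open Finset Cfsg.Agent.Lib.Helper43.H90GL Cfsg.Agent.Lib.Helper43.H90Fin

variable {F : Type*} [Field F]

theorem nm_two (σ : RingAut F) (a : F) : nm σ a 2 = a * σ a := by
  unfold nm
  rw [Finset.prod_range_succ, Finset.prod_range_one]
  rfl

theorem sq_apply (σ : RingAut F) (h2 : orderOf σ = 2) (a : F) : σ (σ a) = a := by
  have h := pow_orderOf_apply σ a
  rw [h2] at h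
  exact h

/-- the cardinality of the fixed field -/
theorem card_fixF_eq [Finite F] (p : ℕ) [Fact p.Prime] (f : ℕ) (hcard : Nat.card F = p ^ f)
    (σ : RingAut F) : orderOf σ ∣ f ∧ Nat.card (fixF σ) = p ^ (f / orderOf σ) := by
  have hp : p.Prime := Fact.out
  have hpos := orderOf_pos_ringAut σ
  have h1 := card_fixF σ
  rw [hcard] at h1
  have h2 : Nat.card (fixF σ) ∣ p ^ f := by
    rw [← h1]
    exact dvd_pow_self _ hpos.ne'
  obtain ⟨m, hm, hm2⟩ := (Nat.dvd_prime_pow hp).1 h2
  rw [hm2, ← pow_mul] at h1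
  have h3 : m * orderOf σ = f := Nat.pow_right_injective hp.two_le h1
  refine ⟨Dvd.intro_left _ h3, ?_⟩
  rw [hm2]
  congr 1
  exact (Nat.div_eq_of_eq_mul_left hpos h3.symm).symm

/-- an involutory automorphism of a finite field is the `q₀`-Frobenius -/
theorem sigma_eq_pow [Finite F] (p : ℕ) [Fact p.Prime] [CharP F p] (σ : RingAut F)
    (h2 : orderOf σ = 2) (k : ℕ) (hk : Nat.card (fixF σ) = p ^ k) (a : F) :
    σ a = a ^ (p ^ k) := by
  have hfix : ∀ b : F, σ b = b → b ^ (p ^ k) = b := by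
    intro b hb
    haveI := Fintype.ofFinite (fixF σ)
    have h1 := FiniteField.pow_card (⟨b, (mem_fixF σ b).2 hb⟩ : fixF σ)
    rw [← Nat.card_eq_fintype_card, hk] at h1
    exact congrArg Subtype.val h1
  have hQ : 1 < p ^ k := by
    rw [← hk]
    exact Finite.one_lt_card
  have hker : (thU σ).ker = (powMonoidHom (p ^ k - 1) : Fˣ →* Fˣ).ker := by
    apply Subgroup.eq_of_le_of_card_ge
    · intro μ hμ
      rw [mem_ker_thU] at hμ
      have h1 := hfix _ hμ
      rw [MonoidHom.mem_ker, powMonoidHom_apply]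
      apply Units.ext
      rw [Units.val_pow_eq_pow_val, Units.val_one]
      have h3 : (μ : F) ^ (p ^ k - 1) * (μ : F) = 1 * (μ : F) := by
        rw [← pow_succ, Nat.sub_add_cancel hQ.le, h1, one_mul]
      exact mul_right_cancel₀ μ.ne_zero h3
    · rw [IsCyclic.card_powMonoidHom_ker, card_ker_thU, hk]
      exact Nat.gcd_le_right _ (by omega)
  have hconv : ∀ b : F, b ^ (p ^ k) = b → σ b = b := by
    intro b hb
    by_cases hb0 : b = 0
    · rw [hb0, map_zero]
    · have h1 : Units.mk0 b hb0 ∈ (thU σ).ker := by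
        rw [hker, MonoidHom.mem_ker, powMonoidHom_apply]
        apply Units.ext
        rw [Units.val_pow_eq_pow_val, Units.val_one, Units.val_mk0]
        have h3 : b ^ (p ^ k - 1) * b = 1 * b := by
          rw [← pow_succ, Nat.sub_add_cancel hQ.le, hb, one_mul]
        exact mul_right_cancel₀ hb0 h3
      exact (mem_ker_thU σ _).1 h1
  have ht : (a + σ a) ^ (p ^ k) = a + σ a := by
    apply hfix
    rw [map_add, sq_apply σ h2, add_comm]
  have hm : (a * σ a) ^ (p ^ k) = a * σ a := by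
    apply hfix
    rw [map_mul, sq_apply σ h2, mul_comm]
  have e1 : (a ^ 2 - (a + σ a) * a + a * σ a) ^ (p ^ k) =
      (a ^ (p ^ k)) ^ 2 - (a + σ a) * a ^ (p ^ k) + a * σ a := by
    rw [add_pow_char_pow, sub_pow_char_pow, mul_pow, ht, hm, ← pow_mul, ← pow_mul, mul_comm 2]
  have e2 : a ^ 2 - (a + σ a) * a + a * σ a = 0 := by ring
  rw [e2, zero_pow (by positivity)] at e1
  have e3 : (a ^ (p ^ k) - a) * (a ^ (p ^ k) - σ a) = 0 := by
    rw [e1]
    ring
  rcases mul_eq_zero.1 e3 with h | h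
  · have h4 := sub_eq_zero.1 h
    rw [hconv a h4, h4]
  · exact (sub_eq_zero.1 h).symm

/-- the involution of a finite field is unique -/
theorem involution_unique [Finite F] (p : ℕ) [Fact p.Prime] [CharP F p] (f : ℕ)
    (hcard : Nat.card F = p ^ f) (σ σ' : RingAut F)
    (h2 : orderOf σ = 2) (h2' : orderOf σ' = 2) : σ = σ' := by
  have h1 := (card_fixF_eq p f hcard σ).2
  have h1' := (card_fixF_eq p f hcard σ').2
  rw [h2] at h1
  rw [h2'] at h1'
  ext a
  rw [sigma_eq_pow p σ h2 _ h1, sigma_eq_pow p σ' h2' _ h1']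

end Cfsg.Agent.Lib.Helper43.FrobInv
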