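import Mathlib
import Cfsg.Agent.Lib.Helper40.HPStmt
import Cfsg.Agent.Lib.Helper43.C2Core
import Cfsg.Agent.Lib.Helper43.GenBlocks
import Cfsg.Agent.Lib.Helper44.NegPairs
import Cfsg.Agent.Lib.Helper44.TPStmt
import Cfsg.Agent.Lib.Helper47.TPTOP
import Cfsg.Agent.Lib.Helper21.TPPERP
import Cfsg.Agent.Lib.Helper48.TPORTHSUM
import Cfsg.Agent.Lib.Helper21.TPSUBPERP
import Cfsg.Agent.Lib.Helper11.TPCANCEL
import Cfsg.Agent.Lib.Helper45.EPStmt
import Cfsg.Agent.Lib.Helper35.EPSUBTYPE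

/-!
# S5974 / C2FIX: characteristic 2, every isometric involution of the plus form fixes a hyperbolic
`m`-space if `d` is odd or `4 ∣ m`

`N = x - 1`.  Peeling: in an invariant nondegenerate `Y` of dimension `≥ 4 j + 6` there is an
invariant hyperbolic `4 j`-space: either `u, w ∈ Y` with `Q (N u) = Q (N w) = 0`, `B (u, N w) ≠ 0`
give a 4-block (`C2Core.block4`) and we pass to its perp in `Y`, or `x` is trivial on a
nondegenerate subspace of codimension `≤ 4` of `Y` (`trivial_part`).  For `m ≡ 2 (mod 4)`, `d` odd: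
an invariant hyperbolic plane (a swap plane of a singular basis vector, or, if `Q (N u) = 0` for
all `u`, a plane inside the fixed space found by peeling 4-blocks and Witt cancellation), then
peeling in its perp.
-/

set_option autoImplicit false

universe u

open scoped Matrix

namespace Cfsg.Agent.Lib.Helper43.HPC2FIX

open Cfsg.Agent.Lib.Helper44.TPStmt
open Cfsg.Agent.Lib.Helper44.NegPairs (plusQ)
open Cfsg.Agent.Lib.Helper44.WittND (NDsub)
open Cfsg.Agent.Lib.Helper43.GenBlocks (ndeg_of_ndsub ndsub_of_ndeg)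
open Cfsg.Agent.Lib.Helper43.C2Core
open QuadraticMap Module

variable {F : Type u} [Field F] [Fintype F] [CharP F 2] {d : ℕ}

/-- the linear map of a matrix -/
abbrev ph (x : Matrix.GeneralLinearGroup (J d) F) : (J d → F) →ₗ[F] (J d → F) :=
  Matrix.toLin' (x : Matrix (J d) (J d) F)

omit [Fintype F] [CharP F 2] in
theorem phi_sq (x : Matrix.GeneralLinearGroup (J d) F)
    (hxx : (x : Matrix (J d) (J d) F) * (x : Matrix (J d) (J d) F) = 1) (v : J d → F) :
    ph x (ph x v) = v := by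
  show Matrix.toLin' (x : Matrix (J d) (J d) F) (Matrix.toLin' (x : Matrix (J d) (J d) F) v) = v
  rw [Matrix.toLin'_apply, Matrix.toLin'_apply, Matrix.mulVec_mulVec, hxx, Matrix.one_mulVec]

omit [Fintype F] [CharP F 2] in
theorem phi_iso (x : Matrix.GeneralLinearGroup (J d) F)
    (hx : x ∈ Cfsg.isometryGroup F (Cfsg.quadFormPlus d F)) (v : J d → F) :
    plusQ d F (ph x v) = plusQ d F v := by
  show plusQ d F (Matrix.toLin' (x : Matrix (J d) (J d) F) v) = plusQ d F v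
  rw [Matrix.toLin'_apply]
  exact hx v v

omit [CharP F 2] in
theorem plus_sup (A B : Submodule F (J d → F)) (hA : NDeg d F A) (hB : NDeg d F B)
    (hAB : ∀ u ∈ A, ∀ v ∈ B, polar (Cfsg.quadFormPlus d F) u v = 0)
    (hPA : Plus d F A) (hPB : Plus d F B) : Plus d F (A ⊔ B) := by
  obtain ⟨hnd, hinf, hfr⟩ := Cfsg.Agent.Lib.Helper48.TPORTHSUM.main F d A B hA hB hAB
  obtain ⟨UA, hUA, hUAts, hUAd⟩ := hPA
  obtain ⟨UB, hUB, hUBts, hUBd⟩ := hPB
  refine ⟨UA ⊔ UB, sup_le_sup hUA hUB, ?_, ?_⟩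
  · intro y hy
    obtain ⟨a, ha, b, hb, rfl⟩ := Submodule.mem_sup.mp hy
    have h1 : plusQ d F (a + b) = plusQ d F a + plusQ d F b + polar (plusQ d F) a b :=
      QuadraticMap.map_add (plusQ d F) a b
    have h2 : plusQ d F a = 0 := hUAts a ha
    have h3 : plusQ d F b = 0 := hUBts b hb
    have h4 : polar (plusQ d F) a b = 0 := hAB a (hUA ha) b (hUB hb)
    show plusQ d F (a + b) = 0
    rw [h1, h2, h3, h4]
    simp
  · have hinf' : UA ⊓ UB = ⊥ := by
      rw [eq_bot_iff, ← hinf]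
      exact inf_le_inf hUA hUB
    have h5 := Submodule.finrank_sup_add_finrank_inf_eq UA UB
    rw [hinf', finrank_bot, add_zero] at h5
    rw [h5, hfr]
    omega

/-- `C2Core.block4` in the vocabulary of the plus form -/
theorem block4J (x : Matrix.GeneralLinearGroup (J d) F)
    (hx : x ∈ Cfsg.isometryGroup F (Cfsg.quadFormPlus d F))
    (hxx : (x : Matrix (J d) (J d) F) * (x : Matrix (J d) (J d) F) = 1) (u w : J d → F)
    (hw : plusQ d F (ph x w - w) = 0) (hs : polar (plusQ d F) u (ph x w - w) ≠ 0) :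
    ∃ A : Submodule F (J d → F), u ∈ A ∧ w ∈ A ∧ Stab (x : Matrix (J d) (J d) F) A ∧
      (∀ Y : Submodule F (J d → F), Stab (x : Matrix (J d) (J d) F) Y → u ∈ Y → w ∈ Y → A ≤ Y) ∧
      NDeg d F A ∧ finrank F ↥A = 4 ∧ (plusQ d F (ph x u - u) = 0 → Plus d F A) := by
  obtain ⟨A, h1, h2', h3, h4, h5, h6, h7⟩ :=
    block4 (plusQ d F) (ph x) (phi_sq x hxx) (phi_iso x hx) u w hw hs
  refine ⟨A, h1, h2', h3, h4, ndeg_of_ndsub (plusQ d F) A h5, h6, ?_⟩
  intro hu
  obtain ⟨U, hUA, hUts, hU2⟩ := h7 hu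
  exact ⟨U, hUA, hUts, by rw [hU2, h6]⟩

/-- `C2Core.plane2` in the vocabulary of the plus form -/
theorem plane2J (x : Matrix.GeneralLinearGroup (J d) F)
    (hx : x ∈ Cfsg.isometryGroup F (Cfsg.quadFormPlus d F))
    (hxx : (x : Matrix (J d) (J d) F) * (x : Matrix (J d) (J d) F) = 1) (w : J d → F)
    (hs : plusQ d F (ph x w - w) ≠ 0) :
    ∃ A : Submodule F (J d → F), w ∈ A ∧ Stab (x : Matrix (J d) (J d) F) A ∧
      (∀ Y : Submodule F (J d → F), Stab (x : Matrix (J d) (J d) F) Y → w ∈ Y → A ≤ Y) ∧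
      NDeg d F A ∧ finrank F ↥A = 2 ∧ (plusQ d F w = 0 → Plus d F A) := by
  obtain ⟨A, h1, h3, h4, h5, h6, h7⟩ :=
    plane2 (plusQ d F) (ph x) (phi_sq x hxx) (phi_iso x hx) w hs
  refine ⟨A, h1, h3, h4, ndeg_of_ndsub (plusQ d F) A h5, h6, ?_⟩
  intro hw
  obtain ⟨U, hUA, hUts, hU1⟩ := h7 hw
  exact ⟨U, hUA, hUts, by rw [hU1, h6]⟩

/-- if no 4-block exists in `Y`, then `x` is trivial on a nondegenerate subspace of codimension
at most `4` -/
theorem trivial_part (x : Matrix.GeneralLinearGroup (J d) F)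
    (hx : x ∈ Cfsg.isometryGroup F (Cfsg.quadFormPlus d F))
    (hxx : (x : Matrix (J d) (J d) F) * (x : Matrix (J d) (J d) F) = 1)
    (Y : Submodule F (J d → F)) (hY : NDeg d F Y) (hYs : Stab (x : Matrix (J d) (J d) F) Y)
    (hc : ∀ u ∈ Y, ∀ w ∈ Y, plusQ d F (ph x u - u) = 0 → plusQ d F (ph x w - w) = 0 →
      polar (plusQ d F) u (ph x w - w) = 0) :
    ∃ T : Submodule F (J d → F), T ≤ Y ∧ NDeg d F T ∧ (∀ t ∈ T, ph x t = t) ∧
      finrank F ↥Y ≤ finrank F ↥T + 4 := by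
  have h2 := phi_sq x hxx
  have hQ := phi_iso x hx
  have hYnd : NDsub (plusQ d F) Y := ndsub_of_ndeg (plusQ d F) Y hY
  have hYφ : ∀ y ∈ Y, ph x y ∈ Y := fun y hy => hYs (Submodule.mem_map_of_mem hy)
  by_cases hv : ∃ v ∈ Y, plusQ d F (ph x v - v) ≠ 0
  · obtain ⟨v, hvY, hva⟩ := hv
    have hsq : ∀ t : J d → F, ∃ c : F, plusQ d F (ph x (t + c • v) - (t + c • v)) = 0 := by
      intro t
      obtain ⟨c, hcc⟩ := FiniteField.isSquare_of_char_two (ringChar.eq F 2)
        (plusQ d F (ph x t - t) / plusQ d F (ph x v - v))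
      refine ⟨c, ?_⟩
      rw [Q_N_add (plusQ d F) (ph x) h2 hQ, Q_N_smul, ← hcc, div_mul_cancel₀ _ hva]
      exact CharTwo.add_self_eq_zero _
    have tail : ∀ t ∈ Y, plusQ d F (ph x t - t) = 0 →
        polar (plusQ d F) t (ph x v - v) = 0 → ph x t = t := by
      intro t ht hNt htv
      have hNtY : ph x t - t ∈ Y := Y.sub_mem (hYφ t ht) ht
      have h0 : ph x t - t = 0 := by
        apply hYnd _ hNtY
        intro y hy
        obtain ⟨c, hcy⟩ := hsq y
        have h3 := hc t ht (y + c • v) (Y.add_mem hy (Y.smul_mem c hvY)) hNt hcy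
        have h4 : ph x (y + c • v) - (y + c • v) = (ph x y - y) + c • (ph x v - v) := by
          rw [map_add, map_smul, smul_sub]
          abel
        rw [h4, polar_add_right, polar_smul_right, htv, smul_zero, add_zero] at h3
        rw [polar_N_comm (plusQ d F) (ph x) h2 hQ]
        exact h3
      exact sub_eq_zero.mp h0
    by_cases hl : ∃ u₁ ∈ Y, plusQ d F (ph x u₁ - u₁) = 0 ∧
        polar (plusQ d F) u₁ (ph x v - v) ≠ 0
    · obtain ⟨u₁, hu₁Y, hNu₁, hb⟩ := hl
      have hb' : polar (plusQ d F) v (ph x u₁ - u₁) ≠ 0 := by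
        rw [← polar_N_comm (plusQ d F) (ph x) h2 hQ, polar_comm]
        exact hb
      obtain ⟨D, hvD, hu₁D, hDφ, hDmin, hDN, hD4, -⟩ := block4J x hx hxx v u₁ hNu₁ hb'
      have hDY : D ≤ Y := hDmin Y hYs hvY hu₁Y
      obtain ⟨T, hTY, hTN, hDT, hperp, hfr, -⟩ :=
        Cfsg.Agent.Lib.Helper21.TPSUBPERP.main F d Y D hY hDN hDY
      refine ⟨T, hTY, hTN, ?_, by omega⟩
      intro t ht
      have htY := hTY ht
      have hNvD : ph x v - v ∈ D := D.sub_mem (hDφ (Submodule.mem_map_of_mem hvD)) hvD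
      have hNu₁D : ph x u₁ - u₁ ∈ D := D.sub_mem (hDφ (Submodule.mem_map_of_mem hu₁D)) hu₁D
      have htv : polar (plusQ d F) t (ph x v - v) = 0 := by
        rw [polar_comm]
        exact hperp _ hNvD t ht
      have htu : polar (plusQ d F) t (ph x u₁ - u₁) = 0 := by
        rw [polar_comm]
        exact hperp _ hNu₁D t ht
      obtain ⟨c, hct⟩ := hsq t
      have h3 := hc (t + c • v) (Y.add_mem htY (Y.smul_mem c hvY)) u₁ hu₁Y hct hNu₁
      rw [polar_add_left, polar_smul_left, htu, zero_add, smul_eq_mul] at h3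
      have hc0 : c = 0 := by
        rcases mul_eq_zero.mp h3 with h | h
        · exact h
        · exact absurd h hb'
      rw [hc0, zero_smul, add_zero] at hct
      exact tail t htY hct htv
    · push_neg at hl
      obtain ⟨D, hvD, hDφ, hDmin, hDN, hD2, -⟩ := plane2J x hx hxx v hva
      have hDY : D ≤ Y := hDmin Y hYs hvY
      obtain ⟨T, hTY, hTN, hDT, hperp, hfr, -⟩ :=
        Cfsg.Agent.Lib.Helper21.TPSUBPERP.main F d Y D hY hDN hDY
      refine ⟨T, hTY, hTN, ?_, by omega⟩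
      intro t ht
      have htY := hTY ht
      have hNvD : ph x v - v ∈ D := D.sub_mem (hDφ (Submodule.mem_map_of_mem hvD)) hvD
      have htv : polar (plusQ d F) t (ph x v - v) = 0 := by
        rw [polar_comm]
        exact hperp _ hNvD t ht
      obtain ⟨c, hct⟩ := hsq t
      have h3 := hl (t + c • v) (Y.add_mem htY (Y.smul_mem c hvY)) hct
      rw [polar_add_left, polar_smul_left, htv, zero_add, smul_eq_mul,
        ← Q_N (plusQ d F) (ph x) hQ] at h3
      have hc0 : c = 0 := by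
        rcases mul_eq_zero.mp h3 with h | h
        · exact h
        · exact absurd h hva
      rw [hc0, zero_smul, add_zero] at hct
      exact tail t htY hct htv
  · push_neg at hv
    refine ⟨Y, le_refl _, hY, ?_, by omega⟩
    intro t ht
    have hNtY : ph x t - t ∈ Y := Y.sub_mem (hYφ t ht) ht
    have h0 : ph x t - t = 0 := by
      apply hYnd _ hNtY
      intro y hy
      rw [polar_N_comm (plusQ d F) (ph x) h2 hQ]
      exact hc t ht y hy (hv t ht) (hv y hy)
    exact sub_eq_zero.mp h0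

/-- peeling 4-blocks -/
theorem peel (x : Matrix.GeneralLinearGroup (J d) F)
    (hx : x ∈ Cfsg.isometryGroup F (Cfsg.quadFormPlus d F))
    (hxx : (x : Matrix (J d) (J d) F) * (x : Matrix (J d) (J d) F) = 1) :
    ∀ (j : ℕ) (Y : Submodule F (J d → F)), NDeg d F Y → Stab (x : Matrix (J d) (J d) F) Y →
      4 * j + 6 ≤ finrank F ↥Y →
      ∃ W : Submodule F (J d → F), W ≤ Y ∧ Stab (x : Matrix (J d) (J d) F) W ∧ NDeg d F W ∧
        Plus d F W ∧ finrank F ↥W = 4 * j := by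
  have h2 := phi_sq x hxx
  have hQ := phi_iso x hx
  intro j
  induction j with
  | zero =>
    intro Y _ _ _
    refine ⟨⊥, bot_le, ?_, ?_, ?_, ?_⟩
    · show (⊥ : Submodule F (J d → F)).map _ ≤ ⊥
      rw [Submodule.map_bot]
    · intro w hw hw0
      exact absurd ((Submodule.mem_bot F).mp hw) hw0
    · refine ⟨⊥, le_refl _, ?_, by simp⟩
      intro w hw
      rw [(Submodule.mem_bot F).mp hw]
      exact map_zero (plusQ d F)
    · simp
  | succ j ih =>
    intro Y hY hYs hdim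
    by_cases hc : ∃ u ∈ Y, ∃ w ∈ Y, plusQ d F (ph x u - u) = 0 ∧ plusQ d F (ph x w - w) = 0 ∧
        polar (plusQ d F) u (ph x w - w) ≠ 0
    · obtain ⟨u, hu, w, hw, hNu, hNw, hs⟩ := hc
      obtain ⟨A, huA, hwA, hAφ, hAmin, hAN, hA4, hAU⟩ := block4J x hx hxx u w hNw hs
      have hAY : A ≤ Y := hAmin Y hYs hu hw
      have hAP : Plus d F A := hAU hNu
      obtain ⟨Y', hY'Y, hY'N, hAY', hperp, hfr, hstab⟩ :=
        Cfsg.Agent.Lib.Helper21.TPSUBPERP.main F d Y A hY hAN hAY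
      have hY's := hstab x hx hYs hAφ
      obtain ⟨W', hW'Y', hW's, hW'N, hW'P, hW'd⟩ := ih Y' hY'N hY's (by omega)
      have hAW' : ∀ a ∈ A, ∀ b ∈ W', polar (Cfsg.quadFormPlus d F) a b = 0 :=
        fun a ha b hb => hperp a ha b (hW'Y' hb)
      obtain ⟨hnd, hinf, hfr2⟩ :=
        Cfsg.Agent.Lib.Helper48.TPORTHSUM.main F d A W' hAN hW'N hAW'
      refine ⟨A ⊔ W', sup_le hAY (hW'Y'.trans hY'Y), ?_, hnd,
        plus_sup A W' hAN hW'N hAW' hAP hW'P, by rw [hfr2, hA4, hW'd]; ring⟩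
      show (A ⊔ W').map _ ≤ A ⊔ W'
      rw [Submodule.map_sup]
      exact sup_le_sup hAφ hW's
    · push_neg at hc
      obtain ⟨T, hTY, hTN, hTfix, hTd⟩ := trivial_part x hx hxx Y hY hYs
        (fun u hu w hw h1 h3 => hc u hu w hw h1 h3)
      obtain ⟨⟨W, hWT, hWd, hWN, hWP⟩, -⟩ :=
        Cfsg.Agent.Lib.Helper35.EPSUBTYPE.main F d (4 * (j + 1)) T hTN ⟨2 * (j + 1), by ring⟩
          (show 4 * (j + 1) < finrank F ↥T by omega)
      refine ⟨W, hWT.trans hTY, ?_, hWN, hWP, hWd⟩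
      rintro _ ⟨t, ht, rfl⟩
      have h5 : ph x t = t := hTfix t (hWT ht)
      show ph x t ∈ W
      rw [h5]
      exact ht

/-- alternating case: a hyperbolic plane inside the fixed space -/
theorem alt_plane (x : Matrix.GeneralLinearGroup (J d) F)
    (hx : x ∈ Cfsg.isometryGroup F (Cfsg.quadFormPlus d F))
    (hxx : (x : Matrix (J d) (J d) F) * (x : Matrix (J d) (J d) F) = 1)
    (hAlt : ∀ u : J d → F, plusQ d F (ph x u - u) = 0) :
    ∀ (n : ℕ) (Y : Submodule F (J d → F)), finrank F ↥Y ≤ n → NDeg d F Y →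
      Stab (x : Matrix (J d) (J d) F) Y → Plus d F Y → finrank F ↥Y % 4 = 2 →
      ∃ P : Submodule F (J d → F), P ≤ Y ∧ NDeg d F P ∧ Plus d F P ∧ finrank F ↥P = 2 ∧
        ∀ t ∈ P, ph x t = t := by
  have h2 := phi_sq x hxx
  have hQ := phi_iso x hx
  intro n
  induction n with
  | zero =>
    intro Y hn _ _ _ hmod
    omega
  | succ n ih =>
    intro Y hn hY hYs hYP hmod
    have hYφ : ∀ y ∈ Y, ph x y ∈ Y := fun y hy => hYs (Submodule.mem_map_of_mem hy)
    by_cases hN : ∀ y ∈ Y, ph x y = y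
    · by_cases h2' : finrank F ↥Y = 2
      · exact ⟨Y, le_refl _, hY, hYP, h2', hN⟩
      · obtain ⟨⟨W, hWY, hWd, hWN, hWP⟩, -⟩ :=
          Cfsg.Agent.Lib.Helper35.EPSUBTYPE.main F d 2 Y hY ⟨1, rfl⟩
            (show 2 < finrank F ↥Y by omega)
        exact ⟨W, hWY, hWN, hWP, hWd, fun t ht => hN t (hWY ht)⟩
    · push_neg at hN
      obtain ⟨u, huY, hu⟩ := hN
      have hNu0 : ph x u - u ≠ 0 := sub_ne_zero.mpr hu
      have hNuY : ph x u - u ∈ Y := Y.sub_mem (hYφ u huY) huY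
      obtain ⟨⟨w, hwY, hw⟩, -⟩ := hY _ hNuY hNu0
      have hs : polar (plusQ d F) u (ph x w - w) ≠ 0 := by
        rw [← polar_N_comm (plusQ d F) (ph x) h2 hQ, polar_comm]
        exact hw
      obtain ⟨A, huA, hwA, hAφ, hAmin, hAN, hA4, hAU⟩ := block4J x hx hxx u w (hAlt w) hs
      have hAY : A ≤ Y := hAmin Y hYs huY hwY
      have hAP : Plus d F A := hAU (hAlt u)
      obtain ⟨Y', hY'Y, hY'N, hAY', hperp, hfr, hstab⟩ :=
        Cfsg.Agent.Lib.Helper21.TPSUBPERP.main F d Y A hY hAN hAY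
      have hY's := hstab x hx hYs hAφ
      obtain ⟨hnd, hinf, hfr2⟩ :=
        Cfsg.Agent.Lib.Helper48.TPORTHSUM.main F d A Y' hAN hY'N hperp
      have hsup : A ⊔ Y' = Y := by
        apply Submodule.eq_of_le_of_finrank_eq (sup_le hAY hY'Y)
        rw [hfr2, hfr]
      have hY'P : Plus d F Y' :=
        Cfsg.Agent.Lib.Helper11.TPCANCEL.main F d A Y' hAN hY'N hperp (by rw [hsup]; exact hYP) hAP
      obtain ⟨P, hPY', hPN, hPP, hPd, hPfix⟩ := ih Y' (by omega) hY'N hY's hY'P (by omega)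
      exact ⟨P, hPY'.trans hY'Y, hPN, hPP, hPd, hPfix⟩

/-- non-alternating case: a singular vector `w` with `Q (N w) ≠ 0` -/
theorem exists_sing (x : Matrix.GeneralLinearGroup (J d) F)
    (hx : x ∈ Cfsg.isometryGroup F (Cfsg.quadFormPlus d F))
    (hxx : (x : Matrix (J d) (J d) F) * (x : Matrix (J d) (J d) F) = 1)
    (hne : ∃ u : J d → F, plusQ d F (ph x u - u) ≠ 0) :
    ∃ w : J d → F, plusQ d F w = 0 ∧ plusQ d F (ph x w - w) ≠ 0 := by
  have h2 := phi_sq x hxx
  have hQ := phi_iso x hx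
  by_contra hcon
  push_neg at hcon
  obtain ⟨u, hu⟩ := hne
  apply hu
  let S : Submodule F (J d → F) :=
    { carrier := {u | plusQ d F (ph x u - u) = 0}
      add_mem' := by
        intro a b ha hb
        show plusQ d F (ph x (a + b) - (a + b)) = 0
        rw [Q_N_add (plusQ d F) (ph x) h2 hQ]
        have ha' : plusQ d F (ph x a - a) = 0 := ha
        have hb' : plusQ d F (ph x b - b) = 0 := hb
        rw [ha', hb', add_zero]
      zero_mem' := by
        show plusQ d F (ph x 0 - 0) = 0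
        simp
      smul_mem' := by
        intro c a ha
        show plusQ d F (ph x (c • a) - c • a) = 0
        have ha' : plusQ d F (ph x a - a) = 0 := ha
        rw [Q_N_smul, ha', mul_zero] }
  have hS : ∀ c : J d, (Pi.single c (1 : F) : J d → F) ∈ S := by
    intro c
    apply hcon
    show Cfsg.quadFormPlus d F (Pi.single c 1) = 0
    unfold Cfsg.quadFormPlus
    apply Finset.sum_eq_zero
    intro i _
    rcases c with c | c <;> simp [Pi.single_apply]
  have hsum : u = ∑ c, u c • (Pi.single c (1 : F) : J d → F) := by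
    ext j
    simp [Finset.sum_apply, Pi.single_apply]
  have huS : u ∈ S := by
    rw [hsum]
    exact S.sum_mem (fun c _ => S.smul_mem _ (hS c))
  exact huS

theorem main : Cfsg.Agent.Lib.Helper40.HPStmt.C2Fix.{u} := by
  intro F _ _ _ d m hd hm hme hmd hcase x hx hxx
  have hTop := Cfsg.Agent.Lib.Helper47.TPTOP.main F d
  have h2 := phi_sq x hxx
  have hQ := phi_iso x hx
  have hfrtop : finrank F ↥(⊤ : Submodule F (J d → F)) = 2 * d := by
    rw [finrank_top, Module.finrank_fintype_fun_eq_card, Fintype.card_sum, Fintype.card_fin]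
    ring
  have hStabTop : Stab (x : Matrix (J d) (J d) F) ⊤ := le_top
  suffices h : ∃ W : Submodule F (J d → F), Stab (x : Matrix (J d) (J d) F) W ∧ NDeg d F W ∧
      Plus d F W ∧ finrank F ↥W = m by
    obtain ⟨W, hWs, hWN, hWP, hWd⟩ := h
    exact ⟨W, (Cfsg.Agent.Lib.Helper40.HPStmt.hypJ_iff d m W).mpr ⟨hWd, hWN, hWP⟩, hWs⟩
  by_cases hm4 : m % 4 = 0
  · obtain ⟨W, -, hWs, hWN, hWP, hWd⟩ :=
      peel x hx hxx (m / 4) ⊤ hTop.1 hStabTop (by rw [hfrtop]; omega)
    exact ⟨W, hWs, hWN, hWP, by rw [hWd]; omega⟩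
  · have hdodd : Odd d := by
      rcases hcase with h | h
      · exact h
      · exact absurd h hm4
    have hm2 : m % 4 = 2 := by
      obtain ⟨k, hk⟩ := hme
      omega
    obtain ⟨k, hk⟩ := hdodd
    have hplane : ∃ P : Submodule F (J d → F), Stab (x : Matrix (J d) (J d) F) P ∧ NDeg d F P ∧
        Plus d F P ∧ finrank F ↥P = 2 := by
      by_cases hne : ∃ u : J d → F, plusQ d F (ph x u - u) ≠ 0
      · obtain ⟨w, hw0, hw⟩ := exists_sing x hx hxx hne
        obtain ⟨A, hwA, hAφ, hAmin, hAN, hA2, hAU⟩ := plane2J x hx hxx w hw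
        exact ⟨A, hAφ, hAN, hAU hw0, hA2⟩
      · push_neg at hne
        obtain ⟨P, -, hPN, hPP, hPd, hPfix⟩ := alt_plane x hx hxx hne (2 * d) ⊤
          (by rw [hfrtop]) hTop.1 hStabTop hTop.2 (by rw [hfrtop]; omega)
        refine ⟨P, ?_, hPN, hPP, hPd⟩
        rintro _ ⟨t, ht, rfl⟩
        have h5 : ph x t = t := hPfix t ht
        show ph x t ∈ P
        rw [h5]
        exact ht
    obtain ⟨P, hPs, hPN, hPP, hPd⟩ := hplane
    obtain ⟨Y, hPY, hYN, hPYinf, hfr, hstab⟩ :=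
      Cfsg.Agent.Lib.Helper21.TPPERP.perp F d P hPN
    have hYs := hstab x hx hPs
    obtain ⟨W', hW'Y, hW's, hW'N, hW'P, hW'd⟩ :=
      peel x hx hxx ((m - 2) / 4) Y hYN hYs (by omega)
    have hPW' : ∀ a ∈ P, ∀ b ∈ W', polar (Cfsg.quadFormPlus d F) a b = 0 :=
      fun a ha b hb => hPY a ha b (hW'Y hb)
    obtain ⟨hnd, hinf, hfr2⟩ :=
      Cfsg.Agent.Lib.Helper48.TPORTHSUM.main F d P W' hPN hW'N hPW'
    refine ⟨P ⊔ W', ?_, hnd, plus_sup P W' hPN hW'N hPW' hPP hW'P,
      by rw [hfr2, hPd, hW'd]; omega⟩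
    show (P ⊔ W').map _ ≤ P ⊔ W'
    rw [Submodule.map_sup]
    exact sup_le_sup hPs hW's

end Cfsg.Agent.Lib.Helper43.HPC2FIX
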