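import Mathlib
import Cfsg.Agent.Lib.Helper40.HermAdj

set_option autoImplicit false

namespace Cfsg.Agent.Lib.Helper43.HermClass

open Matrix Cfsg.Agent.Lib.Helper40.HermAdj

variable {F : Type*} [Field F]

section abstract

variable {V : Type*} [AddCommGroup V] [Module F V]

/-- a nondegenerate Hermitian form -/
structure IsHerm (σ : F →+* F) (φ : V → V → F) : Prop where
  lin : ∀ v, IsLinearMap F (fun u => φ u v)
  sym : ∀ u v, σ (φ u v) = φ v u
  nd : ∀ u, (∀ v, φ u v = 0) → u = 0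

variable {σ : F →+* F} {φ : V → V → F}

theorem IsHerm.add_left (h : IsHerm σ φ) (u u' v : V) : φ (u + u') v = φ u v + φ u' v :=
  (h.lin v).map_add u u'

theorem IsHerm.smul_left (h : IsHerm σ φ) (c : F) (u v : V) : φ (c • u) v = c * φ u v :=
  (h.lin v).map_smul c u

theorem IsHerm.sub_left (h : IsHerm σ φ) (u u' v : V) : φ (u - u') v = φ u v - φ u' v :=
  ((h.lin v).mk' _).map_sub u u'

theorem IsHerm.sum_left (h : IsHerm σ φ) {ι : Type*} (s : Finset ι) (x : ι → V) (v : V) :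
    φ (∑ i ∈ s, x i) v = ∑ i ∈ s, φ (x i) v :=
  map_sum ((h.lin v).mk' _) x s

theorem IsHerm.add_right (h : IsHerm σ φ) (u v v' : V) : φ u (v + v') = φ u v + φ u v' := by
  rw [← h.sym, h.add_left, map_add, h.sym, h.sym]

theorem IsHerm.smul_right (h : IsHerm σ φ) (c : F) (u v : V) : φ u (c • v) = σ c * φ u v := by
  rw [← h.sym, h.smul_left, map_mul, h.sym]

theorem IsHerm.sub_right (h : IsHerm σ φ) (u v v' : V) : φ u (v - v') = φ u v - φ u v' := by
  rw [← h.sym, h.sub_left, map_sub, h.sym, h.sym]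

theorem IsHerm.sum_right (h : IsHerm σ φ) {ι : Type*} (s : Finset ι) (x : ι → V) (u : V) :
    φ u (∑ i ∈ s, x i) = ∑ i ∈ s, φ u (x i) := by
  rw [← h.sym, h.sum_left, map_sum]
  apply Finset.sum_congr rfl
  intro i _
  rw [h.sym]

theorem exists_aniso (h : IsHerm σ φ) (hne : ∃ a, σ a ≠ a) (W : Submodule F V) (w₀ u' : V)
    (hw₀ : w₀ ∈ W) (hu' : u' ∈ W) (hc : φ w₀ u' ≠ 0) : ∃ w ∈ W, φ w w ≠ 0 := by
  by_contra hall
  push Not at hall
  have key : ∀ l : F, σ l * φ w₀ u' + l * σ (φ w₀ u') = 0 := by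
    intro l
    have h1 := hall (w₀ + l • u') (W.add_mem hw₀ (W.smul_mem l hu'))
    rw [h.add_left, h.add_right, h.add_right, h.smul_left, h.smul_left, h.smul_right,
      h.smul_right, hall w₀ hw₀, hall u' hu', ← h.sym w₀ u'] at h1
    rw [← h1]
    ring
  have h1 := key 1
  rw [map_one, one_mul, one_mul] at h1
  have h2 : σ (φ w₀ u') = - φ w₀ u' := eq_neg_of_add_eq_zero_right h1
  obtain ⟨a, ha⟩ := hne
  apply ha
  have h3 := key a
  rw [h2] at h3
  have h4 : (σ a - a) * φ w₀ u' = 0 := by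
    rw [← h3]
    ring
  rcases mul_eq_zero.1 h4 with h5 | h5
  · exact sub_eq_zero.1 h5
  · exact absurd h5 hc

theorem exists_orthonormal [FiniteDimensional F V] (h : IsHerm σ φ) (hne : ∃ a, σ a ≠ a)
    (hN : ∀ t : F, t ≠ 0 → σ t = t → ∃ μ : F, μ ≠ 0 ∧ μ * σ μ = t) (k : ℕ)
    (hk : k ≤ Module.finrank F V) :
    ∃ v : Fin k → V, ∀ i j, φ (v i) (v j) = if i = j then 1 else 0 := by
  induction k with
  | zero => exact ⟨fun i => i.elim0, fun i => i.elim0⟩
  | succ k ih =>
    obtain ⟨v, hv⟩ := ih (by omega)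
    obtain ⟨L, hL⟩ : ∃ L : V →ₗ[F] (Fin k → F), ∀ w i, L w i = φ w (v i) :=
      ⟨LinearMap.pi (fun i => (h.lin (v i)).mk' _), fun w i => rfl⟩
    have hker : LinearMap.ker L ≠ ⊥ := by
      apply LinearMap.ker_ne_bot_of_finrank_lt
      rw [Module.finrank_fin_fun]
      omega
    obtain ⟨w₀, hw₀, hw₀ne⟩ := (Submodule.ne_bot_iff _).1 hker
    have hmem : ∀ w, w ∈ LinearMap.ker L ↔ ∀ i, φ w (v i) = 0 := by
      intro w
      rw [LinearMap.mem_ker]
      constructor
      · intro hw i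
        rw [← hL, hw]
        rfl
      · intro hw
        funext i
        rw [hL, hw]
        rfl
    obtain ⟨u, hu⟩ : ∃ u, φ w₀ u ≠ 0 := by
      by_contra hcon
      push Not at hcon
      exact hw₀ne (h.nd w₀ hcon)
    obtain ⟨u', hu'⟩ : ∃ u' : V, u' = u - ∑ i, φ u (v i) • v i := ⟨_, rfl⟩
    have hu'W : u' ∈ LinearMap.ker L := by
      rw [hmem]
      intro j
      rw [hu', h.sub_left, h.sum_left]
      have h1 : ∀ i ∈ Finset.univ, φ (φ u (v i) • v i) (v j) =
          if i = j then φ u (v j) else 0 := by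
        intro i _
        rw [h.smul_left, hv]
        by_cases hij : i = j
        · rw [if_pos hij, if_pos hij, mul_one, hij]
        · rw [if_neg hij, if_neg hij, mul_zero]
      rw [Finset.sum_congr rfl h1, Finset.sum_ite_eq' Finset.univ j, if_pos (Finset.mem_univ j),
        sub_self]
    have hc : φ w₀ u' = φ w₀ u := by
      rw [hu', h.sub_right, h.sum_right]
      have h1 : ∀ i ∈ Finset.univ, φ w₀ (φ u (v i) • v i) = 0 := by
        intro i _
        rw [h.smul_right, (hmem w₀).1 hw₀ i, mul_zero]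
      rw [Finset.sum_eq_zero h1, sub_zero]
    obtain ⟨w, hw, hww⟩ := exists_aniso h hne (LinearMap.ker L) w₀ u' hw₀ hu'W
      (by rw [hc]; exact hu)
    have ht : σ (φ w w) = φ w w := h.sym w w
    obtain ⟨μ, hμ, hμ2⟩ := hN _ hww ht
    have hσμ : σ μ ≠ 0 := by
      intro h0
      rw [h0, mul_zero] at hμ2
      exact hww hμ2.symm
    refine ⟨Fin.snoc v (μ⁻¹ • w), ?_⟩
    have hw' : ∀ i, φ (μ⁻¹ • w) (v i) = 0 := by
      intro i
      rw [h.smul_left, (hmem w).1 hw i, mul_zero]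
    have hw'' : ∀ i, φ (v i) (μ⁻¹ • w) = 0 := by
      intro i
      rw [← h.sym, hw', map_zero]
    have hww' : φ (μ⁻¹ • w) (μ⁻¹ • w) = 1 := by
      rw [h.smul_left, h.smul_right, ← hμ2, map_inv₀]
      field_simp
    intro i j
    induction i using Fin.lastCases with
    | last =>
      induction j using Fin.lastCases with
      | last => rw [Fin.snoc_last, hww', if_pos rfl]
      | cast j =>
        rw [Fin.snoc_last, Fin.snoc_castSucc, hw', if_neg (Fin.castSucc_lt_last j).ne']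
    | cast i =>
      induction j using Fin.lastCases with
      | last =>
        rw [Fin.snoc_last, Fin.snoc_castSucc, hw'', if_neg (Fin.castSucc_lt_last i).ne]
      | cast j =>
        rw [Fin.snoc_castSucc, Fin.snoc_castSucc, hv]
        by_cases hij : i = j
        · rw [if_pos hij, if_pos (by rw [hij])]
        · rw [if_neg hij, if_neg (fun h => hij (Fin.castSucc_inj.1 h))]

end abstract

section matrix

variable {n : ℕ}

theorem isHerm_of_matrix (σ : F →+* F) (hσσ : ∀ a, σ (σ a) = a)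
    (G : Matrix (Fin n) (Fin n) F) (hG : adj σ G = G) (hdet : IsUnit G) :
    IsHerm σ (fun u v : Fin n → F => u ⬝ᵥ (G *ᵥ (σ ∘ v))) := by
  refine ⟨?_, ?_, ?_⟩
  · intro v
    exact ⟨fun u u' => add_dotProduct _ _ _, fun c u => smul_dotProduct _ _ _⟩
  · intro u v
    show σ (u ⬝ᵥ (G *ᵥ (σ ∘ v))) = v ⬝ᵥ (G *ᵥ (σ ∘ u))
    simp only [dotProduct, Matrix.mulVec, map_sum, map_mul, Function.comp_apply, hσσ,
      Finset.mul_sum]
    rw [Finset.sum_comm]
    apply Finset.sum_congr rfl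
    intro l _
    apply Finset.sum_congr rfl
    intro k _
    have h1 : σ (G k l) = G l k := by
      rw [← adj_apply, hG]
    rw [h1]
    ring
  · intro u hu
    have h1 : u ᵥ* G = 0 := by
      funext i
      have h2 := hu (σ ∘ (Pi.single i 1))
      have h3 : σ ∘ (σ ∘ (Pi.single i (1 : F) : Fin n → F)) = Pi.single i 1 := by
        funext j
        simp only [Function.comp_apply, hσσ]
      rw [h3, Matrix.dotProduct_mulVec, dotProduct_single, mul_one] at h2
      exact h2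
    obtain ⟨G', hG2⟩ := hdet.exists_right_inv
    have h4 : u = (u ᵥ* G) ᵥ* G' := by
      rw [Matrix.vecMul_vecMul, hG2, Matrix.vecMul_one]
    rw [h4, h1, Matrix.zero_vecMul]

/-- nondegenerate Hermitian matrices over a field with surjective norm are `H H^*` -/
theorem herm_class (σ : F →+* F) (hσσ : ∀ a, σ (σ a) = a) (hne : ∃ a, σ a ≠ a)
    (hN : ∀ t : F, t ≠ 0 → σ t = t → ∃ μ : F, μ ≠ 0 ∧ μ * σ μ = t)
    (G : Matrix (Fin n) (Fin n) F) (hG : adj σ G = G) (hdet : IsUnit G) :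
    ∃ H : Matrix (Fin n) (Fin n) F, IsUnit H ∧ H * adj σ H = G := by
  have h := isHerm_of_matrix σ hσσ G hG hdet
  obtain ⟨v, hv⟩ := exists_orthonormal h hne hN n (by rw [Module.finrank_fin_fun])
  obtain ⟨P, hP⟩ : ∃ P : Matrix (Fin n) (Fin n) F, ∀ i, P i = v i :=
    ⟨Matrix.of v, fun i => rfl⟩
  have h1 : P * G * adj σ P = 1 := by
    ext i j
    have h2 : (P * G * adj σ P) i j = (P i ᵥ* G) ⬝ᵥ (σ ∘ P j) := by
      rw [Matrix.mul_apply]
      rfl
    rw [h2, ← Matrix.dotProduct_mulVec, hP, hP, hv, Matrix.one_apply]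
  have h3 : P * (G * adj σ P) = 1 := by rw [← mul_assoc, h1]
  have h4 : G * adj σ P * P = 1 := _root_.mul_eq_one_comm.1 h3
  refine ⟨G * adj σ P, ⟨⟨G * adj σ P, P, h4, h3⟩, rfl⟩, ?_⟩
  have h5 : adj σ P * adj σ (G * adj σ P) = 1 := by
    rw [← adj_mul, h4, adj_one]
  rw [mul_assoc, h5, mul_one]

end matrix

end Cfsg.Agent.Lib.Helper43.HermClass
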