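import Mathlib
import Cfsg.Agent.Lib.Helper27.JzStmt
import Cfsg.Agent.S0300
import Cfsg.Agent.S0252
import Cfsg.Agent.Lib.Helper45.OmegaCenter
import Cfsg.Agent.Lib.Helper44.Inv8

set_option autoImplicit false

/-! S5403 piece OM4: `A₅ ≃* Ω⁻₄(2)`. -/

namespace Cfsg.Agent.Lib.Helper43.JzOM4

open Cfsg.Agent.Lib.Helper27.JzStmt Cfsg.Agent.Lib.Helper44.NegPairs

theorem main : OM4 := by
  have hab : ∀ z₁ z₂ : ZMod 2, z₁ ^ 2 + 1 * z₁ * z₂ + 1 * z₂ ^ 2 = 0 → z₁ = 0 ∧ z₂ = 0 := by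
    decide
  haveI : Fact (Nat.Prime 2) := ⟨Nat.prime_two⟩
  letI : Fintype (GaloisField 2 2) := Fintype.ofFinite _
  have hK : Fintype.card (GaloisField 2 2) = 2 ^ 2 := by
    rw [← Nat.card_eq_fintype_card, GaloisField.card 2 2 (by norm_num)]
  obtain ⟨e1⟩ := Cfsg.Agent.S0300.result (F := ZMod 2) (K := GaloisField 2 2) (q := 2)
    (ZMod.card 2) hK 1 1 hab
  obtain ⟨e2⟩ := Cfsg.Agent.S0252.result (F := GaloisField 2 2) (by rw [hK]; norm_num)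
  have hS := Cfsg.Agent.Lib.Helper45.OmegaCenter.sep_minusQ' (F := ZMod 2) 1 1 1 hab
  have hG := Cfsg.Agent.Lib.Helper44.Inv8.good_minusQ hS hab
  have hc := Cfsg.Agent.Lib.Helper45.OmegaCenter.card_center_two (minusQ 1 (ZMod 2) 1 1) hS hG
    (by simp)
  have hbot : Subgroup.center ↥(Cfsg.Omega (ZMod 2) (Cfsg.quadFormMinus 1 (ZMod 2) 1 1)) = ⊥ :=
    Subgroup.eq_bot_of_card_eq _ hc
  exact ⟨(e2.symm.trans e1.symm).trans
    ((QuotientGroup.quotientMulEquivOfEq hbot).trans QuotientGroup.quotientBot)⟩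

end Cfsg.Agent.Lib.Helper43.JzOM4
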