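import Mathlib
import Cfsg.Agent.Lib.Helper42.LieOrdStmt
import Cfsg.Agent.S0294

set_option autoImplicit false

/-! Piece OM of S2363: the order bounds for `PΩ⁻_{2m}(q)`. -/

namespace Cfsg.Agent.Lib.Helper43.LieOrdOM

open Cfsg.Agent.Lib.Helper42.LieOrdStmt Finset

universe u

theorem prod_le (q : ℕ) (n : ℕ) :
    ∏ i ∈ range n, (q ^ (2 * (i + 2)) - 1) ≤ q ^ (n * (n + 3)) := by
  induction n with
  | zero => simp
  | succ n ih =>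
    rw [prod_range_succ]
    calc (∏ i ∈ range n, (q ^ (2 * (i + 2)) - 1)) * (q ^ (2 * (n + 2)) - 1)
        ≤ q ^ (n * (n + 3)) * q ^ (2 * (n + 2)) := Nat.mul_le_mul ih (Nat.sub_le _ _)
      _ = q ^ ((n + 1) * (n + 1 + 3)) := by rw [← pow_add]; congr 1; ring

theorem main : POmegaMinusStmt.{u} := by
  intro G _ _ p hp hG
  obtain ⟨F, _, _, _, m, a, b, hm, hab, ⟨e⟩⟩ := hG
  obtain ⟨n, rfl⟩ : ∃ n, m = n + 2 := ⟨m - 2, by omega⟩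
  obtain ⟨f, hp', hq⟩ := FiniteField.card F p
  have hf : 1 ≤ (f : ℕ) := f.pos
  have hcard : Nat.card G =
      Nat.card (Cfsg.POmega F (Cfsg.quadFormMinus (n + 2 - 1) F a b)) := Nat.card_congr e.toEquiv
  have h := Cfsg.Agent.S0294.result hq (n + 2) hm a b hab
  rw [← hcard] at h
  have hq2 : 2 ≤ p ^ (f : ℕ) :=
    le_trans hp.two_le (by
      calc p = p ^ 1 := (pow_one p).symm
        _ ≤ p ^ (f : ℕ) := Nat.pow_le_pow_right hp.pos hf)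
  have hn1 : n + 2 - 1 = n + 1 := by omega
  rw [hn1] at h
  have hprod : ∏ i ∈ range (n + 1), ((p ^ (f : ℕ)) ^ (2 * (i + 1)) - 1) =
      (∏ i ∈ range n, ((p ^ (f : ℕ)) ^ (2 * (i + 2)) - 1)) * ((p ^ (f : ℕ)) ^ 2 - 1) := by
    rw [prod_range_succ']
  refine (strong_of_formula p f hp (Nat.gcd 4 ((p ^ (f : ℕ)) ^ (n + 2) + 1)) ((n + 2) * (n + 1))
    ((n + 2) ^ 2) (((p ^ (f : ℕ)) ^ (n + 2) + 1) *
      ∏ i ∈ range (n + 1), ((p ^ (f : ℕ)) ^ (2 * (i + 1)) - 1)) ?_ ?_ ?_ ?_ ?_ ?_).2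
  · rw [h, mul_assoc]
  · intro hd
    exact not_dvd_pow_add_one hp f (n + 2) hf (by omega)
      (dvd_trans hd (Nat.gcd_dvd_right _ _))
  · intro hd
    rcases (Nat.Prime.dvd_mul hp).1 hd with h1 | h1
    · exact not_dvd_pow_add_one hp f (n + 2) hf (by omega) h1
    · obtain ⟨i, _, hi⟩ := (Prime.dvd_finset_prod_iff hp.prime _).1 h1
      exact not_dvd_pow_sub_one hp f (2 * (i + 1)) hf (by omega) hi
  · rw [hprod]
    have h1 : ((p ^ (f : ℕ)) ^ 2 - 1) * ((p ^ (f : ℕ)) ^ (n + 2) + 1) <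
        (p ^ (f : ℕ)) ^ (2 + (n + 2)) := sub_one_mul_add_one_lt _ 2 (n + 2) hq2 (by omega)
    have h2 := prod_le (p ^ (f : ℕ)) n
    have hpos : 0 < (p ^ (f : ℕ)) ^ (n * (n + 3)) := pow_pos (by omega) _
    calc ((p ^ (f : ℕ)) ^ (n + 2) + 1) *
          ((∏ i ∈ range n, ((p ^ (f : ℕ)) ^ (2 * (i + 2)) - 1)) * ((p ^ (f : ℕ)) ^ 2 - 1))
        = (((p ^ (f : ℕ)) ^ 2 - 1) * ((p ^ (f : ℕ)) ^ (n + 2) + 1)) *
          (∏ i ∈ range n, ((p ^ (f : ℕ)) ^ (2 * (i + 2)) - 1)) := by ring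
      _ ≤ (((p ^ (f : ℕ)) ^ 2 - 1) * ((p ^ (f : ℕ)) ^ (n + 2) + 1)) *
          (p ^ (f : ℕ)) ^ (n * (n + 3)) := Nat.mul_le_mul_left _ h2
      _ < (p ^ (f : ℕ)) ^ (2 + (n + 2)) * (p ^ (f : ℕ)) ^ (n * (n + 3)) :=
          Nat.mul_lt_mul_of_pos_right h1 hpos
      _ = (p ^ (f : ℕ)) ^ ((n + 2) ^ 2) := by rw [← pow_add]; congr 1; ring
  · nlinarith [sq_nonneg n]
  · nlinarith [sq_nonneg n]

end Cfsg.Agent.Lib.Helper43.LieOrdOM
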