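import Mathlib

set_option autoImplicit false

/-! In characteristic two, for an anisotropic binary form `z₁² + a z₁ z₂ + b z₂²` over a finite
field with `2^f` elements, a root `ω` of `X² + aX + b` in the quadratic extension satisfies
`ω^(2^k) = B k + A k ω` with `A (k+1) = a (A k)²`, `B (k+1) = (B k)² + b (A k)²`, and
`ω^(2^f) = ω + a`; hence `A f = 1` and `B f = a`. -/

namespace Cfsg.Agent.Lib.Helper43.M2Root

open Polynomial

universe u

variable {F : Type u} [Field F] [Fintype F]

/-- an element of an extension fixed by the `|F|`-th power map lies in `F` -/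
theorem mem_range_of_pow_card {K : Type*} [Field K] (ι : F →+* K) (x : K)
    (hx : x ^ Fintype.card F = x) : ∃ t : F, ι t = x := by
  classical
  have hq : 1 < Fintype.card F := Fintype.one_lt_card
  have hne : (X ^ Fintype.card F - X : K[X]) ≠ 0 := FiniteField.X_pow_card_sub_X_ne_zero K hq
  have hdeg : (X ^ Fintype.card F - X : K[X]).natDegree = Fintype.card F :=
    FiniteField.X_pow_card_sub_X_natDegree_eq K hq
  have hsub : (Finset.univ.image ι : Finset K) ⊆ (X ^ Fintype.card F - X : K[X]).roots.toFinset := by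
    intro y hy
    obtain ⟨t, -, rfl⟩ := Finset.mem_image.1 hy
    rw [Multiset.mem_toFinset, mem_roots hne, IsRoot.def, eval_sub, eval_pow, eval_X, ← map_pow,
      FiniteField.pow_card, sub_self]
  have hcard : (X ^ Fintype.card F - X : K[X]).roots.toFinset.card ≤
      (Finset.univ.image ι : Finset K).card := by
    rw [Finset.card_image_of_injective _ ι.injective, Finset.card_univ]
    calc (X ^ Fintype.card F - X : K[X]).roots.toFinset.card
        ≤ (X ^ Fintype.card F - X : K[X]).roots.card := Multiset.toFinset_card_le _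
      _ ≤ (X ^ Fintype.card F - X : K[X]).natDegree := card_roots' _
      _ = Fintype.card F := hdeg
  have heq := Finset.eq_of_subset_of_card_le hsub hcard
  have hxm : x ∈ (X ^ Fintype.card F - X : K[X]).roots.toFinset := by
    rw [Multiset.mem_toFinset, mem_roots hne, IsRoot.def, eval_sub, eval_pow, eval_X, hx, sub_self]
  rw [← heq] at hxm
  obtain ⟨t, -, ht⟩ := Finset.mem_image.1 hxm
  exact ⟨t, ht⟩

theorem frob_root [CharP F 2] (a b : F)
    (hab : ∀ z₁ z₂ : F, z₁ ^ 2 + a * z₁ * z₂ + b * z₂ ^ 2 = 0 → z₁ = 0 ∧ z₂ = 0)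
    (f : ℕ) (hF : Fintype.card F = 2 ^ f) (A B : ℕ → F) (hA0 : A 0 = 1) (hB0 : B 0 = 0)
    (hA : ∀ k, A (k + 1) = a * A k ^ 2) (hB : ∀ k, B (k + 1) = B k ^ 2 + b * A k ^ 2) :
    A f = 1 ∧ B f = a := by
  obtain ⟨p, hp⟩ : ∃ p : F[X], p = C (1 : F) * X ^ 2 + C a * X + C b := ⟨_, rfl⟩
  have hdeg : p.natDegree = 2 := by
    rw [hp]
    exact natDegree_quadratic one_ne_zero
  have hmonic : p.Monic := by
    unfold Polynomial.Monic
    rw [hp]
    exact leadingCoeff_quadratic one_ne_zero
  have hp0 : p ≠ 0 := hmonic.ne_zero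
  have hroots : p.roots = 0 := by
    apply Multiset.eq_zero_of_forall_notMem
    intro x hx
    rw [mem_roots hp0, IsRoot.def, hp] at hx
    simp only [eval_add, eval_mul, eval_C, eval_pow, eval_X, one_mul] at hx
    have h1 := (hab x 1 (by rw [← hx]; ring)).2
    exact one_ne_zero h1
  have hirr : Irreducible p :=
    (hmonic.irreducible_iff_roots_eq_zero_of_degree_le_three (by omega) (by omega)).2 hroots
  haveI : Fact (Irreducible p) := ⟨hirr⟩
  obtain ⟨ι, hι⟩ : ∃ ι : F →+* AdjoinRoot p, ι = AdjoinRoot.of p := ⟨_, rfl⟩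
  obtain ⟨ω, hωd⟩ : ∃ ω : AdjoinRoot p, ω = AdjoinRoot.root p := ⟨_, rfl⟩
  have hω : ω ^ 2 + ι a * ω + ι b = 0 := by
    have h := AdjoinRoot.eval₂_root p
    have e : ∀ q : F[X], q = C (1 : F) * X ^ 2 + C a * X + C b →
        eval₂ (AdjoinRoot.of p) (AdjoinRoot.root p) q =
          AdjoinRoot.root p ^ 2 + AdjoinRoot.of p a * AdjoinRoot.root p + AdjoinRoot.of p b := by
      intro q hq
      rw [hq]
      simp only [eval₂_add, eval₂_mul, eval₂_C, eval₂_pow, eval₂_X, map_one, one_mul]
    rw [hωd, hι, ← e p hp]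
    exact h
  have h2F : (2 : F) = 0 := CharTwo.two_eq_zero
  have h2 : (2 : AdjoinRoot p) = 0 := by
    have h := congrArg ι h2F
    rw [map_ofNat, map_zero] at h
    exact h
  haveI : CharP (AdjoinRoot p) 2 := CharTwo.of_one_ne_zero_of_two_eq_zero one_ne_zero h2
  -- no root in F
  have hnoroot : ∀ t : F, ι t ≠ ω := by
    intro t ht
    rw [← ht, ← map_pow, ← map_mul, ← map_add, ← map_add] at hω
    have h0 : t ^ 2 + a * t + b = 0 := ι.injective (by rw [hω, map_zero])
    have h1 := (hab t 1 (by rw [← h0]; ring)).2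
    exact one_ne_zero h1
  have key : ∀ k, ω ^ (2 ^ k) = ι (B k) + ι (A k) * ω := by
    intro k
    induction k with
    | zero => rw [pow_zero, pow_one, hA0, hB0, map_zero, map_one, zero_add, one_mul]
    | succ k ih =>
      rw [pow_succ, pow_mul, ih, hA, hB, map_add, map_mul, map_mul, map_pow, map_pow]
      linear_combination (ι (A k)) ^ 2 * hω +
        (ι (A k) * ι (B k) * ω - ι (A k) ^ 2 * (ι a * ω + ι b)) * h2
  have hq : ∀ t : F, t ^ (2 ^ f) = t := by
    intro t
    rw [← hF]
    exact FiniteField.pow_card t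
  have hωq : ω ^ (2 ^ f) ≠ ω := by
    intro h
    rw [← hF] at h
    obtain ⟨t, ht⟩ := mem_range_of_pow_card ι ω h
    exact hnoroot t ht
  haveI : Fact (Nat.Prime 2) := ⟨Nat.prime_two⟩
  have hroot : (ω ^ (2 ^ f)) ^ 2 + ι a * ω ^ (2 ^ f) + ι b = 0 := by
    have h := congrArg (fun x => x ^ (2 ^ f)) hω
    rw [add_pow_char_pow, add_pow_char_pow, mul_pow, ← map_pow, ← map_pow, hq, hq,
      zero_pow (by positivity)] at h
    rw [← h]
    ring
  have hprod : (ω ^ (2 ^ f) - ω) * (ω ^ (2 ^ f) - ω - ι a) = 0 := by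
    linear_combination hroot - hω +
      (ω ^ 2 + ι a * ω - ω ^ (2 ^ f) * ω - ι a * ω ^ (2 ^ f)) * h2
  have hconj : ω ^ (2 ^ f) = ω + ι a := by
    rcases mul_eq_zero.1 hprod with h | h
    · exact absurd (sub_eq_zero.1 h) hωq
    · linear_combination h
  have hk := key f
  rw [hconj] at hk
  have hAf : A f = 1 := by
    by_contra hne
    have hne' : A f - 1 ≠ 0 := sub_ne_zero.2 hne
    apply hnoroot ((a - B f) / (A f - 1))
    have h1 : ι (A f - 1) ≠ 0 := by
      intro h0
      exact hne' (ι.injective (by rw [h0, map_zero]))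
    rw [map_div₀, div_eq_iff h1, map_sub, map_sub, map_one]
    linear_combination hk
  refine ⟨hAf, ?_⟩
  rw [hAf, map_one, one_mul] at hk
  have h3 : ι a = ι (B f) := by linear_combination hk
  exact (ι.injective h3).symm

end Cfsg.Agent.Lib.Helper43.M2Root
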