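import Mathlib
import Cfsg.Prelude.Def_LieTypeDatum
import Cfsg.Agent.Lib.Helper94.OrthSiegel
import Cfsg.Agent.Lib.Helper45.OmegaAut

set_option autoImplicit false

namespace Cfsg.Agent.Lib.Helper43.SemiSim

open Matrix
open Cfsg.Agent.Lib.Helper94.Basic Cfsg.Agent.Lib.Helper94.GLAux Cfsg.Agent.Lib.Helper94.Tv
  Cfsg.Agent.Lib.Helper94.QuadAbs Cfsg.Agent.Lib.Helper94.OrthSiegel
  Cfsg.Agent.Lib.Helper45.OmegaAut

universe u

variable {ι : Type} [Fintype ι] [DecidableEq ι] {F : Type u} [Field F]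

/-- the pair `(g, σ)` is a semisimilarity of `Q` with multiplier `c` -/
def SemiPair (Q : (ι → F) → F) (g : GL ι F) (σ : F ≃+* F) (c : F) : Prop :=
  c ≠ 0 ∧ ∀ v : ι → F, Q ((g : Matrix ι ι F) *ᵥ (fun i => σ (v i))) = c * σ (Q v)

/-- the semilinear map `v ↦ g σ(v)` -/
def Lσ (g : GL ι F) (σ : F ≃+* F) (v : ι → F) : ι → F :=
  (g : Matrix ι ι F) *ᵥ (fun i => σ (v i))

theorem Lσ_add (g : GL ι F) (σ : F ≃+* F) (u v : ι → F) :
    Lσ g σ (u + v) = Lσ g σ u + Lσ g σ v := by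
  unfold Lσ
  rw [← Matrix.mulVec_add]
  congr 1
  funext i
  simp

theorem Lσ_sub (g : GL ι F) (σ : F ≃+* F) (u v : ι → F) :
    Lσ g σ (u - v) = Lσ g σ u - Lσ g σ v := by
  unfold Lσ
  rw [← Matrix.mulVec_sub]
  congr 1
  funext i
  simp

theorem Lσ_smul (g : GL ι F) (σ : F ≃+* F) (t : F) (v : ι → F) :
    Lσ g σ (t • v) = σ t • Lσ g σ v := by
  unfold Lσ
  rw [← Matrix.mulVec_smul]
  congr 1
  funext i
  simp

theorem Lσ_surj (g : GL ι F) (σ : F ≃+* F) (x : ι → F) : ∃ y : ι → F, x = Lσ g σ y := by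
  refine ⟨fun i => σ.symm ((((g⁻¹ : GL ι F) : Matrix ι ι F) *ᵥ x) i), ?_⟩
  unfold Lσ
  have h : (fun i => σ (σ.symm ((((g⁻¹ : GL ι F) : Matrix ι ι F) *ᵥ x) i))) =
      ((g⁻¹ : GL ι F) : Matrix ι ι F) *ᵥ x := by
    funext i
    simp
  rw [h, Matrix.mulVec_mulVec, ← Units.val_mul, mul_inv_cancel, Units.val_one,
    Matrix.one_mulVec]

theorem map_mulVec (σ : F ≃+* F) (g : GL ι F) (x : ι → F) :
    ((Matrix.GeneralLinearGroup.map (σ : F →+* F) g : GL ι F) : Matrix ι ι F) *ᵥ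
        (fun k => σ (x k)) =
      fun k => σ (((g : Matrix ι ι F) *ᵥ x) k) := by
  funext k
  exact (RingHom.map_mulVec (σ : F →+* F) _ x k).symm

theorem map_map_symm (σ : F ≃+* F) (g : GL ι F) :
    Matrix.GeneralLinearGroup.map (σ.symm : F →+* F)
      (Matrix.GeneralLinearGroup.map (σ : F →+* F) g) = g := by
  apply Units.ext
  ext i j
  simp [Matrix.GeneralLinearGroup.map]

theorem map_symm_map (σ : F ≃+* F) (g : GL ι F) :
    Matrix.GeneralLinearGroup.map (σ : F →+* F)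
      (Matrix.GeneralLinearGroup.map (σ.symm : F →+* F) g) = g := by
  apply Units.ext
  ext i j
  simp [Matrix.GeneralLinearGroup.map]

variable {Q : (ι → F) → F} {g : GL ι F} {σ : F ≃+* F} {c : F}

theorem SemiPair.Q_L (h : SemiPair Q g σ c) (v : ι → F) : Q (Lσ g σ v) = c * σ (Q v) := h.2 v

theorem SemiPair.polar_L (h : SemiPair Q g σ c) (u v : ι → F) :
    QuadraticMap.polar Q (Lσ g σ u) (Lσ g σ v) = c * σ (QuadraticMap.polar Q u v) := by
  unfold QuadraticMap.polar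
  rw [← Lσ_add, h.Q_L, h.Q_L, h.Q_L, map_sub, map_sub]
  ring

/-- the conjugate of a mapped matrix, applied to a vector -/
theorem conj_mulVec (g : GL ι F) (σ : F ≃+* F) (s : GL ι F) (y : ι → F) :
    ((g * Matrix.GeneralLinearGroup.map (σ : F →+* F) s * g⁻¹ : GL ι F) : Matrix ι ι F) *ᵥ
        Lσ g σ y = Lσ g σ ((s : Matrix ι ι F) *ᵥ y) := by
  unfold Lσ
  rw [Matrix.mulVec_mulVec, ← Units.val_mul, inv_mul_cancel_right, Units.val_mul,
    ← Matrix.mulVec_mulVec, map_mulVec]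

theorem semi_mem (h : SemiPair Q g σ c) {s : GL ι F} (hs : s ∈ Cfsg.isometryGroup F Q) :
    g * Matrix.GeneralLinearGroup.map (σ : F →+* F) s * g⁻¹ ∈ Cfsg.isometryGroup F Q := by
  rw [mem_isometryGroup_iff] at hs ⊢
  intro v
  obtain ⟨y, rfl⟩ := Lσ_surj g σ v
  rw [conj_mulVec, h.Q_L, h.Q_L, hs]

theorem semi_inv (h : SemiPair Q g σ c) :
    SemiPair Q (Matrix.GeneralLinearGroup.map (σ.symm : F →+* F) g⁻¹) σ.symm (σ.symm c⁻¹) := by
  refine ⟨?_, ?_⟩
  · intro h0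
    have : σ.symm c⁻¹ = σ.symm 0 := by rw [h0, map_zero]
    exact inv_ne_zero h.1 (σ.symm.injective this)
  · intro v
    rw [map_mulVec]
    obtain ⟨y, rfl⟩ := Lσ_surj g σ v
    have e : ((g⁻¹ : GL ι F) : Matrix ι ι F) *ᵥ Lσ g σ y = fun i => σ (y i) := by
      unfold Lσ
      rw [Matrix.mulVec_mulVec, ← Units.val_mul, inv_mul_cancel, Units.val_one,
        Matrix.one_mulVec]
    rw [e, h.Q_L]
    have e2 : (fun k => σ.symm ((fun i => σ (y i)) k)) = y := by
      funext k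
      simp
    rw [e2, map_mul, RingEquiv.symm_apply_apply, ← mul_assoc, ← map_mul,
      inv_mul_cancel₀ h.1, map_one, one_mul]

/-- the automorphism of the isometry group induced by a semisimilarity -/
def isoAut (h : SemiPair Q g σ c) : MulAut ↥(Cfsg.isometryGroup F Q) where
  toFun s := ⟨g * Matrix.GeneralLinearGroup.map (σ : F →+* F) s * g⁻¹, semi_mem h s.2⟩
  invFun s := ⟨Matrix.GeneralLinearGroup.map (σ.symm : F →+* F) g⁻¹ *
      Matrix.GeneralLinearGroup.map (σ.symm : F →+* F) s *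
      (Matrix.GeneralLinearGroup.map (σ.symm : F →+* F) g⁻¹)⁻¹, semi_mem (semi_inv h) s.2⟩
  left_inv s := by
    apply Subtype.ext
    show Matrix.GeneralLinearGroup.map (σ.symm : F →+* F) g⁻¹ *
      Matrix.GeneralLinearGroup.map (σ.symm : F →+* F)
        (g * Matrix.GeneralLinearGroup.map (σ : F →+* F) (s : GL ι F) * g⁻¹) *
      (Matrix.GeneralLinearGroup.map (σ.symm : F →+* F) g⁻¹)⁻¹ = (s : GL ι F)
    rw [← map_inv, ← map_mul, ← map_mul]
    have e : g⁻¹ * (g * Matrix.GeneralLinearGroup.map (σ : F →+* F) (s : GL ι F) * g⁻¹) *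
        g⁻¹⁻¹ = Matrix.GeneralLinearGroup.map (σ : F →+* F) (s : GL ι F) := by group
    rw [e, map_map_symm]
  right_inv s := by
    apply Subtype.ext
    show g * Matrix.GeneralLinearGroup.map (σ : F →+* F)
        (Matrix.GeneralLinearGroup.map (σ.symm : F →+* F) g⁻¹ *
          Matrix.GeneralLinearGroup.map (σ.symm : F →+* F) (s : GL ι F) *
          (Matrix.GeneralLinearGroup.map (σ.symm : F →+* F) g⁻¹)⁻¹) * g⁻¹ = (s : GL ι F)
    simp only [map_mul, map_inv, map_symm_map]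
    group
  map_mul' s t := by
    apply Subtype.ext
    show g * Matrix.GeneralLinearGroup.map (σ : F →+* F) ((s : GL ι F) * (t : GL ι F)) * g⁻¹ =
      (g * Matrix.GeneralLinearGroup.map (σ : F →+* F) (s : GL ι F) * g⁻¹) *
        (g * Matrix.GeneralLinearGroup.map (σ : F →+* F) (t : GL ι F) * g⁻¹)
    rw [map_mul]
    group

/-- the automorphism of `Ω` induced by a semisimilarity -/
def omAut (h : SemiPair Q g σ c) : MulAut ↥(Cfsg.Omega F Q) :=
  (@MulAut.characteristic _ _ (Cfsg.Omega F Q) (comm_char _)) (isoAut h)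

theorem omAut_coe (h : SemiPair Q g σ c) (s : ↥(Cfsg.Omega F Q)) :
    (((omAut h s : ↥(Cfsg.Omega F Q)) : ↥(Cfsg.isometryGroup F Q)) : GL ι F) =
      g * Matrix.GeneralLinearGroup.map (σ : F →+* F)
        ((s : ↥(Cfsg.isometryGroup F Q)) : GL ι F) * g⁻¹ := rfl

/-- the automorphism of `PΩ` induced by a semisimilarity -/
def semiAut (h : SemiPair Q g σ c) : MulAut (Cfsg.POmega F Q) :=
  quotAut _ (omAut h)

theorem semiAut_mk (h : SemiPair Q g σ c) (s : ↥(Cfsg.Omega F Q)) :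
    semiAut h (QuotientGroup.mk s) = QuotientGroup.mk (omAut h s) := rfl

theorem semiAut_induced (h : SemiPair Q g σ c) :
    Cfsg.IsInducedBySemilinearPOmega Q g σ (semiAut h) := by
  intro s s' hs
  rw [semiAut_mk]
  congr 1
  apply Subtype.ext
  apply Subtype.ext
  apply Units.ext
  rw [hs, omAut_coe]
  simp [Matrix.GeneralLinearGroup.map]

theorem semiAut_mem (h : SemiPair Q g σ c) : semiAut h ∈ Cfsg.gammaPOmega F Q := by
  apply Subgroup.subset_closure
  exact ⟨g, σ, ⟨Units.mk0 c h.1, fun v => h.2 v⟩, semiAut_induced h⟩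

theorem Phi_mem (g : ↥(Cfsg.Geo.quadSimilarityGroup (F := F) Q)) :
    Phi Q g ∈ Cfsg.gammaPOmega F Q := by
  apply Subgroup.subset_closure
  obtain ⟨c, hc⟩ := g.2
  refine ⟨g, RingEquiv.refl F, ⟨c, fun v => hc v⟩, ?_⟩
  exact (induced_iff Q g g.2 _).2 rfl

/-- the image of a Siegel element under a semisimilarity -/
theorem sg_semi (hQ : Cfsg.Geo.IsNondegenerateQuadraticForm Q) (h : SemiPair Q g σ c)
    (a w : ι → F) (ha : Q a = 0) (haw : QuadraticMap.polar Q a w = 0) :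
    g * Matrix.GeneralLinearGroup.map (σ : F →+* F) (sg hQ a w) * g⁻¹ =
      sg hQ (Lσ g σ a) (c⁻¹ • Lσ g σ w) := by
  have hbl := hQ.polar_bilinear
  have hc := h.1
  have ha' : Q (Lσ g σ a) = 0 := by rw [h.Q_L, ha, map_zero, mul_zero]
  have haw' : QuadraticMap.polar Q (Lσ g σ a) (c⁻¹ • Lσ g σ w) = 0 := by
    rw [hbl.smul_right, h.polar_L, haw, map_zero, mul_zero, mul_zero]
  apply gl_ext
  intro x
  obtain ⟨y, rfl⟩ := Lσ_surj g σ x
  rw [conj_mulVec, sg_mulVec hQ _ _ ha haw, sg_mulVec hQ _ _ ha' haw', hbl.smul_left, h.polar_L,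
    h.polar_L, hQ.smul, h.Q_L, Lσ_sub, Lσ_sub, Lσ_add, Lσ_smul, Lσ_smul, Lσ_smul, map_mul]
  have e1 : (c * σ (QuadraticMap.polar Q a y)) • c⁻¹ • Lσ g σ w =
      σ (QuadraticMap.polar Q a y) • Lσ g σ w := by
    rw [smul_smul, mul_comm c, mul_assoc, mul_inv_cancel₀ hc, mul_one]
  have e2 : c⁻¹ * (c * σ (QuadraticMap.polar Q w y)) = σ (QuadraticMap.polar Q w y) := by
    rw [← mul_assoc, inv_mul_cancel₀ hc, one_mul]
  have e3 : c⁻¹ ^ 2 * (c * σ (Q w)) * (c * σ (QuadraticMap.polar Q a y)) =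
      σ (Q w) * σ (QuadraticMap.polar Q a y) := by
    field_simp
  rw [e1, e2, e3]

end Cfsg.Agent.Lib.Helper43.SemiSim
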