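import Mathlib
import Cfsg.Prelude.Def_KGroupFacts
import Cfsg.Agent.Lib.Helper43.SemiSim

set_option autoImplicit false

/-! Composition of the automorphisms of `PΩ(Q)` induced by semisimilarities, and a criterion for
`PΓO(Q)` to be generated by the inner automorphisms and one semilinear automorphism. -/

namespace Cfsg.Agent.Lib.Helper43.M2Semi

open Matrix
open Cfsg.Agent.Lib.Helper94.Basic Cfsg.Agent.Lib.Helper94.GLAux Cfsg.Agent.Lib.Helper94.Tv
  Cfsg.Agent.Lib.Helper45.OmegaAut Cfsg.Agent.Lib.Helper43.SemiSim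

universe u

variable {ι : Type} [Fintype ι] [DecidableEq ι] {F : Type u} [Field F]

theorem map_trans (σ₁ σ₂ : F ≃+* F) (s : GL ι F) :
    Matrix.GeneralLinearGroup.map (σ₁ : F →+* F)
        (Matrix.GeneralLinearGroup.map (σ₂ : F →+* F) s) =
      Matrix.GeneralLinearGroup.map ((σ₂.trans σ₁ : F ≃+* F) : F →+* F) s := by
  apply Units.ext
  ext i j
  simp [Matrix.GeneralLinearGroup.map]

theorem map_refl (s : GL ι F) :
    Matrix.GeneralLinearGroup.map ((RingEquiv.refl F : F ≃+* F) : F →+* F) s = s := by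
  apply Units.ext
  ext i j
  simp [Matrix.GeneralLinearGroup.map]

variable {Q : (ι → F) → F}

theorem Lσ_comp (g₁ g₂ : GL ι F) (σ₁ σ₂ : F ≃+* F) (v : ι → F) :
    Lσ (g₁ * Matrix.GeneralLinearGroup.map (σ₁ : F →+* F) g₂) (σ₂.trans σ₁) v =
      Lσ g₁ σ₁ (Lσ g₂ σ₂ v) := by
  unfold Lσ
  rw [Units.val_mul, ← Matrix.mulVec_mulVec]
  congr 1
  have h := map_mulVec σ₁ g₂ (fun i => σ₂ (v i))
  rw [← h]
  rfl

theorem pair_mul {g₁ g₂ : GL ι F} {σ₁ σ₂ : F ≃+* F} {c₁ c₂ : F}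
    (h₁ : SemiPair Q g₁ σ₁ c₁) (h₂ : SemiPair Q g₂ σ₂ c₂) :
    SemiPair Q (g₁ * Matrix.GeneralLinearGroup.map (σ₁ : F →+* F) g₂) (σ₂.trans σ₁)
      (c₁ * σ₁ c₂) := by
  refine ⟨mul_ne_zero h₁.1 ?_, ?_⟩
  · intro h0
    exact h₂.1 (σ₁.injective (by rw [h0, map_zero]))
  · intro v
    have h := Lσ_comp g₁ g₂ σ₁ σ₂ v
    unfold Lσ at h
    rw [h]
    have e1 := h₁.2 ((g₂ : Matrix ι ι F) *ᵥ fun i => σ₂ (v i))
    rw [e1, h₂.2 v, map_mul, RingEquiv.trans_apply, mul_assoc]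

/-- two semisimilarities inducing the same conjugation give the same automorphism -/
theorem semiAut_ext {g g' : GL ι F} {σ σ' : F ≃+* F} {c c' : F}
    (h : SemiPair Q g σ c) (h' : SemiPair Q g' σ' c')
    (e : ∀ s : GL ι F, g * Matrix.GeneralLinearGroup.map (σ : F →+* F) s * g⁻¹ =
      g' * Matrix.GeneralLinearGroup.map (σ' : F →+* F) s * g'⁻¹) :
    semiAut h = semiAut h' := by
  apply MulEquiv.ext
  intro x
  induction x using QuotientGroup.induction_on with
  | H s =>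
    rw [semiAut_mk, semiAut_mk]
    congr 1
    apply Subtype.ext
    apply Subtype.ext
    rw [omAut_coe, omAut_coe]
    exact e _

theorem semiAut_mul {g₁ g₂ : GL ι F} {σ₁ σ₂ : F ≃+* F} {c₁ c₂ : F}
    (h₁ : SemiPair Q g₁ σ₁ c₁) (h₂ : SemiPair Q g₂ σ₂ c₂) :
    semiAut h₁ * semiAut h₂ = semiAut (pair_mul h₁ h₂) := by
  apply MulEquiv.ext
  intro x
  induction x using QuotientGroup.induction_on with
  | H s =>
    rw [MulAut.mul_apply, semiAut_mk, semiAut_mk, semiAut_mk]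
    congr 1
    apply Subtype.ext
    apply Subtype.ext
    rw [omAut_coe, omAut_coe, omAut_coe, map_mul, map_mul, map_inv, map_trans]
    group

/-- an automorphism induced by a semisimilarity is the one constructed from it -/
theorem eq_semiAut {g : GL ι F} {σ : F ≃+* F} {c : F} (h : SemiPair Q g σ c)
    {β : MulAut (Cfsg.POmega F Q)} (hβ : Cfsg.IsInducedBySemilinearPOmega Q g σ β) :
    β = semiAut h := by
  apply MulEquiv.ext
  intro x
  induction x using QuotientGroup.induction_on with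
  | H s =>
    rw [semiAut_mk]
    apply hβ s (omAut h s)
    rw [omAut_coe]
    simp [Matrix.GeneralLinearGroup.map]

/-- a linear pair given by an element of `Ω` induces an inner automorphism -/
theorem semiAut_conj (ω : ↥(Cfsg.Omega F Q)) {c : F}
    (h : SemiPair Q ((ω : ↥(Cfsg.isometryGroup F Q)) : GL ι F) (RingEquiv.refl F) c) :
    semiAut h = MulAut.conj (QuotientGroup.mk ω : Cfsg.POmega F Q) := by
  apply MulEquiv.ext
  intro x
  induction x using QuotientGroup.induction_on with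
  | H s =>
    rw [semiAut_mk, MulAut.conj_apply, ← QuotientGroup.mk_mul, ← QuotientGroup.mk_inv,
      ← QuotientGroup.mk_mul]
    congr 1

theorem semiAut_mem_inn (ω : ↥(Cfsg.Omega F Q)) {c : F}
    (h : SemiPair Q ((ω : ↥(Cfsg.isometryGroup F Q)) : GL ι F) (RingEquiv.refl F) c) :
    semiAut h ∈ Cfsg.Inn (Cfsg.POmega F Q) := by
  rw [semiAut_conj]
  exact ⟨_, rfl⟩

/-- the twisted powers of `g` -/
def tw (g : GL ι F) (φ : F ≃+* F) : ℕ → GL ι F
  | 0 => 1
  | k + 1 => g * Matrix.GeneralLinearGroup.map (φ : F →+* F) (tw g φ k)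

theorem tw_zero (g : GL ι F) (φ : F ≃+* F) : tw g φ 0 = 1 := rfl

theorem tw_succ (g : GL ι F) (φ : F ≃+* F) (k : ℕ) :
    tw g φ (k + 1) = g * Matrix.GeneralLinearGroup.map (φ : F →+* F) (tw g φ k) := rfl

theorem one_pair : SemiPair Q (1 : GL ι F) (RingEquiv.refl F) 1 := by
  refine ⟨one_ne_zero, fun v => ?_⟩
  rw [Units.val_one, Matrix.one_mulVec, one_mul]
  rfl

theorem semiAut_one (h : SemiPair Q (1 : GL ι F) (RingEquiv.refl F) 1) : semiAut h = 1 := by
  apply MulEquiv.ext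
  intro x
  induction x using QuotientGroup.induction_on with
  | H s =>
    rw [semiAut_mk, MulAut.one_apply]
    congr 1
    apply Subtype.ext
    apply Subtype.ext
    rw [omAut_coe, map_refl]
    group

/-- the powers of a semilinear isometry-pair automorphism -/
theorem pow_pair {g₀ : GL ι F} {φ : RingAut F} (h₀ : SemiPair Q g₀ φ 1) (k : ℕ) :
    ∃ h : SemiPair Q (tw g₀ φ k) (φ ^ k : RingAut F) 1, semiAut h₀ ^ k = semiAut h := by
  induction k with
  | zero =>
    have h : SemiPair Q (tw g₀ φ 0) (φ ^ 0 : RingAut F) 1 := one_pair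
    refine ⟨h, ?_⟩
    rw [pow_zero]
    exact (semiAut_one h).symm
  | succ k ih =>
    obtain ⟨hk, ek⟩ := ih
    have hσ : ((φ ^ k : RingAut F) : F ≃+* F).trans φ = (φ ^ (k + 1) : RingAut F) :=
      (pow_succ' φ k).symm
    have h1 := pair_mul h₀ hk
    have h : SemiPair Q (tw g₀ φ (k + 1)) (φ ^ (k + 1) : RingAut F) 1 := by
      rw [hσ, map_one, mul_one] at h1
      exact h1
    refine ⟨h, ?_⟩
    rw [pow_succ', ek, semiAut_mul]
    apply semiAut_ext
    intro s
    rw [hσ]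
    rfl

theorem scalar_mulVec (u : Fˣ) (v : ι → F) :
    ((Matrix.GeneralLinearGroup.scalar ι u : GL ι F) : Matrix ι ι F) *ᵥ v = (u : F) • v := by
  rw [Matrix.GeneralLinearGroup.coe_scalar]
  funext i
  simp [Matrix.scalar_apply, Matrix.mulVec_diagonal]

/-- If every field automorphism is a power of `φ`, every scalar is a square, `(g₀, φ)` is a
semilinear isometry whose `f`-th power is induced by the isometry `r`, and the isometry group is
`Ω ∪ Ω r`, then `PΓO(Q)` is generated by the inner automorphisms and the automorphism of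
`(g₀, φ)`. -/
theorem gamma_le (hsmul : ∀ (t : F) (v : ι → F), Q (t • v) = t ^ 2 * Q v)
    {φ : RingAut F} (hφ : ∀ σ : F ≃+* F, ∃ k : ℕ, σ = (φ ^ k : RingAut F))
    (hsq : ∀ c : F, ∃ l : F, l * l = c)
    {g₀ : GL ι F} (h₀ : SemiPair Q g₀ φ 1)
    (f : ℕ) {r : GL ι F} (hr : SemiPair Q r (RingEquiv.refl F) 1)
    (hpow : semiAut h₀ ^ f = semiAut hr)
    (hO : ∀ (o : GL ι F) (ho : o ∈ Cfsg.isometryGroup F Q),
      (⟨o, ho⟩ : ↥(Cfsg.isometryGroup F Q)) ∈ Cfsg.Omega F Q ∨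
        ∃ ho' : o * r ∈ Cfsg.isometryGroup F Q,
          (⟨o * r, ho'⟩ : ↥(Cfsg.isometryGroup F Q)) ∈ Cfsg.Omega F Q) :
    Cfsg.gammaPOmega F Q ≤ Cfsg.Inn (Cfsg.POmega F Q) ⊔ Subgroup.zpowers (semiAut h₀) := by
  unfold Cfsg.gammaPOmega Cfsg.autSubgroupOf
  rw [Subgroup.closure_le]
  rintro β ⟨g, σ, ⟨c, hc⟩, hβ⟩
  have hgc : SemiPair Q g σ c := ⟨c.ne_zero, hc⟩
  have hβ' : β = semiAut hgc := eq_semiAut hgc hβ
  obtain ⟨k, rfl⟩ := hφ σ
  obtain ⟨hk, ek⟩ := pow_pair h₀ k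
  -- the linear part
  have hs : SemiPair Q (g * (tw g₀ φ k)⁻¹) (RingEquiv.refl F) c := by
    refine ⟨c.ne_zero, fun v => ?_⟩
    obtain ⟨y, rfl⟩ := Lσ_surj (tw g₀ φ k) (φ ^ k : RingAut F) v
    have e : ((g * (tw g₀ φ k)⁻¹ : GL ι F) : Matrix ι ι F) *ᵥ
        (fun i => (RingEquiv.refl F) (Lσ (tw g₀ φ k) (φ ^ k : RingAut F) y i)) =
          Lσ g (φ ^ k : RingAut F) y := by
      show ((g * (tw g₀ φ k)⁻¹ : GL ι F) : Matrix ι ι F) *ᵥ
        (((tw g₀ φ k : GL ι F) : Matrix ι ι F) *ᵥ fun i => (φ ^ k : RingAut F) (y i)) =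
          (g : Matrix ι ι F) *ᵥ fun i => (φ ^ k : RingAut F) (y i)
      rw [Matrix.mulVec_mulVec, ← Units.val_mul, inv_mul_cancel_right]
    rw [e, hgc.Q_L, hk.Q_L, one_mul]
    rfl
  have e1 : semiAut hgc = semiAut hs * semiAut hk := by
    rw [semiAut_mul]
    apply semiAut_ext
    intro s
    have e : ((φ ^ k : RingAut F) : F ≃+* F).trans (RingEquiv.refl F) = (φ ^ k : RingAut F) := by
      ext x
      rfl
    rw [map_refl, e, inv_mul_cancel_right]
  -- remove the multiplier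
  obtain ⟨l, hl⟩ := hsq c
  have hl0 : l ≠ 0 := by
    rintro rfl
    rw [mul_zero] at hl
    exact c.ne_zero hl.symm
  obtain ⟨z, hz⟩ : ∃ z : GL ι F, z = Matrix.GeneralLinearGroup.scalar ι (Units.mk0 l hl0)⁻¹ :=
    ⟨_, rfl⟩
  have hzc : ∀ A : GL ι F, z * A = A * z := by
    intro A
    rw [hz]
    exact Matrix.GeneralLinearGroup.scalar_commute _ A
  have hzv : ∀ v : ι → F, (z : Matrix ι ι F) *ᵥ v = l⁻¹ • v := by
    intro v
    rw [hz, scalar_mulVec]
    simp
  have ho : SemiPair Q (z * (g * (tw g₀ φ k)⁻¹)) (RingEquiv.refl F) 1 := by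
    refine ⟨one_ne_zero, fun v => ?_⟩
    rw [Units.val_mul, ← Matrix.mulVec_mulVec, hzv, hsmul, hs.2 v, ← hl]
    have hv : (RingEquiv.refl F) (Q v) = Q v := rfl
    rw [hv]
    field_simp
  have e2 : semiAut hs = semiAut ho := by
    apply semiAut_ext
    intro s
    have hA := hzc (g * (tw g₀ φ k)⁻¹ *
      Matrix.GeneralLinearGroup.map ((RingEquiv.refl F : F ≃+* F) : F →+* F) s *
        (g * (tw g₀ φ k)⁻¹)⁻¹)
    have e : z * (g * (tw g₀ φ k)⁻¹) *
        Matrix.GeneralLinearGroup.map ((RingEquiv.refl F : F ≃+* F) : F →+* F) s *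
          (z * (g * (tw g₀ φ k)⁻¹))⁻¹ =
        z * (g * (tw g₀ φ k)⁻¹ *
          Matrix.GeneralLinearGroup.map ((RingEquiv.refl F : F ≃+* F) : F →+* F) s *
            (g * (tw g₀ φ k)⁻¹)⁻¹) * z⁻¹ := by group
    rw [e, hA, mul_inv_cancel_right]
  have hoI : z * (g * (tw g₀ φ k)⁻¹) ∈ Cfsg.isometryGroup F Q := by
    rw [mem_isometryGroup_iff]
    intro v
    have h := ho.2 v
    rw [one_mul] at h
    exact h
  have hzp : semiAut hk ∈ Subgroup.zpowers (semiAut h₀) := by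
    rw [← ek]
    exact Subgroup.pow_mem _ (Subgroup.mem_zpowers _) k
  rw [hβ', e1, e2]
  rcases hO _ hoI with h | ⟨ho', h⟩
  · exact Subgroup.mul_mem _ (Subgroup.mem_sup_left (semiAut_mem_inn ⟨⟨_, hoI⟩, h⟩ ho))
      (Subgroup.mem_sup_right hzp)
  · have hor : SemiPair Q (z * (g * (tw g₀ φ k)⁻¹) * r) (RingEquiv.refl F) 1 := by
      refine ⟨one_ne_zero, fun v => ?_⟩
      have h' := (mem_isometryGroup_iff Q _).1 ho' v
      rw [one_mul]
      exact h'
    have e3 : semiAut hor = semiAut ho * semiAut hr := by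
      rw [semiAut_mul]
      apply semiAut_ext
      intro s
      have e : (RingEquiv.refl F).trans (RingEquiv.refl F) = RingEquiv.refl F := rfl
      rw [e]
      simp only [map_refl]
    have e4 : semiAut ho = semiAut hor * (semiAut hr)⁻¹ := by
      rw [e3, mul_inv_cancel_right]
    rw [e4]
    refine Subgroup.mul_mem _ (Subgroup.mul_mem _
      (Subgroup.mem_sup_left (semiAut_mem_inn ⟨⟨_, ho'⟩, h⟩ hor))
      (Subgroup.mem_sup_right (Subgroup.inv_mem _ ?_))) (Subgroup.mem_sup_right hzp)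
    rw [← hpow]
    exact Subgroup.pow_mem _ (Subgroup.mem_zpowers _) f

/-- if `Aut(G)` is generated by the inner automorphisms and one automorphism, `Out(G)` is cyclic -/
theorem out_cyclic {G : Type*} [Group G] (β : MulAut G)
    (h : Cfsg.Inn G ⊔ Subgroup.zpowers β = ⊤) : IsCyclic (Cfsg.Out G) := by
  refine ⟨⟨(QuotientGroup.mk β : Cfsg.Out G), fun x => ?_⟩⟩
  induction x using QuotientGroup.induction_on with
  | H α =>
    have hα : α ∈ Cfsg.Inn G ⊔ Subgroup.zpowers β := by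
      rw [h]
      exact Subgroup.mem_top α
    have hα' : α ∈ ((Cfsg.Inn G ⊔ Subgroup.zpowers β : Subgroup (MulAut G)) : Set (MulAut G)) := hα
    rw [Subgroup.normal_mul] at hα'
    obtain ⟨n, hn, y, hy, rfl⟩ := Set.mem_mul.1 hα'
    obtain ⟨j, rfl⟩ := Subgroup.mem_zpowers_iff.1 hy
    refine Subgroup.mem_zpowers_iff.2 ⟨j, ?_⟩
    rw [← QuotientGroup.mk_zpow]
    apply QuotientGroup.eq.2
    have h1 := (Cfsg.innNormal G).conj_mem n hn (β ^ j)⁻¹
    rw [inv_inv] at h1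
    rw [← mul_assoc]
    exact h1

end Cfsg.Agent.Lib.Helper43.M2Semi
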