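import Mathlib
import Cfsg.Agent.Lib.Helper43.M2Semi
import Cfsg.Agent.Lib.Helper43.M2Root
import Cfsg.Agent.Lib.Helper43.MiBase
import Cfsg.Agent.Lib.Helper44.Omega2
import Cfsg.Agent.Lib.Helper44.OMat

set_option autoImplicit false

/-! Characteristic two: `PΓO⁻_{2m+2}(F)` is generated by the inner automorphisms of `PΩ⁻` and
the automorphism induced by an explicit Frobenius-semilinear isometry, whose `f`-th power
(`|F| = 2^f`) is induced by an orthogonal transvection. -/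

namespace Cfsg.Agent.Lib.Helper43.M2Frob

open Matrix
open Cfsg.Agent.Lib.Helper94.Basic Cfsg.Agent.Lib.Helper94.GLAux Cfsg.Agent.Lib.Helper94.Tv
  Cfsg.Agent.Lib.Helper94.QuadAbs
  Cfsg.Agent.Lib.Helper45.OmegaAut Cfsg.Agent.Lib.Helper43.SemiSim
  Cfsg.Agent.Lib.Helper43.M2Semi Cfsg.Agent.Lib.Helper43.MiBase
  Cfsg.Agent.Lib.Helper44.QSpace Cfsg.Agent.Lib.Helper44.OGroup
  Cfsg.Agent.Lib.Helper44.Omega2 Cfsg.Agent.Lib.Helper44.OMat Cfsg.Agent.Lib.Helper44.CD2a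
  Cfsg.Agent.Lib.Helper44.NegPairs

universe u

variable {F : Type u} [Field F] {m : ℕ}

/-- the block matrix acting on the anisotropic plane -/
def bm (m : ℕ) (M : Matrix (Fin 2) (Fin 2) F) : Matrix (MI m) (MI m) F :=
  Matrix.fromBlocks 1 0 0 M

theorem bm_mul (M N : Matrix (Fin 2) (Fin 2) F) : bm m M * bm m N = bm m (M * N) := by
  unfold bm
  rw [Matrix.fromBlocks_multiply]
  simp

theorem bm_one : bm m (1 : Matrix (Fin 2) (Fin 2) F) = 1 := Matrix.fromBlocks_one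

theorem bm_map (σ : F →+* F) (M : Matrix (Fin 2) (Fin 2) F) :
    (bm m M).map σ = bm m (M.map σ) := by
  unfold bm
  rw [Matrix.fromBlocks_map]
  congr 1
  · ext i j
    simp [Matrix.one_apply]
  · ext i j
    simp
  · ext i j
    simp

theorem bm_mulVec (M : Matrix (Fin 2) (Fin 2) F) (x : MI m → F) :
    bm m M *ᵥ x = Sum.elim (x ∘ Sum.inl) (M *ᵥ (x ∘ Sum.inr)) := by
  unfold bm
  rw [Matrix.fromBlocks_mulVec]
  simp

/-- the upper triangular matrix -/
def U (A B : F) : Matrix (Fin 2) (Fin 2) F := !![1, B; 0, A]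

theorem U_mul (A B A' B' : F) : U A B * U A' B' = U (A * A') (B' + B * A') := by
  unfold U
  ext i j
  fin_cases i <;> fin_cases j <;> simp [Matrix.mul_apply, Fin.sum_univ_two]

theorem U_map (σ : F →+* F) (A B : F) : (U A B).map σ = U (σ A) (σ B) := by
  unfold U
  ext i j
  fin_cases i <;> fin_cases j <;> simp

theorem U_one : U (1 : F) 0 = 1 := by
  unfold U
  ext i j
  fin_cases i <;> fin_cases j <;> simp

theorem bmU_inl (A B : F) (x : MI m → F) (l : Fin m ⊕ Fin m) :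
    (bm m (U A B) *ᵥ x) (Sum.inl l) = x (Sum.inl l) := by
  rw [bm_mulVec]
  rfl

theorem bmU_zero (A B : F) (x : MI m → F) :
    (bm m (U A B) *ᵥ x) (Sum.inr 0) = x (Sum.inr 0) + B * x (Sum.inr 1) := by
  rw [bm_mulVec]
  simp [U, Matrix.mulVec, dotProduct, Fin.sum_univ_two]

theorem bmU_one (A B : F) (x : MI m → F) :
    (bm m (U A B) *ᵥ x) (Sum.inr 1) = A * x (Sum.inr 1) := by
  rw [bm_mulVec]
  simp [U, Matrix.mulVec, dotProduct, Fin.sum_univ_two]

/-- the element of `GL` -/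
def gU (m : ℕ) (A B : F) (hA : A ≠ 0) : GL (MI m) F :=
  ⟨bm m (U A B), bm m (U A⁻¹ (-(B * A⁻¹))), by
    rw [bm_mul, U_mul, mul_inv_cancel₀ hA, neg_add_cancel, U_one, bm_one], by
    rw [bm_mul, U_mul, inv_mul_cancel₀ hA, neg_mul, inv_mul_cancel_right₀ hA, add_neg_cancel,
      U_one, bm_one]⟩

theorem gU_coe (A B : F) (hA : A ≠ 0) :
    ((gU m A B hA : GL (MI m) F) : Matrix (MI m) (MI m) F) = bm m (U A B) := rfl

theorem Q_bm (a b A B : F) (x : MI m → F) :
    Cfsg.quadFormMinus m F a b (bm m (U A B) *ᵥ x) =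
      (∑ i : Fin m, x (Sum.inl (Sum.inl i)) * x (Sum.inl (Sum.inr i))) +
        ((x (Sum.inr 0) + B * x (Sum.inr 1)) ^ 2 +
          a * (x (Sum.inr 0) + B * x (Sum.inr 1)) * (A * x (Sum.inr 1)) +
            b * (A * x (Sum.inr 1)) ^ 2) := by
  unfold Cfsg.quadFormMinus
  rw [bmU_zero, bmU_one]
  simp only [bmU_inl]

section CharTwo

variable [Fintype F] [CharP F 2]

/-- the Frobenius automorphism -/
noncomputable def frob (F : Type u) [Field F] [Fintype F] [CharP F 2] : RingAut F :=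
  frobeniusEquiv F 2

theorem frob_apply (x : F) : frob F x = x ^ 2 := by
  unfold frob
  rw [frobeniusEquiv_apply, frobenius_def]

theorem frob_pow_apply (k : ℕ) (x : F) : ((frob F ^ k : RingAut F) : F ≃+* F) x = x ^ (2 ^ k) := by
  induction k with
  | zero =>
    rw [pow_zero, pow_zero, pow_one]
    rfl
  | succ k ih =>
    rw [pow_succ', RingAut.mul_apply, ih, frob_apply, ← pow_mul, ← pow_succ]

theorem exists_frob_pow (σ : F ≃+* F) : ∃ k : ℕ, σ = (frob F ^ k : RingAut F) := by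
  letI : Algebra (ZMod 2) F := ZMod.algebra F 2
  obtain ⟨τ, hτ⟩ : ∃ τ : F ≃ₐ[ZMod 2] F, ∀ x, τ x = σ x :=
    ⟨AlgEquiv.ofRingEquiv (f := σ) (fun x =>
      RingHom.congr_fun (Subsingleton.elim ((σ : F →+* F).comp (algebraMap (ZMod 2) F))
        (algebraMap (ZMod 2) F)) x), fun x => rfl⟩
  obtain ⟨n, hn⟩ := (FiniteField.bijective_frobeniusAlgEquivOfAlgebraic_pow (ZMod 2) F).2 τ
  refine ⟨(n : ℕ), ?_⟩
  apply RingEquiv.ext
  intro x
  rw [frob_pow_apply, ← hτ, ← hn]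
  show (FiniteField.frobeniusAlgEquivOfAlgebraic (ZMod 2) F ^ (n : ℕ)) x = _
  rw [AlgEquiv.coe_pow, FiniteField.coe_frobeniusAlgEquivOfAlgebraic, ZMod.card, pow_iterate]

theorem exists_sq (c : F) : ∃ l : F, l * l = c := by
  obtain ⟨r, hr⟩ := FiniteField.isSquare_of_char_two (ringChar.eq F 2) c
  exact ⟨r, hr.symm⟩

theorem two_eq : (2 : F) = 0 := CharTwo.two_eq_zero

/-- the Frobenius-semilinear isometry -/
theorem pair0 (a b : F) (ha : a ≠ 0) :
    SemiPair (Cfsg.quadFormMinus m F a b) (gU m a b ha) (frob F) 1 := by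
  refine ⟨one_ne_zero, fun v => ?_⟩
  rw [gU_coe, Q_bm, one_mul]
  unfold Cfsg.quadFormMinus
  rw [map_add, map_sum]
  simp only [map_mul, map_add, map_pow, frob_apply]
  have h2 : (2 : F) = 0 := two_eq
  linear_combination (b * v (Sum.inr 0) ^ 2 * v (Sum.inr 1) ^ 2 +
    a ^ 2 * b * v (Sum.inr 1) ^ 4) * h2

/-- the sequences describing the twisted powers -/
def Aseq (a : F) : ℕ → F
  | 0 => 1
  | k + 1 => a * Aseq a k ^ 2

def Bseq (a b : F) : ℕ → F
  | 0 => 0
  | k + 1 => Bseq a b k ^ 2 + b * Aseq a k ^ 2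

theorem tw_coe (a b : F) (ha : a ≠ 0) (k : ℕ) :
    ((tw (gU m a b ha) (frob F) k : GL (MI m) F) : Matrix (MI m) (MI m) F) =
      bm m (U (Aseq a k) (Bseq a b k)) := by
  induction k with
  | zero =>
    rw [tw_zero, Units.val_one]
    show (1 : Matrix (MI m) (MI m) F) = bm m (U 1 0)
    rw [U_one, bm_one]
  | succ k ih =>
    rw [tw_succ, Units.val_mul]
    show bm m (U a b) * ((tw (gU m a b ha) (frob F) k : GL (MI m) F) :
      Matrix (MI m) (MI m) F).map ((frob F : F ≃+* F) : F →+* F) = _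
    rw [ih, bm_map, bm_mul, U_map, U_mul]
    show bm m (U (a * frob F (Aseq a k)) (frob F (Bseq a b k) + b * frob F (Aseq a k))) =
      bm m (U (a * Aseq a k ^ 2) (Bseq a b k ^ 2 + b * Aseq a k ^ 2))
    rw [frob_apply, frob_apply]

theorem tw_f (a b : F)
    (hab : ∀ z₁ z₂ : F, z₁ ^ 2 + a * z₁ * z₂ + b * z₂ ^ 2 = 0 → z₁ = 0 ∧ z₂ = 0)
    (ha : a ≠ 0) (f : ℕ) (hF : Fintype.card F = 2 ^ f) :
    tw (gU m a b ha) (frob F) f = gU m 1 a one_ne_zero := by
  apply Units.ext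
  rw [tw_coe, gU_coe]
  obtain ⟨h1, h2⟩ := Cfsg.Agent.Lib.Helper43.M2Root.frob_root a b hab f hF (Aseq a) (Bseq a b)
    rfl rfl (fun k => rfl) (fun k => rfl)
  rw [h1, h2]

theorem frob_pow_f (f : ℕ) (hF : Fintype.card F = 2 ^ f) :
    ((frob F ^ f : RingAut F) : F ≃+* F) = RingEquiv.refl F := by
  apply RingEquiv.ext
  intro x
  rw [frob_pow_apply, ← hF, FiniteField.pow_card]
  rfl

/-- the transvection as a reflection -/
theorem refl_mulVec (a b : F) (x : MI m → F) :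
    ((gU m 1 a one_ne_zero : GL (MI m) F) : Matrix (MI m) (MI m) F) *ᵥ x =
      reflE (minusQ m F a b) (wv ![1, 0]) x := by
  have h2 : (2 : F) = 0 := two_eq
  have hQw : minusQ m F a b (wv ![1, 0]) = 1 := by
    show Cfsg.quadFormMinus m F a b (wv ![1, 0]) = 1
    rw [Q_wv]
    simp [N]
  have hpol : QuadraticMap.polar (minusQ m F a b) x (wv ![1, 0]) = a * x (Sum.inr 1) := by
    show QuadraticMap.polar (Cfsg.quadFormMinus m F a b) x (wv ![1, 0]) = _
    rw [B_comm (Cfsg.quadFormMinus m F a b) x (wv ![1, 0]), polar_wv]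
    show 2 * (1 : F) * x (Sum.inr 0) + a * (1 * x (Sum.inr 1) + 0 * x (Sum.inr 0)) +
      2 * b * 0 * x (Sum.inr 1) = a * x (Sum.inr 1)
    linear_combination x (Sum.inr 0) * h2
  rw [reflE_apply, hQw, hpol, gU_coe, inv_one, one_mul]
  funext l
  rcases l with l | j
  · rw [bmU_inl, Pi.sub_apply, Pi.smul_apply, wv_fr, smul_zero, sub_zero]
  · fin_cases j
    · show (bm m (U 1 a) *ᵥ x) (Sum.inr 0) = _
      rw [bmU_zero, Pi.sub_apply, Pi.smul_apply]
      show _ = x (Sum.inr 0) - (a * x (Sum.inr 1)) • (wv ![1, 0] : MI m → F) (Sum.inr 0)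
      rw [wv_an]
      simp
      linear_combination (a * x (Sum.inr 1)) * h2
    · show (bm m (U 1 a) *ᵥ x) (Sum.inr 1) = _
      rw [bmU_one, Pi.sub_apply, Pi.smul_apply]
      show _ = x (Sum.inr 1) - (a * x (Sum.inr 1)) • (wv ![1, 0] : MI m → F) (Sum.inr 1)
      rw [wv_an]
      simp

/-- in characteristic two the isometry group is `Ω ∪ Ω r` for a reflection `r` -/
theorem omega_or {ι : Type} [Fintype ι] [DecidableEq ι] (Q' : QuadraticForm F (ι → F))
    (hS : Sep Q') (hG : Good Q') (w : ι → F) (hw : Q' w ≠ 0)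
    (r : GL ι F) (hr : ∀ x, (r : Matrix ι ι F) *ᵥ x = reflE Q' w x)
    (o : GL ι F) (ho : o ∈ Cfsg.isometryGroup F ⇑Q') :
    (⟨o, ho⟩ : ↥(Cfsg.isometryGroup F ⇑Q')) ∈ Cfsg.Omega F ⇑Q' ∨
      ∃ ho' : o * r ∈ Cfsg.isometryGroup F ⇑Q',
        (⟨o * r, ho'⟩ : ↥(Cfsg.isometryGroup F ⇑Q')) ∈ Cfsg.Omega F ⇑Q' := by
  have hrI : r ∈ Cfsg.isometryGroup F ⇑Q' := by
    rw [mem_isometryGroup_iff]
    intro v
    rw [hr]
    exact reflE_mem Q' w v
  obtain ⟨vs, hvs, hg⟩ := cdp_two hS hG (isoEquiv Q' ⟨o, ho⟩ : (ι → F) ≃ₗ[F] (ι → F))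
    (isoEquiv Q' ⟨o, ho⟩).2
  have hgx : ∀ x, (o : Matrix ι ι F) *ᵥ x = (vs.map (reflE Q')).prod x := by
    intro x
    rw [← hg]
    rfl
  rcases Nat.even_or_odd vs.length with he | hodd
  · left
    rw [mem_omega_iff, isoEquiv_eq_prod Q' ⟨o, ho⟩ vs hgx]
    exact even_prod_mem_commutator hS hG vs hvs he
  · right
    refine ⟨mul_mem ho hrI, ?_⟩
    have hgx' : ∀ x, (((⟨o * r, mul_mem ho hrI⟩ : ↥(Cfsg.isometryGroup F ⇑Q')) : GL ι F) :
        Matrix ι ι F) *ᵥ x = ((vs ++ [w]).map (reflE Q')).prod x := by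
      intro x
      show ((o * r : GL ι F) : Matrix ι ι F) *ᵥ x = _
      rw [Units.val_mul, ← Matrix.mulVec_mulVec, hr, hgx, List.map_append, List.prod_append]
      simp
    rw [mem_omega_iff, isoEquiv_eq_prod Q' _ (vs ++ [w]) hgx']
    apply even_prod_mem_commutator hS hG
    · intro v hv
      rcases List.mem_append.1 hv with h | h
      · exact hvs v h
      · rw [List.mem_singleton.1 h]
        exact hw
    · rw [List.length_append, List.length_singleton]
      exact hodd.add_one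

end CharTwo

end Cfsg.Agent.Lib.Helper43.M2Frob
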