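import Mathlib
import Cfsg.Agent.Lib.Helper43.M2Frob
import Cfsg.Agent.Lib.Helper45.SemiAut
import Cfsg.Agent.Lib.Helper45.OmegaCenter

set_option autoImplicit false

/-! Characteristic two: `Out(PΩ⁻_{2m+2}(F))` is cyclic as soon as `Aut = PΓO⁻`, and has order
`2f` as soon as `|Aut| = 2 f |PΩ⁻|`. -/

namespace Cfsg.Agent.Lib.Helper43.M2Out

open Matrix
open Cfsg.Agent.Lib.Helper94.Basic
  Cfsg.Agent.Lib.Helper45.OmegaAut Cfsg.Agent.Lib.Helper43.SemiSim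
  Cfsg.Agent.Lib.Helper43.M2Semi Cfsg.Agent.Lib.Helper43.MiBase
  Cfsg.Agent.Lib.Helper43.M2Frob
  Cfsg.Agent.Lib.Helper44.QSpace Cfsg.Agent.Lib.Helper44.OGroup
  Cfsg.Agent.Lib.Helper44.Omega2 Cfsg.Agent.Lib.Helper44.OMat Cfsg.Agent.Lib.Helper44.CD2a
  Cfsg.Agent.Lib.Helper44.NegPairs

universe u

variable {F : Type u} [Field F] [Fintype F] {m : ℕ}

theorem charP_two {f : ℕ} (hf : 1 ≤ f) (hF : Fintype.card F = 2 ^ f) : CharP F 2 := by
  obtain ⟨p', hp'⟩ := CharP.exists F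
  haveI := hp'
  obtain ⟨n, hn1, hn2⟩ := FiniteField.card F p'
  have h1 : 2 ∣ p' ^ (n : ℕ) := by
    rw [← hn2, hF]
    exact dvd_pow_self 2 (by omega)
  have h2 : 2 = p' :=
    (Nat.prime_dvd_prime_iff_eq Nat.prime_two hn1).1 (Nat.Prime.dvd_of_dvd_pow Nat.prime_two h1)
  rw [h2]
  exact hp'

theorem good_minus [CharP F 2] (hm : 3 ≤ m) (a b : F)
    (hab : ∀ z₁ z₂ : F, z₁ ^ 2 + a * z₁ * z₂ + b * z₂ ^ 2 = 0 → z₁ = 0 ∧ z₂ = 0) :
    Good (minusQ m F a b) := by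
  apply good_of_card (Cfsg.Agent.Lib.Helper45.OmegaCenter.sep_minusQ' m a b hab)
  right
  rw [Module.finrank_fintype_fun_eq_card, Fintype.card_sum, Fintype.card_sum, Fintype.card_fin,
    Fintype.card_fin]
  omega

theorem a_ne_zero [CharP F 2] (a b : F)
    (hab : ∀ z₁ z₂ : F, z₁ ^ 2 + a * z₁ * z₂ + b * z₂ ^ 2 = 0 → z₁ = 0 ∧ z₂ = 0) : a ≠ 0 := by
  rintro rfl
  obtain ⟨l, hl⟩ := exists_sq b
  have h2 : (2 : F) = 0 := two_eq
  have h := (hab l 1 (by rw [← hl]; linear_combination (l * l) * h2)).2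
  exact one_ne_zero h

/-- `Aut(PΩ⁻)` is generated by the inner automorphisms and one automorphism. -/
theorem exists_gen [CharP F 2] (hm : 3 ≤ m) (a b : F)
    (hab : ∀ z₁ z₂ : F, z₁ ^ 2 + a * z₁ * z₂ + b * z₂ ^ 2 = 0 → z₁ = 0 ∧ z₂ = 0)
    (f : ℕ) (hF : Fintype.card F = 2 ^ f)
    (hΓ : Cfsg.gammaPOmega F (Cfsg.quadFormMinus m F a b) = ⊤) :
    ∃ β : MulAut (Cfsg.POmega F (Cfsg.quadFormMinus m F a b)),
      Cfsg.Inn (Cfsg.POmega F (Cfsg.quadFormMinus m F a b)) ⊔ Subgroup.zpowers β = ⊤ := by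
  have hy : Hy m F a b := ⟨hm, hab⟩
  have ha : a ≠ 0 := a_ne_zero a b hab
  have hS := Cfsg.Agent.Lib.Helper45.OmegaCenter.sep_minusQ' m a b hab
  have hG := good_minus hm a b hab
  have h₀ := pair0 (m := m) a b ha
  obtain ⟨hf, ef⟩ := pow_pair h₀ f
  have hr : SemiPair (Cfsg.quadFormMinus m F a b) (gU m 1 a one_ne_zero) (RingEquiv.refl F) 1 := by
    have h := hf
    rw [tw_f a b hab ha f hF, frob_pow_f f hF] at h
    exact h
  have hpow : semiAut h₀ ^ f = semiAut hr := by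
    rw [ef]
    apply semiAut_ext
    intro s
    rw [tw_f a b hab ha f hF, frob_pow_f f hF]
  have hw : minusQ m F a b (wv ![1, 0]) ≠ 0 := by
    show Cfsg.quadFormMinus m F a b (wv ![1, 0]) ≠ 0
    rw [Q_wv]
    simp [N]
  refine ⟨semiAut h₀, ?_⟩
  rw [eq_top_iff, ← hΓ]
  exact gamma_le (hQ hy).smul exists_frob_pow exists_sq h₀ f hr hpow
    (fun o ho => omega_or (minusQ m F a b) hS hG (wv ![1, 0]) hw _ (refl_mulVec a b) o ho)

theorem center_bot [CharP F 2] (hm : 3 ≤ m) (a b : F)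
    (hab : ∀ z₁ z₂ : F, z₁ ^ 2 + a * z₁ * z₂ + b * z₂ ^ 2 = 0 → z₁ = 0 ∧ z₂ = 0) :
    Subgroup.center ↥(Cfsg.Omega F (Cfsg.quadFormMinus m F a b)) = ⊥ := by
  rw [eq_bot_iff]
  intro z hz
  rw [Subgroup.mem_bot]
  have h := Cfsg.Agent.Lib.Helper45.OmegaCenter.centralizer_two (minusQ m F a b)
    (Cfsg.Agent.Lib.Helper45.OmegaCenter.sep_minusQ' m a b hab) (good_minus hm a b hab)
    (by rw [Fintype.card_sum, Fintype.card_sum, Fintype.card_fin, Fintype.card_fin]; omega)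
    (z : ↥(Cfsg.isometryGroup F (Cfsg.quadFormMinus m F a b)))
    (Cfsg.Agent.Lib.Helper45.OmegaCenter.center_centralizes (Cfsg.quadFormMinus m F a b) z hz)
  exact Subtype.ext h

/-- the outer automorphism group is cyclic of order `2f` -/
theorem out_main [CharP F 2] (hm : 3 ≤ m) (a b : F)
    (hab : ∀ z₁ z₂ : F, z₁ ^ 2 + a * z₁ * z₂ + b * z₂ ^ 2 = 0 → z₁ = 0 ∧ z₂ = 0)
    (f : ℕ) (hF : Fintype.card F = 2 ^ f)
    (hΓ : Cfsg.gammaPOmega F (Cfsg.quadFormMinus m F a b) = ⊤)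
    (hcard : Nat.card (MulAut (Cfsg.POmega F (Cfsg.quadFormMinus m F a b))) =
      2 * f * Nat.card (Cfsg.POmega F (Cfsg.quadFormMinus m F a b))) :
    IsCyclic (Cfsg.Out (Cfsg.POmega F (Cfsg.quadFormMinus m F a b))) ∧
      Nat.card (Cfsg.Out (Cfsg.POmega F (Cfsg.quadFormMinus m F a b))) = 2 * f := by
  obtain ⟨β, hβ⟩ := exists_gen hm a b hab f hF hΓ
  refine ⟨out_cyclic β hβ, ?_⟩
  have h1 := Subgroup.card_eq_card_quotient_mul_card_subgroup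
    (Cfsg.Inn (Cfsg.POmega F (Cfsg.quadFormMinus m F a b)))
  rw [Cfsg.Agent.Lib.Helper45.SemiAut.card_inn (center_bot hm a b hab), hcard] at h1
  haveI : Finite (Cfsg.POmega F (Cfsg.quadFormMinus m F a b)) := by
    unfold Cfsg.POmega
    infer_instance
  have hpos : 0 < Nat.card (Cfsg.POmega F (Cfsg.quadFormMinus m F a b)) := Nat.card_pos
  exact (Nat.eq_of_mul_eq_mul_right hpos h1).symm

end Cfsg.Agent.Lib.Helper43.M2Out
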