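import Mathlib
import Cfsg.Agent.Lib.Helper43.M2Root

set_option autoImplicit false

/-! Characteristic `p`: for an anisotropic binary form `z₁² + a z₁ z₂ + b z₂²` over a finite field
`F` with `p^f` elements, let `ω` be a root of `X² - aX + b` in the quadratic extension, so that the
form is the norm form of `z₁ + z₂ ω`.  Then `ω^p = B₁ + A₁ ω` with explicit `A₁, B₁ ∈ F`, the map
`(z₁, z₂) ↦ (z₁^p + B₁ z₂^p, A₁ z₂^p)` raises the form to the `p`-th power, and its `f`-th twisted
power is `(z₁, z₂) ↦ (z₁ + a z₂, -z₂)`. -/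

namespace Cfsg.Agent.Lib.Helper43.M3Root

open Polynomial

universe u

variable {F : Type u} [Field F]

/-- `x^n = (cAB n).2 + (cAB n).1 x` for a root `x` of `X² - aX + b` -/
def cAB (a b : F) : ℕ → F × F
  | 0 => (0, 1)
  | n + 1 => ((cAB a b n).2 + a * (cAB a b n).1, -(b * (cAB a b n).1))

theorem pow_root {K : Type*} [CommRing K] (ι : F →+* K) (a b : F) (x : K)
    (hx : x ^ 2 = ι a * x - ι b) (n : ℕ) :
    x ^ n = ι (cAB a b n).2 + ι (cAB a b n).1 * x := by
  induction n with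
  | zero =>
    show x ^ 0 = ι 1 + ι 0 * x
    rw [pow_zero, map_one, map_zero, zero_mul, add_zero]
  | succ n ih =>
    show x ^ (n + 1) = ι (-(b * (cAB a b n).1)) + ι ((cAB a b n).2 + a * (cAB a b n).1) * x
    rw [pow_succ, ih, map_neg, map_mul, map_add, map_mul]
    linear_combination ι (cAB a b n).1 * hx

/-- the coefficient of `ω` in `ω^p` -/
def A1 (p : ℕ) (a b : F) : F := (cAB a b p).1

/-- the constant coefficient of `ω^p` -/
def B1 (p : ℕ) (a b : F) : F := (cAB a b p).2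

/-- the coefficient sequences of `ω^(p^k)` -/
def As (p : ℕ) (a b : F) : ℕ → F
  | 0 => 1
  | k + 1 => A1 p a b * As p a b k ^ p

def Bs (p : ℕ) (a b : F) : ℕ → F
  | 0 => 0
  | k + 1 => Bs p a b k ^ p + B1 p a b * As p a b k ^ p

variable [Fintype F]

/-- the data of the quadratic extension -/
theorem exists_ext (a b : F)
    (hab : ∀ z₁ z₂ : F, z₁ ^ 2 + a * z₁ * z₂ + b * z₂ ^ 2 = 0 → z₁ = 0 ∧ z₂ = 0) :
    ∃ (K : Type u) (_ : Field K) (ι : F →+* K) (ω : K),
      ω ^ 2 = ι a * ω - ι b ∧ ∀ t : F, ι t ≠ ω := by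
  obtain ⟨P, hP⟩ : ∃ P : F[X], P = C (1 : F) * X ^ 2 + C (-a) * X + C b := ⟨_, rfl⟩
  have hdeg : P.natDegree = 2 := by
    rw [hP]
    exact natDegree_quadratic one_ne_zero
  have hmonic : P.Monic := by
    unfold Polynomial.Monic
    rw [hP]
    exact leadingCoeff_quadratic one_ne_zero
  have hP0 : P ≠ 0 := hmonic.ne_zero
  have hroots : P.roots = 0 := by
    apply Multiset.eq_zero_of_forall_notMem
    intro x hx
    rw [mem_roots hP0, IsRoot.def, hP] at hx
    simp only [eval_add, eval_mul, eval_C, eval_pow, eval_X, one_mul] at hx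
    have h1 := (hab (-x) 1 (by rw [← hx]; ring)).2
    exact one_ne_zero h1
  have hirr : Irreducible P :=
    (hmonic.irreducible_iff_roots_eq_zero_of_degree_le_three (by omega) (by omega)).2 hroots
  haveI : Fact (Irreducible P) := ⟨hirr⟩
  have hω : AdjoinRoot.root P ^ 2 = AdjoinRoot.of P a * AdjoinRoot.root P - AdjoinRoot.of P b := by
    have h := AdjoinRoot.eval₂_root P
    have e : ∀ q : F[X], q = C (1 : F) * X ^ 2 + C (-a) * X + C b →
        eval₂ (AdjoinRoot.of P) (AdjoinRoot.root P) q =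
          AdjoinRoot.root P ^ 2 + AdjoinRoot.of P (-a) * AdjoinRoot.root P + AdjoinRoot.of P b := by
      intro q hq
      rw [hq]
      simp only [eval₂_add, eval₂_mul, eval₂_C, eval₂_pow, eval₂_X, map_one, one_mul]
    rw [e P hP, map_neg] at h
    linear_combination h
  refine ⟨AdjoinRoot P, inferInstance, AdjoinRoot.of P, AdjoinRoot.root P, hω, ?_⟩
  intro t ht
  rw [← ht, ← map_pow, ← map_mul, ← map_sub] at hω
  have h0 : t ^ 2 = a * t - b := (AdjoinRoot.of P).injective hω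
  have h1 := (hab (-t) 1 (by linear_combination h0)).2
  exact one_ne_zero h1

variable (p : ℕ) [Fact p.Prime] [CharP F p]

/-- the semilinear map raises the norm form to the `p`-th power -/
theorem norm_frob (a b : F)
    (hab : ∀ z₁ z₂ : F, z₁ ^ 2 + a * z₁ * z₂ + b * z₂ ^ 2 = 0 → z₁ = 0 ∧ z₂ = 0) (z₁ z₂ : F) :
    (z₁ ^ p + B1 p a b * z₂ ^ p) ^ 2 + a * (z₁ ^ p + B1 p a b * z₂ ^ p) * (A1 p a b * z₂ ^ p) +
        b * (A1 p a b * z₂ ^ p) ^ 2 =
      (z₁ ^ 2 + a * z₁ * z₂ + b * z₂ ^ 2) ^ p := by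
  obtain ⟨K, _, ι, ω, hω, -⟩ := exists_ext a b hab
  haveI : CharP K p := charP_of_injective_ringHom ι.injective p
  apply ι.injective
  have hω' : (ι a - ω) ^ 2 = ι a * (ι a - ω) - ι b := by linear_combination hω
  have h1 := pow_root ι a b ω hω p
  have h2 := pow_root ι a b (ι a - ω) hω' p
  have e1 : (ι z₁ + ι z₂ * ω) ^ p =
      ι (z₁ ^ p + B1 p a b * z₂ ^ p) + ι (A1 p a b * z₂ ^ p) * ω := by
    rw [add_pow_char, mul_pow, h1]
    simp only [map_add, map_mul, map_pow]
    unfold A1 B1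
    ring
  have e2 : (ι z₁ + ι z₂ * (ι a - ω)) ^ p =
      ι (z₁ ^ p + B1 p a b * z₂ ^ p) + ι (A1 p a b * z₂ ^ p) * (ι a - ω) := by
    rw [add_pow_char, mul_pow, h2]
    simp only [map_add, map_mul, map_pow]
    unfold A1 B1
    ring
  have e3 : ∀ u v : F, ι (u ^ 2 + a * u * v + b * v ^ 2) =
      (ι u + ι v * ω) * (ι u + ι v * (ι a - ω)) := by
    intro u v
    simp only [map_add, map_mul, map_pow]
    linear_combination (ι v) ^ 2 * hω
  rw [e3, ← e1, ← e2, ← mul_pow, ← e3, map_pow]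

theorem A1_ne_zero (a b : F)
    (hab : ∀ z₁ z₂ : F, z₁ ^ 2 + a * z₁ * z₂ + b * z₂ ^ 2 = 0 → z₁ = 0 ∧ z₂ = 0) :
    A1 p a b ≠ 0 := by
  intro h0
  obtain ⟨t, ht⟩ := surjective_frobenius F p (-(B1 p a b))
  rw [frobenius_def] at ht
  have h := norm_frob p a b hab t 1
  rw [h0, ht] at h
  have h1 : (t ^ 2 + a * t * 1 + b * 1 ^ 2) ^ p = 0 := by
    rw [← h]
    ring
  have h2 := (hab t 1 (pow_eq_zero_iff (Fact.out : p.Prime).ne_zero |>.1 h1)).2
  exact one_ne_zero h2

/-- the `f`-th twisted power is the conjugation of the quadratic extension -/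
theorem frob_root (a b : F)
    (hab : ∀ z₁ z₂ : F, z₁ ^ 2 + a * z₁ * z₂ + b * z₂ ^ 2 = 0 → z₁ = 0 ∧ z₂ = 0)
    (f : ℕ) (hF : Fintype.card F = p ^ f) :
    As p a b f = -1 ∧ Bs p a b f = a := by
  obtain ⟨K, _, ι, ω, hω, hnoroot⟩ := exists_ext a b hab
  haveI : CharP K p := charP_of_injective_ringHom ι.injective p
  have h1 := pow_root ι a b ω hω p
  have key : ∀ k, ω ^ (p ^ k) = ι (Bs p a b k) + ι (As p a b k) * ω := by
    intro k
    induction k with
    | zero =>
      show ω ^ (p ^ 0) = ι 0 + ι 1 * ω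
      rw [pow_zero, pow_one, map_zero, map_one, zero_add, one_mul]
    | succ k ih =>
      show ω ^ (p ^ (k + 1)) = ι (Bs p a b k ^ p + B1 p a b * As p a b k ^ p) +
        ι (A1 p a b * As p a b k ^ p) * ω
      rw [pow_succ, pow_mul, ih, add_pow_char, mul_pow, h1]
      simp only [map_add, map_mul, map_pow]
      unfold A1 B1
      ring
  have hq : ∀ t : F, t ^ (p ^ f) = t := by
    intro t
    rw [← hF]
    exact FiniteField.pow_card t
  have hωq : ω ^ (p ^ f) ≠ ω := by
    intro h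
    rw [← hF] at h
    obtain ⟨t, ht⟩ := Cfsg.Agent.Lib.Helper43.M2Root.mem_range_of_pow_card ι ω h
    exact hnoroot t ht
  have hroot : (ω ^ (p ^ f)) ^ 2 = ι a * ω ^ (p ^ f) - ι b := by
    have h := congrArg (fun x => x ^ (p ^ f)) hω
    rw [sub_pow_char_pow, mul_pow, ← map_pow, ← map_pow, hq, hq, ← pow_mul, mul_comm 2,
      pow_mul] at h
    exact h
  have hprod : (ω ^ (p ^ f) - ω) * (ω ^ (p ^ f) - (ι a - ω)) = 0 := by
    linear_combination hroot - hω
  have hconj : ω ^ (p ^ f) = ι a - ω := by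
    rcases mul_eq_zero.1 hprod with h | h
    · exact absurd (sub_eq_zero.1 h) hωq
    · exact sub_eq_zero.1 h
  have hk := key f
  rw [hconj] at hk
  have hAf : As p a b f = -1 := by
    by_contra hne
    have hne' : As p a b f + 1 ≠ 0 := by
      intro h
      exact hne (eq_neg_of_add_eq_zero_left h)
    apply hnoroot ((a - Bs p a b f) / (As p a b f + 1))
    have h1 : ι (As p a b f + 1) ≠ 0 := by
      intro h0
      exact hne' (ι.injective (by rw [h0, map_zero]))
    rw [map_div₀, div_eq_iff h1, map_sub, map_add, map_one]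
    linear_combination hk
  refine ⟨hAf, ?_⟩
  rw [hAf, map_neg, map_one] at hk
  have h3 : ι a = ι (Bs p a b f) := by linear_combination hk
  exact (ι.injective h3).symm

end Cfsg.Agent.Lib.Helper43.M3Root
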