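import Mathlib
import Cfsg.Agent.Lib.Helper43.M2Frob
import Cfsg.Agent.Lib.Helper43.M3Root

set_option autoImplicit false

/-! Characteristic `p`: an explicit Frobenius-semilinear isometry of the minus-type form whose
`f`-th power (`|F| = p^f`) is the linear involution `(z₁, z₂) ↦ (z₁ + a z₂, -z₂)` of
determinant `-1` on the anisotropic plane. -/

namespace Cfsg.Agent.Lib.Helper43.M3Frob

open Matrix Polynomial
open Cfsg.Agent.Lib.Helper94.Basic
  Cfsg.Agent.Lib.Helper43.SemiSim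
  Cfsg.Agent.Lib.Helper43.M2Semi Cfsg.Agent.Lib.Helper43.MiBase
  Cfsg.Agent.Lib.Helper43.M2Frob Cfsg.Agent.Lib.Helper43.M3Root

universe u

variable {F : Type u} [Field F] [Fintype F] {m : ℕ} (p : ℕ) [Fact p.Prime] [CharP F p]

/-- the Frobenius automorphism -/
noncomputable def frobP (F : Type u) [Field F] [Fintype F] (p : ℕ) [Fact p.Prime] [CharP F p] :
    RingAut F :=
  frobeniusEquiv F p

theorem frobP_apply (x : F) : frobP F p x = x ^ p := by
  unfold frobP
  rw [frobeniusEquiv_apply, frobenius_def]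

theorem frobP_pow_apply (k : ℕ) (x : F) :
    ((frobP F p ^ k : RingAut F) : F ≃+* F) x = x ^ (p ^ k) := by
  induction k with
  | zero =>
    rw [pow_zero, pow_zero, pow_one]
    rfl
  | succ k ih =>
    rw [pow_succ', RingAut.mul_apply, ih, frobP_apply, ← pow_mul, ← pow_succ]

theorem exists_frobP_pow (σ : F ≃+* F) : ∃ k : ℕ, σ = (frobP F p ^ k : RingAut F) := by
  letI : Algebra (ZMod p) F := ZMod.algebra F p
  obtain ⟨τ, hτ⟩ : ∃ τ : F ≃ₐ[ZMod p] F, ∀ x, τ x = σ x :=
    ⟨AlgEquiv.ofRingEquiv (f := σ) (fun x =>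
      RingHom.congr_fun (Subsingleton.elim ((σ : F →+* F).comp (algebraMap (ZMod p) F))
        (algebraMap (ZMod p) F)) x), fun x => rfl⟩
  obtain ⟨n, hn⟩ := (FiniteField.bijective_frobeniusAlgEquivOfAlgebraic_pow (ZMod p) F).2 τ
  refine ⟨(n : ℕ), ?_⟩
  apply RingEquiv.ext
  intro x
  rw [frobP_pow_apply, ← hτ, ← hn]
  show (FiniteField.frobeniusAlgEquivOfAlgebraic (ZMod p) F ^ (n : ℕ)) x = _
  rw [AlgEquiv.coe_pow, FiniteField.coe_frobeniusAlgEquivOfAlgebraic, ZMod.card, pow_iterate]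

theorem frobP_pow_f (f : ℕ) (hF : Fintype.card F = p ^ f) :
    ((frobP F p ^ f : RingAut F) : F ≃+* F) = RingEquiv.refl F := by
  apply RingEquiv.ext
  intro x
  rw [frobP_pow_apply, ← hF, FiniteField.pow_card]
  rfl

/-- the Frobenius automorphism has order exactly `f` -/
theorem dvd_of_frobP_pow (f : ℕ) (hF : Fintype.card F = p ^ f) (k : ℕ)
    (h : ((frobP F p ^ k : RingAut F) : F ≃+* F) = RingEquiv.refl F) : f ∣ k := by
  classical
  have hp1 : 1 < p := (Fact.out : p.Prime).one_lt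
  have hf0 : 0 < f := by
    rcases Nat.eq_zero_or_pos f with h0 | h0
    · rw [h0, pow_zero] at hF
      have := Fintype.one_lt_card (α := F)
      omega
    · exact h0
  have hj : ∀ x : F, x ^ (p ^ (k % f)) = x := by
    intro x
    have h1 := frobP_pow_apply p k x
    rw [h] at h1
    have h2 : x ^ (p ^ k) = x := h1.symm
    have h3 : ∀ n : ℕ, x ^ (p ^ (f * n + k % f)) = x ^ (p ^ (k % f)) := by
      intro n
      induction n with
      | zero => rw [mul_zero, zero_add]
      | succ n ih =>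
        have e : f * (n + 1) + k % f = f + (f * n + k % f) := by ring
        rw [e, pow_add, pow_mul, ← hF, FiniteField.pow_card, ih]
    rw [← h3 (k / f), Nat.div_add_mod]
    exact h2
  by_contra hnd
  have hpos : 0 < k % f := Nat.pos_of_ne_zero (fun h0 => hnd (Nat.dvd_of_mod_eq_zero h0))
  have hlt : k % f < f := Nat.mod_lt _ hf0
  have h1 : 1 < p ^ (k % f) := Nat.one_lt_pow hpos.ne' hp1
  have hne : (X ^ (p ^ (k % f)) - X : F[X]) ≠ 0 := FiniteField.X_pow_card_sub_X_ne_zero F h1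
  have hdeg : (X ^ (p ^ (k % f)) - X : F[X]).natDegree = p ^ (k % f) :=
    FiniteField.X_pow_card_sub_X_natDegree_eq F h1
  have hsub : (Finset.univ : Finset F) ⊆ (X ^ (p ^ (k % f)) - X : F[X]).roots.toFinset := by
    intro x _
    rw [Multiset.mem_toFinset, mem_roots hne, IsRoot.def, eval_sub, eval_pow, eval_X, hj,
      sub_self]
  have hc := Finset.card_le_card hsub
  have hc2 : (X ^ (p ^ (k % f)) - X : F[X]).roots.toFinset.card ≤ p ^ (k % f) := by
    calc (X ^ (p ^ (k % f)) - X : F[X]).roots.toFinset.card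
        ≤ (X ^ (p ^ (k % f)) - X : F[X]).roots.card := Multiset.toFinset_card_le _
      _ ≤ (X ^ (p ^ (k % f)) - X : F[X]).natDegree := card_roots' _
      _ = p ^ (k % f) := hdeg
  rw [Finset.card_univ, hF] at hc
  have hlt2 : p ^ (k % f) < p ^ f := Nat.pow_lt_pow_right hp1 hlt
  omega

/-- the Frobenius-semilinear isometry -/
theorem pairP (a b : F)
    (hab : ∀ z₁ z₂ : F, z₁ ^ 2 + a * z₁ * z₂ + b * z₂ ^ 2 = 0 → z₁ = 0 ∧ z₂ = 0) :
    SemiPair (Cfsg.quadFormMinus m F a b)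
      (gU m (A1 p a b) (B1 p a b) (A1_ne_zero p a b hab)) (frobP F p) 1 := by
  refine ⟨one_ne_zero, fun v => ?_⟩
  rw [gU_coe, Q_bm, one_mul]
  unfold Cfsg.quadFormMinus
  rw [map_add, map_sum]
  simp only [map_mul, frobP_apply]
  congr 1
  exact norm_frob p a b hab (v (Sum.inr 0)) (v (Sum.inr 1))

theorem twP_coe (a b : F)
    (hab : ∀ z₁ z₂ : F, z₁ ^ 2 + a * z₁ * z₂ + b * z₂ ^ 2 = 0 → z₁ = 0 ∧ z₂ = 0) (k : ℕ) :
    ((tw (gU m (A1 p a b) (B1 p a b) (A1_ne_zero p a b hab)) (frobP F p) k : GL (MI m) F) :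
      Matrix (MI m) (MI m) F) = bm m (U (As p a b k) (Bs p a b k)) := by
  induction k with
  | zero =>
    rw [tw_zero, Units.val_one]
    show (1 : Matrix (MI m) (MI m) F) = bm m (U 1 0)
    rw [U_one, bm_one]
  | succ k ih =>
    rw [tw_succ, Units.val_mul]
    show bm m (U (A1 p a b) (B1 p a b)) *
      ((tw (gU m (A1 p a b) (B1 p a b) (A1_ne_zero p a b hab)) (frobP F p) k : GL (MI m) F) :
        Matrix (MI m) (MI m) F).map ((frobP F p : F ≃+* F) : F →+* F) = _
    rw [ih, bm_map, bm_mul, U_map, U_mul]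
    show bm m (U (A1 p a b * frobP F p (As p a b k))
        (frobP F p (Bs p a b k) + B1 p a b * frobP F p (As p a b k))) =
      bm m (U (A1 p a b * As p a b k ^ p) (Bs p a b k ^ p + B1 p a b * As p a b k ^ p))
    rw [frobP_apply, frobP_apply]

theorem twP_f (a b : F)
    (hab : ∀ z₁ z₂ : F, z₁ ^ 2 + a * z₁ * z₂ + b * z₂ ^ 2 = 0 → z₁ = 0 ∧ z₂ = 0)
    (f : ℕ) (hF : Fintype.card F = p ^ f) :
    tw (gU m (A1 p a b) (B1 p a b) (A1_ne_zero p a b hab)) (frobP F p) f =
      gU m (-1) a (neg_ne_zero.2 one_ne_zero) := by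
  apply Units.ext
  rw [twP_coe p a b hab, gU_coe]
  obtain ⟨h1, h2⟩ := frob_root p a b hab f hF
  rw [h1, h2]

omit [Fintype F] in
/-- the conjugation is an involution -/
theorem conj_sq (a : F) :
    gU m (-1) a (neg_ne_zero.2 one_ne_zero) * gU m (-1) a (neg_ne_zero.2 one_ne_zero) = 1 := by
  apply Units.ext
  rw [Units.val_mul, gU_coe, bm_mul, U_mul, Units.val_one]
  have e : U ((-1 : F) * -1) (a + a * -1) = U 1 0 := by
    congr 1 <;> ring
  rw [e, U_one, bm_one]

omit [Fintype F] in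
/-- the conjugation has determinant `-1` -/
theorem conj_det (a : F) :
    ((gU m (-1) a (neg_ne_zero.2 one_ne_zero) : GL (MI m) F) : Matrix (MI m) (MI m) F).det = -1 := by
  rw [gU_coe]
  unfold bm U
  rw [Matrix.det_fromBlocks_zero₁₂, Matrix.det_one, Matrix.det_fin_two_of]
  ring

end Cfsg.Agent.Lib.Helper43.M3Frob
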