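import Mathlib

set_option autoImplicit false

/-! Abstract group theory for the outer automorphism group of a minus-type orthogonal group in odd
characteristic: a group `O` generated by a normal subgroup `E` (of order 4, resp. dihedral of
order 8) and an element `x` with `x^k ∈ E ↔ f ∣ k`, `x^(2f) = 1`, `x^f ∈ E` outside a normal
subgroup `D` of `E` of index 2, is `Z/2 × Z/2f`, resp. `D₈ × Z/f` (`f` odd). -/

namespace Cfsg.Agent.Lib.Helper43.M3Grp

/-- transfer of a description of `H / (I ∩ H)` to the image of `H` in `G / I` -/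
theorem map_equiv {G : Type*} [Group G] (I H : Subgroup G) [I.Normal] {X : Type*} [Group X]
    (φ : ↥H →* X) (hs : Function.Surjective φ) (hk : φ.ker = I.subgroupOf H) :
    Nonempty (↥(H.map (QuotientGroup.mk' I)) ≃* X) := by
  have hπs : Function.Surjective ((QuotientGroup.mk' I).subgroupMap H) :=
    (QuotientGroup.mk' I).subgroupMap_surjective H
  have hπk : ((QuotientGroup.mk' I).subgroupMap H).ker = I.subgroupOf H := by
    ext x
    rw [MonoidHom.mem_ker, Subgroup.mem_subgroupOf]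
    constructor
    · intro h
      have h1 := congrArg Subtype.val h
      exact (QuotientGroup.eq_one_iff _).1 h1
    · intro h
      apply Subtype.ext
      exact (QuotientGroup.eq_one_iff _).2 h
  exact ⟨(QuotientGroup.quotientKerEquivOfSurjective _ hπs).symm.trans
    ((QuotientGroup.quotientMulEquivOfEq (hπk.trans hk.symm)).trans
      (QuotientGroup.quotientKerEquivOfSurjective φ hs))⟩

theorem cyclic_equiv {H : Type*} [Group H] (hc : IsCyclic H) (n : ℕ) (hn : Nat.card H = n) :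
    Nonempty (H ≃* Multiplicative (ZMod n)) := by
  subst hn
  exact ⟨(zmodCyclicMulEquiv hc).symm⟩

variable {O : Type*} [Group O]

theorem exists_pow_of_mem_zpowers [Finite O] {x z : O} (h : z ∈ Subgroup.zpowers x) :
    ∃ k : ℕ, z = x ^ k := by
  obtain ⟨k, hk⟩ := (Submonoid.mem_powers_iff _ _).1 (mem_powers_iff_mem_zpowers.2 h)
  exact ⟨k, hk.symm⟩

theorem order_x (E : Subgroup O) (x : O) (f : ℕ) (hf : 0 < f)
    (hxE : ∀ k : ℕ, x ^ k ∈ E → f ∣ k) (hx2 : x ^ (2 * f) = 1) (hxf : x ^ f ≠ 1) :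
    orderOf x = 2 * f := by
  have h1 : orderOf x ∣ 2 * f := orderOf_dvd_of_pow_eq_one hx2
  have h2 : f ∣ orderOf x := hxE _ (by rw [pow_orderOf_eq_one]; exact E.one_mem)
  obtain ⟨j, hj⟩ := h2
  have h3 : j ∣ 2 := by
    rw [hj, mul_comm 2 f] at h1
    exact Nat.dvd_of_mul_dvd_mul_left hf h1
  have h4 : j = 1 ∨ j = 2 := by
    have := Nat.le_of_dvd (by norm_num) h3
    have hj0 : j ≠ 0 := by
      rintro rfl
      simp at h3
    interval_cases j
    · exact absurd rfl hj0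
    · exact Or.inl rfl
    · exact Or.inr rfl
  rcases h4 with rfl | rfl
  · rw [mul_one] at hj
    exact absurd (by rw [← hj, pow_orderOf_eq_one]) hxf
  · rw [hj, mul_comm]

/-- powers of `x` lying in `E` are `1` or `x^f` -/
theorem pow_mem_E (E : Subgroup O) (x : O) (f : ℕ)
    (hxE : ∀ k : ℕ, x ^ k ∈ E → f ∣ k) (hx2 : x ^ (2 * f) = 1) (k : ℕ) (h : x ^ k ∈ E) :
    x ^ k = 1 ∨ x ^ k = x ^ f := by
  obtain ⟨j, rfl⟩ := hxE k h
  rcases Nat.even_or_odd' j with ⟨i, rfl | rfl⟩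
  · left
    rw [← mul_assoc, mul_comm f 2, pow_mul, hx2, one_pow]
  · right
    rw [mul_add, mul_one, ← mul_assoc, mul_comm f 2, pow_add, pow_mul, hx2, one_pow, one_mul]

/-- `E = D ∪ D t` when `D` has index two in `E` and `t ∈ E ∖ D` -/
theorem mem_or_of_index_two [Finite O] (E D : Subgroup O) (hDE : D ≤ E)
    (hcard : Nat.card E = 2 * Nat.card D) (t : O) (htE : t ∈ E) (htD : t ∉ D) (e : O)
    (he : e ∈ E) : e ∈ D ∨ e * t⁻¹ ∈ D := by
  have hidx : (D.subgroupOf E).index = 2 := by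
    have h1 := Subgroup.card_mul_index (D.subgroupOf E)
    rw [Nat.card_congr (Subgroup.subgroupOfEquivOfLe hDE).toEquiv, hcard] at h1
    have hpos : 0 < Nat.card D := Nat.card_pos
    exact Nat.eq_of_mul_eq_mul_left hpos (by rw [h1, mul_comm])
  by_cases heD : e ∈ D
  · exact Or.inl heD
  · right
    have h := Subgroup.mul_mem_iff_of_index_two hidx (a := (⟨e, he⟩ : E))
      (b := (⟨t⁻¹, E.inv_mem htE⟩ : E))
    have h1 : ((⟨e, he⟩ : E) ∈ D.subgroupOf E ↔ (⟨t⁻¹, E.inv_mem htE⟩ : E) ∈ D.subgroupOf E) := by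
      rw [Subgroup.mem_subgroupOf, Subgroup.mem_subgroupOf]
      constructor
      · intro h2
        exact absurd h2 heD
      · intro h2
        exact absurd (by simpa using D.inv_mem h2) htD
    exact Subgroup.mem_subgroupOf.1 (h.2 h1)

/-- a group with a normal subgroup of order 2 and a cyclic subgroup of order `n` meeting it
trivially and generating with it is `Z/2 × Z/n` -/
theorem mulEquiv_of_split [Finite O] {n : ℕ} (D C : Subgroup O) [D.Normal]
    (hD : Nat.card D = 2) (hC : Nat.card C = n) (hCc : IsCyclic C) (hdisj : D ⊓ C = ⊥)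
    (hsurj : ∀ o : O, ∃ d ∈ D, ∃ c ∈ C, o = d * c) :
    Nonempty (O ≃* Multiplicative (ZMod 2 × ZMod n)) := by
  have hcen : ∀ d ∈ D, ∀ x : O, x * d = d * x := by
    intro d hd x
    obtain ⟨y, -, hy'⟩ := (Nat.card_eq_two_iff' (1 : D)).mp hD
    by_cases hd1 : d = 1
    · rw [hd1, mul_one, one_mul]
    · have h1 : (⟨d, hd⟩ : D) = y := hy' _ (fun h => hd1 (congrArg Subtype.val h))
      have hc : x * d * x⁻¹ ∈ D := ‹D.Normal›.conj_mem d hd x
      have h2 : (⟨x * d * x⁻¹, hc⟩ : D) = y := by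
        apply hy'
        intro h
        apply hd1
        have h3 : x * d * x⁻¹ = 1 := congrArg Subtype.val h
        have h4 : d = x⁻¹ * (x * d * x⁻¹) * x := by group
        rw [h4, h3]
        group
      have h5 : x * d * x⁻¹ = d := congrArg Subtype.val (h2.trans h1.symm)
      calc x * d = x * d * x⁻¹ * x := by group
        _ = d * x := by rw [h5]
  obtain ⟨φ, hφ⟩ : ∃ φ : D × C →* O, ∀ (d : D) (c : C), φ (d, c) = (d : O) * (c : O) :=
    ⟨MonoidHom.noncommCoprod D.subtype C.subtype (fun d c => (hcen d.1 d.2 c.1).symm),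
      fun d c => rfl⟩
  have hinj : Function.Injective φ := by
    rw [injective_iff_map_eq_one]
    rintro ⟨d, c⟩ h
    rw [hφ] at h
    have h2 : (d : O) ∈ D ⊓ C := by
      refine ⟨d.2, ?_⟩
      have h3 : (d : O) = (c : O)⁻¹ := eq_inv_of_mul_eq_one_left h
      rw [h3]
      exact C.inv_mem c.2
    rw [hdisj, Subgroup.mem_bot] at h2
    have h3 : (c : O) = 1 := by
      rw [h2, one_mul] at h
      exact h
    exact Prod.ext (Subtype.ext h2) (Subtype.ext h3)
  have hsur : Function.Surjective φ := by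
    intro o
    obtain ⟨d, hd, c, hc, rfl⟩ := hsurj o
    exact ⟨(⟨d, hd⟩, ⟨c, hc⟩), hφ _ _⟩
  haveI : Fact (Nat.Prime 2) := ⟨Nat.prime_two⟩
  obtain ⟨e1⟩ := cyclic_equiv (isCyclic_of_prime_card hD) 2 hD
  obtain ⟨e2⟩ := cyclic_equiv hCc n hC
  exact ⟨((MulEquiv.ofBijective φ ⟨hinj, hsur⟩).symm.trans (MulEquiv.prodCongr e1 e2)).trans
    (MulEquiv.prodMultiplicative (G := ZMod 2) (H := ZMod n)).symm⟩

/-- the case `E` of order 4 -/
theorem split_B [Finite O] (f : ℕ) (hf : 0 < f) (E D : Subgroup O) [D.Normal] (hDE : D ≤ E)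
    (hD : Nat.card D = 2) (hE : Nat.card E = 4) (x : O)
    (hxE : ∀ k : ℕ, x ^ k ∈ E → f ∣ k) (hx2 : x ^ (2 * f) = 1) (hxfE : x ^ f ∈ E)
    (hxfD : x ^ f ∉ D) (hgen : ∀ o : O, ∃ e ∈ E, ∃ k : ℕ, o = e * x ^ k) :
    Nonempty (O ≃* Multiplicative (ZMod 2 × ZMod (2 * f))) := by
  have hxf1 : x ^ f ≠ 1 := fun h => hxfD (by rw [h]; exact D.one_mem)
  have hord := order_x E x f hf hxE hx2 hxf1
  apply mulEquiv_of_split D (Subgroup.zpowers x) hD (by rw [Nat.card_zpowers, hord])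
    inferInstance
  · rw [eq_bot_iff]
    rintro z ⟨hzD, hzC⟩
    rw [Subgroup.mem_bot]
    obtain ⟨k, rfl⟩ := exists_pow_of_mem_zpowers hzC
    rcases pow_mem_E E x f hxE hx2 k (hDE hzD) with h | h
    · exact h
    · rw [h] at hzD
      exact absurd hzD hxfD
  · intro o
    obtain ⟨e, he, k, rfl⟩ := hgen o
    rcases mem_or_of_index_two E D hDE (by rw [hE, hD]) (x ^ f) hxfE hxfD e he with h | h
    · exact ⟨e, h, x ^ k, Subgroup.pow_mem _ (Subgroup.mem_zpowers x) k, rfl⟩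
    · refine ⟨e * (x ^ f)⁻¹, h, x ^ f * x ^ k, ?_, by group⟩
      exact Subgroup.mul_mem _ (Subgroup.pow_mem _ (Subgroup.mem_zpowers x) f)
        (Subgroup.pow_mem _ (Subgroup.mem_zpowers x) k)

/-- the square of an element normalising a cyclic group of order 4 centralises it -/
theorem sq_centralizes (D : Subgroup O) [D.Normal] (hDc : IsCyclic D) (hD : Nat.card D = 4)
    (x : O) (d : O) (hd : d ∈ D) : x ^ 2 * d = d * x ^ 2 := by
  haveI := hDc
  obtain ⟨i, hi⟩ := MonoidHom.map_cyclic ((MulAut.conjNormal x : MulAut D).toMonoidHom)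
  have hi' : ∀ z : D, x * (z : O) * x⁻¹ = ((z ^ i : D) : O) := by
    intro z
    have h := congrArg Subtype.val (hi z)
    rw [← h]
    rfl
  have h4 : ∀ z : D, z ^ (4 : ℤ) = 1 := by
    intro z
    have h := pow_card_eq_one' (x := z)
    rw [hD] at h
    exact_mod_cast h
  have hodd : Odd i := by
    by_contra hne
    rw [Int.not_odd_iff_even] at hne
    obtain ⟨j, hj⟩ := hne
    obtain ⟨g, hg⟩ := IsCyclic.exists_ofOrder_eq_natCard (α := D)
    rw [hD] at hg
    have h1 : (g ^ i) ^ 2 = 1 := by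
      have e : (g ^ i) ^ 2 = g ^ (4 * j) := by
        rw [← zpow_natCast, ← zpow_mul, hj]
        congr 1
        push_cast
        ring
      rw [e, zpow_mul, h4, one_zpow]
    have h2 : (g : O) ^ 2 = 1 := by
      have h3 : (x * (g : O) * x⁻¹) ^ 2 = 1 := by
        rw [hi']
        exact_mod_cast congrArg Subtype.val h1
      have h5 : (x * (g : O) * x⁻¹) ^ 2 = x * (g : O) ^ 2 * x⁻¹ := by
        rw [pow_two, pow_two]
        group
      rw [h5] at h3
      calc (g : O) ^ 2 = x⁻¹ * (x * (g : O) ^ 2 * x⁻¹) * x := by group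
        _ = 1 := by rw [h3]; group
    have h6 : g ^ 2 = 1 := Subtype.ext (by exact_mod_cast h2)
    have h7 := orderOf_dvd_of_pow_eq_one h6
    rw [hg] at h7
    omega
  have hsq : ∀ z : D, (z ^ i) ^ i = z := by
    intro z
    rw [← zpow_mul, ← pow_two]
    have h1 := Int.sq_mod_four_eq_one_of_odd hodd
    have h2 : i ^ 2 = 4 * (i ^ 2 / 4) + 1 := by
      have := Int.mul_ediv_add_emod (i ^ 2) 4
      omega
    rw [h2, zpow_add, zpow_mul, h4, one_zpow, one_mul, zpow_one]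
  have h1 : x * (x * d * x⁻¹) * x⁻¹ = d := by
    have e1 := hi' ⟨d, hd⟩
    have e2 := hi' (⟨d, hd⟩ ^ i)
    rw [← e1] at e2
    rw [e2, hsq]
  calc x ^ 2 * d = x * (x * d * x⁻¹) * x⁻¹ * x ^ 2 := by rw [pow_two]; group
    _ = d * x ^ 2 := by rw [h1]

/-- the dihedral case -/
theorem split_A [Finite O] (f : ℕ) (hf : Odd f) (E D : Subgroup O) [D.Normal] (hDE : D ≤ E)
    (hDc : IsCyclic D) (hD : Nat.card D = 4) (hE : Nonempty (E ≃* DihedralGroup 4)) (x : O)
    (hxE : ∀ k : ℕ, x ^ k ∈ E → f ∣ k) (hx2 : x ^ (2 * f) = 1) (hxfE : x ^ f ∈ E)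
    (hxfD : x ^ f ∉ D) (hgen : ∀ o : O, ∃ e ∈ E, ∃ k : ℕ, o = e * x ^ k) :
    Nonempty (O ≃* DihedralGroup 4 × Multiplicative (ZMod f)) := by
  obtain ⟨eE⟩ := hE
  have hf0 : 0 < f := hf.pos
  have hE8 : Nat.card E = 8 := by
    rw [Nat.card_congr eE.toEquiv, DihedralGroup.nat_card]
  have hxf1 : x ^ f ≠ 1 := fun h => hxfD (by rw [h]; exact D.one_mem)
  have hord := order_x E x f hf0 hxE hx2 hxf1
  -- `y = x²` centralises `E`
  have hcE : ∀ e ∈ E, x ^ 2 * e = e * x ^ 2 := by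
    intro e he
    have hc1 : x ^ 2 * x ^ f = x ^ f * x ^ 2 := by rw [← pow_add, ← pow_add, add_comm]
    have hc2 : x ^ 2 * (x ^ f)⁻¹ = (x ^ f)⁻¹ * x ^ 2 := by
      calc x ^ 2 * (x ^ f)⁻¹ = (x ^ f)⁻¹ * (x ^ f * x ^ 2) * (x ^ f)⁻¹ := by group
        _ = (x ^ f)⁻¹ * x ^ 2 := by rw [← hc1]; group
    rcases mem_or_of_index_two E D hDE (by rw [hE8, hD]) (x ^ f) hxfE hxfD e he with h | h
    · exact sq_centralizes D hDc hD x e h
    · have h1 := sq_centralizes D hDc hD x _ h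
      calc x ^ 2 * e = x ^ 2 * (e * (x ^ f)⁻¹) * x ^ f := by group
        _ = e * (x ^ f)⁻¹ * (x ^ 2 * x ^ f) := by rw [h1]; group
        _ = e * x ^ 2 := by rw [hc1]; group
  have hordy : orderOf (x ^ 2) = f := by
    rw [orderOf_pow' x (by norm_num), hord, Nat.gcd_mul_right_left, Nat.mul_div_cancel_left _
      (by norm_num)]
  have hcY : ∀ e ∈ E, ∀ y ∈ Subgroup.zpowers (x ^ 2), e * y = y * e := by
    intro e he y hy
    obtain ⟨k, rfl⟩ := exists_pow_of_mem_zpowers hy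
    clear hy
    induction k with
    | zero => rw [pow_zero, mul_one, one_mul]
    | succ k ih =>
      rw [pow_succ, ← mul_assoc, ih, mul_assoc, ← hcE e he, mul_assoc]
  obtain ⟨φ, hφ⟩ : ∃ φ : E × Subgroup.zpowers (x ^ 2) →* O,
      ∀ (e : E) (c : Subgroup.zpowers (x ^ 2)), φ (e, c) = (e : O) * (c : O) :=
    ⟨MonoidHom.noncommCoprod E.subtype (Subgroup.zpowers (x ^ 2)).subtype
      (fun e c => hcY e.1 e.2 c.1 c.2), fun e c => rfl⟩
  have hdisj : ∀ z : O, z ∈ E → z ∈ Subgroup.zpowers (x ^ 2) → z = 1 := by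
    intro z hzE hzY
    obtain ⟨k, rfl⟩ := exists_pow_of_mem_zpowers hzY
    rw [← pow_mul] at hzE ⊢
    have h1 : f ∣ 2 * k := hxE _ hzE
    have h2 : f ∣ k := (Nat.Coprime.dvd_mul_left (Nat.Coprime.symm
      (Nat.coprime_two_left.2 hf))).1 h1
    obtain ⟨j, rfl⟩ := h2
    rw [← mul_assoc, pow_mul, hx2, one_pow]
  have hinj : Function.Injective φ := by
    rw [injective_iff_map_eq_one]
    rintro ⟨e, c⟩ h
    rw [hφ] at h
    have h3 : (e : O) = (c : O)⁻¹ := eq_inv_of_mul_eq_one_left h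
    have h2 : (e : O) = 1 := hdisj _ e.2 (by rw [h3]; exact Subgroup.inv_mem _ c.2)
    have h4 : (c : O) = 1 := by
      rw [h2, one_mul] at h
      exact h
    exact Prod.ext (Subtype.ext h2) (Subtype.ext h4)
  have hsur : Function.Surjective φ := by
    have hxr : x ∈ φ.range := by
      obtain ⟨i, hi⟩ := hf
      have e : x = (x ^ f)⁻¹ * (x ^ 2) ^ (i + 1) := by
        rw [← pow_mul, hi]
        have e2 : 2 * (i + 1) = (2 * i + 1) + 1 := by ring
        rw [e2, pow_succ]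
        group
      have h1 : (x ^ f)⁻¹ * (x ^ 2) ^ (i + 1) ∈ φ.range :=
        ⟨(⟨(x ^ f)⁻¹, E.inv_mem hxfE⟩,
          ⟨(x ^ 2) ^ (i + 1), Subgroup.pow_mem _ (Subgroup.mem_zpowers _) _⟩), hφ _ _⟩
      rw [← e] at h1
      exact h1
    intro o
    obtain ⟨e, he, k, rfl⟩ := hgen o
    have h1 : e ∈ φ.range := ⟨(⟨e, he⟩, 1), by rw [hφ]; simp⟩
    exact φ.range.mul_mem h1 (φ.range.pow_mem hxr k)
  obtain ⟨e2⟩ := cyclic_equiv (inferInstance : IsCyclic (Subgroup.zpowers (x ^ 2))) f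
    (by rw [Nat.card_zpowers, hordy])
  exact ⟨(MulEquiv.ofBijective φ ⟨hinj, hsur⟩).symm.trans (MulEquiv.prodCongr eE e2)⟩

end Cfsg.Agent.Lib.Helper43.M3Grp
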