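import Mathlib
import Cfsg.Agent.Lib.Helper43.MiRoot
import Cfsg.Agent.Lib.Helper44.Siegel

set_option autoImplicit false

namespace Cfsg.Agent.Lib.Helper43.MiRigid

open Matrix
open Cfsg.Agent.Lib.Helper94.Basic Cfsg.Agent.Lib.Helper94.GLAux Cfsg.Agent.Lib.Helper94.Tv
  Cfsg.Agent.Lib.Helper94.QuadAbs Cfsg.Agent.Lib.Helper94.OrthSiegel
  Cfsg.Agent.Lib.Helper43.MiBase Cfsg.Agent.Lib.Helper43.MiRoot
open Cfsg.Agent.Lib.Helper43.OPlRoot (sg_add_left sg_inv sg_swap sg_self sg_conj_sim swap_inj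
  exists_other)

universe u

variable {F : Type u} [Field F] [Fintype F] {m : ℕ} {A B : F}

/-- an automorphism fixing all frame root elements and all short root elements fixes all Siegel
elements at frame vectors -/
theorem fix_frame (hm : Hy m F A B) (γ : MulAut (Cfsg.POmega F (Cfsg.quadFormMinus m F A B)))
    (h : ∀ a b : Fin m ⊕ Fin m, b ≠ a → b ≠ a.swap → ∀ t : F, γ (X hm a b t) = X hm a b t)
    (hS : ∀ (a : Fin m ⊕ Fin m) (z : Fin 2 → F), γ (S hm a z) = S hm a z)
    (a : Fin m ⊕ Fin m) (w : MI m → F) : γ (rt hm (E a) w) = rt hm (E a) w := by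
  classical
  by_cases hw : QuadraticMap.polar (Cfsg.quadFormMinus m F A B) (E a) w = 0
  · have h1 : ∀ (k : Fin m ⊕ Fin m) (c : F), k ≠ a.swap →
        γ (rt hm (E a) (c • E k)) = rt hm (E a) (c • E k) := by
      intro k c hk
      by_cases hka : k = a
      · rw [hka, rt_eq_one hm (sg_self (hQ hm) _ c), map_one]
      · exact h a k hka hk c
    have h2 : ∀ S' : Finset (Fin m ⊕ Fin m), (∀ k ∈ S', k ≠ a.swap) →
        γ (rt hm (E a) (∑ k ∈ S', w (Sum.inl k) • (E k : MI m → F))) =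
          rt hm (E a) (∑ k ∈ S', w (Sum.inl k) • (E k : MI m → F)) := by
      intro S'
      induction S' using Finset.induction_on with
      | empty =>
        intro _
        rw [Finset.sum_empty, rt_eq_one hm (sg_zero_right (hQ hm) _), map_one]
      | insert k S' hk ih =>
        intro hS'
        have hk' : k ≠ a.swap := hS' k (Finset.mem_insert_self k S')
        have hS'' : ∀ l ∈ S', l ≠ a.swap := fun l hl => hS' l (Finset.mem_insert_of_mem hl)
        have e1 : QuadraticMap.polar (Cfsg.quadFormMinus m F A B) (E a) (w (Sum.inl k) • E k) = 0 :=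
          frame_perp hk' _
        have e2 : QuadraticMap.polar (Cfsg.quadFormMinus m F A B) (E a)
            (∑ l ∈ S', w (Sum.inl l) • (E l : MI m → F)) = 0 := by
          rw [polar_E, Finset.sum_apply]
          apply Finset.sum_eq_zero
          intro l hl
          rw [Pi.smul_apply, E_ne (Ne.symm (hS'' l hl)), smul_zero]
        rw [Finset.sum_insert hk, rt_add hm _ _ _ (Q_E a) e1 e2, map_mul, h1 k _ hk', ih hS'']
    have h3 : w = wv (fun j => w (Sum.inr j)) +
        ∑ k ∈ Finset.univ.erase a.swap, w (Sum.inl k) • (E k : MI m → F) := by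
      have h4 := eq_sum_E w
      rw [← Finset.add_sum_erase Finset.univ _ (Finset.mem_univ a.swap)] at h4
      rw [polar_E] at hw
      rw [hw, zero_smul, zero_add] at h4
      exact h4
    have e3 : QuadraticMap.polar (Cfsg.quadFormMinus m F A B) (E a)
        (∑ k ∈ Finset.univ.erase a.swap, w (Sum.inl k) • (E k : MI m → F)) = 0 := by
      rw [polar_E, Finset.sum_apply]
      apply Finset.sum_eq_zero
      intro l hl
      rw [Pi.smul_apply, E_ne (Ne.symm (Finset.ne_of_mem_erase hl)), smul_zero]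
    rw [h3, rt_add hm _ _ _ (Q_E a) (wv_perp a _) e3, map_mul,
      h2 _ (fun k hk => Finset.ne_of_mem_erase hk)]
    congr 1
    exact hS a _
  · rw [rt_eq_one hm (sg_not (hQ hm) _ _ (fun h' => hw h'.2)), map_one]

/-- the subgroup of `GL` of lifts of fixed points -/
def fixGL (γ : MulAut (Cfsg.POmega F (Cfsg.quadFormMinus m F A B))) :
    Subgroup (GL (MI m) F) :=
  ((MonoidHom.eqLocus γ.toMonoidHom (MonoidHom.id _)).comap
    (QuotientGroup.mk' (Subgroup.center ↥(Cfsg.Omega F (Cfsg.quadFormMinus m F A B))))).map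
    ((Cfsg.isometryGroup F (Cfsg.quadFormMinus m F A B)).subtype.comp
      (Cfsg.Omega F (Cfsg.quadFormMinus m F A B)).subtype)

theorem mem_fixGL (γ : MulAut (Cfsg.POmega F (Cfsg.quadFormMinus m F A B)))
    (g : GL (MI m) F) :
    g ∈ fixGL γ ↔ ∃ s : ↥(Cfsg.Omega F (Cfsg.quadFormMinus m F A B)),
      γ (QuotientGroup.mk s) = QuotientGroup.mk s ∧
      ((s : ↥(Cfsg.isometryGroup F (Cfsg.quadFormMinus m F A B))) : GL (MI m) F) = g := by
  unfold fixGL
  rw [Subgroup.mem_map]
  constructor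
  · rintro ⟨s, hs, rfl⟩
    exact ⟨s, hs, rfl⟩
  · rintro ⟨s, hs, rfl⟩
    exact ⟨s, hs, rfl⟩

theorem sg_mem_fixGL (hm : Hy m F A B) (γ : MulAut (Cfsg.POmega F (Cfsg.quadFormMinus m F A B)))
    (a w : MI m → F) :
    sg (hQ hm) a w ∈ fixGL γ ↔ γ (rt hm a w) = rt hm a w := by
  rw [mem_fixGL]
  constructor
  · rintro ⟨s, hs, hs'⟩
    have : s = T hm a w := omega_ext hs'
    rw [this] at hs
    exact hs
  · intro h
    exact ⟨T hm a w, h, rfl⟩

theorem fixGL_isom (γ : MulAut (Cfsg.POmega F (Cfsg.quadFormMinus m F A B)))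
    (g : GL (MI m) F) (hg : g ∈ fixGL γ) (v : MI m → F) :
    Cfsg.quadFormMinus m F A B ((g : Matrix (MI m) (MI m) F) *ᵥ v) =
      Cfsg.quadFormMinus m F A B v := by
  obtain ⟨s, -, rfl⟩ := (mem_fixGL γ g).1 hg
  exact (mem_isometryGroup_iff _ _).1 s.1.2 v

/-- a nonzero singular vector has a nonzero frame coordinate -/
theorem exists_coord (hm : Hy m F A B) {a : MI m → F} (ha : Cfsg.quadFormMinus m F A B a = 0)
    (ha0 : a ≠ 0) : ∃ k : Fin m ⊕ Fin m, a (Sum.inl k) ≠ 0 := by
  by_contra hcon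
  push Not at hcon
  apply ha0
  have h1 : a (Sum.inr 0) = 0 ∧ a (Sum.inr 1) = 0 := by
    unfold Cfsg.quadFormMinus at ha
    simp only [hcon, mul_zero, Finset.sum_const_zero, zero_add] at ha
    exact hm.hab _ _ ha
  funext l
  rcases l with l | j
  · exact hcon l
  · fin_cases j
    · exact h1.1
    · exact h1.2

/-- an automorphism fixing all frame and short root elements fixes all Siegel elements -/
theorem fix_all (hm : Hy m F A B) (γ : MulAut (Cfsg.POmega F (Cfsg.quadFormMinus m F A B)))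
    (h : ∀ a b : Fin m ⊕ Fin m, b ≠ a → b ≠ a.swap → ∀ t : F, γ (X hm a b t) = X hm a b t)
    (hS : ∀ (a : Fin m ⊕ Fin m) (z : Fin 2 → F), γ (S hm a z) = S hm a z)
    (a w : MI m → F) : γ (rt hm a w) = rt hm a w := by
  rw [← sg_mem_fixGL]
  have hfr : ∀ k : Fin m ⊕ Fin m, (E k : MI m → F) ∈ sgSet (hQ hm) (fixGL γ) := by
    intro k
    refine ⟨Q_E k, fun w => ?_⟩
    rw [sg_mem_fixGL hm]
    exact fix_frame hm γ h hS k w
  by_cases ha : Cfsg.quadFormMinus m F A B a = 0
  · by_cases ha0 : a = 0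
    · rw [ha0, sg_zero_left]
      exact Subgroup.one_mem _
    · obtain ⟨k, hk⟩ := exists_coord hm ha ha0
      have h1 : a ∈ sgSet (hQ hm) (fixGL γ) := by
        apply sgSet_trans (hQ hm) (fixGL γ) (fixGL_isom γ) (hfr k.swap) (hfr k) _ ha
        · rw [polar_E, Sum.swap_swap]
          exact hk
        · rw [polar_E, Sum.swap_swap, E_self]
          exact one_ne_zero
      exact h1.2 w
  · rw [sg_not (hQ hm) _ _ (fun h' => ha h'.1)]
    exact Subgroup.one_mem _

/-- rigidity: an automorphism fixing all frame and short root elements is trivial -/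
theorem rigid (hm : Hy m F A B) (hsimple : IsSimpleGroup (Cfsg.POmega F (Cfsg.quadFormMinus m F A B)))
    (γ : MulAut (Cfsg.POmega F (Cfsg.quadFormMinus m F A B)))
    (h : ∀ a b : Fin m ⊕ Fin m, b ≠ a → b ≠ a.swap → ∀ t : F, γ (X hm a b t) = X hm a b t)
    (hS : ∀ (a : Fin m ⊕ Fin m) (z : Fin 2 → F), γ (S hm a z) = S hm a z) : γ = 1 := by
  have hfix := fix_all hm γ h hS
  obtain ⟨S', hS'⟩ : ∃ S' : Set (Cfsg.POmega F (Cfsg.quadFormMinus m F A B)),
      S' = {x | ∃ a w : MI m → F, x = rt hm a w} := ⟨_, rfl⟩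
  have hnorm : (Subgroup.closure S').Normal := by
    apply Cfsg.Agent.Lib.Helper44.Siegel.closure_normal_of_conj
    intro s hs g
    rw [hS'] at hs ⊢
    obtain ⟨a, w, rfl⟩ := hs
    induction g using QuotientGroup.induction_on with
    | H g => exact ⟨_, _, rt_conj hm g a w⟩
  have hle : Subgroup.closure S' ≤ MonoidHom.eqLocus γ.toMonoidHom (MonoidHom.id _) := by
    rw [Subgroup.closure_le]
    intro x hx
    rw [hS'] at hx
    obtain ⟨a, w, rfl⟩ := hx
    exact hfix a w
  have hm3 : 3 ≤ m := hm.hm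
  have hne : Subgroup.closure S' ≠ ⊥ := by
    intro hbot
    obtain ⟨d, hd1, hd2, -, -⟩ := exists_other hm3 (Sum.inl ⟨0, by omega⟩ : Fin m ⊕ Fin m)
      (Sum.inl ⟨0, by omega⟩)
    have h1 : X hm (Sum.inl ⟨0, by omega⟩ : Fin m ⊕ Fin m) d (1 : F) ∈ Subgroup.closure S' := by
      apply Subgroup.subset_closure
      rw [hS']
      exact ⟨_, _, rfl⟩
    rw [hbot, Subgroup.mem_bot] at h1
    exact one_ne_zero (X_eq_one hm hd1 hd2 h1)
  have htop : Subgroup.closure S' = ⊤ := (hnorm.eq_bot_or_eq_top).resolve_left hne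
  apply MulEquiv.ext
  intro x
  have hx : x ∈ MonoidHom.eqLocus γ.toMonoidHom (MonoidHom.id _) := by
    apply hle
    rw [htop]
    exact Subgroup.mem_top x
  exact hx

end Cfsg.Agent.Lib.Helper43.MiRigid
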