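import Mathlib
import Cfsg.Agent.Lib.Helper43.MiRigid
import Cfsg.Agent.Lib.Helper43.OOdGen
import Cfsg.Agent.Lib.Helper43.OPlSyl
import Cfsg.Agent.Lib.Helper43.PSLnRoot
import Cfsg.Agent.Lib.Helper45.OmegaCenter

set_option autoImplicit false

namespace Cfsg.Agent.Lib.Helper43.MiSyl

open Matrix
open Cfsg.Agent.Lib.Helper94.Basic Cfsg.Agent.Lib.Helper94.GLAux Cfsg.Agent.Lib.Helper94.Tv
  Cfsg.Agent.Lib.Helper94.QuadAbs Cfsg.Agent.Lib.Helper94.OrthSiegel
  Cfsg.Agent.Lib.Helper43.MiBase Cfsg.Agent.Lib.Helper43.MiRoot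
  Cfsg.Agent.Lib.Helper43.MiRigid Cfsg.Agent.Lib.Helper43.OOdGen
open Cfsg.Agent.Lib.Helper43.OPlRoot (sg_add_left sg_inv sg_swap sg_self sg_conj_sim swap_inj
  exists_other)
open Cfsg.Agent.Lib.Helper43.OPlCent (sw1 sw2)
open Cfsg.Agent.Lib.Helper43.OPlSyl (sg_pow sg_pow_char char_pow_one)
open Cfsg.Agent.Lib.Helper43.OPlGeo (TS Ind Perp Nop)
open Cfsg.Agent.Lib.Helper43.PSLnRoot (zc zc_smul)

open scoped Pointwise

universe u

variable {F : Type u} [Field F] [Fintype F] {m : ℕ} {A B : F}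

instance : Finite (Cfsg.POmega F (Cfsg.quadFormMinus m F A B)) := by
  unfold Cfsg.POmega
  infer_instance

/-- central elements of `Ω` are scalar matrices -/
theorem center_scalar (hm : Hy m F A B) (z : ↥(Cfsg.Omega F (Cfsg.quadFormMinus m F A B)))
    (hz : z ∈ Subgroup.center ↥(Cfsg.Omega F (Cfsg.quadFormMinus m F A B))) :
    ∃ κ : F, (((z : ↥(Cfsg.isometryGroup F (Cfsg.quadFormMinus m F A B))) : GL (MI m) F) :
      Matrix (MI m) (MI m) F) =
        κ • (1 : Matrix (MI m) (MI m) F) := by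
  have hcz := Cfsg.Agent.Lib.Helper45.OmegaCenter.center_centralizes (Cfsg.quadFormMinus m F A B) z hz
  have hc5 : 5 ≤ Fintype.card (MI m) := card_ge hm
  by_cases h2 : (2 : F) = 0
  · haveI : CharP F 2 := CharTwo.of_one_ne_zero_of_two_eq_zero one_ne_zero h2
    have h1 := Cfsg.Agent.Lib.Helper45.OmegaCenter.centralizer_two
      (Cfsg.Agent.Lib.Helper44.NegPairs.minusQ m F A B)
      (Cfsg.Agent.Lib.Helper45.OmegaCenter.sep_minusQ' m A B hm.hab)
      (Or.inr (Or.inl (by rw [Module.finrank_fintype_fun_eq_card]; exact hc5)))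
      (le_trans (by norm_num) hc5)
      (z : ↥(Cfsg.isometryGroup F (Cfsg.quadFormMinus m F A B))) hcz
    refine ⟨1, ?_⟩
    rw [h1, one_smul]
    rfl
  · rcases Cfsg.Agent.Lib.Helper45.OmegaCenter.centralizer_odd h2
      (Cfsg.Agent.Lib.Helper44.NegPairs.minusQ m F A B)
      (Cfsg.Agent.Lib.Helper45.OmegaCenter.sep_minusQ' m A B hm.hab)
      (le_trans (by norm_num) hc5)
      (z : ↥(Cfsg.isometryGroup F (Cfsg.quadFormMinus m F A B))) hcz with h | h
    · exact ⟨1, by rw [one_smul]; exact h⟩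
    · exact ⟨-1, by rw [neg_one_smul]; exact h⟩

/-- a central element of `p`-power order is trivial -/
theorem central_pow (hm : Hy m F A B) (p : ℕ) [Fact p.Prime] [CharP F p]
    {z : ↥(Cfsg.Omega F (Cfsg.quadFormMinus m F A B))}
    (hz : z ∈ Subgroup.center ↥(Cfsg.Omega F (Cfsg.quadFormMinus m F A B))) (hp : z ^ p = 1) :
    z = 1 := by
  obtain ⟨κ, hκ⟩ := center_scalar hm z hz
  have h1 : ((((z ^ p : ↥(Cfsg.Omega F (Cfsg.quadFormMinus m F A B))) :
      ↥(Cfsg.isometryGroup F (Cfsg.quadFormMinus m F A B))) : GL (MI m) F) :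
      Matrix (MI m) (MI m) F) =
        (κ ^ p) • (1 : Matrix (MI m) (MI m) F) := by
    rw [SubmonoidClass.coe_pow, SubmonoidClass.coe_pow, Units.val_pow_eq_pow_val, hκ, smul_pow,
      one_pow]
  have h5 : ((((1 : ↥(Cfsg.Omega F (Cfsg.quadFormMinus m F A B))) :
      ↥(Cfsg.isometryGroup F (Cfsg.quadFormMinus m F A B))) : GL (MI m) F) :
      Matrix (MI m) (MI m) F) = 1 := rfl
  rw [hp, h5] at h1
  have h2 : κ ^ p = 1 := by
    have h3 := congrFun (congrFun h1 (Sum.inr 0)) (Sum.inr 0)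
    rw [Matrix.smul_apply, Matrix.one_apply_eq, smul_eq_mul, mul_one] at h3
    exact h3.symm
  have h4 := char_pow_one p h2
  apply omega_ext
  apply Units.ext
  rw [hκ, h4, one_smul]
  rfl

/-- commutation in `PΩ` with a `p`-element lifts -/
theorem comm_lift (hm : Hy m F A B) (p : ℕ) [Fact p.Prime] [CharP F p]
    {x s : ↥(Cfsg.Omega F (Cfsg.quadFormMinus m F A B))} (hx : x ^ p = 1)
    (h : (QuotientGroup.mk s : Cfsg.POmega F (Cfsg.quadFormMinus m F A B)) * QuotientGroup.mk x =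
      QuotientGroup.mk x * QuotientGroup.mk s) : s * x = x * s := by
  have hζ : s * x * s⁻¹ * x⁻¹ ∈ Subgroup.center ↥(Cfsg.Omega F (Cfsg.quadFormMinus m F A B)) := by
    have h1 : (QuotientGroup.mk (s * x * s⁻¹ * x⁻¹) :
        Cfsg.POmega F (Cfsg.quadFormMinus m F A B)) = 1 := by
      rw [QuotientGroup.mk_mul, QuotientGroup.mk_mul, QuotientGroup.mk_mul, QuotientGroup.mk_inv,
        QuotientGroup.mk_inv, h]
      group
    exact (QuotientGroup.eq_one_iff _).1 h1
  have hc : Commute x (s * x * s⁻¹ * x⁻¹) := Subgroup.mem_center_iff.1 hζ x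
  have h2 : s * x * s⁻¹ * x⁻¹ * x = s * x * s⁻¹ := by group
  have h3 := hc.symm.mul_pow p
  rw [h2, conj_pow, hx, mul_one, mul_one, mul_inv_cancel] at h3
  have h4 := central_pow hm p hζ h3.symm
  have h5 : s * x * s⁻¹ = x := mul_inv_eq_one.1 h4
  exact mul_inv_eq_iff_eq_mul.1 h5

/-- equality in `PΩ` of `p`-elements lifts -/
theorem eq_lift (hm : Hy m F A B) (p : ℕ) [Fact p.Prime] [CharP F p]
    {x y : ↥(Cfsg.Omega F (Cfsg.quadFormMinus m F A B))} (hx : x ^ p = 1) (hy : y ^ p = 1)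
    (h : (QuotientGroup.mk x : Cfsg.POmega F (Cfsg.quadFormMinus m F A B)) = QuotientGroup.mk y) :
    x = y := by
  have hζ : x⁻¹ * y ∈ Subgroup.center ↥(Cfsg.Omega F (Cfsg.quadFormMinus m F A B)) :=
    QuotientGroup.eq.1 h
  have hc : Commute x (x⁻¹ * y) := Subgroup.mem_center_iff.1 hζ x
  have h2 : x * (x⁻¹ * y) = y := by group
  have h3 := hc.mul_pow p
  rw [h2, hy, hx, one_mul] at h3
  have h4 := central_pow hm p hζ h3.symm
  exact inv_mul_eq_one.1 h4

theorem T_pow (hm : Hy m F A B) (p : ℕ) [CharP F p] (a w : MI m → F) :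
    T hm a w ^ p = 1 := by
  apply omega_ext
  rw [SubmonoidClass.coe_pow, SubmonoidClass.coe_pow, T_coe, sg_pow_char (hQ hm) p]
  rfl

theorem rt_pow (hm : Hy m F A B) (p : ℕ) [CharP F p] (a w : MI m → F) :
    rt hm a w ^ p = 1 := by
  unfold rt
  rw [← QuotientGroup.mk_pow, T_pow hm p, QuotientGroup.mk_one]

/-- a scalar matrix in `Ω` is central -/
theorem central_of_scalar {z : ↥(Cfsg.Omega F (Cfsg.quadFormMinus m F A B))} {κ : F}
    (h : (((z : ↥(Cfsg.isometryGroup F (Cfsg.quadFormMinus m F A B))) : GL (MI m) F) :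
      Matrix (MI m) (MI m) F) =
        κ • (1 : Matrix (MI m) (MI m) F)) :
    z ∈ Subgroup.center ↥(Cfsg.Omega F (Cfsg.quadFormMinus m F A B)) := by
  rw [Subgroup.mem_center_iff]
  intro g
  apply omega_ext
  apply Units.ext
  show (((g : ↥(Cfsg.isometryGroup F (Cfsg.quadFormMinus m F A B))) : GL (MI m) F) :
      Matrix (MI m) (MI m) F) *
      (((z : ↥(Cfsg.isometryGroup F (Cfsg.quadFormMinus m F A B))) : GL (MI m) F) :
      Matrix (MI m) (MI m) F) =
      (((z : ↥(Cfsg.isometryGroup F (Cfsg.quadFormMinus m F A B))) : GL (MI m) F) :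
      Matrix (MI m) (MI m) F) *
      (((g : ↥(Cfsg.isometryGroup F (Cfsg.quadFormMinus m F A B))) : GL (MI m) F) :
      Matrix (MI m) (MI m) F)
  rw [h, Matrix.mul_smul, Matrix.smul_mul, mul_one, one_mul]

/-- the root set of a pair of vectors -/
def RG (hm : Hy m F A B) (u v : MI m → F) : Set (Cfsg.POmega F (Cfsg.quadFormMinus m F A B)) :=
  {x | ∃ t : F, x = rt hm u (t • v)}

theorem conj_RG (hm : Hy m F A B) (g : ↥(Cfsg.Omega F (Cfsg.quadFormMinus m F A B)))
    (u v : MI m → F) :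
    (MulAut.conj (QuotientGroup.mk g : Cfsg.POmega F (Cfsg.quadFormMinus m F A B))) '' RG hm u v =
      RG hm ((((g : ↥(Cfsg.isometryGroup F (Cfsg.quadFormMinus m F A B))) : GL (MI m) F) :
          Matrix (MI m) (MI m) F) *ᵥ u)
        ((((g : ↥(Cfsg.isometryGroup F (Cfsg.quadFormMinus m F A B))) : GL (MI m) F) :
          Matrix (MI m) (MI m) F) *ᵥ v) := by
  ext x
  constructor
  · rintro ⟨_, ⟨t, rfl⟩, rfl⟩
    exact ⟨t, by rw [MulAut.conj_apply, rt_conj, Matrix.mulVec_smul]⟩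
  · rintro ⟨t, rfl⟩
    exact ⟨rt hm u (t • v), ⟨t, rfl⟩, by rw [MulAut.conj_apply, rt_conj, Matrix.mulVec_smul]⟩

/-- the unipotent radical at the frame point `a` -/
def Qs (hm : Hy m F A B) (a : Fin m ⊕ Fin m) : Subgroup (Cfsg.POmega F (Cfsg.quadFormMinus m F A B)) where
  carrier := {x | ∃ w : MI m → F,
    QuadraticMap.polar (Cfsg.quadFormMinus m F A B) (E a) w = 0 ∧ x = rt hm (E a) w}
  mul_mem' := by
    rintro _ _ ⟨w, hw, rfl⟩ ⟨w', hw', rfl⟩
    exact ⟨w + w', by rw [(hQ hm).polar_bilinear.add_right, hw, hw', add_zero],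
      (rt_add hm _ _ _ (Q_E a) hw hw').symm⟩
  one_mem' := ⟨0, by rw [polar_E]; rfl, (rt_eq_one hm (sg_zero_right (hQ hm) _)).symm⟩
  inv_mem' := by
    rintro _ ⟨w, hw, rfl⟩
    have hw' : QuadraticMap.polar (Cfsg.quadFormMinus m F A B) (E a) (-w) = 0 := by
      rw [polar_E] at hw ⊢
      rw [Pi.neg_apply, hw, neg_zero]
    refine ⟨-w, hw', ?_⟩
    apply inv_eq_of_mul_eq_one_right
    rw [← rt_add hm _ _ _ (Q_E a) hw hw', add_neg_cancel]
    exact rt_eq_one hm (sg_zero_right (hQ hm) _)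

/-- a second family of root elements, normalising `Qs a` -/
def As (hm : Hy m F A B) (a b : Fin m ⊕ Fin m) : Subgroup (Cfsg.POmega F (Cfsg.quadFormMinus m F A B)) where
  carrier := {x | ∃ y : MI m → F, y (Sum.inl a.swap) = 0 ∧ y (Sum.inl b.swap) = 0 ∧ x = rt hm (E b) y}
  mul_mem' := by
    rintro _ _ ⟨w, hw, hwb, rfl⟩ ⟨w', hw', hwb', rfl⟩
    refine ⟨w + w', by rw [Pi.add_apply, hw, hw', add_zero],
      by rw [Pi.add_apply, hwb, hwb', add_zero], ?_⟩
    exact (rt_add hm _ _ _ (Q_E b) (by rw [polar_E]; exact hwb) (by rw [polar_E]; exact hwb')).symm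
  one_mem' := ⟨0, rfl, rfl, (rt_eq_one hm (sg_zero_right (hQ hm) _)).symm⟩
  inv_mem' := by
    rintro _ ⟨w, hw, hwb, rfl⟩
    refine ⟨-w, by rw [Pi.neg_apply, hw, neg_zero], by rw [Pi.neg_apply, hwb, neg_zero], ?_⟩
    apply inv_eq_of_mul_eq_one_right
    rw [← rt_add hm _ _ _ (Q_E b) (by rw [polar_E]; exact hwb)
      (by rw [polar_E, Pi.neg_apply, hwb, neg_zero]), add_neg_cancel]
    exact rt_eq_one hm (sg_zero_right (hQ hm) _)

theorem Qs_pgroup (hm : Hy m F A B) (p : ℕ) [Fact p.Prime] [CharP F p] (a : Fin m ⊕ Fin m) :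
    IsPGroup p (Qs (F := F) hm a) := by
  rintro ⟨x, w, hw, rfl⟩
  refine ⟨1, ?_⟩
  apply Subtype.ext
  rw [SubmonoidClass.coe_pow, pow_one]
  exact rt_pow hm p _ _

theorem As_pgroup (hm : Hy m F A B) (p : ℕ) [Fact p.Prime] [CharP F p] (a b : Fin m ⊕ Fin m) :
    IsPGroup p (As (F := F) hm a b) := by
  rintro ⟨x, w, hw, hwb, rfl⟩
  refine ⟨1, ?_⟩
  apply Subtype.ext
  rw [SubmonoidClass.coe_pow, pow_one]
  exact rt_pow hm p _ _

theorem As_le_normalizer (hm : Hy m F A B) {a b : Fin m ⊕ Fin m} (hab' : b ≠ a.swap) :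
    As (F := F) hm a b ≤ Subgroup.normalizer (Qs (F := F) hm a) := by
  have key : ∀ g ∈ As (F := F) hm a b, ∀ h ∈ Qs (F := F) hm a,
      g * h * g⁻¹ ∈ Qs (F := F) hm a := by
    rintro _ ⟨y, hya, hyb, rfl⟩ _ ⟨w, hw, rfl⟩
    have hby : QuadraticMap.polar (Cfsg.quadFormMinus m F A B) (E b) y = 0 := by
      rw [polar_E]; exact hyb
    have h1 : rt hm (E b) y * rt hm (E a) w * (rt hm (E b) y)⁻¹ =
        rt hm (((sg (hQ hm) (E b) y : GL (MI m) F) :
            Matrix (MI m) (MI m) F) *ᵥ (E a : MI m → F))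
          (((sg (hQ hm) (E b) y : GL (MI m) F) :
            Matrix (MI m) (MI m) F) *ᵥ w) :=
      rt_conj hm (T hm (E b) y) (E a) w
    have hGa : ((sg (hQ hm) (E b) y : GL (MI m) F) :
        Matrix (MI m) (MI m) F) *ᵥ (E a : MI m → F) = E a := by
      rw [sg_mulVec (hQ hm) _ _ (Q_E b) hby, polar_E, polar_E', E_ne (sw1 hab'), hya]
      simp
    rw [h1, hGa]
    refine ⟨_, ?_, rfl⟩
    rw [polar_E, sg_mulVec (hQ hm) _ _ (Q_E b) hby]
    rw [polar_E] at hw
    simp only [Pi.add_apply, Pi.sub_apply, Pi.smul_apply, smul_eq_mul, hya,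
      E_ne (Ne.symm hab' : a.swap ≠ b), mul_zero, sub_zero, add_zero, hw]
  intro g hg
  rw [Subgroup.mem_normalizer_iff]
  intro h
  constructor
  · exact key g hg h
  · intro h1
    have h2 := key g⁻¹ (inv_mem hg) _ h1
    have h3 : g⁻¹ * (g * h * g⁻¹) * g⁻¹⁻¹ = h := by group
    rwa [h3] at h2

theorem TS_frame {a b : Fin m ⊕ Fin m} (hab' : b ≠ a.swap) :
    TS (Cfsg.quadFormMinus m F A B) (E a) (E b) :=
  ⟨Q_E a, Q_E b, by rw [polar_E, E_ne (Ne.symm hab')]⟩

theorem Ind_frame {a b : Fin m ⊕ Fin m} (hab : b ≠ a) :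
    Ind (E a : MI m → F) (E b) := by
  intro s t hst
  have h1 := congrFun hst (Sum.inl a)
  have h2 := congrFun hst (Sum.inl b)
  simp only [Pi.add_apply, Pi.smul_apply, smul_eq_mul, Pi.zero_apply, E_self, E_ne hab,
    E_ne (Ne.symm hab), mul_one, mul_zero, add_zero, zero_add] at h1 h2
  exact ⟨h1, h2⟩

theorem E_ind3 {a b c : Fin m ⊕ Fin m} (hab : b ≠ a) (hac : c ≠ a) (hbc : c ≠ b) :
    ∀ r s t : F, r • (E a : MI m → F) + s • E b + t • E c = 0 → r = 0 ∧ s = 0 ∧ t = 0 := by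
  intro r s t h
  have h1 := congrFun h (Sum.inl a)
  have h2 := congrFun h (Sum.inl b)
  have h3 := congrFun h (Sum.inl c)
  simp only [Pi.add_apply, Pi.smul_apply, smul_eq_mul, Pi.zero_apply, E_self, E_ne hab,
    E_ne (Ne.symm hab), E_ne hac, E_ne (Ne.symm hac), E_ne hbc, E_ne (Ne.symm hbc), mul_one,
    mul_zero, add_zero, zero_add] at h1 h2 h3
  exact ⟨h1, h2, h3⟩

theorem E_ne_zero (a : Fin m ⊕ Fin m) : (E a : MI m → F) ≠ 0 := by
  intro h
  have := congrFun h (Sum.inl a)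
  rw [E_self] at this
  exact one_ne_zero this

theorem Bw_comm (z u : Fin 2 → F) : Bw A B z u = Bw A B u z := by
  unfold Bw
  ring

theorem wv_single (j : Fin 2) :
    (wv (Pi.single j 1) : MI m → F) = Pi.single (Sum.inr j) 1 := by
  funext l
  rcases l with l | i
  · simp [wv_fr]
  · simp [wv_an, Pi.single_apply]

/-- two isometries agreeing up to a sign on all basis vectors but one agree up to that sign -/
theorem iso_scalar_ext (hm : Hy m F A B) (G S : GL (MI m) F)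
    (hG : ∀ v, Cfsg.quadFormMinus m F A B ((G : Matrix (MI m) (MI m) F) *ᵥ v) =
      Cfsg.quadFormMinus m F A B v)
    (hS : ∀ v, Cfsg.quadFormMinus m F A B ((S : Matrix (MI m) (MI m) F) *ᵥ v) =
      Cfsg.quadFormMinus m F A B v)
    (κ : F) (hκ : κ * κ = 1) (a : Fin m ⊕ Fin m)
    (h0 : ∀ u : Fin 2 → F, (G : Matrix (MI m) (MI m) F) *ᵥ wv u =
      κ • ((S : Matrix (MI m) (MI m) F) *ᵥ wv u))
    (hk : ∀ k : Fin m ⊕ Fin m, k ≠ a.swap →
      (G : Matrix (MI m) (MI m) F) *ᵥ E k = κ • ((S : Matrix (MI m) (MI m) F) *ᵥ E k)) :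
    (G : Matrix (MI m) (MI m) F) = κ • (S : Matrix (MI m) (MI m) F) := by
  have hbl := (hQ hm).polar_bilinear
  obtain ⟨N, hN⟩ : ∃ N : GL (MI m) F, N = S⁻¹ * G := ⟨_, rfl⟩
  have hNiso : ∀ v, Cfsg.quadFormMinus m F A B ((N : Matrix (MI m) (MI m) F) *ᵥ v) =
      Cfsg.quadFormMinus m F A B v := by
    intro v
    rw [hN, Units.val_mul, ← Matrix.mulVec_mulVec]
    have := hS (((S⁻¹ : GL (MI m) F) : Matrix (MI m) (MI m) F) *ᵥ
      ((G : Matrix (MI m) (MI m) F) *ᵥ v))
    rw [gl_mulVec_inv] at this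
    rw [← this, hG]
  have hN0 : ∀ u : Fin 2 → F, (N : Matrix (MI m) (MI m) F) *ᵥ wv u = κ • wv u := by
    intro u
    rw [hN, Units.val_mul, ← Matrix.mulVec_mulVec, h0, Matrix.mulVec_smul, gl_inv_mulVec]
  have hNk : ∀ k : Fin m ⊕ Fin m, k ≠ a.swap →
      (N : Matrix (MI m) (MI m) F) *ᵥ E k = κ • E k := by
    intro k hk'
    rw [hN, Units.val_mul, ← Matrix.mulVec_mulVec, hk k hk', Matrix.mulVec_smul, gl_inv_mulVec]
  have hκ0 : κ ≠ 0 := by
    rintro rfl
    simp at hκ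
  obtain ⟨z, hz⟩ : ∃ z : MI m → F, z = (N : Matrix (MI m) (MI m) F) *ᵥ E a.swap := ⟨_, rfl⟩
  have z1 : ∀ j : Fin m ⊕ Fin m, j ≠ a →
      z (Sum.inl j) = κ * (E a.swap : MI m → F) (Sum.inl j) := by
    intro j hj
    have hj' : j.swap ≠ a.swap := fun h => hj (swap_inj h)
    have e1 := polar_of_isom N hNiso (E a.swap) (E j.swap)
    rw [← hz, hNk _ hj', hbl.smul_right, polar_E', polar_E', Sum.swap_swap] at e1
    calc z (Sum.inl j) = κ * (κ * z (Sum.inl j)) := by rw [← mul_assoc, hκ, one_mul]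
      _ = _ := by rw [e1]
  have z0 : (fun j => z (Sum.inr j)) = (0 : Fin 2 → F) := by
    apply Bw_nondeg hm
    intro u
    have e1 := polar_of_isom N hNiso (E a.swap) (wv u : MI m → F)
    rw [← hz, hN0, hbl.smul_right, wv_perp, B_comm, polar_wv] at e1
    have e2 := (mul_eq_zero.1 e1).resolve_left hκ0
    rw [Bw_comm]
    exact e2
  obtain ⟨c, hc⟩ : ∃ c : F, c = z (Sum.inl a) := ⟨_, rfl⟩
  have z2 : z = κ • (E a.swap : MI m → F) + c • E a := by
    funext l
    rcases l with j | i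
    · by_cases hj : j = a
      · rw [hj, Pi.add_apply, Pi.smul_apply, Pi.smul_apply, E_self,
          E_ne (Ne.symm (swap_ne a)), ← hc]
        simp
      · rw [z1 j hj, Pi.add_apply, Pi.smul_apply, Pi.smul_apply, E_ne hj, smul_zero, add_zero,
          smul_eq_mul]
    · have := congrFun z0 i
      rw [Pi.add_apply, Pi.smul_apply, Pi.smul_apply, E_an, E_an, smul_zero, smul_zero,
        add_zero]
      exact this
  have hQz : Cfsg.quadFormMinus m F A B z = 0 := by rw [hz, hNiso, Q_E]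
  have hc0 : c = 0 := by
    rw [z2, Q_add (Cfsg.quadFormMinus m F A B), (hQ hm).smul, (hQ hm).smul, Q_E, Q_E,
      hbl.smul_left, hbl.smul_right, polar_E, Sum.swap_swap, E_self] at hQz
    have h1 : κ * c = 0 := by linear_combination hQz
    exact (mul_eq_zero.1 h1).resolve_left hκ0
  have hNa : (N : Matrix (MI m) (MI m) F) *ᵥ E a.swap = κ • E a.swap := by
    rw [← hz, z2, hc0, zero_smul, add_zero]
  have hNall : ∀ k : Fin m ⊕ Fin m, (N : Matrix (MI m) (MI m) F) *ᵥ E k = κ • E k := by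
    intro k
    by_cases hk' : k = a.swap
    · rw [hk']
      exact hNa
    · exact hNk k hk'
  have hNmat : (N : Matrix (MI m) (MI m) F) = κ • 1 := by
    ext l j
    rcases j with k | i
    · rw [← mulVec_E (N : Matrix (MI m) (MI m) F) k l, hNall]
      simp [E_apply, Matrix.one_apply]
    · have h1 := congrFun (hN0 (Pi.single i 1)) l
      rw [wv_single, Matrix.mulVec_single_one] at h1
      rw [Matrix.smul_apply, Matrix.one_apply, smul_eq_mul]
      rw [Pi.smul_apply, Pi.single_apply, smul_eq_mul] at h1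
      exact h1
  have hGS : (G : Matrix (MI m) (MI m) F) =
      (S : Matrix (MI m) (MI m) F) * (N : Matrix (MI m) (MI m) F) := by
    rw [hN, ← Units.val_mul, mul_inv_cancel_left]
  rw [hGS, hNmat, Matrix.mul_smul, Matrix.mul_one]

/-- the centraliser of the two families is the frame root group -/
theorem cent_root (hm : Hy m F A B) (p : ℕ) [Fact p.Prime] [CharP F p] {a b : Fin m ⊕ Fin m}
    (hab : b ≠ a) (hab' : b ≠ a.swap) {x : Cfsg.POmega F (Cfsg.quadFormMinus m F A B)}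
    (hA : ∀ y ∈ Qs (F := F) hm a, x * y = y * x)
    (hB : ∀ y ∈ As (F := F) hm a b, x * y = y * x) : ∃ t : F, x = X hm a b t := by
  have hbl := (hQ hm).polar_bilinear
  obtain ⟨g, rfl⟩ := QuotientGroup.mk_surjective x
  obtain ⟨G, hGdef⟩ : ∃ G : GL (MI m) F,
      G = ((g : ↥(Cfsg.isometryGroup F (Cfsg.quadFormMinus m F A B))) : GL (MI m) F) := ⟨_, rfl⟩
  have hG : ∀ v, Cfsg.quadFormMinus m F A B ((G : Matrix (MI m) (MI m) F) *ᵥ v) =
      Cfsg.quadFormMinus m F A B v := by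
    rw [hGdef]
    exact fun v => (mem_isometryGroup_iff _ _).1 g.1.2 v
  have cA : ∀ w : MI m → F, QuadraticMap.polar (Cfsg.quadFormMinus m F A B) (E a) w = 0 →
      G * sg (hQ hm) (E a) w = sg (hQ hm) (E a) w * G := by
    intro w hw
    have h := comm_lift hm p (T_pow hm p (E a) w) (hA _ ⟨w, hw, rfl⟩)
    rw [hGdef]
    exact congrArg (fun s : ↥(Cfsg.Omega F (Cfsg.quadFormMinus m F A B)) =>
      ((s : ↥(Cfsg.isometryGroup F (Cfsg.quadFormMinus m F A B))) : GL (MI m) F)) h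
  have cB : ∀ y : MI m → F, y (Sum.inl a.swap) = 0 → y (Sum.inl b.swap) = 0 →
      G * sg (hQ hm) (E b) y = sg (hQ hm) (E b) y * G := by
    intro y hy hy'
    have h := comm_lift hm p (T_pow hm p (E b) y) (hB _ ⟨y, hy, hy', rfl⟩)
    rw [hGdef]
    exact congrArg (fun s : ↥(Cfsg.Omega F (Cfsg.quadFormMinus m F A B)) =>
      ((s : ↥(Cfsg.isometryGroup F (Cfsg.quadFormMinus m F A B))) : GL (MI m) F)) h
  obtain ⟨c, hca, hca', hcb, hcb'⟩ := exists_other hm.hm a b
  have hc'a : c.swap ≠ a := sw1 hca'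
  have hc'a' : c.swap ≠ a.swap := sw2 hca
  have hc'b : c.swap ≠ b := sw1 hcb'
  have hc'b' : c.swap ≠ b.swap := sw2 hcb
  have hcc' : c.swap ≠ c := swap_ne c
  -- the point `E a` is fixed
  obtain ⟨κ, hκ⟩ := fix_point (hQ hm) G hG (TS_frame hab') (TS_frame hca') (E_ind3 hab hca hcb)
    (cA _ (by rw [polar_E, E_ne (Ne.symm hab')])) (cA _ (by rw [polar_E, E_ne (Ne.symm hca')]))
  have st2 : ∀ w : MI m → F, QuadraticMap.polar (Cfsg.quadFormMinus m F A B) (E a) w = 0 →
      ∃ f : F, κ • ((G : Matrix (MI m) (MI m) F) *ᵥ w) = w + f • E a :=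
    fun w hw => comm_shift (hQ hm) G hG (Q_E a) (E_ne_zero a) hκ hw (cA w hw)
  have hκκ : κ * κ = 1 := by
    obtain ⟨f1, hf1⟩ := st2 (E c) (by rw [polar_E, E_ne (Ne.symm hca')])
    obtain ⟨f2, hf2⟩ := st2 (E c.swap) (by rw [polar_E, E_ne (Ne.symm hc'a')])
    have e1 : QuadraticMap.polar (Cfsg.quadFormMinus m F A B)
        (κ • ((G : Matrix (MI m) (MI m) F) *ᵥ E c))
        (κ • ((G : Matrix (MI m) (MI m) F) *ᵥ E c.swap)) = κ * κ := by
      rw [hbl.smul_left, hbl.smul_right, polar_of_isom G hG, polar_E, E_self]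
      ring
    rw [hf1, hf2] at e1
    have p1 : QuadraticMap.polar (Cfsg.quadFormMinus m F A B) (E c) (E c.swap : MI m → F) = 1 := by
      rw [polar_E, E_self]
    have p2 : QuadraticMap.polar (Cfsg.quadFormMinus m F A B) (E c) (E a : MI m → F) = 0 := by
      rw [polar_E, E_ne hc'a]
    have p3 : QuadraticMap.polar (Cfsg.quadFormMinus m F A B) (E a) (E c.swap : MI m → F) = 0 := by
      rw [polar_E, E_ne (Ne.symm hc'a')]
    have p4 : QuadraticMap.polar (Cfsg.quadFormMinus m F A B) (E a) (E a : MI m → F) = 0 := by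
      rw [polar_E, E_ne (swap_ne a)]
    simp only [hbl.add_left, hbl.add_right, hbl.smul_left, hbl.smul_right, p1, p2, p3, p4] at e1
    linear_combination -e1
  -- the point `E b` is fixed
  obtain ⟨κ', hκ'⟩ := fix_point (hQ hm) G hG (TS_frame hcb') (TS_frame hc'b')
    (E_ind3 hcb hc'b hcc')
    (cB (E c) (E_ne (Ne.symm hca')) (E_ne (Ne.symm hcb')))
    (cB (E c.swap) (E_ne (Ne.symm hc'a')) (E_ne (Ne.symm hc'b')))
  have hκκ' : κ * κ' = 1 := by
    obtain ⟨f, hf⟩ := st2 (E b) (by rw [polar_E, E_ne (Ne.symm hab')])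
    rw [hκ'] at hf
    have := congrFun hf (Sum.inl b)
    simp only [Pi.add_apply, Pi.smul_apply, smul_eq_mul, E_self, E_ne hab, mul_one, mul_zero,
      add_zero] at this
    exact this
  have hκeq : κ' = κ := by
    calc κ' = (κ * κ) * κ' := by rw [hκκ, one_mul]
      _ = κ * (κ * κ') := by ring
      _ = κ := by rw [hκκ', mul_one]
  have st5 : ∀ y : MI m → F, y (Sum.inl a.swap) = 0 → y (Sum.inl b.swap) = 0 →
      (G : Matrix (MI m) (MI m) F) *ᵥ y = κ • y := by
    intro y hy hy'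
    obtain ⟨f, hf⟩ := st2 y (by rw [polar_E]; exact hy)
    obtain ⟨f', hf'⟩ := comm_shift (hQ hm) G hG (Q_E b) (E_ne_zero b) hκ'
      (by rw [polar_E]; exact hy') (cB y hy hy')
    rw [hκeq] at hf'
    have e := hf.symm.trans hf'
    have hf0 : f = 0 := by
      have := congrFun e (Sum.inl a)
      simp only [Pi.add_apply, Pi.smul_apply, smul_eq_mul, E_self, E_ne (Ne.symm hab), mul_one,
        mul_zero, add_zero] at this
      linear_combination this
    rw [hf0, zero_smul, add_zero] at hf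
    calc (G : Matrix (MI m) (MI m) F) *ᵥ y
        = (κ * κ) • ((G : Matrix (MI m) (MI m) F) *ᵥ y) := by rw [hκκ, one_smul]
      _ = κ • (κ • ((G : Matrix (MI m) (MI m) F) *ᵥ y)) := by rw [smul_smul]
      _ = κ • y := by rw [hf]
  obtain ⟨u, hu⟩ := st2 (E b.swap) (by rw [polar_E, E_ne (Ne.symm (sw2 hab))])
  have k0 : ∀ y : Fin 2 → F, (G : Matrix (MI m) (MI m) F) *ᵥ wv y =
      κ • (((sg (hQ hm) (E a) ((-u) • E b) : GL (MI m) F) : Matrix (MI m) (MI m) F) *ᵥ
        wv y) := by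
    intro y
    rw [st5 (wv y) (wv_fr _ _) (wv_fr _ _), frame_mulVec hm hab', wv_fr, wv_fr]
    simp
  have kk : ∀ k : Fin m ⊕ Fin m, k ≠ a.swap → (G : Matrix (MI m) (MI m) F) *ᵥ E k =
      κ • (((sg (hQ hm) (E a) ((-u) • E b) : GL (MI m) F) : Matrix (MI m) (MI m) F) *ᵥ E k) := by
    intro k hk
    by_cases hkb : k = b.swap
    · have e1 : (G : Matrix (MI m) (MI m) F) *ᵥ E b.swap = κ • (E b.swap + u • E a) := by
        calc (G : Matrix (MI m) (MI m) F) *ᵥ E b.swap
            = (κ * κ) • ((G : Matrix (MI m) (MI m) F) *ᵥ E b.swap) := by rw [hκκ, one_smul]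
          _ = κ • (κ • ((G : Matrix (MI m) (MI m) F) *ᵥ E b.swap)) := by rw [smul_smul]
          _ = _ := by rw [hu]
      rw [hkb, e1, frame_mulVec hm hab', E_self, E_ne (Ne.symm (sw2 hab))]
      congr 1
      module
    · rw [st5 (E k) (E_ne (Ne.symm hk)) (E_ne (Ne.symm hkb)), frame_mulVec hm hab',
        E_ne (Ne.symm hk), E_ne (Ne.symm hkb)]
      simp
  have hM := iso_scalar_ext hm G (sg (hQ hm) (E a) ((-u) • E b)) hG (sg_isom (hQ hm) _ _) κ hκκ a
    k0 kk
  refine ⟨-u, ?_⟩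
  unfold X rt
  symm
  rw [QuotientGroup.eq]
  apply central_of_scalar (κ := κ)
  show (((sg (hQ hm) (E a) ((-u) • E b))⁻¹ : GL (MI m) F) : Matrix (MI m) (MI m) F) *
      (((g : ↥(Cfsg.isometryGroup F (Cfsg.quadFormMinus m F A B))) : GL (MI m) F) :
        Matrix (MI m) (MI m) F) = κ • 1
  rw [← hGdef, hM, Matrix.mul_smul, Units.inv_mul]

/-- the centre of a Sylow `p`-subgroup containing the two families is the frame root group -/
theorem zc_sylow (hm : Hy m F A B) (p : ℕ) [Fact p.Prime] [CharP F p] {a b : Fin m ⊕ Fin m}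
    (hab : b ≠ a) (hab' : b ≠ a.swap) (P : Sylow p (Cfsg.POmega F (Cfsg.quadFormMinus m F A B)))
    (hA : Qs (F := F) hm a ≤ (P : Subgroup (Cfsg.POmega F (Cfsg.quadFormMinus m F A B))))
    (hB : As (F := F) hm a b ≤ (P : Subgroup (Cfsg.POmega F (Cfsg.quadFormMinus m F A B)))) :
    zc (P : Subgroup (Cfsg.POmega F (Cfsg.quadFormMinus m F A B))) = RG hm (E a) (E b) := by
  apply Set.Subset.antisymm
  · rintro x ⟨-, hx⟩
    exact cent_root hm p hab hab' (fun y hy => hx y (hA hy)) (fun y hy => hx y (hB hy))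
  · have hX1 : X hm a b (1 : F) ≠ 1 := fun h => one_ne_zero (X_eq_one hm hab hab' h)
    have hXP : ∀ t : F, X hm a b t ∈ (P : Subgroup (Cfsg.POmega F (Cfsg.quadFormMinus m F A B))) :=
      fun t => hA ⟨_, frame_perp hab' t, rfl⟩
    have hPne : Nontrivial (P : Subgroup (Cfsg.POmega F (Cfsg.quadFormMinus m F A B))) :=
      ⟨⟨⟨X hm a b 1, hXP 1⟩, 1, fun h => hX1 (congrArg Subtype.val h)⟩⟩
    have hcn : Nontrivial (Subgroup.center
        (P : Subgroup (Cfsg.POmega F (Cfsg.quadFormMinus m F A B)))) :=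
      IsPGroup.center_nontrivial P.2
    obtain ⟨⟨⟨z, hzP⟩, hz⟩, hz1⟩ := exists_ne (1 : Subgroup.center
        (P : Subgroup (Cfsg.POmega F (Cfsg.quadFormMinus m F A B))))
    have hzc : ∀ y ∈ (P : Subgroup (Cfsg.POmega F (Cfsg.quadFormMinus m F A B))), z * y = y * z := by
      intro y hy
      have := (Subgroup.mem_center_iff.1 hz) ⟨y, hy⟩
      exact (congrArg Subtype.val this).symm
    obtain ⟨u, rfl⟩ := cent_root hm p hab hab' (fun y hy => hzc y (hA hy))
      (fun y hy => hzc y (hB hy))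
    have hu0 : u ≠ 0 := by
      rintro rfl
      apply hz1
      apply Subtype.ext
      apply Subtype.ext
      exact X_zero hm a b
    rintro x ⟨t, rfl⟩
    obtain ⟨c, rfl⟩ : ∃ c : F, t = c * u := ⟨t * u⁻¹, by field_simp⟩
    refine ⟨hXP (c * u), ?_⟩
    intro y hy
    obtain ⟨g, rfl⟩ := QuotientGroup.mk_surjective y
    have h1 := comm_lift hm p (T_pow hm p (E a) (u • E b)) (hzc _ hy).symm
    have hg : (((g : ↥(Cfsg.isometryGroup F (Cfsg.quadFormMinus m F A B))) : GL (MI m) F) :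
        Matrix (MI m) (MI m) F) *
        ((sg (hQ hm) (E a) (u • E b) : GL (MI m) F) :
          Matrix (MI m) (MI m) F) =
      ((sg (hQ hm) (E a) (u • E b) : GL (MI m) F) :
          Matrix (MI m) (MI m) F) *
        (((g : ↥(Cfsg.isometryGroup F (Cfsg.quadFormMinus m F A B))) : GL (MI m) F) :
        Matrix (MI m) (MI m) F) :=
      congrArg (fun s : ↥(Cfsg.Omega F (Cfsg.quadFormMinus m F A B)) =>
        ((((s : ↥(Cfsg.isometryGroup F (Cfsg.quadFormMinus m F A B))) : GL (MI m) F)) :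
          Matrix (MI m) (MI m) F)) h1
    have hS : ((sg (hQ hm) (E a) ((c * u) • E b) : GL (MI m) F) :
          Matrix (MI m) (MI m) F) =
        1 + c • (((sg (hQ hm) (E a) (u • E b) : GL (MI m) F) :
          Matrix (MI m) (MI m) F) - 1) := by
      apply Cfsg.Agent.Lib.Helper44.OMat.matrix_ext_mulVec
      intro x
      rw [Matrix.add_mulVec, Matrix.smul_mulVec, Matrix.sub_mulVec, Matrix.one_mulVec,
        frame_mulVec hm hab', frame_mulVec hm hab']
      module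
    have hcomm : (((g : ↥(Cfsg.isometryGroup F (Cfsg.quadFormMinus m F A B))) :
          GL (MI m) F) : Matrix (MI m) (MI m) F) *
        ((sg (hQ hm) (E a) ((c * u) • E b) : GL (MI m) F) :
          Matrix (MI m) (MI m) F) =
      ((sg (hQ hm) (E a) ((c * u) • E b) : GL (MI m) F) :
          Matrix (MI m) (MI m) F) *
        (((g : ↥(Cfsg.isometryGroup F (Cfsg.quadFormMinus m F A B))) : GL (MI m) F) :
        Matrix (MI m) (MI m) F) := by
      rw [hS, Matrix.mul_add, Matrix.add_mul, Matrix.mul_smul, Matrix.smul_mul, Matrix.mul_sub,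
        Matrix.sub_mul, hg, mul_one, one_mul]
    show X hm a b (c * u) * QuotientGroup.mk g = QuotientGroup.mk g * X hm a b (c * u)
    unfold X rt
    rw [← QuotientGroup.mk_mul, ← QuotientGroup.mk_mul]
    congr 1
    apply omega_ext
    apply Units.ext
    exact hcomm.symm

/-- every automorphism maps a frame root group to a conjugate of it -/
theorem perm (hm : Hy m F A B) (p : ℕ) [Fact p.Prime] [CharP F p] {a b : Fin m ⊕ Fin m}
    (hab : b ≠ a) (hab' : b ≠ a.swap) (α : MulAut (Cfsg.POmega F (Cfsg.quadFormMinus m F A B))) :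
    ∃ g : ↥(Cfsg.Omega F (Cfsg.quadFormMinus m F A B)),
      α '' RG hm (E a) (E b) =
        RG hm ((((g : ↥(Cfsg.isometryGroup F (Cfsg.quadFormMinus m F A B))) : GL (MI m) F) :
            Matrix (MI m) (MI m) F) *ᵥ (E a : MI m → F))
          ((((g : ↥(Cfsg.isometryGroup F (Cfsg.quadFormMinus m F A B))) : GL (MI m) F) :
            Matrix (MI m) (MI m) F) *ᵥ (E b : MI m → F)) := by
  classical
  have hsup : IsPGroup p (As (F := F) hm a b ⊔ Qs (F := F) hm a :
      Subgroup (Cfsg.POmega F (Cfsg.quadFormMinus m F A B))) :=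
    IsPGroup.to_sup_of_normal_right' (As_pgroup hm p a b) (Qs_pgroup hm p a)
      (As_le_normalizer hm hab')
  obtain ⟨P, hP⟩ := hsup.exists_le_sylow
  have hA : Qs (F := F) hm a ≤ (P : Subgroup (Cfsg.POmega F (Cfsg.quadFormMinus m F A B))) :=
    le_trans le_sup_right hP
  have hB : As (F := F) hm a b ≤ (P : Subgroup (Cfsg.POmega F (Cfsg.quadFormMinus m F A B))) :=
    le_trans le_sup_left hP
  have h1 := zc_sylow hm p hab hab' P hA hB
  have h2 : α '' RG hm (E a) (E b) =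
      zc ((α • P : Sylow p (Cfsg.POmega F (Cfsg.quadFormMinus m F A B))) :
        Subgroup (Cfsg.POmega F (Cfsg.quadFormMinus m F A B))) := by
    rw [← h1, Sylow.pointwise_smul_def, zc_smul]
  obtain ⟨y, hy⟩ := MulAction.exists_smul_eq (Cfsg.POmega F (Cfsg.quadFormMinus m F A B)) P (α • P)
  obtain ⟨g, rfl⟩ := QuotientGroup.mk_surjective y
  refine ⟨g, ?_⟩
  rw [h2, ← hy, Sylow.coe_subgroup_smul, zc_smul, h1, conj_RG]

end Cfsg.Agent.Lib.Helper43.MiSyl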