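import Mathlib
import Cfsg.Agent.Lib.Helper45.MAutStmt
import Cfsg.Agent.Lib.Helper43.M2Semi

set_option autoImplicit false

/-! Piece [GS] of S0818: every element of `PΓO(Q)` is the automorphism of one semisimilarity. -/

namespace Cfsg.Agent.Lib.Helper43.MAutGS

open Matrix
open Cfsg.Agent.Lib.Helper45.OmegaAut
open Cfsg.Agent.Lib.Helper44.MFld0 Cfsg.Agent.Lib.Helper44.MFldStmt
open Cfsg.Agent.Lib.Helper43.SemiSim Cfsg.Agent.Lib.Helper43.M2Semi

universe u

variable {F : Type u} [Field F] {ι : Type} [Fintype ι] [DecidableEq ι] {Q : (ι → F) → F}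

/-- the two constructions of the automorphism of a semisimilarity agree -/
theorem semiP_eq {g : GL ι F} {σ : F ≃+* F} {c : F} (h : Cfsg.IsSemisimilarityPair Q g σ)
    (h' : SemiPair Q g σ c) : semiP g σ h = semiAut h' := by
  apply MulEquiv.ext
  intro x
  induction x using QuotientGroup.induction_on with
  | H s =>
    rw [semiP_mk, semiAut_mk]
    congr 1

theorem isPair {g : GL ι F} {σ : F ≃+* F} {c : F} (h' : SemiPair Q g σ c) :
    Cfsg.IsSemisimilarityPair Q g σ :=
  ⟨Units.mk0 c h'.1, h'.2⟩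

/-- the inverse of the automorphism of a semisimilarity -/
theorem semiAut_inv {g : GL ι F} {σ : F ≃+* F} {c : F} (h : SemiPair Q g σ c) :
    (semiAut h)⁻¹ = semiAut (semi_inv h) := by
  apply inv_eq_of_mul_eq_one_right
  rw [semiAut_mul]
  apply MulEquiv.ext
  intro x
  induction x using QuotientGroup.induction_on with
  | H s =>
    rw [semiAut_mk, MulAut.one_apply]
    congr 1
    apply Subtype.ext
    apply Subtype.ext
    rw [omAut_coe, ← map_trans, map_symm_map, map_symm_map]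
    group

theorem gamma_semi (β : MulAut (Cfsg.POmega F Q)) (hβ : β ∈ Cfsg.gammaPOmega F Q) :
    ∃ (g : GL ι F) (σ : F ≃+* F) (c : F) (h : SemiPair Q g σ c), β = semiAut h := by
  unfold Cfsg.gammaPOmega Cfsg.autSubgroupOf at hβ
  induction hβ using Subgroup.closure_induction with
  | mem x hx =>
    obtain ⟨g, σ, ⟨c, hc⟩, hind⟩ := hx
    exact ⟨g, σ, c, ⟨c.ne_zero, hc⟩, eq_semiAut _ hind⟩
  | one => exact ⟨1, RingEquiv.refl F, 1, one_pair, (semiAut_one _).symm⟩
  | mul x y _ _ hx hy =>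
    obtain ⟨g, σ, c, h, rfl⟩ := hx
    obtain ⟨g', σ', c', h', rfl⟩ := hy
    exact ⟨_, _, _, pair_mul h h', semiAut_mul h h'⟩
  | inv x _ hx =>
    obtain ⟨g, σ, c, h, rfl⟩ := hx
    exact ⟨_, _, _, semi_inv h, semiAut_inv h⟩

theorem main : Cfsg.Agent.Lib.Helper45.MAutStmt.GammaSemi.{u} := by
  intro F _ ι _ _ Q β hβ
  obtain ⟨g, σ, c, h, rfl⟩ := gamma_semi β hβ
  exact ⟨g, σ, isPair h, (semiP_eq (isPair h) h).symm⟩

end Cfsg.Agent.Lib.Helper43.MAutGS
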