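import Mathlib
import Cfsg.Agent.Lib.Helper88.MCStmt
import Cfsg.Agent.Lib.Helper9.Wie3
import Cfsg.Agent.S0564

/-!
# S4245 / NILIDX: a finite group with a cyclic subgroup of prime power index is solvable

`G = B P` for a Sylow `p`-subgroup `P` (coprime indices, `Helper9.Wie3.exists_mul_of_coprime_index`),
then Kegel-Wielandt (landed `Cfsg.Agent.S0564.result`).
-/

set_option autoImplicit false

namespace Cfsg.Agent.Lib.Helper43.MCNILIDX

open Cfsg.Agent.Lib.Helper88.MCStmt

universe u

theorem main : NilIdx.{u} := by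
  intro G _ _ B p k hp hB hidx
  haveI : Fact p.Prime := ⟨hp⟩
  obtain ⟨P⟩ : Nonempty (Sylow p G) := inferInstance
  have hcop : Nat.Coprime (P : Subgroup G).index B.index := by
    rw [hidx]
    exact Nat.Coprime.pow_right k
      ((Nat.coprime_comm).1 ((Nat.Prime.coprime_iff_not_dvd hp).2 P.not_dvd_index))
  have hBn : Group.IsNilpotent B := by
    haveI := hB
    letI : CommGroup B := IsCyclic.commGroup
    exact CommGroup.isNilpotent
  have hPn : Group.IsNilpotent (P : Subgroup G) := P.isPGroup'.isNilpotent
  exact Cfsg.Agent.S0564.result B (P : Subgroup G) hBn hPn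
    (fun g => Cfsg.Agent.Lib.Helper9.Wie3.exists_mul_of_coprime_index (P : Subgroup G) B hcop g)

end Cfsg.Agent.Lib.Helper43.MCNILIDX
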