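import Mathlib
import Cfsg.Agent.Lib.Helper43.MiSyl
import Cfsg.Agent.Lib.Helper44.Inv8

set_option autoImplicit false

namespace Cfsg.Agent.Lib.Helper43.MiLine

open Matrix
open Cfsg.Agent.Lib.Helper94.Basic Cfsg.Agent.Lib.Helper94.GLAux Cfsg.Agent.Lib.Helper94.Tv
  Cfsg.Agent.Lib.Helper94.QuadAbs Cfsg.Agent.Lib.Helper94.OrthSiegel
  Cfsg.Agent.Lib.Helper43.MiBase Cfsg.Agent.Lib.Helper43.MiRoot
  Cfsg.Agent.Lib.Helper43.MiRigid Cfsg.Agent.Lib.Helper43.OOdGen
  Cfsg.Agent.Lib.Helper43.MiSyl Cfsg.Agent.Lib.Helper43.OPlGeo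
open Cfsg.Agent.Lib.Helper43.OPlRoot (sg_add_left sg_inv sg_swap sg_self sg_conj_sim swap_inj
  exists_other)
open Cfsg.Agent.Lib.Helper43.OPlCent (sw1 sw2)
open Cfsg.Agent.Lib.Helper43.OPlSyl (sg_pow sg_pow_char char_pow_one)
open Cfsg.Agent.Lib.Helper43.OPlLine (TS_isom Ind_gl NO ne_of_idx)
open Cfsg.Agent.Lib.Helper94.SympAbs (bil_zero_left bil_zero_right bil_neg_left bil_neg_right
  bil_sub_left bil_sub_right)

universe u

variable {F : Type u} [Field F] [Fintype F] {m : ℕ} {A B : F}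

theorem rt_congr (hm : Hy m F A B) {u v u' v' : MI m → F}
    (h : sg (hQ hm) u v = sg (hQ hm) u' v') : rt hm u v = rt hm u' v' := by
  unfold rt
  congr 1
  apply omega_ext
  exact h

theorem rt_inj (hm : Hy m F A B) (p : ℕ) [Fact p.Prime] [CharP F p] {u v u' v' : MI m → F}
    (h : rt hm u v = rt hm u' v') : sg (hQ hm) u v = sg (hQ hm) u' v' := by
  have h1 := eq_lift hm p (T_pow hm p u v) (T_pow hm p u' v') h
  exact congrArg (fun s : ↥(Cfsg.Omega F (Cfsg.quadFormMinus m F A B)) =>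
    ((s : ↥(Cfsg.isometryGroup F (Cfsg.quadFormMinus m F A B))) : GL (MI m) F)) h1

theorem rt_eq_one_lift (hm : Hy m F A B) (p : ℕ) [Fact p.Prime] [CharP F p]
    {u v : MI m → F} (h : rt hm u v = 1) : sg (hQ hm) u v = 1 := by
  have h1 : T hm u v = 1 := eq_lift hm p (T_pow hm p u v) (one_pow p)
    (by rw [QuotientGroup.mk_one]; exact h)
  exact congrArg (fun s : ↥(Cfsg.Omega F (Cfsg.quadFormMinus m F A B)) =>
    ((s : ↥(Cfsg.isometryGroup F (Cfsg.quadFormMinus m F A B))) : GL (MI m) F)) h1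

theorem rt_comm_lift (hm : Hy m F A B) (p : ℕ) [Fact p.Prime] [CharP F p]
    {u v u' v' : MI m → F}
    (h : rt hm u v * rt hm u' v' = rt hm u' v' * rt hm u v) :
    sg (hQ hm) u v * sg (hQ hm) u' v' = sg (hQ hm) u' v' * sg (hQ hm) u v := by
  have h1 := comm_lift hm p (T_pow hm p u' v') (s := T hm u v) h
  exact congrArg (fun s : ↥(Cfsg.Omega F (Cfsg.quadFormMinus m F A B)) =>
    ((s : ↥(Cfsg.isometryGroup F (Cfsg.quadFormMinus m F A B))) : GL (MI m) F)) h1

theorem rt_mul_lift (hm : Hy m F A B) (p : ℕ) [Fact p.Prime] [CharP F p]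
    {u v u' v' u'' v'' : MI m → F}
    (hc : rt hm u v * rt hm u' v' = rt hm u' v' * rt hm u v)
    (hp : rt hm u v * rt hm u' v' = rt hm u'' v'') :
    sg (hQ hm) u v * sg (hQ hm) u' v' = sg (hQ hm) u'' v'' := by
  have h1 : T hm u v * T hm u' v' = T hm u' v' * T hm u v :=
    comm_lift hm p (T_pow hm p u' v') (s := T hm u v) hc
  have h2 : (T hm u v * T hm u' v') ^ p = 1 := by
    rw [(show Commute (T hm u v) (T hm u' v') from h1).mul_pow, T_pow hm p, T_pow hm p, one_mul]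
  have h3 := eq_lift hm p h2 (T_pow hm p u'' v'') (by rw [QuotientGroup.mk_mul]; exact hp)
  exact congrArg (fun s : ↥(Cfsg.Omega F (Cfsg.quadFormMinus m F A B)) =>
    ((s : ↥(Cfsg.isometryGroup F (Cfsg.quadFormMinus m F A B))) : GL (MI m) F)) h3

theorem rt_comm_of_sg (hm : Hy m F A B) {u v u' v' : MI m → F}
    (h : sg (hQ hm) u v * sg (hQ hm) u' v' = sg (hQ hm) u' v' * sg (hQ hm) u v) :
    rt hm u v * rt hm u' v' = rt hm u' v' * rt hm u v := by
  unfold rt
  rw [← QuotientGroup.mk_mul, ← QuotientGroup.mk_mul]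
  congr 1
  apply omega_ext
  exact h

/-- coplanarity, group version -/
theorem coplanar_grp (hm : Hy m F A B) (p : ℕ) [Fact p.Prime] [CharP F p]
    {u v u' v' u'' v'' : MI m → F}
    (h1 : TS (Cfsg.quadFormMinus m F A B) u v) (i1 : Ind u v)
    (h2 : TS (Cfsg.quadFormMinus m F A B) u' v') (i2 : Ind u' v')
    (h3 : TS (Cfsg.quadFormMinus m F A B) u'' v'')
    (hc : rt hm u v * rt hm u' v' = rt hm u' v' * rt hm u v)
    (hp : rt hm u v * rt hm u' v' = rt hm u'' v'') :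
    (∃ q : MI m → F, q ≠ 0 ∧ q ∈ Submodule.span F ({u, v} : Set (MI m → F)) ∧
        q ∈ Submodule.span F ({u', v'} : Set (MI m → F))) ∧
      ∀ y ∈ Submodule.span F ({u, v} : Set (MI m → F)),
        ∀ y' ∈ Submodule.span F ({u', v'} : Set (MI m → F)),
          QuadraticMap.polar (Cfsg.quadFormMinus m F A B) y y' = 0 := by
  have e1 := rt_comm_lift hm p hc
  have e2 := rt_mul_lift hm p hc hp
  apply coplanar (hQ hm) h1 i1 h2 i2 h3
  · intro x
    have e3 := congrArg (fun g : GL (MI m) F =>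
      (g : Matrix (MI m) (MI m) F) *ᵥ x) e1
    simp only [Units.val_mul, ← Matrix.mulVec_mulVec, sg_eq (hQ hm) h1, sg_eq (hQ hm) h2,
      Nop_add (hQ hm)] at e3
    linear_combination (norm := module) e3
  · intro x
    have e3 := congrArg (fun g : GL (MI m) F =>
      (g : Matrix (MI m) (MI m) F) *ᵥ x) e2
    simp only [Units.val_mul, ← Matrix.mulVec_mulVec, sg_eq (hQ hm) h1, sg_eq (hQ hm) h2,
      sg_eq (hQ hm) h3, Nop_add (hQ hm)] at e3
    linear_combination (norm := module) e3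

theorem RG_of_span (hm : Hy m F A B) {u v x y : MI m → F}
    (h : TS (Cfsg.quadFormMinus m F A B) u v)
    (hx : x ∈ Submodule.span F ({u, v} : Set (MI m → F)))
    (hy : y ∈ Submodule.span F ({u, v} : Set (MI m → F))) :
    RG hm x y ⊆ RG hm u v := by
  rintro _ ⟨t, rfl⟩
  obtain ⟨a1, b1, rfl⟩ := Submodule.mem_span_pair.1 hx
  obtain ⟨c1, d1, rfl⟩ := Submodule.mem_span_pair.1 hy
  refine ⟨a1 * (t * d1) - b1 * (t * c1), ?_⟩
  apply rt_congr
  rw [smul_add, smul_smul, smul_smul, sg_span (hQ hm) h]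

theorem RG_eq_of_span (hm : Hy m F A B) {u v x y : MI m → F}
    (h : TS (Cfsg.quadFormMinus m F A B) u v) (h' : TS (Cfsg.quadFormMinus m F A B) x y) (hi : Ind x y)
    (hx : x ∈ Submodule.span F ({u, v} : Set (MI m → F)))
    (hy : y ∈ Submodule.span F ({u, v} : Set (MI m → F))) :
    RG hm x y = RG hm u v := by
  apply Set.Subset.antisymm (RG_of_span hm h hx hy)
  have e := span_eq_of_mem hi hx hy
  apply RG_of_span hm h'
  · rw [e]
    exact Submodule.subset_span (by simp)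
  · rw [e]
    exact Submodule.subset_span (by simp)

theorem span_eq_of_RG (hm : Hy m F A B) (p : ℕ) [Fact p.Prime] [CharP F p]
    {u v u' v' : MI m → F} (h : TS (Cfsg.quadFormMinus m F A B) u v) (hi : Ind u v)
    (h' : TS (Cfsg.quadFormMinus m F A B) u' v') (he : RG hm u v = RG hm u' v') :
    Submodule.span F ({u, v} : Set (MI m → F)) =
      Submodule.span F ({u', v'} : Set (MI m → F)) := by
  have h1 : rt hm u ((1 : F) • v) ∈ RG hm u' v' := by
    rw [← he]
    exact ⟨1, rfl⟩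
  obtain ⟨t, ht⟩ := h1
  rw [one_smul] at ht
  have h2 := rt_inj hm p ht
  have h3 := span_le_of_sg_eq (hQ hm) h hi (h'.smul_right (hQ hm) t) h2
  have h4 : Submodule.span F ({u', t • v'} : Set (MI m → F)) ≤
      Submodule.span F ({u', v'} : Set (MI m → F)) :=
    span_pair_le (Submodule.subset_span (by simp))
      (Submodule.smul_mem _ _ (Submodule.subset_span (by simp)))
  exact Submodule.eq_of_le_of_finrank_le (le_trans h3 h4)
    (by rw [finrank_span hi]; exact finrank_span_pair_le (F := F) u' v')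

theorem exists_pair (hm : Hy m F A B) (p : ℕ) [Fact p.Prime] [CharP F p]
    (α : MulAut (Cfsg.POmega F (Cfsg.quadFormMinus m F A B))) {a b : Fin m ⊕ Fin m} (h : NO a b) :
    ∃ L : Submodule F (MI m → F), ∃ u v : MI m → F,
      TS (Cfsg.quadFormMinus m F A B) u v ∧ Ind u v ∧ α '' RG hm (E a) (E b) = RG hm u v ∧
        L = Submodule.span F ({u, v} : Set (MI m → F)) := by
  obtain ⟨g, hg⟩ := perm hm p h.1 h.2 α
  exact ⟨_, _, _, TS_isom _ (fun v => (mem_isometryGroup_iff _ _).1 g.1.2 v) (TS_frame h.2),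
    Ind_gl _ (Ind_frame h.1), hg, rfl⟩

/-- the line of the image of a frame root group -/
noncomputable def Ln (hm : Hy m F A B) (p : ℕ) [Fact p.Prime] [CharP F p]
    (α : MulAut (Cfsg.POmega F (Cfsg.quadFormMinus m F A B))) (a b : Fin m ⊕ Fin m) :
    Submodule F (MI m → F) :=
  open Classical in
  if h : NO a b then Classical.choose (exists_pair hm p α h) else ⊥

theorem Ln_spec (hm : Hy m F A B) (p : ℕ) [Fact p.Prime] [CharP F p]
    (α : MulAut (Cfsg.POmega F (Cfsg.quadFormMinus m F A B))) {a b : Fin m ⊕ Fin m} (h : NO a b) :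
    ∃ u v : MI m → F,
      TS (Cfsg.quadFormMinus m F A B) u v ∧ Ind u v ∧ α '' RG hm (E a) (E b) = RG hm u v ∧
        Ln hm p α a b = Submodule.span F ({u, v} : Set (MI m → F)) := by
  unfold Ln
  rw [dif_pos h]
  exact Classical.choose_spec (exists_pair hm p α h)

theorem Ln_finrank (hm : Hy m F A B) (p : ℕ) [Fact p.Prime] [CharP F p]
    (α : MulAut (Cfsg.POmega F (Cfsg.quadFormMinus m F A B))) {a b : Fin m ⊕ Fin m} (h : NO a b) :
    Module.finrank F (Ln hm p α a b) = 2 := by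
  obtain ⟨u, v, -, i1, -, l1⟩ := Ln_spec hm p α h
  rw [l1]
  exact finrank_span i1

theorem Ln_unique (hm : Hy m F A B) (p : ℕ) [Fact p.Prime] [CharP F p]
    (α : MulAut (Cfsg.POmega F (Cfsg.quadFormMinus m F A B))) {a b : Fin m ⊕ Fin m} (h : NO a b)
    {x y : MI m → F} (hx : TS (Cfsg.quadFormMinus m F A B) x y)
    (he : α '' RG hm (E a) (E b) = RG hm x y) :
    Ln hm p α a b = Submodule.span F ({x, y} : Set (MI m → F)) := by
  obtain ⟨u, v, h1, i1, e1, e2⟩ := Ln_spec hm p α h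
  rw [e2]
  exact span_eq_of_RG hm p h1 i1 hx (by rw [← e1, he])

theorem RG_symm (hm : Hy m F A B) {a b : Fin m ⊕ Fin m} (h : NO a b) :
    RG (F := F) hm (E a) (E b) = RG hm (E b) (E a) :=
  RG_eq_of_span hm (TS_frame h.symm.2) (TS_frame h.2) (Ind_frame h.1)
    (Submodule.subset_span (by simp)) (Submodule.subset_span (by simp))

theorem Ln_symm (hm : Hy m F A B) (p : ℕ) [Fact p.Prime] [CharP F p]
    (α : MulAut (Cfsg.POmega F (Cfsg.quadFormMinus m F A B))) {a b : Fin m ⊕ Fin m} (h : NO a b) :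
    Ln hm p α a b = Ln hm p α b a := by
  obtain ⟨u, v, h1, i1, e1, e2⟩ := Ln_spec hm p α h.symm
  rw [e2]
  exact Ln_unique hm p α h h1 (by rw [RG_symm hm h]; exact e1)

theorem conj_frame (hm : Hy m F A B) {a b c : Fin m ⊕ Fin m} (hab : NO a b) (hac : NO a c)
    (hbc : NO b c) (s lam : F) :
    rt hm (E b.swap) (lam • E c) * X hm a b s * (rt hm (E b.swap) (lam • E c))⁻¹ =
      X hm a b s * X hm a c (s * lam) := by
  have h1 : rt hm (E b.swap) (lam • E c) * rt hm (E a) (s • E b) *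
      (rt hm (E b.swap) (lam • E c))⁻¹ =
      rt hm (((sg (hQ hm) (E b.swap) (lam • E c) : GL (MI m) F) :
          Matrix (MI m) (MI m) F) *ᵥ (E a : MI m → F))
        (((sg (hQ hm) (E b.swap) (lam • E c) : GL (MI m) F) :
          Matrix (MI m) (MI m) F) *ᵥ (s • (E b : MI m → F))) :=
    rt_conj hm (T hm (E b.swap) (lam • E c)) (E a) (s • E b)
  have hc' : c ≠ b.swap.swap := by
    rw [Sum.swap_swap]
    exact hbc.1
  have e1 : ((sg (hQ hm) (E b.swap) (lam • E c) : GL (MI m) F) :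
      Matrix (MI m) (MI m) F) *ᵥ (E a : MI m → F) = E a := by
    rw [frame_mulVec hm hc', Sum.swap_swap, E_ne hab.1, E_ne (sw1 hac.2)]
    simp
  have e2 : ((sg (hQ hm) (E b.swap) (lam • E c) : GL (MI m) F) :
      Matrix (MI m) (MI m) F) *ᵥ (s • (E b : MI m → F)) =
        s • E b + (s * lam) • E c := by
    rw [Matrix.mulVec_smul, frame_mulVec hm hc', Sum.swap_swap, E_self, E_ne (sw1 hbc.2)]
    module
  unfold X
  rw [h1, e1, e2, rt_add hm _ _ _ (Q_E a) (frame_perp hab.2 s) (frame_perp hac.2 _)]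

/-- products of two coplanar frame root elements map to root elements -/
theorem root_prod (hm : Hy m F A B) (p : ℕ) [Fact p.Prime] [CharP F p]
    (α : MulAut (Cfsg.POmega F (Cfsg.quadFormMinus m F A B))) {a b c : Fin m ⊕ Fin m}
    (hab : NO a b) (hac : NO a c) (hbc : NO b c) (s t : F) :
    ∃ u'' v'' : MI m → F, TS (Cfsg.quadFormMinus m F A B) u'' v'' ∧
      α (X hm a b s * X hm a c t) = rt hm u'' v'' := by
  by_cases hs : s = 0
  · obtain ⟨u, v, h1, -, e1, -⟩ := Ln_spec hm p α hac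
    have h2 : α (X hm a c t) ∈ RG hm u v := by
      rw [← e1]
      exact ⟨_, ⟨t, rfl⟩, rfl⟩
    obtain ⟨τ, hτ⟩ := h2
    exact ⟨u, τ • v, h1.smul_right (hQ hm) τ, by rw [hs, X_zero, one_mul]; exact hτ⟩
  · obtain ⟨u, v, h1, -, e1, -⟩ := Ln_spec hm p α hab
    have h2 : α (X hm a b s) ∈ RG hm u v := by
      rw [← e1]
      exact ⟨_, ⟨s, rfl⟩, rfl⟩
    obtain ⟨τ, hτ⟩ := h2
    obtain ⟨k, hk⟩ := QuotientGroup.mk_surjective (α (rt hm (E b.swap) ((t / s) • E c)))
    have h3 := conj_frame hm hab hac hbc s (t / s)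
    have h4 : s * (t / s) = t := by
      field_simp
    rw [h4] at h3
    refine ⟨(((k : ↥(Cfsg.isometryGroup F (Cfsg.quadFormMinus m F A B))) : GL (MI m) F) :
        Matrix (MI m) (MI m) F) *ᵥ u,
      (((k : ↥(Cfsg.isometryGroup F (Cfsg.quadFormMinus m F A B))) : GL (MI m) F) :
        Matrix (MI m) (MI m) F) *ᵥ (τ • v),
      TS_isom _ (fun v => (mem_isometryGroup_iff _ _).1 k.1.2 v) (h1.smul_right (hQ hm) τ), ?_⟩
    rw [← h3, map_mul, map_mul, map_inv, hτ, ← hk, rt_conj]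

theorem frame_indep (hm : Hy m F A B) (p : ℕ) [Fact p.Prime] [CharP F p] {a : Fin m ⊕ Fin m}
    {w : MI m → F} (hw : QuadraticMap.polar (Cfsg.quadFormMinus m F A B) (E a) w = 0)
    (h : rt hm (E a) w = 1) : ∃ c : F, w = c • E a :=
  sg_eq_one_span (hQ hm) (Q_E a) (E_ne_zero a) hw (rt_eq_one_lift hm p h)

/-- two coplanar frame root groups have coplanar distinct images -/
theorem Ln_coplanar (hm : Hy m F A B) (p : ℕ) [Fact p.Prime] [CharP F p]
    (α : MulAut (Cfsg.POmega F (Cfsg.quadFormMinus m F A B))) {a b c : Fin m ⊕ Fin m}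
    (hab : NO a b) (hac : NO a c) (hbc : NO b c) :
    Ln hm p α a b ⊓ Ln hm p α a c ≠ ⊥ ∧
      (∀ y ∈ Ln hm p α a b, ∀ y' ∈ Ln hm p α a c,
        QuadraticMap.polar (Cfsg.quadFormMinus m F A B) y y' = 0) ∧
      Ln hm p α a b ≠ Ln hm p α a c := by
  obtain ⟨u, v, h1, i1, e1, l1⟩ := Ln_spec hm p α hab
  obtain ⟨u', v', h2, i2, e2, l2⟩ := Ln_spec hm p α hac
  have hs : rt hm u ((1 : F) • v) ∈ α '' RG hm (E a) (E b) := by
    rw [e1]
    exact ⟨1, rfl⟩
  obtain ⟨_, ⟨s, rfl⟩, hs⟩ := hs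
  have ht : rt hm u' ((1 : F) • v') ∈ α '' RG hm (E a) (E c) := by
    rw [e2]
    exact ⟨1, rfl⟩
  obtain ⟨_, ⟨t, rfl⟩, ht⟩ := ht
  rw [one_smul] at hs ht
  obtain ⟨u'', v'', h3, e3⟩ := root_prod hm p α hab hac hbc s t
  have hcomm : X hm a b s * X hm a c t = X hm a c t * X hm a b s := by
    unfold X
    rw [← rt_add hm _ _ _ (Q_E a) (frame_perp hab.2 s) (frame_perp hac.2 t),
      ← rt_add hm _ _ _ (Q_E a) (frame_perp hac.2 t) (frame_perp hab.2 s), add_comm]
  have hc : rt hm u v * rt hm u' v' = rt hm u' v' * rt hm u v := by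
    rw [← hs, ← ht, ← map_mul, ← map_mul]
    exact congrArg α hcomm
  have hp : rt hm u v * rt hm u' v' = rt hm u'' v'' := by
    rw [← hs, ← ht, ← map_mul]
    exact e3
  obtain ⟨⟨q, hq0, hq, hq'⟩, hperp⟩ := coplanar_grp hm p h1 i1 h2 i2 h3 hc hp
  rw [l1, l2]
  refine ⟨?_, hperp, ?_⟩
  · intro hbot
    have hmem : q ∈ Submodule.span F ({u, v} : Set (MI m → F)) ⊓
        Submodule.span F ({u', v'} : Set (MI m → F)) := Submodule.mem_inf.2 ⟨hq, hq'⟩
    rw [hbot] at hmem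
    exact hq0 ((Submodule.mem_bot F).1 hmem)
  · intro heq
    have h4 : RG hm u' v' = RG hm u v :=
      RG_eq_of_span hm h1 h2 i2 (by rw [heq]; exact Submodule.subset_span (by simp))
        (by rw [heq]; exact Submodule.subset_span (by simp))
    have h5 : α '' RG hm (E a) (E b) = α '' RG hm (E a) (E c) := by rw [e1, e2, h4]
    have h6 : RG (F := F) hm (E a) (E b) = RG hm (E a) (E c) :=
      (Set.image_injective.2 α.injective) h5
    have h7 : X hm a b (1 : F) ∈ RG hm (E a) (E c) := by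
      rw [← h6]
      exact ⟨1, rfl⟩
    obtain ⟨τ, hτ⟩ := h7
    have h8 : rt (F := F) hm (E a) ((1 : F) • E b + (-τ) • E c) = 1 := by
      rw [rt_add hm _ _ _ (Q_E a) (frame_perp hab.2 1) (frame_perp hac.2 (-τ))]
      show X (F := F) hm a b 1 * X (F := F) hm a c (-τ) = 1
      rw [X_neg hm hac.2, hτ]
      exact mul_inv_cancel _
    obtain ⟨c', hc'⟩ := frame_indep hm p (w := (1 : F) • E b + (-τ) • E c)
      (by rw [(hQ hm).polar_bilinear.add_right, frame_perp hab.2, frame_perp hac.2, add_zero]) h8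
    have h9 := congrFun hc' (Sum.inl b)
    simp [E_self, E_ne (Ne.symm hbc.1), E_ne hab.1] at h9

/-! ### index lemmas -/

theorem NO_swr {a b : Fin m ⊕ Fin m} (h : NO a b) : NO a b.swap :=
  ⟨fun h' => h.2 (by rw [← h', Sum.swap_swap]), fun h' => h.1 (swap_inj h')⟩

theorem NO_swl {a b : Fin m ⊕ Fin m} (h : NO a b) : NO a.swap b :=
  ⟨h.2, by rw [Sum.swap_swap]; exact h.1⟩

theorem exists_other3 (hm4 : 4 ≤ m) (a b c : Fin m ⊕ Fin m) :
    ∃ e : Fin m ⊕ Fin m, NO a e ∧ NO b e ∧ NO c e := by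
  have hcard : ({Sum.elim id id a, Sum.elim id id b, Sum.elim id id c} :
      Finset (Fin m)).card < (Finset.univ : Finset (Fin m)).card := by
    rw [Finset.card_univ, Fintype.card_fin]
    exact lt_of_le_of_lt Finset.card_le_three (by omega)
  obtain ⟨k, -, hk⟩ := Finset.exists_mem_notMem_of_card_lt_card hcard
  simp only [Finset.mem_insert, Finset.mem_singleton, not_or] at hk
  exact ⟨Sum.inl k, ne_of_idx hk.1, ne_of_idx hk.2.1, ne_of_idx hk.2.2⟩

/-! ### further properties of the image lines -/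

theorem Ln_ts (hm : Hy m F A B) (p : ℕ) [Fact p.Prime] [CharP F p]
    (α : MulAut (Cfsg.POmega F (Cfsg.quadFormMinus m F A B))) {a b : Fin m ⊕ Fin m} (h : NO a b) :
    ∀ y ∈ Ln hm p α a b, ∀ y' ∈ Ln hm p α a b,
      QuadraticMap.polar (Cfsg.quadFormMinus m F A B) y y' = 0 := by
  obtain ⟨u, v, h1, -, -, l1⟩ := Ln_spec hm p α h
  rw [l1]
  intro y hy y' hy'
  exact B_span (hQ hm) h1 hy hy'

theorem Ln_sing (hm : Hy m F A B) (p : ℕ) [Fact p.Prime] [CharP F p]
    (α : MulAut (Cfsg.POmega F (Cfsg.quadFormMinus m F A B))) {a b : Fin m ⊕ Fin m} (h : NO a b) :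
    ∀ y ∈ Ln hm p α a b, Cfsg.quadFormMinus m F A B y = 0 := by
  obtain ⟨u, v, h1, -, -, l1⟩ := Ln_spec hm p α h
  rw [l1]
  intro y hy
  exact Q_span (hQ hm) h1 hy

theorem Ln_gen (hm : Hy m F A B) (p : ℕ) [Fact p.Prime] [CharP F p]
    (α : MulAut (Cfsg.POmega F (Cfsg.quadFormMinus m F A B))) {a b : Fin m ⊕ Fin m} (h : NO a b) :
    ∃ (u v : MI m → F) (s : F), TS (Cfsg.quadFormMinus m F A B) u v ∧ Ind u v ∧
      α '' RG hm (E a) (E b) = RG hm u v ∧
      Ln hm p α a b = Submodule.span F ({u, v} : Set (MI m → F)) ∧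
      α (X hm a b s) = rt hm u v ∧ s ≠ 0 := by
  obtain ⟨u, v, h1, i1, e1, l1⟩ := Ln_spec hm p α h
  have hs : rt hm u ((1 : F) • v) ∈ α '' RG hm (E a) (E b) := by
    rw [e1]
    exact ⟨1, rfl⟩
  obtain ⟨_, ⟨s, rfl⟩, hs⟩ := hs
  rw [one_smul] at hs
  refine ⟨u, v, s, h1, i1, e1, l1, hs, ?_⟩
  rintro rfl
  have h2 : rt hm u v = 1 := by
    rw [← hs]
    show α (X hm a b 0) = 1
    rw [X_zero, map_one]
  have h3 := rt_eq_one_lift hm p h2
  have h4 := sg_eq_one_imp (hQ hm) h1 i1 (c := 1) (by rw [one_smul]; exact h3)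
  exact one_ne_zero h4

/-- opposite frame root groups: the image lines meet or are orthogonal -/
theorem Ln_opp (hm : Hy m F A B) (p : ℕ) [Fact p.Prime] [CharP F p]
    (α : MulAut (Cfsg.POmega F (Cfsg.quadFormMinus m F A B))) {a b : Fin m ⊕ Fin m} (h : NO a b) :
    Ln hm p α a b ⊓ Ln hm p α a b.swap ≠ ⊥ ∨
      ∀ y ∈ Ln hm p α a b, ∀ y' ∈ Ln hm p α a b.swap,
        QuadraticMap.polar (Cfsg.quadFormMinus m F A B) y y' = 0 := by
  have h' : NO a b.swap := NO_swr h
  obtain ⟨u, v, s, h1, i1, -, l1, hs, -⟩ := Ln_gen hm p α h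
  obtain ⟨u', v', t, h2, i2, -, l2, ht, -⟩ := Ln_gen hm p α h'
  have hcommX : X hm a b s * X hm a b.swap t = X hm a b.swap t * X hm a b s := by
    unfold X
    rw [← rt_add hm _ _ _ (Q_E a) (frame_perp h.2 s) (frame_perp h'.2 t),
      ← rt_add hm _ _ _ (Q_E a) (frame_perp h'.2 t) (frame_perp h.2 s), add_comm]
  have hc : rt hm u v * rt hm u' v' = rt hm u' v' * rt hm u v := by
    rw [← hs, ← ht, ← map_mul, ← map_mul]
    exact congrArg α hcommX
  have e1 := rt_comm_lift hm p hc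
  have hcomm : ∀ x, Nop (Cfsg.quadFormMinus m F A B) u v (Nop (Cfsg.quadFormMinus m F A B) u' v' x) =
      Nop (Cfsg.quadFormMinus m F A B) u' v' (Nop (Cfsg.quadFormMinus m F A B) u v x) := by
    intro x
    have e3 := congrArg (fun g : GL (MI m) F => (g : Matrix (MI m) (MI m) F) *ᵥ x) e1
    simp only [Units.val_mul, ← Matrix.mulVec_mulVec, sg_eq (hQ hm) h1, sg_eq (hQ hm) h2,
      Nop_add (hQ hm)] at e3
    linear_combination (norm := module) e3
  rcases comm_meet_or_perp (hQ hm) i1 i2 hcomm with ⟨q, hq0, hq, hq'⟩ | hperp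
  · left
    rw [l1, l2]
    intro hbot
    have hmem : q ∈ Submodule.span F ({u, v} : Set (MI m → F)) ⊓
        Submodule.span F ({u', v'} : Set (MI m → F)) := Submodule.mem_inf.2 ⟨hq, hq'⟩
    rw [hbot] at hmem
    exact hq0 ((Submodule.mem_bot F).1 hmem)
  · right
    rw [l1, l2]
    exact perp_span (hQ hm) hperp

/-- opposite frame root groups: the image lines cannot meet and be orthogonal -/
theorem Ln_opp_not (hm : Hy m F A B) (p : ℕ) [Fact p.Prime] [CharP F p]
    (α : MulAut (Cfsg.POmega F (Cfsg.quadFormMinus m F A B))) {a b : Fin m ⊕ Fin m} (h : NO a b)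
    (hmeet : Ln hm p α a b ⊓ Ln hm p α a b.swap ≠ ⊥)
    (hperp : ∀ y ∈ Ln hm p α a b, ∀ y' ∈ Ln hm p α a b.swap,
      QuadraticMap.polar (Cfsg.quadFormMinus m F A B) y y' = 0) : False := by
  have hbl := (hQ hm).polar_bilinear
  have h' : NO a b.swap := NO_swr h
  obtain ⟨u, v, s, h1, i1, e1, l1, hs, hs0⟩ := Ln_gen hm p α h
  obtain ⟨u', v', t, h2, i2, e2, l2, ht, ht0⟩ := Ln_gen hm p α h'
  rw [l1, l2] at hmeet hperp
  obtain ⟨q, hq, hq0⟩ := (Submodule.ne_bot_iff _).1 hmeet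
  have hqL := (Submodule.mem_inf.1 hq).1
  have hqL' := (Submodule.mem_inf.1 hq).2
  obtain ⟨w, hw, ew⟩ := line_through (hQ hm) h1 hqL hq0 (1 : F)
  obtain ⟨w', hw', ew'⟩ := line_through (hQ hm) h2 hqL' hq0 (1 : F)
  rw [one_smul] at ew ew'
  have Qq : Cfsg.quadFormMinus m F A B q = 0 := Q_span (hQ hm) h1 hqL
  have Qw : Cfsg.quadFormMinus m F A B w = 0 := Q_span (hQ hm) h1 hw
  have Qw' : Cfsg.quadFormMinus m F A B w' = 0 := Q_span (hQ hm) h2 hw'
  have Bqw : QuadraticMap.polar (Cfsg.quadFormMinus m F A B) q w = 0 := B_span (hQ hm) h1 hqL hw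
  have Bqw' : QuadraticMap.polar (Cfsg.quadFormMinus m F A B) q w' = 0 := B_span (hQ hm) h2 hqL' hw'
  have Bww' : QuadraticMap.polar (Cfsg.quadFormMinus m F A B) w w' = 0 := hperp w hw w' hw'
  have hsw : α (X hm a b s) = rt hm q w := by
    rw [hs]
    exact rt_congr hm ew
  have htw : α (X hm a b.swap t) = rt hm q w' := by
    rw [ht]
    exact rt_congr hm ew'
  obtain ⟨w0, hw0def⟩ : ∃ w0 : MI m → F, w0 = s • E b + t • E b.swap := ⟨_, rfl⟩
  have hprodX : X hm a b s * X hm a b.swap t = rt hm (E a) w0 := by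
    unfold X
    rw [hw0def, ← rt_add hm _ _ _ (Q_E a) (frame_perp h.2 s) (frame_perp h'.2 t)]
  -- `w` is not on the second line
  have hnot : w ∉ Submodule.span F ({q, w'} : Set (MI m → F)) := by
    intro hmem
    obtain ⟨c1, c2, hc⟩ := Submodule.mem_span_pair.1 hmem
    have e3 : sg (hQ hm) q w = sg (hQ hm) q (c2 • w') := by
      rw [← hc, ← sg_mul (hQ hm) q _ _ Qq
        (by rw [hbl.smul_right, polar_self_sing (hQ hm) q Qq, mul_zero])
        (by rw [hbl.smul_right, Bqw', mul_zero]), sg_self, one_mul]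
    have e4 : α (X hm a b s) ∈ α '' RG hm (E a) (E b.swap) := by
      rw [e2, hsw, rt_congr hm e3]
      exact RG_of_span hm h2 hqL' hw' ⟨c2, rfl⟩
    obtain ⟨_, ⟨τ, rfl⟩, hτ⟩ := e4
    have e5 : X hm a b s = rt hm (E a) (τ • E b.swap) := (α.injective hτ).symm
    have e6 : rt hm (E a) (s • E b + (-τ) • E b.swap) = 1 := by
      rw [rt_add hm _ _ _ (Q_E a) (frame_perp h.2 s) (frame_perp h'.2 (-τ))]
      show X hm a b s * X hm a b.swap (-τ) = 1
      rw [X_neg hm h'.2, e5]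
      exact mul_inv_cancel _
    obtain ⟨c', hc'⟩ := frame_indep hm p (w := s • E b + (-τ) • E b.swap)
      (by rw [hbl.add_right, frame_perp h.2, frame_perp h'.2, add_zero]) e6
    have e7 := congrFun hc' (Sum.inl b)
    simp [E_self, E_ne (Ne.symm (swap_ne b)), E_ne h.1] at e7
    exact hs0 e7
  obtain ⟨r, hr, hr0⟩ := exists_perp_ne (hQ hm) _ w hnot
  have r1 : QuadraticMap.polar (Cfsg.quadFormMinus m F A B) q r = 0 :=
    hr q (Submodule.subset_span (by simp))
  have r2 : QuadraticMap.polar (Cfsg.quadFormMinus m F A B) w' r = 0 :=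
    hr w' (Submodule.subset_span (by simp))
  obtain ⟨μ, hμ⟩ : ∃ μ : F, μ = QuadraticMap.polar (Cfsg.quadFormMinus m F A B) w r := ⟨_, rfl⟩
  have hμ0 : μ ≠ 0 := by rw [hμ]; exact hr0
  obtain ⟨lam, hlam⟩ : ∃ lam : F, lam = -(Cfsg.quadFormMinus m F A B r) / μ := ⟨_, rfl⟩
  obtain ⟨c, hc⟩ : ∃ c : MI m → F, c = r + lam • w := ⟨_, rfl⟩
  have Qc : Cfsg.quadFormMinus m F A B c = 0 := by
    rw [hc, Q_add (Cfsg.quadFormMinus m F A B), (hQ hm).smul, Qw, hbl.smul_right,
      B_comm (Cfsg.quadFormMinus m F A B) r w, ← hμ, hlam]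
    field_simp
    ring
  have Bcq : QuadraticMap.polar (Cfsg.quadFormMinus m F A B) c q = 0 := by
    rw [hc, hbl.add_left, hbl.smul_left, B_comm (Cfsg.quadFormMinus m F A B) r q, r1,
      B_comm (Cfsg.quadFormMinus m F A B) w q, Bqw, mul_zero, add_zero]
  have Bcw' : QuadraticMap.polar (Cfsg.quadFormMinus m F A B) c w' = 0 := by
    rw [hc, hbl.add_left, hbl.smul_left, B_comm (Cfsg.quadFormMinus m F A B) r w', r2, Bww', mul_zero,
      add_zero]
  have Bcw : QuadraticMap.polar (Cfsg.quadFormMinus m F A B) c w = μ := by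
    rw [hc, hbl.add_left, hbl.smul_left, polar_self_sing (hQ hm) w Qw, mul_zero, add_zero,
      B_comm, hμ]
  have Bcw'μ : QuadraticMap.polar (Cfsg.quadFormMinus m F A B) c (μ⁻¹ • w') = 0 := by
    rw [hbl.smul_right, Bcw', mul_zero]
  have Qw'μ : Cfsg.quadFormMinus m F A B (μ⁻¹ • w') = 0 := by rw [(hQ hm).smul, Qw', mul_zero]
  have eq : ((sg (hQ hm) c (μ⁻¹ • w') : GL (MI m) F) : Matrix (MI m) (MI m) F) *ᵥ q = q := by
    rw [sg_mulVec (hQ hm) _ _ Qc Bcw'μ, Bcq, hbl.smul_left, B_comm (Cfsg.quadFormMinus m F A B) w' q,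
      Bqw']
    simp
  have ew2 : ((sg (hQ hm) c (μ⁻¹ • w') : GL (MI m) F) : Matrix (MI m) (MI m) F) *ᵥ w =
      w + w' := by
    rw [sg_mulVec (hQ hm) _ _ Qc Bcw'μ, Bcw, hbl.smul_left, B_comm (Cfsg.quadFormMinus m F A B) w' w,
      Bww', Qw'μ, smul_smul, mul_inv_cancel₀ hμ0]
    simp
  have hconj := rt_conj hm (T hm c (μ⁻¹ • w')) q w
  rw [T_coe, eq, ew2, rt_add hm _ _ _ Qq Bqw Bqw'] at hconj
  obtain ⟨y, hy⟩ := α.surjective (QuotientGroup.mk (T hm c (μ⁻¹ • w')))
  have e8 : α (y * X hm a b s * y⁻¹) = α (X hm a b s * X hm a b.swap t) := by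
    simp only [map_mul, map_inv]
    rw [hy, hsw, htw]
    exact hconj
  have e9 := α.injective e8
  obtain ⟨g, rfl⟩ := QuotientGroup.mk_surjective y
  rw [hprodX] at e9
  have e10 : (QuotientGroup.mk g : Cfsg.POmega F (Cfsg.quadFormMinus m F A B)) * X hm a b s *
      (QuotientGroup.mk g)⁻¹ =
      rt hm ((((g : ↥(Cfsg.isometryGroup F (Cfsg.quadFormMinus m F A B))) : GL (MI m) F) :
          Matrix (MI m) (MI m) F) *ᵥ E a)
        ((((g : ↥(Cfsg.isometryGroup F (Cfsg.quadFormMinus m F A B))) : GL (MI m) F) :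
          Matrix (MI m) (MI m) F) *ᵥ (s • E b)) := rt_conj hm g (E a) (s • E b)
  rw [e10] at e9
  have e11 := rt_inj hm p e9
  have hTS : TS (Cfsg.quadFormMinus m F A B)
      ((((g : ↥(Cfsg.isometryGroup F (Cfsg.quadFormMinus m F A B))) : GL (MI m) F) :
          Matrix (MI m) (MI m) F) *ᵥ E a)
      ((((g : ↥(Cfsg.isometryGroup F (Cfsg.quadFormMinus m F A B))) : GL (MI m) F) :
          Matrix (MI m) (MI m) F) *ᵥ (s • E b)) :=
    TS_isom _ (fun v => (mem_isometryGroup_iff _ _).1 g.1.2 v)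
      ((TS_frame h.2).smul_right (hQ hm) s)
  have e12 := congrArg (fun k : GL (MI m) F =>
    (k : Matrix (MI m) (MI m) F) *ᵥ (E a.swap : MI m → F)) e11
  have hw0 : QuadraticMap.polar (Cfsg.quadFormMinus m F A B) (E a) w0 = 0 := by
    rw [hw0def, hbl.add_right, frame_perp h.2, frame_perp h'.2, add_zero]
  have p1 : QuadraticMap.polar (Cfsg.quadFormMinus m F A B) (E a) (E a.swap : MI m → F) = 1 := by
    rw [polar_E, E_self]
  have p2 : QuadraticMap.polar (Cfsg.quadFormMinus m F A B) w0 (E a.swap : MI m → F) = 0 := by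
    rw [polar_E', Sum.swap_swap, hw0def]
    simp [E_ne (Ne.symm h.1), E_ne (Ne.symm h'.1)]
  have Qw0 : Cfsg.quadFormMinus m F A B w0 = s * t := by
    rw [hw0def, Q_add (Cfsg.quadFormMinus m F A B), Q_smul_E hm, Q_smul_E hm, hbl.smul_left,
      hbl.smul_right, polar_E, E_self]
    ring
  rw [sg_eq (hQ hm) hTS, sg_mulVec (hQ hm) _ _ (Q_E a) hw0, p1, p2, Qw0] at e12
  have hN := Q_span (hQ hm) hTS (Nop_mem (Q := Cfsg.quadFormMinus m F A B)
    ((((g : ↥(Cfsg.isometryGroup F (Cfsg.quadFormMinus m F A B))) : GL (MI m) F) :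
          Matrix (MI m) (MI m) F) *ᵥ E a)
    ((((g : ↥(Cfsg.isometryGroup F (Cfsg.quadFormMinus m F A B))) : GL (MI m) F) :
          Matrix (MI m) (MI m) F) *ᵥ (s • E b)) (E a.swap))
  have e13 : Nop (Cfsg.quadFormMinus m F A B)
      ((((g : ↥(Cfsg.isometryGroup F (Cfsg.quadFormMinus m F A B))) : GL (MI m) F) :
          Matrix (MI m) (MI m) F) *ᵥ E a)
      ((((g : ↥(Cfsg.isometryGroup F (Cfsg.quadFormMinus m F A B))) : GL (MI m) F) :
          Matrix (MI m) (MI m) F) *ᵥ (s • E b)) (E a.swap) = w0 - (s * t) • E a := by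
    linear_combination (norm := module) e12
  rw [e13, Q_sub (hQ hm), Qw0, (hQ hm).smul, Q_E, hbl.smul_right,
    B_comm (Cfsg.quadFormMinus m F A B) w0 (E a), hw0] at hN
  have hst : s * t = 0 := by linear_combination hN
  rcases mul_eq_zero.1 hst with h0 | h0
  · exact hs0 h0
  · exact ht0 h0

/-! ### conjugating the automorphism -/

theorem Ln_conj_fix (hm : Hy m F A B) (p : ℕ) [Fact p.Prime] [CharP F p]
    (α : MulAut (Cfsg.POmega F (Cfsg.quadFormMinus m F A B)))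
    (g : ↥(Cfsg.Omega F (Cfsg.quadFormMinus m F A B))) {a b : Fin m ⊕ Fin m} (h : NO a b)
    (ha : (((g : ↥(Cfsg.isometryGroup F (Cfsg.quadFormMinus m F A B))) : GL (MI m) F) :
          Matrix (MI m) (MI m) F) *ᵥ (E a : MI m → F) = E a)
    (hb : (((g : ↥(Cfsg.isometryGroup F (Cfsg.quadFormMinus m F A B))) : GL (MI m) F) :
          Matrix (MI m) (MI m) F) *ᵥ (E b : MI m → F) = E b) :
    Ln hm p (α * MulAut.conj (QuotientGroup.mk g)) a b = Ln hm p α a b := by
  obtain ⟨u, v, h1, i1, e1, l1⟩ := Ln_spec hm p α h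
  rw [l1]
  apply Ln_unique hm p _ h h1
  rw [← e1, MulAut.coe_mul, Set.image_comp, conj_RG, ha, hb]

theorem kappa_fix (hm : Hy m F A B) {z b : Fin m ⊕ Fin m} (h : b ≠ z) :
    ((sg (hQ hm) (E z.swap) (wv (Pi.single 0 1)) : GL (MI m) F) : Matrix (MI m) (MI m) F) *ᵥ
      (E b : MI m → F) = E b := by
  rw [short_mulVec hm, Sum.swap_swap, E_ne (Ne.symm h), B_comm, wv_perp]
  simp

theorem Ln_conj_ne (hm : Hy m F A B) (p : ℕ) [Fact p.Prime] [CharP F p]
    (α : MulAut (Cfsg.POmega F (Cfsg.quadFormMinus m F A B))) {a z c : Fin m ⊕ Fin m} (haz : NO a z)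
    (hac : NO a c) :
    Ln hm p (α * MulAut.conj (QuotientGroup.mk (T hm (E z.swap) (wv (Pi.single 0 1))))) a z ≠
      Ln hm p α a c := by
  intro heq
  have hbl := (hQ hm).polar_bilinear
  obtain ⟨u, v, h1, i1, e1, l1⟩ := Ln_spec hm p
    (α * MulAut.conj (QuotientGroup.mk (T hm (E z.swap) (wv (Pi.single 0 1))))) haz
  obtain ⟨u', v', h2, i2, e2, l2⟩ := Ln_spec hm p α hac
  rw [l1, l2] at heq
  have h4 : RG hm u v = RG hm u' v' :=
    RG_eq_of_span hm h2 h1 i1 (by rw [← heq]; exact Submodule.subset_span (by simp))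
      (by rw [← heq]; exact Submodule.subset_span (by simp))
  have h5 : α '' ((MulAut.conj (QuotientGroup.mk (T hm (E z.swap) (wv (Pi.single 0 1))) :
      Cfsg.POmega F (Cfsg.quadFormMinus m F A B))) '' RG hm (E a) (E z)) =
      α '' RG hm (E a) (E c) := by
    rw [← Set.image_comp, ← MulAut.coe_mul, e1, e2, h4]
  have h6 := (Set.image_injective.2 α.injective) h5
  rw [conj_RG, T_coe, kappa_fix hm (Ne.symm haz.1)] at h6
  have k2 : ((sg (hQ hm) (E z.swap) (wv (Pi.single 0 1)) : GL (MI m) F) :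
      Matrix (MI m) (MI m) F) *ᵥ (E z : MI m → F) = E z + wv (Pi.single 0 1) - E z.swap := by
    have hN : N A B (Pi.single 0 1) = 1 := by simp [N, Pi.single_apply]
    rw [short_mulVec hm, Sum.swap_swap, E_self, B_comm, wv_perp, hN]
    module
  rw [k2] at h6
  have h7 : rt hm (E a) ((1 : F) • (E z + wv (Pi.single 0 1) - E z.swap)) ∈ RG hm (E a) (E c) := by
    rw [← h6]
    exact ⟨1, rfl⟩
  obtain ⟨τ, hτ⟩ := h7
  have hp1 : QuadraticMap.polar (Cfsg.quadFormMinus m F A B) (E a)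
      ((1 : F) • ((E z : MI m → F) + wv (Pi.single 0 1) - E z.swap)) = 0 := by
    rw [polar_E]
    simp [E_ne (Ne.symm haz.2), E_ne (fun h => haz.1 (swap_inj h).symm : a.swap ≠ z.swap),
      wv_fr]
  have h8 : rt hm (E a) ((1 : F) • ((E z : MI m → F) + wv (Pi.single 0 1) - E z.swap) + (-τ) • E c) = 1 := by
    rw [rt_add hm _ _ _ (Q_E a) hp1 (frame_perp hac.2 (-τ)), hτ]
    show X hm a c τ * X hm a c (-τ) = 1
    rw [X_neg hm hac.2]
    exact mul_inv_cancel _
  obtain ⟨c', hc'⟩ := frame_indep hm p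
    (by rw [hbl.add_right, hp1, frame_perp hac.2, add_zero]) h8
  have h9 := congrFun hc' (Sum.inr 0)
  simp [E_an, wv_an] at h9

/-! ### lattice lemmas -/

theorem three_lines {L1 L2 L3 : Submodule F (MI m → F)}
    (d1 : Module.finrank F L1 = 2) (d2 : Module.finrank F L2 = 2) (d3 : Module.finrank F L3 = 2)
    (n13 : L1 ≠ L3) (n12 : L1 ≠ L2) (m13 : L1 ⊓ L3 ≠ ⊥) (m12 : L1 ⊓ L2 ≠ ⊥)
    (m32 : L3 ⊓ L2 ≠ ⊥) : L1 ⊓ L2 ≤ L3 ∨ L3 ≤ L1 ⊔ L2 := by
  have hL2 : L2 ⊓ L2 ≠ ⊥ := by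
    rw [inf_idem]
    intro h
    rw [h, finrank_bot] at d2
    omega
  rcases conc_lattice d1 d3 d2 d2 n13 m13 m12 m12 m32 m32 hL2 with h | ⟨h, -⟩
  · left
    have h1 : L1 ⊓ L3 ≤ L1 ⊓ L2 := le_inf inf_le_left h
    have f13 := (two_of_ne d1 d3 n13 m13).1
    have f12 := (two_of_ne d1 d2 n12 m12).1
    have h2 : L1 ⊓ L3 = L1 ⊓ L2 := Submodule.eq_of_le_of_finrank_le h1 (by rw [f13, f12])
    rw [← h2]
    exact inf_le_right
  · right
    have h1 : L1 ⊔ L2 ≤ L1 ⊔ L3 := sup_le le_sup_left h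
    have f13 := (two_of_ne d1 d3 n13 m13).2
    have f12 := (two_of_ne d1 d2 n12 m12).2
    have h2 : L1 ⊔ L2 = L1 ⊔ L3 := Submodule.eq_of_le_of_finrank_le h1 (by rw [f13, f12])
    rw [h2]
    exact le_sup_right

theorem perp_of_le_sup (hm : Hy m F A B) {L1 L2 L3 : Submodule F (MI m → F)}
    (h11 : ∀ y ∈ L1, ∀ y' ∈ L1, QuadraticMap.polar (Cfsg.quadFormMinus m F A B) y y' = 0)
    (h12 : ∀ y ∈ L1, ∀ y' ∈ L2, QuadraticMap.polar (Cfsg.quadFormMinus m F A B) y y' = 0)
    (h : L3 ≤ L1 ⊔ L2) :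
    ∀ y ∈ L1, ∀ y' ∈ L3, QuadraticMap.polar (Cfsg.quadFormMinus m F A B) y y' = 0 := by
  intro y hy y' hy'
  obtain ⟨y1, hy1, y2, hy2, rfl⟩ := Submodule.mem_sup.1 (h hy')
  rw [(hQ hm).polar_bilinear.add_right, h11 y hy y1 hy1, h12 y hy y2 hy2, add_zero]

/-- the four-cycle lemma, in lattice form -/
theorem four_lines (hm : Hy m F A B) {L1 L2 L3 L4 : Submodule F (MI m → F)}
    (d1 : Module.finrank F L1 = 2) (d2 : Module.finrank F L2 = 2) (d3 : Module.finrank F L3 = 2)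
    (d4 : Module.finrank F L4 = 2)
    (t1 : ∀ y ∈ L1, ∀ y' ∈ L1, QuadraticMap.polar (Cfsg.quadFormMinus m F A B) y y' = 0)
    (t2 : ∀ y ∈ L2, ∀ y' ∈ L2, QuadraticMap.polar (Cfsg.quadFormMinus m F A B) y y' = 0)
    (c12 : L1 ⊓ L2 ≠ ⊥ ∧
      (∀ y ∈ L1, ∀ y' ∈ L2, QuadraticMap.polar (Cfsg.quadFormMinus m F A B) y y' = 0) ∧ L1 ≠ L2)
    (c32 : L3 ⊓ L2 ≠ ⊥ ∧
      (∀ y ∈ L3, ∀ y' ∈ L2, QuadraticMap.polar (Cfsg.quadFormMinus m F A B) y y' = 0) ∧ L3 ≠ L2)
    (c14 : L1 ⊓ L4 ≠ ⊥) (c34 : L3 ⊓ L4 ≠ ⊥)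
    (n13 : L1 ⊓ L3 ≠ ⊥ →
      (∀ y ∈ L1, ∀ y' ∈ L3, QuadraticMap.polar (Cfsg.quadFormMinus m F A B) y y' = 0) → False)
    (n24 : L2 ⊓ L4 ≠ ⊥ →
      (∀ y ∈ L2, ∀ y' ∈ L4, QuadraticMap.polar (Cfsg.quadFormMinus m F A B) y y' = 0) → False)
    (nskew : L1 ⊓ L3 = ⊥ → L2 ⊓ L4 = ⊥ → False) : L1 ⊓ L2 ≤ L3 := by
  by_cases hm13 : L1 ⊓ L3 = ⊥
  · exfalso
    by_cases hm24 : L2 ⊓ L4 = ⊥
    · exact nskew hm13 hm24
    · have h24 : L2 ≠ L4 := by
        intro heq
        apply n24 hm24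
        rw [← heq]
        exact t2
      have m21 : L2 ⊓ L1 ≠ ⊥ := by rw [inf_comm]; exact c12.1
      have m23 : L2 ⊓ L3 ≠ ⊥ := by rw [inf_comm]; exact c32.1
      have s1 : L2 ⊓ L1 ≤ L4 := by
        rcases three_lines d2 d1 d4 h24 (Ne.symm c12.2.2) hm24 m21
          (by rw [inf_comm]; exact c14) with h | h
        · exact h
        · exfalso
          apply n24 hm24
          exact perp_of_le_sup hm t2
            (fun y hy y' hy' => by rw [B_comm]; exact c12.2.1 y' hy' y hy) h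
      have s3 : L2 ⊓ L3 ≤ L4 := by
        rcases three_lines d2 d3 d4 h24 (Ne.symm c32.2.2) hm24 m23
          (by rw [inf_comm]; exact c34) with h | h
        · exact h
        · exfalso
          apply n24 hm24
          exact perp_of_le_sup hm t2
            (fun y hy y' hy' => by rw [B_comm]; exact c32.2.1 y' hy' y hy) h
      have f24 := (two_of_ne d2 d4 h24 hm24).1
      have f21 := (two_of_ne d2 d1 (Ne.symm c12.2.2) m21).1
      have f23 := (two_of_ne d2 d3 (Ne.symm c32.2.2) m23).1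
      have e21 : L2 ⊓ L1 = L2 ⊓ L4 :=
        Submodule.eq_of_le_of_finrank_le (le_inf inf_le_left s1) (by rw [f24, f21])
      have e23 : L2 ⊓ L3 = L2 ⊓ L4 :=
        Submodule.eq_of_le_of_finrank_le (le_inf inf_le_left s3) (by rw [f24, f23])
      have hle : L2 ⊓ L1 ≤ L1 ⊓ L3 :=
        le_inf inf_le_right (by rw [e21, ← e23]; exact inf_le_right)
      rw [hm13] at hle
      exact m21 (le_bot_iff.1 hle)
  · have h13 : L1 ≠ L3 := by
      intro heq
      apply n13 hm13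
      rw [← heq]
      exact t1
    rcases three_lines d1 d2 d3 h13 c12.2.2 hm13 c12.1 c32.1 with h | h
    · exact h
    · exfalso
      exact n13 hm13 (perp_of_le_sup hm t1 c12.2.1 h)


/-- the skew quadrilateral configuration is impossible -/
theorem no_skew (hm : Hy m F A B) (p : ℕ) [Fact p.Prime] [CharP F p]
    (α : MulAut (Cfsg.POmega F (Cfsg.quadFormMinus m F A B))) {a x y : Fin m ⊕ Fin m}
    (hax : NO a x) (hay : NO a y) (hxy : NO x y)
    (hm13 : Ln hm p α a x ⊓ Ln hm p α a x.swap = ⊥)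
    (hm24 : Ln hm p α a y ⊓ Ln hm p α a y.swap = ⊥) : False := by
  have hbl := (hQ hm).polar_bilinear
  have hax' : NO a x.swap := NO_swr hax
  have hay' : NO a y.swap := NO_swr hay
  have hxy' : NO x y.swap := NO_swr hxy
  have hx'y : NO x.swap y := NO_swl hxy
  have hx'y' : NO x.swap y.swap := NO_swl hxy'
  have d1 := Ln_finrank hm p α hax
  have d2 := Ln_finrank hm p α hay
  have d3 := Ln_finrank hm p α hax'
  have d4 := Ln_finrank hm p α hay'
  by_cases hm4 : 4 ≤ m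
  swap
  · have p13 := (Ln_opp hm p α hax).resolve_left (not_not.2 hm13)
    have t1 := Ln_ts hm p α hax
    have t3 := Ln_ts hm p α hax'
    have hU : ∀ u ∈ Ln hm p α a x ⊔ Ln hm p α a x.swap,
        ∀ u' ∈ Ln hm p α a x ⊔ Ln hm p α a x.swap,
        QuadraticMap.polar (Cfsg.quadFormMinus m F A B) u u' = 0 := by
      intro u hu u' hu'
      obtain ⟨y1, hy1, y3, hy3, rfl⟩ := Submodule.mem_sup.1 hu
      obtain ⟨z1, hz1, z3, hz3, rfl⟩ := Submodule.mem_sup.1 hu'
      rw [hbl.add_left, hbl.add_right, hbl.add_right, t1 y1 hy1 z1 hz1, p13 y1 hy1 z3 hz3,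
        B_comm (Cfsg.quadFormMinus m F A B) y3 z1, p13 z1 hz1 y3 hy3, t3 y3 hy3 z3 hz3]
      simp
    have q1 := Ln_sing hm p α hax
    have q3 := Ln_sing hm p α hax'
    have hUQ : ∀ u ∈ Ln hm p α a x ⊔ Ln hm p α a x.swap,
        Cfsg.Agent.Lib.Helper44.NegPairs.minusQ m F A B u = 0 := by
      intro u hu
      obtain ⟨y1, hy1, y3, hy3, rfl⟩ := Submodule.mem_sup.1 hu
      show Cfsg.quadFormMinus m F A B (y1 + y3) = 0
      rw [Q_add (Cfsg.quadFormMinus m F A B), q1 y1 hy1, q3 y3 hy3, p13 y1 hy1 y3 hy3]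
      simp
    have h1 := Cfsg.Agent.Lib.Helper44.Inv8.minus_ts_le
      (Cfsg.Agent.Lib.Helper45.OmegaCenter.sep_minusQ' m A B hm.hab) hm.hab hUQ
    have h2 := Submodule.finrank_sup_add_finrank_inf_eq (Ln hm p α a x) (Ln hm p α a x.swap)
    rw [hm13, finrank_bot, d1, d3, add_zero] at h2
    rw [h2] at h1
    omega
  · obtain ⟨z, haz, hxz, hyz⟩ := exists_other3 hm4 a x y
    have haz' : NO a z.swap := NO_swr haz
    have hzx : NO z x := hxz.symm
    have hzy : NO z y := hyz.symm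
    have hzx' : NO z x.swap := NO_swr hzx
    have hzy' : NO z y.swap := NO_swr hzy
    have hz'x : NO z.swap x := NO_swl hzx
    have hz'y : NO z.swap y := NO_swl hzy
    have hz'x' : NO z.swap x.swap := NO_swl hzx'
    have hz'y' : NO z.swap y.swap := NO_swl hzy'
    have c12 := Ln_coplanar hm p α hax hay hxy
    have c32 := Ln_coplanar hm p α hax' hay hx'y
    have c14 := Ln_coplanar hm p α hax hay' hxy'
    have c34 := Ln_coplanar hm p α hax' hay' hx'y'
    obtain ⟨e1, he1, he10⟩ := (Submodule.ne_bot_iff _).1 c12.1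
    obtain ⟨e2, he2, he20⟩ := (Submodule.ne_bot_iff _).1 c32.1
    obtain ⟨e3, he3, he30⟩ := (Submodule.ne_bot_iff _).1 c34.1
    obtain ⟨e4, he4, he40⟩ := (Submodule.ne_bot_iff _).1 c14.1
    have e1L1 := (Submodule.mem_inf.1 he1).1
    have e1L2 := (Submodule.mem_inf.1 he1).2
    have e2L3 := (Submodule.mem_inf.1 he2).1
    have e2L2 := (Submodule.mem_inf.1 he2).2
    have e3L3 := (Submodule.mem_inf.1 he3).1
    have e3L4 := (Submodule.mem_inf.1 he3).2
    have e4L1 := (Submodule.mem_inf.1 he4).1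
    have e4L4 := (Submodule.mem_inf.1 he4).2
    have hind : ∀ c1 c2 c3 c4 : F, c1 • e1 + c2 • e2 + c3 • e3 + c4 • e4 = 0 →
        c1 = 0 ∧ c2 = 0 ∧ c3 = 0 ∧ c4 = 0 := by
      intro c1 c2 c3 c4 h
      have hA : c4 • e4 + c1 • e1 ∈ Ln hm p α a x ⊓ Ln hm p α a x.swap := by
        refine Submodule.mem_inf.2 ⟨Submodule.add_mem _ (Submodule.smul_mem _ _ e4L1)
          (Submodule.smul_mem _ _ e1L1), ?_⟩
        have : c4 • e4 + c1 • e1 = -(c2 • e2 + c3 • e3) := by
          linear_combination (norm := module) h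
        rw [this]
        exact Submodule.neg_mem _ (Submodule.add_mem _ (Submodule.smul_mem _ _ e2L3)
          (Submodule.smul_mem _ _ e3L3))
      rw [hm13, Submodule.mem_bot] at hA
      have hB : c1 • e1 ∈ Ln hm p α a y ⊓ Ln hm p α a y.swap := by
        refine Submodule.mem_inf.2 ⟨Submodule.smul_mem _ _ e1L2, ?_⟩
        have : c1 • e1 = -(c4 • e4) := by linear_combination (norm := module) hA
        rw [this]
        exact Submodule.neg_mem _ (Submodule.smul_mem _ _ e4L4)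
      rw [hm24, Submodule.mem_bot] at hB
      have hc1 : c1 = 0 := (smul_eq_zero.1 hB).resolve_right he10
      have hc4 : c4 = 0 := by
        rw [hc1, zero_smul, add_zero] at hA
        exact (smul_eq_zero.1 hA).resolve_right he40
      have hC : c2 • e2 + c3 • e3 = 0 := by
        rw [hc1, hc4] at h
        linear_combination (norm := module) h
      have hD : c2 • e2 ∈ Ln hm p α a y ⊓ Ln hm p α a y.swap := by
        refine Submodule.mem_inf.2 ⟨Submodule.smul_mem _ _ e2L2, ?_⟩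
        have : c2 • e2 = -(c3 • e3) := by linear_combination (norm := module) hC
        rw [this]
        exact Submodule.neg_mem _ (Submodule.smul_mem _ _ e3L4)
      rw [hm24, Submodule.mem_bot] at hD
      have hc2 : c2 = 0 := (smul_eq_zero.1 hD).resolve_right he20
      have hc3 : c3 = 0 := by
        rw [hc2, zero_smul, zero_add] at hC
        exact (smul_eq_zero.1 hC).resolve_right he30
      exact ⟨hc1, hc2, hc3, hc4⟩
    have i41 : Ind e4 e1 := fun s t hst => by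
      have := hind t 0 0 s (by linear_combination (norm := module) hst)
      exact ⟨this.2.2.2, this.1⟩
    have i12 : Ind e1 e2 := fun s t hst => by
      have := hind s t 0 0 (by linear_combination (norm := module) hst)
      exact ⟨this.1, this.2.1⟩
    have i23 : Ind e2 e3 := fun s t hst => by
      have := hind 0 s t 0 (by linear_combination (norm := module) hst)
      exact ⟨this.2.1, this.2.2.1⟩
    have i34 : Ind e3 e4 := fun s t hst => by
      have := hind 0 0 s t (by linear_combination (norm := module) hst)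
      exact ⟨this.2.2.1, this.2.2.2⟩
    have hL1 : Submodule.span F ({e4, e1} : Set (MI m → F)) = Ln hm p α a x :=
      Submodule.eq_of_le_of_finrank_le (span_pair_le e4L1 e1L1) (by rw [finrank_span i41, d1])
    have hL2 : Submodule.span F ({e1, e2} : Set (MI m → F)) = Ln hm p α a y :=
      Submodule.eq_of_le_of_finrank_le (span_pair_le e1L2 e2L2) (by rw [finrank_span i12, d2])
    have hL3 : Submodule.span F ({e2, e3} : Set (MI m → F)) = Ln hm p α a x.swap :=
      Submodule.eq_of_le_of_finrank_le (span_pair_le e2L3 e3L3) (by rw [finrank_span i23, d3])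
    have hL4 : Submodule.span F ({e3, e4} : Set (MI m → F)) = Ln hm p α a y.swap :=
      Submodule.eq_of_le_of_finrank_le (span_pair_le e3L4 e4L4) (by rw [finrank_span i34, d4])
    have key : ∀ N : Submodule F (MI m → F), Module.finrank F N = 2 →
        N ⊓ Ln hm p α a x ≠ ⊥ → N ⊓ Ln hm p α a y ≠ ⊥ → N ⊓ Ln hm p α a x.swap ≠ ⊥ →
        N ⊓ Ln hm p α a y.swap ≠ ⊥ →
        N = Submodule.span F ({e1, e3} : Set (MI m → F)) ∨
          N = Submodule.span F ({e2, e4} : Set (MI m → F)) := by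
      intro N dN k1 k2 k3 k4
      obtain ⟨n1, hn1, hn10⟩ := (Submodule.ne_bot_iff _).1 k1
      obtain ⟨n2, hn2, hn20⟩ := (Submodule.ne_bot_iff _).1 k2
      obtain ⟨n3, hn3, hn30⟩ := (Submodule.ne_bot_iff _).1 k3
      obtain ⟨n4, hn4, hn40⟩ := (Submodule.ne_bot_iff _).1 k4
      exact diag_line hind dN hn10 hn20 hn30 hn40 (Submodule.mem_inf.1 hn1).1
        (Submodule.mem_inf.1 hn2).1 (Submodule.mem_inf.1 hn3).1 (Submodule.mem_inf.1 hn4).1
        (by rw [hL1]; exact (Submodule.mem_inf.1 hn1).2)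
        (by rw [hL2]; exact (Submodule.mem_inf.1 hn2).2)
        (by rw [hL3]; exact (Submodule.mem_inf.1 hn3).2)
        (by rw [hL4]; exact (Submodule.mem_inf.1 hn4).2)
    have k1 := key (Ln hm p α a z) (Ln_finrank hm p α haz)
      (Ln_coplanar hm p α haz hax hzx).1 (Ln_coplanar hm p α haz hay hzy).1
      (Ln_coplanar hm p α haz hax' hzx').1 (Ln_coplanar hm p α haz hay' hzy').1
    have k2 := key (Ln hm p α a z.swap) (Ln_finrank hm p α haz')
      (Ln_coplanar hm p α haz' hax hz'x).1 (Ln_coplanar hm p α haz' hay hz'y).1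
      (Ln_coplanar hm p α haz' hax' hz'x').1 (Ln_coplanar hm p α haz' hay' hz'y').1
    obtain ⟨α', hα'⟩ : ∃ α' : MulAut (Cfsg.POmega F (Cfsg.quadFormMinus m F A B)),
        α' = α * MulAut.conj (QuotientGroup.mk (T hm (E z.swap) (wv (Pi.single 0 1)))) := ⟨_, rfl⟩
    have fixL : ∀ b : Fin m ⊕ Fin m, NO a b → b ≠ z → Ln hm p α' a b = Ln hm p α a b := by
      intro b hab hbz
      rw [hα']
      exact Ln_conj_fix hm p α _ hab (kappa_fix hm (Ne.symm haz.1)) (kappa_fix hm hbz)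
    have k3 := key (Ln hm p α' a z) (Ln_finrank hm p α' haz)
      (by rw [← fixL x hax hzx.1]; exact (Ln_coplanar hm p α' haz hax hzx).1)
      (by rw [← fixL y hay hzy.1]; exact (Ln_coplanar hm p α' haz hay hzy).1)
      (by rw [← fixL x.swap hax' hzx'.1]; exact (Ln_coplanar hm p α' haz hax' hzx').1)
      (by rw [← fixL y.swap hay' hzy'.1]; exact (Ln_coplanar hm p α' haz hay' hzy').1)
    have hn12 : Ln hm p α a z ≠ Ln hm p α a z.swap := by
      intro heq
      apply Ln_opp_not hm p α haz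
      · rw [← heq, inf_idem]
        intro hbot
        have := Ln_finrank hm p α haz
        rw [hbot, finrank_bot] at this
        omega
      · rw [← heq]
        exact Ln_ts hm p α haz
    have hn31 : Ln hm p α' a z ≠ Ln hm p α a z := by
      rw [hα']
      exact Ln_conj_ne hm p α haz haz
    have hn32 : Ln hm p α' a z ≠ Ln hm p α a z.swap := by
      rw [hα']
      exact Ln_conj_ne hm p α haz haz'
    rcases k1 with h1 | h1 <;> rcases k2 with h2 | h2 <;> rcases k3 with h3 | h3 <;>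
      first
      | exact hn12 (h1.trans h2.symm)
      | exact hn31 (h3.trans h1.symm)
      | exact hn32 (h3.trans h2.symm)

/-- the four-cycle lemma -/
theorem Ln_conc4 (hm : Hy m F A B) (p : ℕ) [Fact p.Prime] [CharP F p]
    (α : MulAut (Cfsg.POmega F (Cfsg.quadFormMinus m F A B))) {a x y : Fin m ⊕ Fin m}
    (hax : NO a x) (hay : NO a y) (hxy : NO x y) :
    Ln hm p α a x ⊓ Ln hm p α a y ≤ Ln hm p α a x.swap := by
  have hax' : NO a x.swap := NO_swr hax
  have hay' : NO a y.swap := NO_swr hay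
  have hxy' : NO x y.swap := NO_swr hxy
  have hx'y : NO x.swap y := NO_swl hxy
  have hx'y' : NO x.swap y.swap := NO_swl hxy'
  exact four_lines hm (Ln_finrank hm p α hax) (Ln_finrank hm p α hay) (Ln_finrank hm p α hax')
    (Ln_finrank hm p α hay') (Ln_ts hm p α hax) (Ln_ts hm p α hay)
    (Ln_coplanar hm p α hax hay hxy) (Ln_coplanar hm p α hax' hay hx'y)
    (Ln_coplanar hm p α hax hay' hxy').1 (Ln_coplanar hm p α hax' hay' hx'y').1
    (Ln_opp_not hm p α hax) (Ln_opp_not hm p α hay) (no_skew hm p α hax hay hxy)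

/-- the points of the image frame -/
theorem exists_pts (hm : Hy m F A B) (p : ℕ) [Fact p.Prime] [CharP F p]
    (α : MulAut (Cfsg.POmega F (Cfsg.quadFormMinus m F A B))) :
    ∃ P : Fin m ⊕ Fin m → MI m → F, ∀ a, P a ≠ 0 ∧
      ∀ b, NO a b → P a ∈ Ln hm p α a b := by
  have key : ∀ a : Fin m ⊕ Fin m, ∃ q : MI m → F, q ≠ 0 ∧
      ∀ b, NO a b → q ∈ Ln hm p α a b := by
    intro a
    obtain ⟨x, hx, hx', -, -⟩ := exists_other hm.hm a a
    obtain ⟨y, hy, hy', hyx, hyx'⟩ := exists_other hm.hm a x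
    have hax : NO a x := ⟨hx, hx'⟩
    have hay : NO a y := ⟨hy, hy'⟩
    have hxy : NO x y := ⟨hyx, hyx'⟩
    have hax' : NO a x.swap := NO_swr hax
    have c12 := Ln_coplanar hm p α hax hay hxy
    obtain ⟨q, hq, hq0⟩ := (Submodule.ne_bot_iff _).1 c12.1
    have hq1 := (Submodule.mem_inf.1 hq).1
    have hq3 : q ∈ Ln hm p α a x.swap := Ln_conc4 hm p α hax hay hxy hq
    have hm13 : Ln hm p α a x ⊓ Ln hm p α a x.swap ≠ ⊥ := by
      intro hbot
      have : q ∈ Ln hm p α a x ⊓ Ln hm p α a x.swap := Submodule.mem_inf.2 ⟨hq1, hq3⟩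
      rw [hbot, Submodule.mem_bot] at this
      exact hq0 this
    have n13 : Ln hm p α a x ≠ Ln hm p α a x.swap := by
      intro heq
      apply Ln_opp_not hm p α hax hm13
      rw [← heq]
      exact Ln_ts hm p α hax
    have f13 := (two_of_ne (Ln_finrank hm p α hax) (Ln_finrank hm p α hax') n13 hm13).1
    refine ⟨q, hq0, ?_⟩
    intro e hae
    by_cases hex : e = x
    · rw [hex]
      exact hq1
    by_cases hex' : e = x.swap
    · rw [hex']
      exact hq3
    have hxe : NO x e := ⟨hex, hex'⟩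
    have c1e := Ln_coplanar hm p α hax hae hxe
    have f1e := (two_of_ne (Ln_finrank hm p α hax) (Ln_finrank hm p α hae) c1e.2.2 c1e.1).1
    have hle : Ln hm p α a x ⊓ Ln hm p α a e ≤ Ln hm p α a x ⊓ Ln hm p α a x.swap :=
      le_inf inf_le_left (Ln_conc4 hm p α hax hae hxe)
    have heq : Ln hm p α a x ⊓ Ln hm p α a e = Ln hm p α a x ⊓ Ln hm p α a x.swap :=
      Submodule.eq_of_le_of_finrank_le hle (by rw [f13, f1e])
    have hmem : q ∈ Ln hm p α a x ⊓ Ln hm p α a e := by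
      rw [heq]
      exact Submodule.mem_inf.2 ⟨hq1, hq3⟩
    exact (Submodule.mem_inf.1 hmem).2
  choose P hP using key
  exact ⟨P, hP⟩

end Cfsg.Agent.Lib.Helper43.MiLine
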