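import Mathlib
import Cfsg.Agent.Lib.Helper43.OPlFrame

set_option autoImplicit false

namespace Cfsg.Agent.Lib.Helper43.MiNorm

open Matrix
open Cfsg.Agent.Lib.Helper43.OPlRoot (swap_inj exists_other)
open Cfsg.Agent.Lib.Helper43.OPlAut (dv)
open Cfsg.Agent.Lib.Helper43.OPlFrame (i0 i1 i2 i0_ne_i1 i0_ne_i2 i1_ne_i2)

universe u

variable {F : Type u} [Field F] [Fintype F] {m : ℕ}

/-- the abstract relations satisfied by the action on the frame root groups -/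
structure AA (φ : Fin m ⊕ Fin m → Fin m ⊕ Fin m → F → F) : Prop where
  add : ∀ {a b : Fin m ⊕ Fin m}, b ≠ a → b ≠ a.swap → ∀ s t : F,
    φ a b (s + t) = φ a b s + φ a b t
  inj : ∀ {a b : Fin m ⊕ Fin m}, b ≠ a → b ≠ a.swap → Function.Injective (φ a b)
  symm : ∀ {a b : Fin m ⊕ Fin m}, b ≠ a → b ≠ a.swap → ∀ t : F, φ a b t = φ b a t
  rel : ∀ {a b d : Fin m ⊕ Fin m}, b ≠ a → b ≠ a.swap → d ≠ a → d ≠ a.swap → d ≠ b →
    d ≠ b.swap → ∀ s t : F, φ b d (s * t) = φ a b s * φ a.swap d t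

namespace AA

variable {φ : Fin m ⊕ Fin m → Fin m ⊕ Fin m → F → F}

omit [Fintype F] in
theorem zero (h : AA φ) {a b : Fin m ⊕ Fin m} (hab : b ≠ a) (hab' : b ≠ a.swap) :
    φ a b 0 = 0 := by
  have := h.add hab hab' 0 0
  rw [add_zero] at this
  exact left_eq_add.1 this

omit [Fintype F] in
theorem neg (h : AA φ) {a b : Fin m ⊕ Fin m} (hab : b ≠ a) (hab' : b ≠ a.swap) (t : F) :
    φ a b (-t) = - φ a b t := by
  have := h.add hab hab' t (-t)
  rw [add_neg_cancel, h.zero hab hab'] at this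
  exact eq_neg_of_add_eq_zero_right this.symm

omit [Fintype F] in
theorem one_ne_zero' (h : AA φ) {a b : Fin m ⊕ Fin m} (hab : b ≠ a) (hab' : b ≠ a.swap) :
    φ a b 1 ≠ 0 := by
  intro h0
  rw [← h.zero hab hab'] at h0
  exact one_ne_zero (h.inj hab hab' h0)

end AA

omit [Fintype F] in
theorem dv_swap (c : Fin m → Fˣ) (μ : Fˣ) (a : Fin m ⊕ Fin m) :
    (dv c μ a : F) * (dv c μ a.swap : F) = μ := by
  have hc : ∀ i, (c i : F) ≠ 0 := fun i => Units.ne_zero _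
  rcases a with i | i
  · simp only [dv, Sum.swap_inl, Sum.elim_inl, Sum.elim_inr, Units.val_mul,
      Units.val_inv_eq_inv_val]
    have := hc i
    field_simp
  · simp only [dv, Sum.swap_inr, Sum.elim_inl, Sum.elim_inr, Units.val_mul,
      Units.val_inv_eq_inv_val]
    have := hc i
    field_simp

omit [Fintype F] in
/-- rescaling by a diagonal similitude -/
theorem acts_dg {φ : Fin m ⊕ Fin m → Fin m ⊕ Fin m → F → F} (h : AA φ) (c : Fin m → Fˣ)
    (μ : Fˣ) : AA (fun a b t => (μ : F) * ((dv c μ a : F) * (dv c μ b : F))⁻¹ * φ a b t) := by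
  have hμ : (μ : F) ≠ 0 := Units.ne_zero _
  have hd : ∀ a, (dv c μ a : F) ≠ 0 := fun a => Units.ne_zero _
  refine ⟨?_, ?_, ?_, ?_⟩
  · intro a b hab hab' s t
    show (μ : F) * ((dv c μ a : F) * (dv c μ b : F))⁻¹ * φ a b (s + t) = _
    rw [h.add hab hab']
    ring
  · intro a b hab hab' s t hst
    apply h.inj hab hab'
    have hne : (μ : F) * ((dv c μ a : F) * (dv c μ b : F))⁻¹ ≠ 0 :=
      mul_ne_zero hμ (inv_ne_zero (mul_ne_zero (hd a) (hd b)))
    exact mul_left_cancel₀ hne hst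
  · intro a b hab hab' t
    show (μ : F) * ((dv c μ a : F) * (dv c μ b : F))⁻¹ * φ a b t =
      (μ : F) * ((dv c μ b : F) * (dv c μ a : F))⁻¹ * φ b a t
    rw [h.symm hab hab', mul_comm (dv c μ a : F)]
  · intro a b d hba hba' hda hda' hdb hdb' s t
    show (μ : F) * ((dv c μ b : F) * (dv c μ d : F))⁻¹ * φ b d (s * t) =
      (μ : F) * ((dv c μ a : F) * (dv c μ b : F))⁻¹ * φ a b s *
        ((μ : F) * ((dv c μ a.swap : F) * (dv c μ d : F))⁻¹ * φ a.swap d t)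
    rw [h.rel hba hba' hda hda' hdb hdb']
    have e := dv_swap c μ a
    have h1 := hd a
    have h2 := hd b
    have h3 := hd d
    have h4 := hd a.swap
    field_simp
    rw [← e]
    ring

/-- normalisation by a diagonal similitude -/
theorem exists_normal (hm : 3 ≤ m)
    {φ : Fin m ⊕ Fin m → Fin m ⊕ Fin m → F → F} (h : AA φ) :
    ∃ (c : Fin m → Fˣ) (μ : Fˣ),
      AA (fun a b t => (μ : F) * ((dv c μ a : F) * (dv c μ b : F))⁻¹ * φ a b t) ∧
      (∀ j : Fin m, j ≠ i0 hm → (μ : F) * ((dv c μ (Sum.inl (i0 hm)) : F) *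
        (dv c μ (Sum.inl j) : F))⁻¹ * φ (Sum.inl (i0 hm)) (Sum.inl j) 1 = 1) ∧
      (μ : F) * ((dv c μ (Sum.inl (i0 hm)) : F) * (dv c μ (Sum.inr (i1 hm)) : F))⁻¹ *
        φ (Sum.inl (i0 hm)) (Sum.inr (i1 hm)) 1 = 1 := by
  classical
  have hκ : ∀ j : Fin m, j ≠ i0 hm → φ (Sum.inl (i0 hm)) (Sum.inl j) 1 ≠ 0 := by
    intro j hj
    exact h.one_ne_zero' (fun h' => hj (Sum.inl_injective h')) (by simp)
  have hκ' : φ (Sum.inl (i0 hm)) (Sum.inr (i1 hm)) 1 ≠ 0 := by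
    apply h.one_ne_zero' (by simp)
    intro h'
    exact i0_ne_i1 hm (Sum.inr_injective h').symm
  have h10 : i1 hm ≠ i0 hm := (i0_ne_i1 hm).symm
  obtain ⟨μ, hμ⟩ : ∃ μ : Fˣ, (μ : F) = (φ (Sum.inl (i0 hm)) (Sum.inl (i1 hm)) 1 *
      φ (Sum.inl (i0 hm)) (Sum.inr (i1 hm)) 1)⁻¹ :=
    ⟨Units.mk0 _ (inv_ne_zero (mul_ne_zero (hκ _ h10) hκ')), rfl⟩
  obtain ⟨c, hc⟩ : ∃ c : Fin m → Fˣ, c = fun j => if hj : j = i0 hm then 1 else
      Units.mk0 ((μ : F) * φ (Sum.inl (i0 hm)) (Sum.inl j) 1)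
        (mul_ne_zero (Units.ne_zero μ) (hκ j hj)) := ⟨_, rfl⟩
  have hc0 : c (i0 hm) = 1 := by
    have := congrFun hc (i0 hm)
    rw [this, dif_pos rfl]
  have hcj : ∀ j : Fin m, j ≠ i0 hm →
      (c j : F) = (μ : F) * φ (Sum.inl (i0 hm)) (Sum.inl j) 1 := by
    intro j hj
    have := congrFun hc j
    rw [this, dif_neg hj]
    rfl
  refine ⟨c, μ, acts_dg h c μ, ?_, ?_⟩
  · intro j hj
    simp only [dv, Sum.elim_inl]
    rw [hc0, hcj j hj, Units.val_one, one_mul]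
    have h3 : (μ : F) ≠ 0 := Units.ne_zero _
    have h4 := hκ j hj
    field_simp
  · simp only [dv, Sum.elim_inl, Sum.elim_inr, Units.val_mul, Units.val_inv_eq_inv_val]
    rw [hc0, hcj _ h10, Units.val_one, one_mul, hμ]
    have h4 := hκ _ h10
    field_simp

/-- a normalised action is given by a field automorphism -/
theorem normal_form (hm : 3 ≤ m)
    {φ : Fin m ⊕ Fin m → Fin m ⊕ Fin m → F → F} (h : AA φ)
    (h1 : ∀ j : Fin m, j ≠ i0 hm → φ (Sum.inl (i0 hm)) (Sum.inl j) 1 = 1)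
    (h2 : φ (Sum.inl (i0 hm)) (Sum.inr (i1 hm)) 1 = 1) :
    ∃ σ : F ≃+* F, ∀ a b : Fin m ⊕ Fin m, b ≠ a → b ≠ a.swap → ∀ t : F, φ a b t = σ t := by
  obtain ⟨o, ho⟩ : ∃ o : Fin m ⊕ Fin m, o = Sum.inl (i0 hm) := ⟨_, rfl⟩
  have hos : o.swap = Sum.inr (i0 hm) := by rw [ho]; rfl
  rw [← ho] at h1 h2
  have h01 := i0_ne_i1 hm
  have h02 := i0_ne_i2 hm
  have h12 := i1_ne_i2 hm
  -- some frame vectors
  have e1o : (Sum.inl (i1 hm) : Fin m ⊕ Fin m) ≠ o := by
    rw [ho]; exact fun h' => h01 (Sum.inl_injective h').symm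
  have e1o' : (Sum.inl (i1 hm) : Fin m ⊕ Fin m) ≠ o.swap := by rw [hos]; simp
  have e2o : (Sum.inl (i2 hm) : Fin m ⊕ Fin m) ≠ o := by
    rw [ho]; exact fun h' => h02 (Sum.inl_injective h').symm
  have e2o' : (Sum.inl (i2 hm) : Fin m ⊕ Fin m) ≠ o.swap := by rw [hos]; simp
  have f1o : (Sum.inr (i1 hm) : Fin m ⊕ Fin m) ≠ o := by rw [ho]; simp
  have f1o' : (Sum.inr (i1 hm) : Fin m ⊕ Fin m) ≠ o.swap := by
    rw [hos]; exact fun h' => h01 (Sum.inr_injective h').symm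
  have hsw : ∀ {y : Fin m ⊕ Fin m}, y ≠ o.swap → o ≠ y.swap := by
    intro y hy h'
    apply hy
    rw [h', Sum.swap_swap]
  have hsw2 : ∀ {y : Fin m ⊕ Fin m}, y ≠ o → y.swap ≠ o.swap := by
    intro y hy h'
    exact hy (swap_inj h')
  have hsw3 : ∀ {y : Fin m ⊕ Fin m}, y ≠ o.swap → y.swap ≠ o := by
    intro y hy h'
    apply hy
    rw [← h', Sum.swap_swap]
  -- R1
  have hR1 : ∀ j k : Fin m, j ≠ i0 hm → k ≠ i0 hm → j ≠ k →
      φ (Sum.inr j) (Sum.inl k) 1 = 1 := by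
    intro j k hj hk hjk
    have hjo : (Sum.inl j : Fin m ⊕ Fin m) ≠ o := by
      rw [ho]; exact fun h' => hj (Sum.inl_injective h')
    have hjo' : (Sum.inl j : Fin m ⊕ Fin m) ≠ o.swap := by rw [hos]; simp
    have hr := h.rel (a := Sum.inl j) (b := o) (d := Sum.inl k) (Ne.symm hjo) (hsw hjo')
      (fun h' => hjk (Sum.inl_injective h').symm) (by simp)
      (by rw [ho]; exact fun h' => hk (Sum.inl_injective h')) (by rw [hos]; simp) 1 1
    rw [mul_one, h1 k hk, ← h.symm hjo hjo', h1 j hj, one_mul] at hr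
    exact hr.symm
  -- step A
  have hA : ∀ y : Fin m ⊕ Fin m, y ≠ o → y ≠ o.swap → φ o y 1 = 1 := by
    intro y hy hy'
    rcases y with j | j
    · apply h1 j
      intro h'
      apply hy
      rw [ho, h']
    · have hj : j ≠ i0 hm := by
        intro h'
        apply hy'
        rw [hos, h']
      by_cases hj1 : j = i1 hm
      · rw [hj1]; exact h2
      · have hr := h.rel (a := Sum.inr (i1 hm)) (b := o) (d := Sum.inr j) (Ne.symm f1o)
          (hsw f1o') (fun h' => hj1 (Sum.inr_injective h')) (by simp) hy hy' 1 1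
        rw [mul_one, ← h.symm f1o f1o', h2, one_mul] at hr
        have h3 : φ (Sum.inr (i1 hm)).swap (Sum.inr j) 1 = 1 := by
          show φ (Sum.inl (i1 hm)) (Sum.inr j) 1 = 1
          rw [h.symm (a := Sum.inl (i1 hm)) (b := Sum.inr j) (by simp)
            (fun h' => hj1 (Sum.inr_injective h'))]
          exact hR1 j (i1 hm) hj h01.symm hj1
        rw [hr, h3]
  -- step B
  have hB : ∀ y d : Fin m ⊕ Fin m, y ≠ o → y ≠ o.swap → d ≠ o → d ≠ o.swap → d ≠ y →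
      d ≠ y.swap → ∀ s t : F, φ o d (s * t) = φ y o s * φ y.swap d t := by
    intro y d hy hy' hd hd' hdy hdy' s t
    exact h.rel (Ne.symm hy) (hsw hy') hdy hdy' hd hd' s t
  have hB1 : ∀ y d : Fin m ⊕ Fin m, y ≠ o → y ≠ o.swap → d ≠ o → d ≠ o.swap → d ≠ y →
      d ≠ y.swap → ∀ t : F, φ o d t = φ y.swap d t := by
    intro y d hy hy' hd hd' hdy hdy' t
    have := hB y d hy hy' hd hd' hdy hdy' 1 t
    rwa [one_mul, ← h.symm hy hy', hA y hy hy', one_mul] at this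
  have hC1 : ∀ y d : Fin m ⊕ Fin m, y ≠ o → y ≠ o.swap → d ≠ o → d ≠ o.swap → d ≠ y →
      d ≠ y.swap → ∀ t : F, φ o d t = φ o y t := by
    intro y d hy hy' hd hd' hdy hdy' t
    have := hB y d hy hy' hd hd' hdy hdy' t 1
    rwa [mul_one, ← hB1 y d hy hy' hd hd' hdy hdy' 1, hA d hd hd', mul_one,
      ← h.symm hy hy'] at this
  -- the field automorphism
  obtain ⟨σ₀, hσ₀⟩ : ∃ σ₀ : F → F, σ₀ = φ o (Sum.inl (i1 hm)) := ⟨_, rfl⟩
  have hD : ∀ y : Fin m ⊕ Fin m, y ≠ o → y ≠ o.swap → ∀ t : F, φ o y t = σ₀ t := by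
    intro y hy hy' t
    rw [hσ₀]
    by_cases hy1 : y = Sum.inl (i1 hm)
    · rw [hy1]
    · by_cases hy2 : y = Sum.inr (i1 hm)
      · rw [hy2, hC1 (Sum.inl (i2 hm)) (Sum.inr (i1 hm)) e2o e2o' f1o f1o' (by simp)
          (fun h' => h12 (Sum.inr_injective h')),
          hC1 (Sum.inl (i1 hm)) (Sum.inl (i2 hm)) e1o e1o' e2o e2o'
          (fun h' => h12 (Sum.inl_injective h').symm) (by simp)]
      · exact hC1 (Sum.inl (i1 hm)) y e1o e1o' hy hy' hy1 hy2 t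
  have hE : ∀ z d : Fin m ⊕ Fin m, z ≠ o → z ≠ o.swap → d ≠ o → d ≠ o.swap → d ≠ z →
      d ≠ z.swap → ∀ t : F, φ z d t = σ₀ t := by
    intro z d hz hz' hd hd' hdz hdz' t
    have := hB1 z.swap d (hsw3 hz') (hsw2 hz) hd hd' hdz' (by rw [Sum.swap_swap]; exact hdz) t
    rw [Sum.swap_swap] at this
    rw [← this]
    exact hD d hd hd' t
  have hmul : ∀ s t : F, σ₀ (s * t) = σ₀ s * σ₀ t := by
    intro s t
    have := hB (Sum.inl (i1 hm)) (Sum.inl (i2 hm)) e1o e1o' e2o e2o'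
      (fun h' => h12 (Sum.inl_injective h').symm) (by simp) s t
    rw [hD _ e2o e2o', ← h.symm e1o e1o', hD _ e1o e1o'] at this
    rw [this]
    congr 1
    exact hE (Sum.inr (i1 hm)) (Sum.inl (i2 hm)) f1o f1o' e2o e2o' (by simp)
      (fun h' => h12 (Sum.inl_injective h').symm) t
  have hF : ∀ d : Fin m ⊕ Fin m, d ≠ o → d ≠ o.swap → ∀ t : F, φ o.swap d t = σ₀ t := by
    intro d hd hd' t
    obtain ⟨z, hz, hz', hzd, hzd'⟩ := exists_other hm o d
    have hdz' : d ≠ z.swap := fun h' => hzd' (by rw [h', Sum.swap_swap])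
    have := h.rel (a := o) (b := z) (d := d) hz hz' hd hd' (Ne.symm hzd) hdz' 1 t
    rw [one_mul, hE z d hz hz' hd hd' (Ne.symm hzd) hdz', hA z hz hz', one_mul] at this
    exact this.symm
  have hall : ∀ a b : Fin m ⊕ Fin m, b ≠ a → b ≠ a.swap → ∀ t : F, φ a b t = σ₀ t := by
    intro a b hab hab' t
    by_cases ha : a = o
    · rw [ha] at hab hab' ⊢
      exact hD b hab hab' t
    by_cases ha' : a = o.swap
    · rw [ha'] at hab hab' ⊢
      rw [Sum.swap_swap] at hab'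
      exact hF b hab' hab t
    by_cases hb : b = o
    · rw [hb] at hab hab' ⊢
      rw [h.symm hab hab']
      exact hD a ha ha' t
    by_cases hb' : b = o.swap
    · rw [hb'] at hab hab' ⊢
      rw [h.symm hab hab']
      exact hF a ha ha' t
    exact hE a b ha ha' hb hb' hab hab' t
  -- build the ring automorphism
  have hadd : ∀ s t : F, σ₀ (s + t) = σ₀ s + σ₀ t := by
    intro s t
    rw [hσ₀]
    exact h.add e1o e1o' s t
  have hone : σ₀ 1 = 1 := by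
    rw [hσ₀]
    exact h1 _ h01.symm
  have hzero : σ₀ 0 = 0 := by
    rw [hσ₀]
    exact h.zero e1o e1o'
  have hinj : Function.Injective σ₀ := by
    rw [hσ₀]
    exact h.inj e1o e1o'
  have hbij : Function.Bijective σ₀ := ⟨hinj, Finite.injective_iff_surjective.1 hinj⟩
  obtain ⟨f, hf⟩ : ∃ f : F →+* F, ∀ t, f t = σ₀ t :=
    ⟨{ toFun := σ₀, map_one' := hone, map_mul' := hmul, map_zero' := hzero, map_add' := hadd },
      fun _ => rfl⟩
  have hfb : Function.Bijective f := by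
    have : (f : F → F) = σ₀ := funext hf
    rw [this]
    exact hbij
  refine ⟨RingEquiv.ofBijective f hfb, fun a b hab hab' t => ?_⟩
  rw [hall a b hab hab' t]
  exact (hf t).symm


/-- **normal form of the action on the frame root groups** -/
theorem normal (hm : 3 ≤ m) {φ : Fin m ⊕ Fin m → Fin m ⊕ Fin m → F → F} (h : AA φ) :
    ∃ (c : Fin m → Fˣ) (μ : Fˣ) (σ : F ≃+* F), ∀ a b : Fin m ⊕ Fin m, b ≠ a → b ≠ a.swap →
      ∀ t : F, φ a b t = (dv c μ a : F) * (dv c μ b : F) * (μ : F)⁻¹ * σ t := by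
  obtain ⟨c, μ, h', h1, h2⟩ := exists_normal hm h
  obtain ⟨σ, hσ⟩ := normal_form hm h' h1 h2
  refine ⟨c, μ, σ, fun a b hab hab' t => ?_⟩
  have e := hσ a b hab hab' t
  have hμ : (μ : F) ≠ 0 := Units.ne_zero _
  have h3 : (dv c μ a : F) ≠ 0 := Units.ne_zero _
  have h4 : (dv c μ b : F) ≠ 0 := Units.ne_zero _
  rw [← e]
  field_simp

end Cfsg.Agent.Lib.Helper43.MiNorm
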