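import Mathlib
import Cfsg.Prelude.Def_Classical
import Cfsg.Prelude.Def_GeometricClasses
import Cfsg.Agent.Lib.Helper37.HypStmt
import Cfsg.Agent.Lib.Helper94.OPStmt
import Cfsg.Agent.Lib.Helper94.OPEmb
import Cfsg.Agent.Lib.Helper37.HypBLOCKS
import Cfsg.Agent.Lib.Helper78.HypFIXND
import Cfsg.Agent.Lib.Helper82.HypPERP
import Cfsg.Agent.Lib.Helper82.HypINVDIM
import Cfsg.Agent.Lib.Helper43.HypBFCore
import Cfsg.Agent.Lib.Helper43.HypBFE
import Cfsg.Agent.Lib.Helper43.HypBFO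

/-!
# S5989 / BLOCKSP: transfer of the landed S5992 `Blocks` to the plus form
-/

set_option autoImplicit false

universe u

open scoped Matrix

namespace Cfsg.Agent.Lib.Helper43.OPBLOCKSP

open Cfsg.Agent.Lib.Helper37.HypStmt Cfsg.Agent.Lib.Helper94.OPStmt Cfsg.Agent.Lib.Helper94.OPEmb

theorem blocks : Blocks.{u} :=
  Cfsg.Agent.Lib.Helper37.HypBLOCKS.main Cfsg.Agent.Lib.Helper78.HypFIXND.main
    Cfsg.Agent.Lib.Helper82.HypPERP.main
    (Cfsg.Agent.Lib.Helper43.HypBFE.main Cfsg.Agent.Lib.Helper82.HypINVDIM.main)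
    (Cfsg.Agent.Lib.Helper43.HypBFO.main Cfsg.Agent.Lib.Helper82.HypINVDIM.main)

theorem main : BlocksP.{u} := by
  intro F _ _ p _ _ hq d r _ hr2 hrp x hx hxr j hj
  have h2 : (2 : F) ≠ 0 := Cfsg.Agent.Lib.Helper43.HypBFCore.two_ne_zero_of_odd hq
  have hj' : j * cc (orderOf ((Fintype.card F : ℕ) : ZMod r)) +
      Module.finrank F ↥(Fx ((hatG x : Matrix.GeneralLinearGroup (I d) F) :
        Matrix (I d) (I d) F)) ≤ 2 * d + 1 := by
    rw [coe_hatG, finrank_Fx_hat]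
    omega
  obtain ⟨E, hS, hN, hf, hbot, horth⟩ := blocks F p hq d r hr2 hrp (hatG x) (hatG_mem x hx)
    (hatG_pow_eq_one x r hxr) j hj'
  rw [coe_hatG] at hS hbot horth
  have hE0 : ∀ u ∈ E, u (Sum.inl ()) = 0 := fun u hu =>
    inl_eq_zero_of_polar h2 u (horth u hu _ (w0_mem_Fx_hat _))
  have hEm := map_comap_emb E hE0
  refine ⟨E.comap (emb d F), ?_, ?_, ?_, ?_, ?_⟩
  · rw [← stab_map_emb, hEm]
    exact hS
  · rw [← ndeg_map_emb, hEm]
    exact hN
  · rw [← finrank_map_emb, hEm]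
    exact hf
  · have h3 := map_emb_inf_Fx (x : Matrix (P d) (P d) F) (E.comap (emb d F))
    rw [hEm, hbot] at h3
    rw [eq_bot_iff]
    intro v hv
    have h4 : emb d F v ∈ (⊥ : Submodule F (I d → F)) := by
      rw [h3]
      exact Submodule.mem_map_of_mem hv
    rw [Submodule.mem_bot] at h4 ⊢
    exact emb_inj (by rw [h4, map_zero])
  · intro u hu v hv
    rw [← polar_emb]
    exact horth _ hu _ ((emb_mem_Fx_hat _ v).mpr hv)

end Cfsg.Agent.Lib.Helper43.OPBLOCKSP
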