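import Mathlib
import Cfsg.Prelude.Def_Classical
import Cfsg.Prelude.Def_GeometricClasses
import Cfsg.Agent.Lib.Helper37.HypStmt
import Cfsg.Agent.Lib.Helper94.OPStmt
import Cfsg.Agent.Lib.Helper94.OPEmb
import Cfsg.Agent.Lib.Helper38.HypTYPEEVEN
import Cfsg.Agent.Lib.Helper44.NegPairs

/-!
# S5989 / NOFREEP: transfer of the landed S5992 `TypeEven` to the plus form

`E = emb (P d → F)` is an invariant nondegenerate hyperbolic `2d`-space of the odd form without
fixed vectors of `hat x`, so `2 d / i` is even.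
-/

set_option autoImplicit false

universe u

open scoped Matrix

namespace Cfsg.Agent.Lib.Helper43.OPNOFREEP

open Cfsg.Agent.Lib.Helper37.HypStmt Cfsg.Agent.Lib.Helper94.OPStmt Cfsg.Agent.Lib.Helper94.OPEmb

/-- the plus form is nondegenerate (any field) -/
theorem topNDP (F : Type u) [Field F] (d : ℕ) : NDegP d F ⊤ := by
  intro w _ hw0
  have hsep := Cfsg.Agent.Lib.Helper44.NegPairs.sep_plusQ (F := F) d
  have h1 : ∃ y, QuadraticMap.polar (Cfsg.quadFormPlus d F) w y ≠ 0 := by
    by_contra hcon
    push_neg at hcon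
    exact hw0 (hsep w hcon)
  obtain ⟨y, hy⟩ := h1
  refine ⟨⟨y, Submodule.mem_top, ?_⟩, ⟨y, Submodule.mem_top, hy⟩⟩
  rw [QuadraticMap.polar_comm]
  exact hy

/-- the standard totally singular `d`-space of the plus form -/
def lag (d : ℕ) (F : Type u) [Field F] : (Fin d → F) →ₗ[F] (P d → F) where
  toFun a := Sum.elim a (fun _ => 0)
  map_add' := by
    intro a b
    ext s
    rcases s with s | s <;> simp
  map_smul' := by
    intro c a
    ext s
    rcases s with s | s <;> simp

theorem lag_inj (d : ℕ) (F : Type u) [Field F] : Function.Injective (lag d F) := by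
  intro a b h
  ext s
  exact congrFun h (Sum.inl s)

theorem quad_lag (d : ℕ) (F : Type u) [Field F] (a : Fin d → F) :
    Cfsg.quadFormPlus d F (lag d F a) = 0 := by
  unfold Cfsg.quadFormPlus
  apply Finset.sum_eq_zero
  intro i _
  show a i * 0 = 0
  rw [mul_zero]

theorem plusType (d : ℕ) (F : Type u) [Field F] :
    Cfsg.Geo.IsPlusTypeOn (Cfsg.quadFormOdd d F) ((⊤ : Submodule F (P d → F)).map (emb d F)) := by
  refine ⟨(LinearMap.range (lag d F)).map (emb d F), Submodule.map_mono le_top, ?_, ?_⟩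
  · rintro _ ⟨_, ⟨a, rfl⟩, rfl⟩
    rw [quadOdd_emb]
    exact quad_lag d F a
  · rw [finrank_map_emb, finrank_map_emb, finrank_top, LinearMap.finrank_range_of_inj (lag_inj d F),
      Module.finrank_fintype_fun_eq_card, Module.finrank_fintype_fun_eq_card, Fintype.card_sum,
      Fintype.card_fin]
    ring

theorem main : NoFreeP.{u} := by
  intro F _ _ p _ _ hq d hd r _ hr2 hrp hev x hx hxr hfix
  have hT := Cfsg.Agent.Lib.Helper38.HypTYPEEVEN.main F p hq d r hr2 hrp hev (hatG x)
    (hatG_mem x hx) (hatG_pow_eq_one x r hxr) ((⊤ : Submodule F (P d → F)).map (emb d F))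
    (by
      rw [coe_hatG, stab_map_emb]
      exact le_top)
    ((ndeg_map_emb _).mpr (topNDP F d))
    (by
      rw [coe_hatG, map_emb_inf_Fx, hfix, inf_bot_eq, Submodule.map_bot])
  have h1 := hT.mp (plusType d F)
  rw [finrank_map_emb, finrank_top, Module.finrank_fintype_fun_eq_card, Fintype.card_sum,
    Fintype.card_fin] at h1
  have h2 : d + d = 2 * d := by ring
  rw [h2] at h1
  exact h1

end Cfsg.Agent.Lib.Helper43.OPNOFREEP
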