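import Mathlib
import Cfsg.Prelude.Def_LieTypeDatum
import Cfsg.Agent.Lib.Helper43.PSLnPred
import Cfsg.Agent.Lib.Helper43.PSLnOut

set_option autoImplicit false

namespace Cfsg.Agent.Lib.Helper43.PSLnField

open Matrix Cfsg.Agent.Lib.Helper43.PSLnBasic Cfsg.Agent.Lib.Helper43.PSLnAuts
  Cfsg.Agent.Lib.Helper43.PSLnAll Cfsg.Agent.Lib.Helper43.PSLnClass
  Cfsg.Agent.Lib.Helper43.PSLnPred

variable {F : Type*} [Field F] {n : ℕ}

theorem isInnerDiag_iff (β : MulAut (Matrix.ProjectiveSpecialLinearGroup (Fin n) F)) :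
    Cfsg.IsInnerDiagonalAutPSL β ↔ ∃ g : GL (Fin n) F, β = cGL g := by
  constructor
  · rintro ⟨g, hg⟩
    refine ⟨g, ?_⟩
    ext y : 1
    obtain ⟨s, rfl⟩ := pr_surjective y
    rw [cGL_pr]
    exact hg s (conjGL g s) (conjGL_coe g s)
  · rintro ⟨g, rfl⟩
    exact isInnerDiag_cGL g

theorem isStdField_iff (σ : RingAut F)
    (β : MulAut (Matrix.ProjectiveSpecialLinearGroup (Fin n) F)) :
    Cfsg.IsStdFieldAutPSL σ β ↔ β = cσ σ := by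
  constructor
  · intro h
    ext y : 1
    obtain ⟨s, rfl⟩ := pr_surjective y
    rw [cσ_pr]
    exact h s (slAut σ s) (slAut_coe σ s)
  · rintro rfl
    exact isStdField_cσ σ

theorem isInvTransp_iff (β : MulAut (Matrix.ProjectiveSpecialLinearGroup (Fin n) F)) :
    Cfsg.IsInverseTransposeAutPSL β ↔ β = cτ := by
  constructor
  · intro h
    ext y : 1
    obtain ⟨s, rfl⟩ := pr_surjective y
    rw [cτ_pr]
    exact h s (tAut s) (tAut_coe s)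
  · rintro rfl
    exact isInvTransp_cτ

theorem inndiag_eq : Cfsg.inndiagPSL n F = (cGL (F := F) (n := n)).range := by
  unfold Cfsg.inndiagPSL Cfsg.autSubgroupOf
  have h : {β : MulAut (Matrix.ProjectiveSpecialLinearGroup (Fin n) F) |
      Cfsg.IsInnerDiagonalAutPSL β} = ((cGL (F := F) (n := n)).range : Set _) := by
    ext β
    rw [Set.mem_setOf_eq, isInnerDiag_iff]
    constructor
    · rintro ⟨g, rfl⟩
      exact ⟨g, rfl⟩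
    · rintro ⟨g, rfl⟩
      exact ⟨g, rfl⟩
  rw [h, Subgroup.closure_eq]

theorem mem_inndiag_iff (β : MulAut (Matrix.ProjectiveSpecialLinearGroup (Fin n) F)) :
    β ∈ Cfsg.inndiagPSL n F ↔ ∃ g : GL (Fin n) F, β = cGL g := by
  rw [inndiag_eq]
  constructor
  · rintro ⟨g, rfl⟩
    exact ⟨g, rfl⟩
  · rintro ⟨g, rfl⟩
    exact ⟨g, rfl⟩

theorem cGL_mem_inndiag (g : GL (Fin n) F) : cGL g ∈ Cfsg.inndiagPSL n F :=
  (mem_inndiag_iff _).2 ⟨g, rfl⟩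

theorem mem_inn_iff (β : MulAut (Matrix.ProjectiveSpecialLinearGroup (Fin n) F)) :
    β ∈ Cfsg.Inn (Matrix.ProjectiveSpecialLinearGroup (Fin n) F) ↔
      ∃ s : Matrix.SpecialLinearGroup (Fin n) F, β = cGL (Matrix.SpecialLinearGroup.toGL s) := by
  constructor
  · rintro ⟨y, rfl⟩
    obtain ⟨s, rfl⟩ := pr_surjective y
    exact ⟨s, (cGL_toGL s).symm⟩
  · rintro ⟨s, rfl⟩
    exact ⟨pr s, (cGL_toGL s).symm⟩

theorem inn_le_inndiag :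
    Cfsg.Inn (Matrix.ProjectiveSpecialLinearGroup (Fin n) F) ≤ Cfsg.inndiagPSL n F := by
  intro β hβ
  obtain ⟨s, rfl⟩ := (mem_inn_iff β).1 hβ
  exact cGL_mem_inndiag _

theorem cσ_injective (hn : 2 ≤ n) :
    Function.Injective (cσ : RingAut F → MulAut (Matrix.ProjectiveSpecialLinearGroup (Fin n) F)) := by
  rw [injective_iff_map_eq_one]
  intro σ h
  have h1 : cGL (1 : GL (Fin n) F) = cσ σ := by rw [map_one, h]
  exact (cGL_eq_cσ hn 1 σ h1).1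

theorem orderOf_cσ (hn : 2 ≤ n) (σ : RingAut F) :
    orderOf (cσ σ : MulAut (Matrix.ProjectiveSpecialLinearGroup (Fin n) F)) = orderOf σ :=
  orderOf_injective cσ (cσ_injective hn) σ

theorem cτ_conj_cσ (σ : RingAut F) :
    (cτ : MulAut (Matrix.ProjectiveSpecialLinearGroup (Fin n) F)) * cσ σ * cτ⁻¹ = cσ σ := by
  rw [cτ_mul_cσ, mul_inv_cancel_right]

/-- normal form of a field automorphism -/
theorem field_normal_form [Fintype F] {p f : ℕ} [Fact p.Prime] (hf : 1 ≤ f)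
    (hF : Fintype.card F = p ^ f) (hn : 2 ≤ n)
    (x : MulAut (Matrix.ProjectiveSpecialLinearGroup (Fin n) F))
    (hx : Cfsg.IsFieldAutClassPSL x) :
    ∃ (g : GL (Fin n) F) (σ : RingAut F), σ ≠ 1 ∧ x = cGL g * cσ σ * (cGL g)⁻¹ := by
  obtain ⟨α, σ, hσ, h⟩ := hx
  have h1 : α * x * α⁻¹ = cσ σ := (isStdField_iff σ _).1 h
  have h2 : x = α⁻¹ * cσ σ * α⁻¹⁻¹ := by
    rw [← h1]
    group
  have hσ' : ∀ ρ : RingAut F, ρ * σ * ρ⁻¹ ≠ 1 := by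
    intro ρ h3
    apply hσ
    have h4 : σ = ρ⁻¹ * (ρ * σ * ρ⁻¹) * ρ := by group
    rw [h4, h3]
    show ρ⁻¹ * 1 * ρ = 1
    group
  obtain ⟨g, ρ, h3 | h3⟩ := factor hf hF hn α⁻¹
  · refine ⟨g, ρ * σ * ρ⁻¹, hσ' ρ, ?_⟩
    rw [h2, h3, map_mul, map_mul, map_inv]
    group
  · refine ⟨g, ρ * σ * ρ⁻¹, hσ' ρ, ?_⟩
    rw [h2, h3, map_mul, map_mul, map_inv]
    have h4 := cτ_conj_cσ (n := n) σ
    calc cGL g * cσ ρ * cτ * cσ σ * (cGL g * cσ ρ * cτ)⁻¹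
        = cGL g * cσ ρ * (cτ * cσ σ * cτ⁻¹) * (cσ ρ)⁻¹ * (cGL g)⁻¹ := by group
      _ = cGL g * (cσ ρ * cσ σ * (cσ ρ)⁻¹) * (cGL g)⁻¹ := by rw [h4]; group

/-- normal form of a graph-field automorphism -/
theorem graph_field_normal_form [Fintype F] {p f : ℕ} [Fact p.Prime] (hf : 1 ≤ f)
    (hF : Fintype.card F = p ^ f)
    (x : MulAut (Matrix.ProjectiveSpecialLinearGroup (Fin n) F))
    (hx : Cfsg.IsGraphFieldAutClassPSL x) :
    3 ≤ n ∧ ∃ (g : GL (Fin n) F) (σ : RingAut F),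
      σ ≠ 1 ∧ x = cGL g * (cσ σ * cτ) * (cGL g)⁻¹ := by
  obtain ⟨hn, α, φ, γ, σ, hσ, hφ, hγ, h⟩ := hx
  refine ⟨hn, ?_⟩
  rw [(isStdField_iff σ _).1 hφ, (isInvTransp_iff _).1 hγ] at h
  have h2 : x = α⁻¹ * (cσ σ * cτ) * α⁻¹⁻¹ := by
    rw [← h]
    group
  have hσ' : ∀ ρ : RingAut F, ρ * σ * ρ⁻¹ ≠ 1 := by
    intro ρ h3
    apply hσ
    have h4 : σ = ρ⁻¹ * (ρ * σ * ρ⁻¹) * ρ := by group
    rw [h4, h3]
    show ρ⁻¹ * 1 * ρ = 1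
    group
  have h5 : ∀ ρ : RingAut F, cσ ρ * (cσ σ * cτ) * (cσ ρ)⁻¹ =
      (cσ (ρ * σ * ρ⁻¹) * cτ : MulAut (Matrix.ProjectiveSpecialLinearGroup (Fin n) F)) := by
    intro ρ
    rw [map_mul, map_mul, map_inv]
    have h6 := cτ_mul_cσ (n := n) ρ⁻¹
    rw [map_inv] at h6
    calc cσ ρ * (cσ σ * cτ) * (cσ ρ)⁻¹ = cσ ρ * cσ σ * (cτ * (cσ ρ)⁻¹) := by group
      _ = cσ ρ * cσ σ * (cσ ρ)⁻¹ * cτ := by rw [h6]; group
  obtain ⟨g, ρ, h3 | h3⟩ := factor hf hF (by omega) α⁻¹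
  · refine ⟨g, ρ * σ * ρ⁻¹, hσ' ρ, ?_⟩
    rw [h2, h3, ← h5]
    group
  · refine ⟨g, ρ * σ * ρ⁻¹, hσ' ρ, ?_⟩
    rw [h2, h3, ← h5]
    have h4 := cτ_conj_cσ (n := n) σ
    have h7 : (cτ : MulAut (Matrix.ProjectiveSpecialLinearGroup (Fin n) F)) * (cσ σ * cτ) * cτ⁻¹
        = cσ σ * cτ := by
      rw [← mul_assoc, cτ_mul_cσ, mul_inv_cancel_right]
    calc cGL g * cσ ρ * cτ * (cσ σ * cτ) * (cGL g * cσ ρ * cτ)⁻¹
        = cGL g * cσ ρ * (cτ * (cσ σ * cτ) * cτ⁻¹) * (cσ ρ)⁻¹ * (cGL g)⁻¹ := by group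
      _ = cGL g * (cσ ρ * (cσ σ * cτ) * (cσ ρ)⁻¹) * (cGL g)⁻¹ := by rw [h7]; group

end Cfsg.Agent.Lib.Helper43.PSLnField
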