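import Mathlib
import Cfsg.Prelude.Def_LieTypeDatum
import Cfsg.Agent.Lib.Helper43.PSLnField
import Cfsg.Agent.Lib.Helper43.SplitCount

set_option autoImplicit false

namespace Cfsg.Agent.Lib.Helper43.PSLnSplit

open Matrix Cfsg.Agent.Lib.Helper43.PSLnBasic Cfsg.Agent.Lib.Helper43.PSLnAuts
  Cfsg.Agent.Lib.Helper43.PSLnAll Cfsg.Agent.Lib.Helper43.PSLnField
  Cfsg.Agent.Lib.Helper43.SplitCount

variable {F : Type*} [Field F] {n : ℕ}

theorem exists_toGL (g : GL (Fin n) F) (h : Matrix.GeneralLinearGroup.det g = 1) :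
    ∃ s : Matrix.SpecialLinearGroup (Fin n) F, Matrix.SpecialLinearGroup.toGL s = g := by
  have hdet' : (g : Matrix (Fin n) (Fin n) F).det = 1 := by
    rw [← Matrix.GeneralLinearGroup.val_det_apply, h]
    rfl
  exact ⟨⟨_, hdet'⟩, Units.ext rfl⟩

/-- the number of `Inn`-classes in the `Inndiag`-class of `x₀`, through determinants of the
centraliser -/
theorem splitCount_eq (hn : 2 ≤ n)
    (x₀ : MulAut (Matrix.ProjectiveSpecialLinearGroup (Fin n) F)) (N : Subgroup Fˣ)
    (h1 : ∀ c : GL (Fin n) F, Commute (cGL c) x₀ → Matrix.GeneralLinearGroup.det c ∈ N)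
    (h2 : ∀ u ∈ N, ∃ c : GL (Fin n) F, Commute (cGL c) x₀ ∧
      Matrix.GeneralLinearGroup.det c = u) :
    Cfsg.splitClassCount (Cfsg.inndiagPSL n F)
      (Cfsg.Inn (Matrix.ProjectiveSpecialLinearGroup (Fin n) F)) x₀ = N.index := by
  haveI : Nonempty (Fin n) := ⟨⟨0, by omega⟩⟩
  rw [← Subgroup.index_comap_of_surjective N
    (f := (Matrix.GeneralLinearGroup.det : GL (Fin n) F →* Fˣ))
    Matrix.GeneralLinearGroup.det_surjective]
  apply splitClassCount_eq_index _ _ _ (cGL (F := F) (n := n))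
  · intro h
    rw [mem_inndiag_iff]
    constructor
    · rintro ⟨g, rfl⟩
      exact ⟨g, rfl⟩
    · rintro ⟨g, rfl⟩
      exact ⟨g, rfl⟩
  · intro g g'
    rw [Subgroup.mem_comap]
    constructor
    · rintro ⟨k, hk, heq⟩
      obtain ⟨s, rfl⟩ := (mem_inn_iff k).1 hk
      have hc : Commute (cGL (g'⁻¹ * Matrix.SpecialLinearGroup.toGL s * g)) x₀ := by
        show _ * _ = _ * _
        rw [map_mul, map_mul, map_inv]
        calc (cGL g')⁻¹ * cGL (Matrix.SpecialLinearGroup.toGL s) * cGL g * x₀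
            = (cGL g')⁻¹ * (cGL (Matrix.SpecialLinearGroup.toGL s) * (cGL g * x₀ * (cGL g)⁻¹)
              * (cGL (Matrix.SpecialLinearGroup.toGL s))⁻¹) *
              (cGL (Matrix.SpecialLinearGroup.toGL s) * cGL g) := by group
          _ = x₀ * ((cGL g')⁻¹ * cGL (Matrix.SpecialLinearGroup.toGL s) * cGL g) := by
              rw [← heq]; group
      have h3 := N.inv_mem (h1 _ hc)
      rw [map_mul, map_mul, map_inv, Matrix.SpecialLinearGroup.coeToGL_det, mul_one] at h3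
      rw [map_mul, map_inv]
      have h4 : ((Matrix.GeneralLinearGroup.det g')⁻¹ * Matrix.GeneralLinearGroup.det g)⁻¹ =
          (Matrix.GeneralLinearGroup.det g)⁻¹ * Matrix.GeneralLinearGroup.det g' := by group
      rw [← h4]
      exact h3
    · intro h
      have h3 := N.inv_mem h
      obtain ⟨c, hc, hdet⟩ := h2 _ h3
      have h4 : Matrix.GeneralLinearGroup.det (g' * c * g⁻¹) = 1 := by
        rw [map_mul, map_mul, hdet, map_inv, map_mul, map_inv]
        group
      obtain ⟨s, hs⟩ := exists_toGL _ h4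
      refine ⟨cGL (Matrix.SpecialLinearGroup.toGL s), (mem_inn_iff _).2 ⟨s, rfl⟩, ?_⟩
      rw [hs, map_mul, map_mul, map_inv]
      have h5 : cGL c * x₀ = x₀ * cGL c := hc
      calc cGL g' * x₀ * (cGL g')⁻¹ = cGL g' * (x₀ * cGL c) * (cGL c)⁻¹ * (cGL g')⁻¹ := by group
        _ = cGL g' * cGL c * (cGL g)⁻¹ * (cGL g * x₀ * (cGL g)⁻¹) *
            (cGL g' * cGL c * (cGL g)⁻¹)⁻¹ := by rw [← h5]; group

end Cfsg.Agent.Lib.Helper43.PSLnSplit
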