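import Mathlib
import Cfsg.Prelude.Def_LieTypeDatum
import Cfsg.Agent.Lib.Helper43.PSLnSplit
import Cfsg.Agent.Lib.Helper43.H90Fin

set_option autoImplicit false

namespace Cfsg.Agent.Lib.Helper43.PSLnFieldCent

open Matrix Cfsg.Agent.Lib.Helper43.PSLnBasic Cfsg.Agent.Lib.Helper43.PSLnAuts
  Cfsg.Agent.Lib.Helper43.PSLnAll Cfsg.Agent.Lib.Helper43.PSLnField
  Cfsg.Agent.Lib.Helper43.SplitCount Cfsg.Agent.Lib.Helper43.PSLnSplit
  Cfsg.Agent.Lib.Helper43.H90GL Cfsg.Agent.Lib.Helper43.H90Fin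

variable {F : Type*} [Field F] {n : ℕ}

theorem commute_cσ_iff (hn : 2 ≤ n) (σ : RingAut F) (c : GL (Fin n) F) :
    Commute (cGL c) (cσ σ) ↔
      ∃ l : Fˣ, Matrix.GeneralLinearGroup.map (σ : F →+* F) c =
        Matrix.GeneralLinearGroup.scalar (Fin n) l * c := by
  constructor
  · intro h
    have h1 : cGL c * cσ σ = cσ σ * cGL c := h
    rw [cσ_mul_cGL] at h1
    have h2 : cGL (Matrix.GeneralLinearGroup.map (σ : F →+* F) c * c⁻¹) = 1 := by
      rw [map_mul, map_inv, ← mul_right_cancel h1, mul_inv_cancel]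
    have h3 : Matrix.GeneralLinearGroup.map (σ : F →+* F) c * c⁻¹ ∈
        (cGL (F := F) (n := n)).ker := h2
    rw [ker_cGL hn, Matrix.GeneralLinearGroup.center_eq_range_scalar] at h3
    obtain ⟨l, hl⟩ := h3
    refine ⟨l, ?_⟩
    rw [hl, inv_mul_cancel_right]
  · rintro ⟨l, hl⟩
    show cGL c * cσ σ = cσ σ * cGL c
    rw [cσ_mul_cGL, hl, map_mul, cGL_scalar, one_mul]

theorem map_coe (σ : RingAut F) (c : GL (Fin n) F) :
    ((Matrix.GeneralLinearGroup.map (σ : F →+* F) c : GL (Fin n) F) :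
      Matrix (Fin n) (Fin n) F) = (c : Matrix (Fin n) (Fin n) F).map σ := rfl

theorem scalar_mul_coe (l : Fˣ) (c : GL (Fin n) F) :
    ((Matrix.GeneralLinearGroup.scalar (Fin n) l * c : GL (Fin n) F) :
      Matrix (Fin n) (Fin n) F) = (l : F) • (c : Matrix (Fin n) (Fin n) F) := by
  rw [Units.val_mul, Matrix.GeneralLinearGroup.coe_scalar]
  ext i j
  simp [Matrix.scalar_apply, Matrix.diagonal_mul]

theorem map_pow_eq (σ : RingAut F) (c : Matrix (Fin n) (Fin n) F) (l : F)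
    (h : c.map σ = l • c) (i : ℕ) : c.map (σ ^ i) = nm σ l i • c := by
  induction i with
  | zero =>
    rw [nm_zero, one_smul]
    ext k m
    rfl
  | succ i ih =>
    have h1 : c.map (σ ^ (i + 1)) = (c.map (σ ^ i)).map σ := by
      ext k m
      rw [Matrix.map_apply, Matrix.map_apply, Matrix.map_apply, pow_succ_apply]
    rw [h1, ih, nm_succ']
    ext k m
    rw [Matrix.map_apply, Matrix.smul_apply, Matrix.smul_apply, smul_eq_mul, smul_eq_mul, map_mul]
    have h2 := congrFun (congrFun h k) m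
    rw [Matrix.map_apply, Matrix.smul_apply, smul_eq_mul] at h2
    rw [h2]
    ring

theorem exists_fixed (hn : 2 ≤ n) (σ : RingAut F) (hpos : 0 < orderOf σ) (c : GL (Fin n) F)
    (h : Commute (cGL c) (cσ σ)) :
    ∃ (μ : Fˣ) (c₁ : GL (Fin n) F), Matrix.GeneralLinearGroup.map (σ : F →+* F) c₁ = c₁ ∧
      c = Matrix.GeneralLinearGroup.scalar (Fin n) μ * c₁ := by
  obtain ⟨l, hl⟩ := (commute_cσ_iff hn σ c).1 h
  have h1 : (c : Matrix (Fin n) (Fin n) F).map σ = (l : F) • (c : Matrix (Fin n) (Fin n) F) := by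
    rw [← map_coe, hl, scalar_mul_coe]
  have h2 := map_pow_eq σ _ _ h1 (orderOf σ)
  have h3 : nm σ (l : F) (orderOf σ) = 1 := by
    by_contra hne
    have h4 : (c : Matrix (Fin n) (Fin n) F) = 0 := by
      have h5 : (c : Matrix (Fin n) (Fin n) F).map (σ ^ orderOf σ) = c := by
        ext i j
        rw [Matrix.map_apply, pow_orderOf_apply]
      rw [h5] at h2
      have h6 : (1 - nm σ (l : F) (orderOf σ)) • (c : Matrix (Fin n) (Fin n) F) = 0 := by
        rw [sub_smul, one_smul, ← h2, sub_self]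
      rcases smul_eq_zero.1 h6 with h7 | h7
      · exact absurd (sub_eq_zero.1 h7).symm hne
      · exact h7
    have h8 : (c : Matrix (Fin n) (Fin n) F) *
        ((c⁻¹ : GL (Fin n) F) : Matrix (Fin n) (Fin n) F) = 1 := by
      rw [← Units.val_mul, mul_inv_cancel, Units.val_one]
    rw [h4, zero_mul] at h8
    have h9 := congrFun (congrFun h8 ⟨0, by omega⟩) ⟨0, by omega⟩
    rw [Matrix.zero_apply, Matrix.one_apply_eq] at h9
    exact zero_ne_one h9
  obtain ⟨μ, hμ, hμ2⟩ := h90 σ hpos _ h3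
  refine ⟨(Units.mk0 μ hμ)⁻¹, Matrix.GeneralLinearGroup.scalar (Fin n) (Units.mk0 μ hμ) * c,
    ?_, ?_⟩
  · rw [map_mul, Matrix.GeneralLinearGroup.map_scalar, hl, ← mul_assoc, ← map_mul]
    congr 2
    apply Units.ext
    rw [Units.val_mul]
    show σ μ * (l : F) = μ
    rw [mul_comm]
    exact hμ2
  · rw [← mul_assoc, ← map_mul, inv_mul_cancel, map_one, one_mul]

theorem commute_of_fixed (σ : RingAut F) (c : GL (Fin n) F)
    (h : Matrix.GeneralLinearGroup.map (σ : F →+* F) c = c) : Commute (cGL c) (cσ σ) := by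
  show cGL c * cσ σ = cσ σ * cGL c
  rw [cσ_mul_cGL, h]

theorem det_fixed (σ : RingAut F) (c : GL (Fin n) F)
    (h : Matrix.GeneralLinearGroup.map (σ : F →+* F) c = c) :
    Matrix.GeneralLinearGroup.det c ∈ (thU σ).ker := by
  rw [mem_ker_thU]
  have h1 := Matrix.GeneralLinearGroup.map_det (σ : F →+* F) c
  rw [h] at h1
  have h2 := congrArg (fun u : Fˣ => (u : F)) h1
  exact h2.symm

theorem det_dg (μ : Fin n → Fˣ) : Matrix.GeneralLinearGroup.det (dg μ) = ∏ i, μ i := by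
  apply Units.ext
  rw [Units.coe_prod]
  show (Matrix.diagonal (fun i => (μ i : F))).det = _
  rw [Matrix.det_diagonal]

theorem map_dg (σ : RingAut F) (μ : Fin n → Fˣ) :
    Matrix.GeneralLinearGroup.map (σ : F →+* F) (dg μ) = dg (fun i => uσ σ (μ i)) := by
  apply Units.ext
  show (Matrix.diagonal (fun i => (μ i : F))).map σ =
    Matrix.diagonal (fun i => ((uσ σ (μ i) : Fˣ) : F))
  rw [Matrix.diagonal_map (map_zero σ)]
  rfl

/-- `diag(b, 1, …, 1)` -/
def dgb (hn : 2 ≤ n) (b : Fˣ) : GL (Fin n) F :=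
  dg (Function.update (fun _ => 1) ⟨0, by omega⟩ b)

theorem det_dgb (hn : 2 ≤ n) (b : Fˣ) : Matrix.GeneralLinearGroup.det (dgb hn b) = b := by
  unfold dgb
  rw [det_dg, Finset.prod_update_of_mem (Finset.mem_univ _)]
  simp

theorem map_dgb (hn : 2 ≤ n) (σ : RingAut F) (b : Fˣ) :
    Matrix.GeneralLinearGroup.map (σ : F →+* F) (dgb hn b) = dgb hn (uσ σ b) := by
  unfold dgb
  rw [map_dg]
  congr 1
  funext i
  by_cases hi : i = ⟨0, by omega⟩
  · subst hi
    simp
  · simp [Function.update_of_ne hi]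

theorem splitCount_field (hn : 2 ≤ n) (σ : RingAut F) (hpos : 0 < orderOf σ) :
    Cfsg.splitClassCount (Cfsg.inndiagPSL n F)
      (Cfsg.Inn (Matrix.ProjectiveSpecialLinearGroup (Fin n) F)) (cσ σ) =
      ((powMonoidHom n : Fˣ →* Fˣ).range ⊔ (thU σ).ker).index := by
  apply splitCount_eq hn
  · intro c hc
    obtain ⟨μ, c₁, h1, rfl⟩ := exists_fixed hn σ hpos c hc
    rw [map_mul, Matrix.GeneralLinearGroup.det_scalar, Fintype.card_fin]
    exact Subgroup.mul_mem_sup ⟨μ, rfl⟩ (det_fixed σ c₁ h1)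
  · intro u hu
    obtain ⟨y, ⟨a, rfl⟩, z, hz, rfl⟩ := Subgroup.mem_sup.1 hu
    refine ⟨Matrix.GeneralLinearGroup.scalar (Fin n) a * dgb hn z, ?_, ?_⟩
    · rw [map_mul, cGL_scalar, one_mul]
      apply commute_of_fixed
      rw [map_dgb]
      congr 1
      apply Units.ext
      exact (mem_ker_thU σ z).1 hz
    · rw [map_mul, Matrix.GeneralLinearGroup.det_scalar, Fintype.card_fin, det_dgb]
      rfl

/-- inclusion of `GL` over the fixed field -/
noncomputable def ιK (σ : RingAut F) : GL (Fin n) (fixF σ) →* GL (Fin n) F :=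
  Matrix.GeneralLinearGroup.map (fixF σ).subtype

theorem ιK_apply (σ : RingAut F) (h : GL (Fin n) (fixF σ)) (i j : Fin n) :
    (ιK σ h : Matrix (Fin n) (Fin n) F) i j =
      (((h : Matrix (Fin n) (Fin n) (fixF σ)) i j : fixF σ) : F) := rfl

theorem ιK_injective (σ : RingAut F) : Function.Injective (ιK (n := n) σ) := by
  intro h₁ h₂ h
  apply Units.ext
  ext i j
  have h1 := congrArg (fun g : GL (Fin n) F => (g : Matrix (Fin n) (Fin n) F) i j) h
  exact h1

theorem map_ιK (σ : RingAut F) (h : GL (Fin n) (fixF σ)) :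
    Matrix.GeneralLinearGroup.map (σ : F →+* F) (ιK σ h) = ιK σ h := by
  apply Units.ext
  ext i j
  show σ (((h : Matrix (Fin n) (Fin n) (fixF σ)) i j : fixF σ) : F) = _
  exact (mem_fixF σ _).1 ((h : Matrix (Fin n) (Fin n) (fixF σ)) i j).2

theorem exists_ιK (σ : RingAut F) (c : GL (Fin n) F)
    (hc : Matrix.GeneralLinearGroup.map (σ : F →+* F) c = c) : ∃ h, ιK σ h = c := by
  have hmem : ∀ i j, (c : Matrix (Fin n) (Fin n) F) i j ∈ fixF σ := by
    intro i j
    rw [mem_fixF]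
    have h1 := congrArg (fun g : GL (Fin n) F => (g : Matrix (Fin n) (Fin n) F) i j) hc
    exact h1
  obtain ⟨m, hm⟩ : ∃ m : Matrix (Fin n) (Fin n) (fixF σ),
      ∀ i j, ((m i j : fixF σ) : F) = (c : Matrix (Fin n) (Fin n) F) i j :=
    ⟨Matrix.of fun i j => ⟨_, hmem i j⟩, fun _ _ => rfl⟩
  have hmap : (fixF σ).subtype.mapMatrix m = (c : Matrix (Fin n) (Fin n) F) := by
    ext i j
    exact hm i j
  have hdet : m.det ≠ 0 := by
    intro h0
    have h1 := RingHom.map_det (fixF σ).subtype m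
    rw [h0, map_zero, hmap] at h1
    exact (Matrix.GeneralLinearGroup.det_ne_zero c) h1.symm
  refine ⟨Matrix.GeneralLinearGroup.mkOfDetNeZero m hdet, ?_⟩
  apply Units.ext
  exact hmap

theorem range_eq (hn : 2 ≤ n) (σ : RingAut F) (hpos : 0 < orderOf σ) :
    (cGL.comp (ιK (n := n) σ)).range =
      Cfsg.inndiagPSL n F ⊓ Subgroup.centralizer {cσ σ} := by
  ext y
  constructor
  · rintro ⟨h, rfl⟩
    refine Subgroup.mem_inf.2 ⟨cGL_mem_inndiag _, ?_⟩
    rw [Subgroup.mem_centralizer_singleton_iff]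
    exact (commute_of_fixed σ _ (map_ιK σ h)).eq
  · intro hy
    obtain ⟨hy1, hy2⟩ := Subgroup.mem_inf.1 hy
    obtain ⟨c, rfl⟩ := (mem_inndiag_iff y).1 hy1
    rw [Subgroup.mem_centralizer_singleton_iff] at hy2
    obtain ⟨μ, c₁, h1, rfl⟩ := exists_fixed hn σ hpos c hy2
    obtain ⟨h, rfl⟩ := exists_ιK σ c₁ h1
    exact ⟨h, by rw [MonoidHom.comp_apply, map_mul, cGL_scalar, one_mul]⟩

theorem ker_eq (hn : 2 ≤ n) (σ : RingAut F) :
    (cGL.comp (ιK (n := n) σ)).ker = Subgroup.center (GL (Fin n) (fixF σ)) := by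
  ext h
  rw [MonoidHom.mem_ker, MonoidHom.comp_apply, ← MonoidHom.mem_ker, ker_cGL hn,
    Matrix.GeneralLinearGroup.center_eq_range_scalar,
    Matrix.GeneralLinearGroup.center_eq_range_scalar]
  constructor
  · rintro ⟨t, ht⟩
    have h1 := congrArg (fun g : GL (Fin n) F =>
      (g : Matrix (Fin n) (Fin n) F) ⟨0, by omega⟩ ⟨0, by omega⟩) ht
    simp only [Matrix.GeneralLinearGroup.coe_scalar, Matrix.scalar_apply,
      Matrix.diagonal_apply_eq, ιK_apply] at h1
    have hmem : (t : F) ∈ fixF σ := by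
      rw [h1]
      exact Subtype.property _
    have hne : (⟨(t : F), hmem⟩ : fixF σ) ≠ 0 := by
      intro h0
      exact t.ne_zero (congrArg Subtype.val h0)
    refine ⟨Units.mk0 ⟨(t : F), hmem⟩ hne, ?_⟩
    apply ιK_injective σ
    rw [← ht]
    unfold ιK
    rw [Matrix.GeneralLinearGroup.map_scalar]
    congr 1
    exact Units.ext rfl
  · rintro ⟨t, rfl⟩
    refine ⟨Units.map (fixF σ).subtype.toMonoidHom t, ?_⟩
    unfold ιK
    rw [Matrix.GeneralLinearGroup.map_scalar]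
    rfl

theorem centralizer_field (hn : 2 ≤ n) (σ : RingAut F) (hpos : 0 < orderOf σ) :
    Nonempty (↥(Cfsg.inndiagPSL n F ⊓ Subgroup.centralizer {cσ σ}) ≃*
      Matrix.ProjGenLinGroup (Fin n) (fixF σ)) := by
  obtain ⟨e1⟩ : Nonempty (GL (Fin n) (fixF σ) ⧸ (cGL.comp (ιK (n := n) σ)).ker ≃*
      ↥(cGL.comp (ιK (n := n) σ)).range) :=
    ⟨QuotientGroup.quotientKerEquivRange (cGL.comp (ιK (n := n) σ))⟩
  obtain ⟨e2⟩ : Nonempty (↥(cGL.comp (ιK (n := n) σ)).range ≃*
      ↥(Cfsg.inndiagPSL n F ⊓ Subgroup.centralizer {cσ σ})) :=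
    ⟨MulEquiv.subgroupCongr (range_eq hn σ hpos)⟩
  obtain ⟨e3⟩ : Nonempty (GL (Fin n) (fixF σ) ⧸ (cGL.comp (ιK (n := n) σ)).ker ≃*
      Matrix.ProjGenLinGroup (Fin n) (fixF σ)) :=
    ⟨QuotientGroup.quotientMulEquivOfEq (ker_eq hn σ)⟩
  exact ⟨(e2.symm.trans e1.symm).trans e3⟩

theorem pgl_congr {K K' : Type*} [Field K] [Field K'] (e : K ≃+* K') (n : ℕ) :
    Nonempty (Matrix.ProjGenLinGroup (Fin n) K ≃* Matrix.ProjGenLinGroup (Fin n) K') := by
  obtain ⟨E⟩ : Nonempty (GL (Fin n) K ≃* GL (Fin n) K') :=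
    ⟨Units.mapEquiv (RingEquiv.mapMatrix e).toMulEquiv⟩
  have hE : Subgroup.map (E : GL (Fin n) K →* GL (Fin n) K') (Subgroup.center _) =
      Subgroup.center _ := by
    ext g
    rw [Subgroup.mem_center_iff]
    constructor
    · rintro ⟨z, hz, rfl⟩ g'
      rw [SetLike.mem_coe, Subgroup.mem_center_iff] at hz
      have h1 := hz (E.symm g')
      have h2 := congrArg E h1
      rw [map_mul, map_mul, MulEquiv.apply_symm_apply] at h2
      exact h2
    · intro hg
      refine ⟨E.symm g, ?_, MulEquiv.apply_symm_apply E g⟩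
      rw [SetLike.mem_coe, Subgroup.mem_center_iff]
      intro g'
      apply E.injective
      rw [map_mul, map_mul, MulEquiv.apply_symm_apply]
      exact hg (E g')
  exact ⟨QuotientGroup.congr _ _ E hE⟩

end Cfsg.Agent.Lib.Helper43.PSLnFieldCent
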