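import Mathlib
import Cfsg.Prelude.Def_LieTypeDatum
import Cfsg.Agent.Lib.Helper43.PSLnFieldCent
import Cfsg.Agent.Lib.Helper43.FrobInv
import Cfsg.Agent.Lib.Helper40.HermAdj

set_option autoImplicit false

namespace Cfsg.Agent.Lib.Helper43.PSLnGFCent

open Matrix Cfsg.Agent.Lib.Helper43.PSLnBasic Cfsg.Agent.Lib.Helper43.PSLnAuts
  Cfsg.Agent.Lib.Helper43.PSLnAll Cfsg.Agent.Lib.Helper43.PSLnField
  Cfsg.Agent.Lib.Helper43.SplitCount Cfsg.Agent.Lib.Helper43.PSLnSplit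
  Cfsg.Agent.Lib.Helper43.H90GL Cfsg.Agent.Lib.Helper43.H90Fin
  Cfsg.Agent.Lib.Helper43.PSLnFieldCent Cfsg.Agent.Lib.Helper43.FrobInv
  Cfsg.Agent.Lib.Helper40.HermAdj

variable {F : Type*} [Field F] {n : ℕ}

/-- the involution `c ↦ σ(c)^{-T}` of `GLₙ` -/
def gθ (σ : RingAut F) (c : GL (Fin n) F) : GL (Fin n) F :=
  Matrix.GeneralLinearGroup.map (σ : F →+* F) (gT c)

theorem gf_mul_cGL (σ : RingAut F) (c : GL (Fin n) F) :
    cσ σ * cτ * cGL c = cGL (gθ σ c) * (cσ σ * cτ) := by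
  rw [mul_assoc, cτ_mul_cGL, ← mul_assoc, cσ_mul_cGL, mul_assoc]
  rfl

theorem gθ_coe (σ : RingAut F) (c : GL (Fin n) F) :
    ((gθ σ c : GL (Fin n) F) : Matrix (Fin n) (Fin n) F) =
      adj (σ : F →+* F) ((c⁻¹ : GL (Fin n) F) : Matrix (Fin n) (Fin n) F) := rfl

theorem commute_gf_iff (hn : 2 ≤ n) (σ : RingAut F) (c : GL (Fin n) F) :
    Commute (cGL c) (cσ σ * cτ) ↔
      ∃ l : Fˣ, gθ σ c = Matrix.GeneralLinearGroup.scalar (Fin n) l * c := by
  constructor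
  · intro h
    have h1 : cGL c * (cσ σ * cτ) = cσ σ * cτ * cGL c := h
    rw [gf_mul_cGL] at h1
    have h2 : cGL (gθ σ c * c⁻¹) = 1 := by
      rw [map_mul, map_inv, ← mul_right_cancel h1, mul_inv_cancel]
    have h3 : gθ σ c * c⁻¹ ∈ (cGL (F := F) (n := n)).ker := h2
    rw [ker_cGL hn, Matrix.GeneralLinearGroup.center_eq_range_scalar] at h3
    obtain ⟨l, hl⟩ := h3
    refine ⟨l, ?_⟩
    rw [hl, inv_mul_cancel_right]
  · rintro ⟨l, hl⟩
    show cGL c * (cσ σ * cτ) = cσ σ * cτ * cGL c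
    rw [gf_mul_cGL, hl, map_mul, cGL_scalar, one_mul]

theorem adj_smul (σ : RingAut F) (l : F) (M : Matrix (Fin n) (Fin n) F) :
    adj (σ : F →+* F) (l • M) = σ l • adj (σ : F →+* F) M := by
  ext i j
  rw [adj_apply, Matrix.smul_apply, Matrix.smul_apply, adj_apply, smul_eq_mul, smul_eq_mul,
    map_mul]
  rfl

theorem adj_mul_self_of_gθ (σ : RingAut F) (c : GL (Fin n) F) (l : Fˣ)
    (h : gθ σ c = Matrix.GeneralLinearGroup.scalar (Fin n) l * c) :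
    adj (σ : F →+* F) (c : Matrix (Fin n) (Fin n) F) * (c : Matrix (Fin n) (Fin n) F) =
      ((l : F)⁻¹) • (1 : Matrix (Fin n) (Fin n) F) := by
  have h1 : adj (σ : F →+* F) ((c⁻¹ : GL (Fin n) F) : Matrix (Fin n) (Fin n) F) =
      (l : F) • (c : Matrix (Fin n) (Fin n) F) := by
    rw [← gθ_coe, h, scalar_mul_coe]
  have h2 : adj (σ : F →+* F) (c : Matrix (Fin n) (Fin n) F) *
      adj (σ : F →+* F) ((c⁻¹ : GL (Fin n) F) : Matrix (Fin n) (Fin n) F) = 1 := by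
    rw [← adj_mul, ← Units.val_mul, inv_mul_cancel, Units.val_one, adj_one]
  rw [h1, Matrix.mul_smul] at h2
  rw [← h2, smul_smul, inv_mul_cancel₀ l.ne_zero, one_smul]

theorem exists_unitary [Finite F] (hn : 2 ≤ n) (σ : RingAut F) (h2 : orderOf σ = 2)
    (c : GL (Fin n) F) (h : Commute (cGL c) (cσ σ * cτ)) :
    ∃ (ν : Fˣ) (c₁ : GL (Fin n) F),
      adj (σ : F →+* F) (c₁ : Matrix (Fin n) (Fin n) F) * (c₁ : Matrix (Fin n) (Fin n) F) = 1 ∧
      c = Matrix.GeneralLinearGroup.scalar (Fin n) ν * c₁ := by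
  obtain ⟨l, hl⟩ := (commute_gf_iff hn σ c).1 h
  have hA := adj_mul_self_of_gθ σ c l hl
  have hσσ : ∀ a : F, (σ : F →+* F) ((σ : F →+* F) a) = a := sq_apply σ h2
  have hfix : σ ((l : F)⁻¹) = (l : F)⁻¹ := by
    have h1 := congrArg (adj (σ : F →+* F)) hA
    rw [adj_mul, adj_adj _ hσσ, hA, adj_smul, adj_one] at h1
    have h3 := congrFun (congrFun h1 ⟨0, by omega⟩) ⟨0, by omega⟩
    rw [Matrix.smul_apply, Matrix.smul_apply, Matrix.one_apply_eq, smul_eq_mul, smul_eq_mul,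
      mul_one, mul_one] at h3
    exact h3.symm
  obtain ⟨ν, hν, hν2⟩ := norm_surj σ _ (inv_ne_zero l.ne_zero) hfix
  rw [h2, nm_two] at hν2
  refine ⟨Units.mk0 ν hν, Matrix.GeneralLinearGroup.scalar (Fin n) (Units.mk0 ν hν)⁻¹ * c,
    ?_, ?_⟩
  · rw [scalar_mul_coe, adj_smul, Matrix.smul_mul, Matrix.mul_smul, hA, smul_smul, smul_smul]
    have h4 : σ (((Units.mk0 ν hν)⁻¹ : Fˣ) : F) * (((Units.mk0 ν hν)⁻¹ : Fˣ) : F) *
        (l : F)⁻¹ = 1 := by
      rw [Units.val_inv_eq_inv_val, Units.val_mk0, map_inv₀, ← hν2]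
      have hσν : σ ν ≠ 0 := (map_ne_zero_iff σ σ.injective).2 hν
      field_simp
    rw [h4, one_smul]
  · rw [← mul_assoc, ← map_mul, mul_inv_cancel, map_one, one_mul]

theorem gθ_of_unitary (σ : RingAut F) (c : GL (Fin n) F)
    (h : adj (σ : F →+* F) (c : Matrix (Fin n) (Fin n) F) * (c : Matrix (Fin n) (Fin n) F) = 1) :
    gθ σ c = c := by
  apply Units.ext
  rw [gθ_coe]
  calc adj (σ : F →+* F) ((c⁻¹ : GL (Fin n) F) : Matrix (Fin n) (Fin n) F)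
      = adj (σ : F →+* F) ((c⁻¹ : GL (Fin n) F) : Matrix (Fin n) (Fin n) F) *
        (adj (σ : F →+* F) (c : Matrix (Fin n) (Fin n) F) * (c : Matrix (Fin n) (Fin n) F)) := by
        rw [h, mul_one]
    _ = (c : Matrix (Fin n) (Fin n) F) := by
        rw [← mul_assoc, ← adj_mul, ← Units.val_mul, mul_inv_cancel, Units.val_one, adj_one,
          one_mul]

theorem commute_of_unitary (σ : RingAut F) (c : GL (Fin n) F)
    (h : adj (σ : F →+* F) (c : Matrix (Fin n) (Fin n) F) * (c : Matrix (Fin n) (Fin n) F) = 1) :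
    Commute (cGL c) (cσ σ * cτ) := by
  show cGL c * (cσ σ * cτ) = cσ σ * cτ * cGL c
  rw [gf_mul_cGL, gθ_of_unitary σ c h]

theorem det_unitary (σ : RingAut F) (h2 : orderOf σ = 2) (c : GL (Fin n) F)
    (h : adj (σ : F →+* F) (c : Matrix (Fin n) (Fin n) F) * (c : Matrix (Fin n) (Fin n) F) = 1) :
    Matrix.GeneralLinearGroup.det c ∈ (nmU σ).ker := by
  rw [mem_ker_nmU, h2, nm_two]
  have h1 := congrArg Matrix.det h
  rw [Matrix.det_mul, Matrix.det_one] at h1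
  have h3 : (adj (σ : F →+* F) (c : Matrix (Fin n) (Fin n) F)).det =
      σ ((c : Matrix (Fin n) (Fin n) F).det) := by
    unfold adj
    rw [Matrix.det_transpose]
    exact (RingHom.map_det (σ : F →+* F) _).symm
  rw [h3, mul_comm] at h1
  exact h1

theorem adj_dg (σ : RingAut F) (μ : Fin n → Fˣ) (h : ∀ i, σ (μ i : F) * (μ i : F) = 1) :
    adj (σ : F →+* F) (dg μ : Matrix (Fin n) (Fin n) F) *
      (dg μ : Matrix (Fin n) (Fin n) F) = 1 := by
  have h1 : adj (σ : F →+* F) (dg μ : Matrix (Fin n) (Fin n) F) =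
      Matrix.diagonal (fun i => σ (μ i : F)) := by
    ext i j
    rw [adj_apply]
    show (σ : F →+* F) (Matrix.diagonal (fun i => (μ i : F)) j i) = _
    by_cases hij : i = j
    · subst hij
      rw [Matrix.diagonal_apply_eq, Matrix.diagonal_apply_eq]
      rfl
    · rw [Matrix.diagonal_apply_ne _ hij, Matrix.diagonal_apply_ne _ (Ne.symm hij), map_zero]
  rw [h1]
  show Matrix.diagonal (fun i => σ (μ i : F)) * Matrix.diagonal (fun i => (μ i : F)) = 1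
  rw [Matrix.diagonal_mul_diagonal, ← Matrix.diagonal_one]
  congr 1
  funext i
  exact h i

theorem splitCount_gf [Finite F] (hn : 2 ≤ n) (σ : RingAut F) (h2 : orderOf σ = 2) :
    Cfsg.splitClassCount (Cfsg.inndiagPSL n F)
      (Cfsg.Inn (Matrix.ProjectiveSpecialLinearGroup (Fin n) F)) (cσ σ * cτ) =
      ((powMonoidHom n : Fˣ →* Fˣ).range ⊔ (nmU σ).ker).index := by
  apply splitCount_eq hn
  · intro c hc
    obtain ⟨ν, c₁, h1, rfl⟩ := exists_unitary hn σ h2 c hc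
    rw [map_mul, Matrix.GeneralLinearGroup.det_scalar, Fintype.card_fin]
    exact Subgroup.mul_mem_sup ⟨ν, rfl⟩ (det_unitary σ h2 c₁ h1)
  · intro u hu
    obtain ⟨y, ⟨a, rfl⟩, z, hz, rfl⟩ := Subgroup.mem_sup.1 hu
    refine ⟨Matrix.GeneralLinearGroup.scalar (Fin n) a * dgb hn z, ?_, ?_⟩
    · rw [map_mul, cGL_scalar, one_mul]
      apply commute_of_unitary
      unfold dgb
      apply adj_dg
      intro i
      by_cases hi : i = ⟨0, by omega⟩
      · subst hi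
        rw [Function.update_self]
        rw [mem_ker_nmU, h2, nm_two] at hz
        rw [mul_comm]
        exact hz
      · rw [Function.update_of_ne hi, Units.val_one, map_one, mul_one]
    · rw [map_mul, Matrix.GeneralLinearGroup.det_scalar, Fintype.card_fin, det_dgb]
      rfl

theorem range_gf [Finite F] (hn : 2 ≤ n) (σ : RingAut F) (h2 : orderOf σ = 2) (q₀ : ℕ)
    (hq : ∀ a : F, σ a = a ^ q₀) :
    (cGL.comp (Cfsg.GU n F q₀).subtype).range =
      Cfsg.inndiagPSL n F ⊓ Subgroup.centralizer {cσ σ * cτ} := by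
  ext y
  constructor
  · rintro ⟨h, rfl⟩
    refine Subgroup.mem_inf.2 ⟨cGL_mem_inndiag _, ?_⟩
    rw [Subgroup.mem_centralizer_singleton_iff]
    exact (commute_of_unitary σ _ ((mem_GU_iff (σ : F →+* F) hq _).1 h.2)).eq
  · intro hy
    obtain ⟨hy1, hy2⟩ := Subgroup.mem_inf.1 hy
    obtain ⟨c, rfl⟩ := (mem_inndiag_iff y).1 hy1
    rw [Subgroup.mem_centralizer_singleton_iff] at hy2
    obtain ⟨ν, c₁, h1, rfl⟩ := exists_unitary hn σ h2 c hy2
    refine ⟨⟨c₁, (mem_GU_iff (σ : F →+* F) hq _).2 h1⟩, ?_⟩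
    rw [MonoidHom.comp_apply, map_mul, cGL_scalar, one_mul]
    rfl

theorem ker_gf (hn : 2 ≤ n) (q₀ : ℕ) :
    (cGL.comp (Cfsg.GU n F q₀).subtype).ker =
      (Cfsg.Geo.scalars (Fin n) F).subgroupOf (Cfsg.GU n F q₀) := by
  ext h
  rw [MonoidHom.mem_ker, MonoidHom.comp_apply, ← MonoidHom.mem_ker, ker_cGL hn,
    Matrix.GeneralLinearGroup.center_eq_range_scalar, Subgroup.mem_subgroupOf]
  rfl

theorem centralizer_gf [Finite F] (hn : 2 ≤ n) (σ : RingAut F) (h2 : orderOf σ = 2) (q₀ : ℕ)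
    (hq : ∀ a : F, σ a = a ^ q₀) :
    Nonempty (↥(Cfsg.inndiagPSL n F ⊓ Subgroup.centralizer {cσ σ * cτ}) ≃*
      Cfsg.PGU n F q₀) := by
  obtain ⟨e1⟩ : Nonempty (↥(Cfsg.GU n F q₀) ⧸ (cGL.comp (Cfsg.GU n F q₀).subtype).ker ≃*
      ↥(cGL.comp (Cfsg.GU n F q₀).subtype).range) :=
    ⟨QuotientGroup.quotientKerEquivRange (cGL.comp (Cfsg.GU n F q₀).subtype)⟩
  obtain ⟨e2⟩ : Nonempty (↥(cGL.comp (Cfsg.GU n F q₀).subtype).range ≃*
      ↥(Cfsg.inndiagPSL n F ⊓ Subgroup.centralizer {cσ σ * cτ})) :=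
    ⟨MulEquiv.subgroupCongr (range_gf hn σ h2 q₀ hq)⟩
  obtain ⟨e3⟩ : Nonempty (↥(Cfsg.GU n F q₀) ⧸ (cGL.comp (Cfsg.GU n F q₀).subtype).ker ≃*
      Cfsg.PGU n F q₀) :=
    ⟨QuotientGroup.quotientMulEquivOfEq (ker_gf hn q₀)⟩
  exact ⟨(e2.symm.trans e1.symm).trans e3⟩

end Cfsg.Agent.Lib.Helper43.PSLnGFCent
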