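import Mathlib
import Cfsg.Prelude.Def_LieTypeDatum
import Cfsg.Agent.Lib.Helper43.PSLnField

set_option autoImplicit false

namespace Cfsg.Agent.Lib.Helper43.PSLnGFOrd

open Matrix Cfsg.Agent.Lib.Helper43.PSLnBasic Cfsg.Agent.Lib.Helper43.PSLnAuts
  Cfsg.Agent.Lib.Helper43.PSLnAll Cfsg.Agent.Lib.Helper43.PSLnField

variable {F : Type*} [Field F] {n : ℕ}

theorem gf_sq (σ : RingAut F) :
    (cσ σ * cτ : MulAut (Matrix.ProjectiveSpecialLinearGroup (Fin n) F)) ^ 2 = cσ (σ ^ 2) := by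
  rw [pow_two, pow_two, map_mul]
  calc cσ σ * cτ * (cσ σ * cτ) = cσ σ * (cτ * cσ σ) * cτ := by group
    _ = cσ σ * cσ σ * (cτ * cτ) := by rw [cτ_mul_cσ]; group
    _ = cσ σ * cσ σ := by rw [cτ_mul_cτ, mul_one]

theorem gf_pow_even (σ : RingAut F) (k : ℕ) :
    (cσ σ * cτ : MulAut (Matrix.ProjectiveSpecialLinearGroup (Fin n) F)) ^ (2 * k) =
      cσ (σ ^ (2 * k)) := by
  rw [pow_mul, gf_sq, ← map_pow, ← pow_mul]

theorem gf_pow_odd (σ : RingAut F) (k : ℕ) :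
    (cσ σ * cτ : MulAut (Matrix.ProjectiveSpecialLinearGroup (Fin n) F)) ^ (2 * k + 1) =
      cσ (σ ^ (2 * k + 1)) * cτ := by
  rw [pow_succ, gf_pow_even, pow_succ, map_mul, mul_assoc]

/-- a graph-field automorphism of prime order is an involution, with an involutory field
automorphism -/
theorem gf_order (hn : 3 ≤ n) (σ : RingAut F) (hσ : σ ≠ 1) (r : ℕ) (hr : r.Prime)
    (h : orderOf (cσ σ * cτ : MulAut (Matrix.ProjectiveSpecialLinearGroup (Fin n) F)) = r) :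
    r = 2 ∧ orderOf σ = 2 := by
  have h1 : (cσ σ * cτ : MulAut (Matrix.ProjectiveSpecialLinearGroup (Fin n) F)) ^ r = 1 := by
    rw [← h]
    exact pow_orderOf_eq_one _
  have hr2 : r = 2 := by
    rcases hr.eq_two_or_odd' with h2 | ⟨k, hk⟩
    · exact h2
    · exfalso
      rw [hk, gf_pow_odd] at h1
      have h3 : cGL (1 : GL (Fin n) F) * cσ ((σ ^ (2 * k + 1))⁻¹) =
          (cτ : MulAut (Matrix.ProjectiveSpecialLinearGroup (Fin n) F)) := by
        rw [map_one, one_mul, map_inv]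
        exact inv_eq_of_mul_eq_one_right h1
      exact cτ_ne hn _ _ h3
  refine ⟨hr2, ?_⟩
  haveI : Fact (Nat.Prime 2) := ⟨Nat.prime_two⟩
  apply orderOf_eq_prime _ hσ
  rw [hr2, gf_sq] at h1
  apply cσ_injective (n := n) (by omega)
  rw [h1, map_one]

end Cfsg.Agent.Lib.Helper43.PSLnGFOrd
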