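import Mathlib
import Cfsg.Prelude.Def_LieTypeDatum
import Cfsg.Agent.Lib.Helper43.PSLnGFCent
import Cfsg.Agent.Lib.Helper43.PSLnGFOrd
import Cfsg.Agent.Lib.Helper43.HermClass

set_option autoImplicit false

namespace Cfsg.Agent.Lib.Helper43.PSLnCoset

open Matrix Cfsg.Agent.Lib.Helper43.PSLnBasic Cfsg.Agent.Lib.Helper43.PSLnAuts
  Cfsg.Agent.Lib.Helper43.PSLnAll Cfsg.Agent.Lib.Helper43.PSLnField
  Cfsg.Agent.Lib.Helper43.H90GL Cfsg.Agent.Lib.Helper43.H90Fin
  Cfsg.Agent.Lib.Helper43.PSLnFieldCent Cfsg.Agent.Lib.Helper43.FrobInv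
  Cfsg.Agent.Lib.Helper43.PSLnGFCent Cfsg.Agent.Lib.Helper43.PSLnGFOrd
  Cfsg.Agent.Lib.Helper43.HermClass
  Cfsg.Agent.Lib.Helper40.HermAdj

variable {F : Type*} [Field F] {n : ℕ}

/-- twisted powers `g σ(g) ⋯ σ^{k-1}(g)` -/
def tw (σ : RingAut F) (g : GL (Fin n) F) : ℕ → GL (Fin n) F
  | 0 => 1
  | k + 1 => tw σ g k * Matrix.GeneralLinearGroup.map ((σ ^ k : RingAut F) : F →+* F) g

theorem tw_zero (σ : RingAut F) (g : GL (Fin n) F) : tw σ g 0 = 1 := rfl

theorem tw_succ (σ : RingAut F) (g : GL (Fin n) F) (k : ℕ) :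
    tw σ g (k + 1) =
      tw σ g k * Matrix.GeneralLinearGroup.map ((σ ^ k : RingAut F) : F →+* F) g := rfl

theorem map_map_pow (σ : RingAut F) (k : ℕ) (g : GL (Fin n) F) :
    Matrix.GeneralLinearGroup.map (σ : F →+* F)
      (Matrix.GeneralLinearGroup.map ((σ ^ k : RingAut F) : F →+* F) g) =
      Matrix.GeneralLinearGroup.map ((σ ^ (k + 1) : RingAut F) : F →+* F) g := by
  apply Units.ext
  ext i j
  show σ ((σ ^ k) ((g : Matrix (Fin n) (Fin n) F) i j)) =
    (σ ^ (k + 1)) ((g : Matrix (Fin n) (Fin n) F) i j)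
  rw [pow_succ_apply]

theorem map_pow_zero (σ : RingAut F) (g : GL (Fin n) F) :
    Matrix.GeneralLinearGroup.map ((σ ^ 0 : RingAut F) : F →+* F) g = g := by
  apply Units.ext
  ext i j
  rfl

theorem map_pow_orderOf (σ : RingAut F) (g : GL (Fin n) F) :
    Matrix.GeneralLinearGroup.map ((σ ^ orderOf σ : RingAut F) : F →+* F) g = g := by
  apply Units.ext
  ext i j
  show (σ ^ orderOf σ) ((g : Matrix (Fin n) (Fin n) F) i j) = _
  rw [pow_orderOf_apply]

theorem tw_succ' (σ : RingAut F) (g : GL (Fin n) F) (k : ℕ) :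
    tw σ g (k + 1) = g * Matrix.GeneralLinearGroup.map (σ : F →+* F) (tw σ g k) := by
  induction k with
  | zero => rw [tw_succ, tw_zero, one_mul, map_pow_zero, map_one, mul_one]
  | succ k ih =>
    have h1 : tw σ g (k + 1 + 1) = tw σ g (k + 1) *
        Matrix.GeneralLinearGroup.map ((σ ^ (k + 1) : RingAut F) : F →+* F) g := rfl
    rw [h1]
    nth_rewrite 1 [ih]
    rw [mul_assoc, ← map_map_pow, ← map_mul]
    rfl

theorem pow_eq (σ : RingAut F) (g : GL (Fin n) F) (k : ℕ) :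
    (cGL g * cσ σ) ^ k = cGL (tw σ g k) * cσ (σ ^ k) := by
  induction k with
  | zero => rw [pow_zero, tw_zero, map_one, pow_zero, map_one, mul_one]
  | succ k ih =>
    rw [pow_succ', ih, tw_succ', map_mul, pow_succ', map_mul]
    calc cGL g * cσ σ * (cGL (tw σ g k) * cσ (σ ^ k))
        = cGL g * (cσ σ * cGL (tw σ g k)) * cσ (σ ^ k) := by group
      _ = cGL g * cGL (Matrix.GeneralLinearGroup.map (σ : F →+* F) (tw σ g k)) *
          (cσ σ * cσ (σ ^ k)) := by rw [cσ_mul_cGL]; group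

theorem tw_scalar (σ : RingAut F) (μ : Fˣ) (g : GL (Fin n) F) (k : ℕ) :
    ∃ ν : Fˣ, (ν : F) = nm σ μ k ∧
      tw σ (Matrix.GeneralLinearGroup.scalar (Fin n) μ * g) k =
        Matrix.GeneralLinearGroup.scalar (Fin n) ν * tw σ g k := by
  induction k with
  | zero =>
    refine ⟨1, ?_, ?_⟩
    · rw [nm_zero]
      rfl
    · rw [tw_zero, tw_zero, map_one, one_mul]
  | succ k ih =>
    obtain ⟨ν, hν, h⟩ := ih
    obtain ⟨μ', hμ'1, hμ'2⟩ : ∃ μ' : Fˣ, (μ' : F) = (σ ^ k) (μ : F) ∧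
        Matrix.GeneralLinearGroup.map ((σ ^ k : RingAut F) : F →+* F)
          (Matrix.GeneralLinearGroup.scalar (Fin n) μ) =
        Matrix.GeneralLinearGroup.scalar (Fin n) μ' :=
      ⟨_, rfl, Matrix.GeneralLinearGroup.map_scalar _ _⟩
    refine ⟨ν * μ', ?_, ?_⟩
    · rw [Units.val_mul, hν, hμ'1, nm_succ]
    · rw [tw_succ, h, map_mul, hμ'2, tw_succ, map_mul]
      have h1 := Matrix.GeneralLinearGroup.scalar_commute μ' (tw σ g k)
      calc Matrix.GeneralLinearGroup.scalar (Fin n) ν * tw σ g k *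
            (Matrix.GeneralLinearGroup.scalar (Fin n) μ' *
              Matrix.GeneralLinearGroup.map ((σ ^ k : RingAut F) : F →+* F) g)
          = Matrix.GeneralLinearGroup.scalar (Fin n) ν *
            (tw σ g k * Matrix.GeneralLinearGroup.scalar (Fin n) μ') *
              Matrix.GeneralLinearGroup.map ((σ ^ k : RingAut F) : F →+* F) g := by
            simp only [mul_assoc]
        _ = Matrix.GeneralLinearGroup.scalar (Fin n) ν *
            Matrix.GeneralLinearGroup.scalar (Fin n) μ' *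
            (tw σ g k * Matrix.GeneralLinearGroup.map ((σ ^ k : RingAut F) : F →+* F) g) := by
            rw [← h1]
            simp only [mul_assoc]

theorem conj_of_eq (x₀ : MulAut (Matrix.ProjectiveSpecialLinearGroup (Fin n) F))
    (h h' g : GL (Fin n) F) (h1 : x₀ * cGL h = cGL h' * x₀) (h2 : g * h' = h) :
    cGL g * x₀ = cGL h * x₀ * (cGL h)⁻¹ := by
  have h3 : x₀ * (cGL h)⁻¹ = (cGL h')⁻¹ * x₀ := by
    rw [eq_inv_mul_iff_mul_eq, ← mul_assoc, ← h1, mul_assoc, mul_inv_cancel, mul_one]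
  rw [mul_assoc, h3, ← mul_assoc, ← h2, map_mul, mul_inv_cancel_right]

theorem smul_eq_self (hn : 2 ≤ n) (c : F) (g : GL (Fin n) F)
    (h : c • (g : Matrix (Fin n) (Fin n) F) = (g : Matrix (Fin n) (Fin n) F)) : c = 1 := by
  by_contra hne
  have h4 : (g : Matrix (Fin n) (Fin n) F) = 0 := by
    have h6 : (c - 1) • (g : Matrix (Fin n) (Fin n) F) = 0 := by
      rw [sub_smul, one_smul, h, sub_self]
    rcases smul_eq_zero.1 h6 with h7 | h7
    · exact absurd (sub_eq_zero.1 h7) hne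
    · exact h7
  have h8 : (g : Matrix (Fin n) (Fin n) F) *
      ((g⁻¹ : GL (Fin n) F) : Matrix (Fin n) (Fin n) F) = 1 := by
    rw [← Units.val_mul, mul_inv_cancel, Units.val_one]
  rw [h4, zero_mul] at h8
  have h9 := congrFun (congrFun h8 ⟨0, by omega⟩) ⟨0, by omega⟩
  rw [Matrix.zero_apply, Matrix.one_apply_eq] at h9
  exact zero_ne_one h9

theorem scalar_injective (hn : 2 ≤ n) (a b : Fˣ)
    (h : Matrix.GeneralLinearGroup.scalar (Fin n) a = Matrix.GeneralLinearGroup.scalar (Fin n) b) :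
    a = b := by
  have h5 := congrArg (fun A : GL (Fin n) F =>
    (A : Matrix (Fin n) (Fin n) F) ⟨0, by omega⟩ ⟨0, by omega⟩) h
  simp only [Matrix.GeneralLinearGroup.coe_scalar, Matrix.scalar_apply,
    Matrix.diagonal_apply_eq] at h5
  exact Units.ext h5

/-- elements of prime order in the coset of a field automorphism are conjugate to it -/
theorem field_conj [Finite F] (hn : 2 ≤ n) (σ : RingAut F) (g : GL (Fin n) F)
    (h : (cGL g * cσ σ) ^ orderOf σ = 1) :
    ∃ h : GL (Fin n) F, cGL g * cσ σ = cGL h * cσ σ * (cGL h)⁻¹ := by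
  have hpos := orderOf_pos_ringAut σ
  rw [pow_eq, pow_orderOf_eq_one, map_one, mul_one] at h
  have h1 : tw σ g (orderOf σ) ∈ (cGL (F := F) (n := n)).ker := h
  rw [ker_cGL hn, Matrix.GeneralLinearGroup.center_eq_range_scalar] at h1
  obtain ⟨t, ht⟩ := h1
  have hσt : σ (t : F) = t := by
    have h2 : tw σ g (orderOf σ + 1) = tw σ g (orderOf σ) *
        Matrix.GeneralLinearGroup.map ((σ ^ orderOf σ : RingAut F) : F →+* F) g := rfl
    rw [tw_succ', ← ht, map_pow_orderOf, Matrix.GeneralLinearGroup.map_scalar,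
      ← Matrix.GeneralLinearGroup.scalar_commute] at h2
    have h4 := scalar_injective hn _ _ (mul_right_cancel h2)
    exact congrArg (fun u : Fˣ => (u : F)) h4
  obtain ⟨μ, hμ, hμ2⟩ := norm_surj σ ((t : F)⁻¹) (inv_ne_zero t.ne_zero)
    (by rw [map_inv₀, hσt])
  obtain ⟨ν, hν, hν2⟩ := tw_scalar σ (Units.mk0 μ hμ) g (orderOf σ)
  have h6 : tw σ (Matrix.GeneralLinearGroup.scalar (Fin n) (Units.mk0 μ hμ) * g) (orderOf σ)
      = 1 := by
    rw [hν2, ← ht, ← map_mul]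
    have h7 : ν * t = 1 := by
      apply Units.ext
      rw [Units.val_mul, hν, Units.val_mk0, hμ2, inv_mul_cancel₀ t.ne_zero]
      rfl
    rw [h7, map_one]
  obtain ⟨B, hB, hB2⟩ := h90_matrix σ hpos
    ((Matrix.GeneralLinearGroup.scalar (Fin n) (Units.mk0 μ hμ) * g : GL (Fin n) F) :
      Matrix (Fin n) (Fin n) F)
    (fun k => ((tw σ (Matrix.GeneralLinearGroup.scalar (Fin n) (Units.mk0 μ hμ) * g) k :
      GL (Fin n) F) : Matrix (Fin n) (Fin n) F)) rfl
    (fun k => by rw [tw_succ']; rfl) (by rw [h6]; rfl)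
  obtain ⟨h, rfl⟩ := hB
  refine ⟨h, ?_⟩
  have h7 : Matrix.GeneralLinearGroup.scalar (Fin n) (Units.mk0 μ hμ) * g *
      Matrix.GeneralLinearGroup.map (σ : F →+* F) h = h := Units.ext hB2
  have h8 := conj_of_eq (cσ σ) h _ _ (cσ_mul_cGL σ h) h7
  rw [map_mul, cGL_scalar, one_mul] at h8
  exact h8

theorem adj_inv_mul (σ : RingAut F) (h : GL (Fin n) F) :
    adj (σ : F →+* F) ((h⁻¹ : GL (Fin n) F) : Matrix (Fin n) (Fin n) F) *
      adj (σ : F →+* F) (h : Matrix (Fin n) (Fin n) F) = 1 := by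
  rw [← adj_mul, ← Units.val_mul, mul_inv_cancel, Units.val_one, adj_one]

theorem adj_mul_inv (σ : RingAut F) (h : GL (Fin n) F) :
    adj (σ : F →+* F) (h : Matrix (Fin n) (Fin n) F) *
      adj (σ : F →+* F) ((h⁻¹ : GL (Fin n) F) : Matrix (Fin n) (Fin n) F) = 1 := by
  rw [← adj_mul, ← Units.val_mul, inv_mul_cancel, Units.val_one, adj_one]

/-- involutions in the coset of an involutory graph-field automorphism are conjugate to it -/
theorem gf_conj [Finite F] (hn : 2 ≤ n) (σ : RingAut F) (h2 : orderOf σ = 2)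
    (g : GL (Fin n) F) (h : (cGL g * (cσ σ * cτ)) ^ 2 = 1) :
    ∃ h : GL (Fin n) F, cGL g * (cσ σ * cτ) = cGL h * (cσ σ * cτ) * (cGL h)⁻¹ := by
  have hpos : 0 < orderOf σ := by rw [h2]; norm_num
  have hσσ : ∀ a : F, (σ : F →+* F) ((σ : F →+* F) a) = a := sq_apply σ h2
  have hx2 : (cσ σ * cτ : MulAut (Matrix.ProjectiveSpecialLinearGroup (Fin n) F)) *
      (cσ σ * cτ) = 1 := by
    rw [← pow_two, gf_sq, ← h2, pow_orderOf_eq_one, map_one]
  have h1 : cGL (g * gθ σ g) = 1 := by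
    rw [map_mul]
    calc cGL g * cGL (gθ σ g) = cGL g * (cGL (gθ σ g) * (cσ σ * cτ)) * (cσ σ * cτ) := by
          rw [mul_assoc, mul_assoc, hx2, mul_one]
      _ = (cGL g * (cσ σ * cτ)) ^ 2 := by
          rw [← gf_mul_cGL, pow_two]
          group
      _ = 1 := h
  have h3 : g * gθ σ g ∈ (cGL (F := F) (n := n)).ker := h1
  rw [ker_cGL hn, Matrix.GeneralLinearGroup.center_eq_range_scalar] at h3
  obtain ⟨t, ht⟩ := h3
  -- `adj g⁻¹ = t • g⁻¹`
  have h4 : adj (σ : F →+* F) ((g⁻¹ : GL (Fin n) F) : Matrix (Fin n) (Fin n) F) =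
      (t : F) • ((g⁻¹ : GL (Fin n) F) : Matrix (Fin n) (Fin n) F) := by
    have h5 : gθ σ g = Matrix.GeneralLinearGroup.scalar (Fin n) t * g⁻¹ := by
      rw [Matrix.GeneralLinearGroup.scalar_commute, ht, inv_mul_cancel_left]
    rw [← gθ_coe, h5, scalar_mul_coe]
  have h6 : (t : F) * σ (t : F) = 1 := by
    have h7 := congrArg (adj (σ : F →+* F)) h4
    rw [adj_adj _ hσσ, adj_smul, h4, smul_smul] at h7
    have h8 := smul_eq_self hn _ g⁻¹ h7.symm
    rw [mul_comm]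
    exact h8
  obtain ⟨μ, hμ, hμ2⟩ := h90 σ hpos (t : F) (by rw [h2, nm_two]; exact h6)
  have hσμ : σ μ ≠ 0 := (map_ne_zero_iff σ σ.injective).2 hμ
  -- `adj g = t⁻¹ • g`
  have h9 : adj (σ : F →+* F) (g : Matrix (Fin n) (Fin n) F) =
      ((t : F)⁻¹) • (g : Matrix (Fin n) (Fin n) F) := by
    have h10 := adj_mul_inv σ g
    rw [h4, Matrix.mul_smul] at h10
    have h11 : adj (σ : F →+* F) (g : Matrix (Fin n) (Fin n) F) *
        ((g⁻¹ : GL (Fin n) F) : Matrix (Fin n) (Fin n) F) =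
        ((t : F)⁻¹) • (1 : Matrix (Fin n) (Fin n) F) := by
      rw [← h10, smul_smul, inv_mul_cancel₀ t.ne_zero, one_smul]
    have h12 := congrArg (fun M => M * (g : Matrix (Fin n) (Fin n) F)) h11
    simp only [mul_assoc, ← Units.val_mul, inv_mul_cancel, Units.val_one, mul_one,
      Matrix.smul_mul, one_mul] at h12
    exact h12
  -- the Hermitian matrix `σ μ • g`
  have hG : adj (σ : F →+* F) (σ μ • (g : Matrix (Fin n) (Fin n) F)) =
      σ μ • (g : Matrix (Fin n) (Fin n) F) := by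
    rw [adj_smul, h9, smul_smul]
    congr 1
    have h13 : σ (σ μ) = μ := sq_apply σ h2 μ
    rw [h13]
    calc μ * (t : F)⁻¹ = (t : F) * σ μ * (t : F)⁻¹ := by rw [hμ2]
      _ = σ μ := by
        have ht0 : (t : F) ≠ 0 := t.ne_zero
        field_simp
  have hGu : IsUnit (σ μ • (g : Matrix (Fin n) (Fin n) F)) := by
    have h14 : σ μ • (g : Matrix (Fin n) (Fin n) F) =
        ((Matrix.GeneralLinearGroup.scalar (Fin n) (Units.mk0 (σ μ) hσμ) * g : GL (Fin n) F) :
          Matrix (Fin n) (Fin n) F) := by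
      rw [scalar_mul_coe]
      rfl
    rw [h14]
    exact ⟨_, rfl⟩
  have hne : ∃ a : F, (σ : F →+* F) a ≠ a := by
    by_contra hcon
    push Not at hcon
    have h15 : σ = 1 := by
      ext a
      exact hcon a
    rw [h15, orderOf_one] at h2
    omega
  have hN : ∀ s : F, s ≠ 0 → (σ : F →+* F) s = s → ∃ ν : F, ν ≠ 0 ∧ ν * (σ : F →+* F) ν = s := by
    intro s hs hσs
    obtain ⟨ν, hν, hν2⟩ := norm_surj σ s hs hσs
    rw [h2, nm_two] at hν2
    exact ⟨ν, hν, hν2⟩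
  obtain ⟨H, hH, hH2⟩ := herm_class (σ : F →+* F) hσσ hne hN _ hG hGu
  obtain ⟨h, rfl⟩ := hH
  refine ⟨h, ?_⟩
  have h16 : Matrix.GeneralLinearGroup.scalar (Fin n) (Units.mk0 (σ μ) hσμ) * g * gθ σ h = h := by
    apply Units.ext
    rw [Units.val_mul, scalar_mul_coe, gθ_coe]
    show σ μ • (g : Matrix (Fin n) (Fin n) F) * _ = _
    rw [← hH2, mul_assoc, adj_mul_inv, mul_one]
  have h17 := conj_of_eq (cσ σ * cτ) h _ _ (gf_mul_cGL σ h) h16
  rw [map_mul, cGL_scalar, one_mul] at h17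
  exact h17

end Cfsg.Agent.Lib.Helper43.PSLnCoset
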