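import Mathlib
import Cfsg.Agent.Lib.Helper46.PsuStmt
import Cfsg.Agent.Lib.Helper46.PsuROOTS

set_option autoImplicit false

/-!
# Shared lemmas for pieces IC and SLT of S5172: the monomial element `w`

`wM k a b` is the monomial matrix which is the identity outside the coordinates `k`, `rev k`
and has the entries `a` at `(k, rev k)` and `b` at `(rev k, k)`.
-/

namespace Cfsg.Agent.Lib.Helper43.PsuW

open Matrix Cfsg.Agent.Lib.Helper43.SUBase Cfsg.Agent.H84.PslDefs
  Cfsg.Agent.Lib.Helper46.PsuDefs

universe u

variable {K : Type u} [Field K] {n : ℕ}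

/-- the monomial matrix swapping the coordinates `k` and `rev k` (with scalars `a`, `b`) -/
def wM (k : Fin n) (a b : K) : Matrix (Fin n) (Fin n) K :=
  Matrix.of fun i j =>
    if i = k then (if j = Fin.rev k then a else 0)
    else if i = Fin.rev k then (if j = k then b else 0)
    else if i = j then 1 else 0

theorem wM_mul_apply (k : Fin n) (a b : K) (M : Matrix (Fin n) (Fin n) K) (x z : Fin n) :
    (wM k a b * M) x z =
      if x = k then a * M (Fin.rev k) z else if x = Fin.rev k then b * M k z else M x z := by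
  rw [Matrix.mul_apply]
  by_cases h1 : x = k
  · rw [if_pos h1, Finset.sum_eq_single (Fin.rev k)]
    · simp [wM, h1]
    · intro c _ hc
      simp [wM, h1, hc]
    · intro h; exact absurd (Finset.mem_univ _) h
  · rw [if_neg h1]
    by_cases h2 : x = Fin.rev k
    · subst h2
      rw [if_pos rfl, Finset.sum_eq_single k]
      · simp [wM, h1]
      · intro c _ hc
        simp [wM, h1, hc]
      · intro h; exact absurd (Finset.mem_univ _) h
    · rw [if_neg h2, Finset.sum_eq_single x]
      · simp [wM, h1, h2]
      · intro c _ hc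
        simp [wM, h1, h2, Ne.symm hc]
      · intro h; exact absurd (Finset.mem_univ _) h

theorem mul_wM_apply (k : Fin n) (hk : k ≠ Fin.rev k) (a b : K)
    (M : Matrix (Fin n) (Fin n) K) (x y : Fin n) :
    (M * wM k a b) x y =
      if y = k then M x (Fin.rev k) * b else if y = Fin.rev k then M x k * a else M x y := by
  rw [Matrix.mul_apply]
  by_cases h1 : y = k
  · rw [if_pos h1, Finset.sum_eq_single (Fin.rev k)]
    · simp [wM, h1, hk.symm]
    · intro c _ hc
      simp only [wM, Matrix.of_apply]
      split_ifs <;> simp_all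
    · intro h; exact absurd (Finset.mem_univ _) h
  · rw [if_neg h1]
    by_cases h2 : y = Fin.rev k
    · rw [if_pos h2, Finset.sum_eq_single k]
      · simp [wM, h2]
      · intro c _ hc
        simp only [wM, Matrix.of_apply]
        split_ifs <;> simp_all
      · intro h; exact absurd (Finset.mem_univ _) h
    · rw [if_neg h2, Finset.sum_eq_single y]
      · simp [wM, h1, h2]
      · intro c _ hc
        simp only [wM, Matrix.of_apply]
        split_ifs <;> simp_all
      · intro h; exact absurd (Finset.mem_univ _) h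

theorem wM_apply (k : Fin n) (a b : K) (i j : Fin n) :
    wM k a b i j = if i = k then (if j = Fin.rev k then a else 0)
      else if i = Fin.rev k then (if j = k then b else 0)
      else if i = j then 1 else 0 := rfl

theorem wM_mul_wM (k : Fin n) (hk : k ≠ Fin.rev k) (a b a' b' : K) (h1 : a' * b = 1)
    (h2 : b' * a = 1) : wM k a' b' * wM k a b = 1 := by
  ext x y
  rw [wM_mul_apply, Matrix.one_apply]
  simp only [wM_apply]
  by_cases hx1 : x = k
  · subst hx1
    by_cases hy : x = y
    · subst hy
      simp [hk.symm, h1]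
    · simp [hk.symm, hy, Ne.symm hy]
  · by_cases hx2 : x = Fin.rev k
    · subst hx2
      by_cases hy : Fin.rev k = y
      · subst hy
        simp [hk, hk.symm, h2]
      · simp [hk, hk.symm, hy, Ne.symm hy]
    · simp [hx1, hx2]

theorem wM_eq_transvection (k : Fin n) (hk : k ≠ Fin.rev k) (a b : K) (hab : a * b = -1) :
    wM k a b = transvection k (Fin.rev k) a *
      (transvection (Fin.rev k) k b * transvection k (Fin.rev k) a) := by
  ext x y
  rw [wM_apply]
  by_cases hx1 : x = k
  · subst hx1
    rw [if_pos rfl, transvection_mul_apply_same, transvection_mul_apply_of_ne _ _ _ _ hk,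
      transvection_mul_apply_same]
    simp only [transvection, Matrix.add_apply, Matrix.one_apply, Matrix.single_apply]
    by_cases hy1 : y = Fin.rev x
    · subst hy1
      simp [hk, hk.symm]
      right
      linear_combination hab
    · by_cases hy2 : y = x
      · subst hy2
        simp [hk, hk.symm]
        linear_combination (-1 : K) * hab
      · simp [hy1, hy2, Ne.symm hy1, Ne.symm hy2, hk, hk.symm]
  · rw [if_neg hx1, transvection_mul_apply_of_ne _ _ _ _ hx1]
    by_cases hx2 : x = Fin.rev k
    · subst hx2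
      rw [if_pos rfl, transvection_mul_apply_same]
      simp only [transvection, Matrix.add_apply, Matrix.one_apply, Matrix.single_apply]
      by_cases hy1 : y = k
      · subst hy1
        simp [hk, hk.symm]
      · by_cases hy2 : y = Fin.rev k
        · subst hy2
          simp [hk, hk.symm]
          linear_combination (-1 : K) * hab
        · simp [hy1, hy2, Ne.symm hy1, Ne.symm hy2, hk, hk.symm]
    · rw [if_neg hx2, transvection_mul_apply_of_ne _ _ _ _ hx2]
      simp only [transvection, Matrix.add_apply, Matrix.one_apply, Matrix.single_apply]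
      simp [Ne.symm hx1]

theorem det_wM (k : Fin n) (hk : k ≠ Fin.rev k) (a b : K) (hab : a * b = -1) :
    (wM k a b).det = 1 := by
  rw [wM_eq_transvection k hk a b hab, Matrix.det_mul, Matrix.det_mul,
    det_transvection_of_ne _ _ hk, det_transvection_of_ne _ _ hk.symm, one_mul, one_mul]

variable {q : ℕ} (D : QD K q)

theorem adjJ_wM (k : Fin n) (hk : k ≠ Fin.rev k) (a b : K) :
    adjJ D n (wM k a b) = wM k (D.φ a) (D.φ b) := by
  ext i j
  rw [adjJ_apply, wM_apply, wM_apply]
  simp only [Fin.rev_inj, Fin.rev_eq_iff, Fin.rev_rev]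
  by_cases hi1 : i = k
  · subst hi1
    by_cases hj2 : j = Fin.rev i
    · subst hj2
      simp [hk, hk.symm]
    · by_cases hj1 : j = i
      · subst hj1
        simp [hk, hk.symm]
      · simp [hj1, hj2, hk, hk.symm]
  · by_cases hi2 : i = Fin.rev k
    · subst hi2
      by_cases hj1 : j = k
      · subst hj1
        simp [hk, hk.symm]
      · by_cases hj2 : j = Fin.rev k
        · subst hj2
          simp [hk, hk.symm]
        · simp [hj1, hj2, hk, hk.symm]
    · by_cases hj1 : j = k
      · subst hj1
        simp [hi1, hi2, hk, hk.symm]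
      · by_cases hj2 : j = Fin.rev k
        · subst hj2
          simp [hi1, hi2, hk, hk.symm]
        · by_cases hij : j = i
          · subst hij
            simp [hj1, hj2]
          · simp [hi1, hi2, hj1, hj2, hij, Ne.symm hij]

/-- the element of `SL_n(K)` with matrix `wM k a b` -/
def wSL (k : Fin n) (hk : k ≠ Fin.rev k) (a b : K) (hab : a * b = -1) :
    SpecialLinearGroup (Fin n) K := ⟨wM k a b, det_wM k hk a b hab⟩

theorem coe_wSL (k : Fin n) (hk : k ≠ Fin.rev k) (a b : K) (hab : a * b = -1) :
    (wSL k hk a b hab : Matrix (Fin n) (Fin n) K) = wM k a b := rfl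

theorem wSL_mem (k : Fin n) (hk : k ≠ Fin.rev k) (a b : K) (hab : a * b = -1)
    (h1 : D.φ a * b = 1) (h2 : D.φ b * a = 1) : wSL k hk a b hab ∈ GJ D n := by
  rw [mem_GJ, coe_wSL, adjJ_wM D k hk]
  exact wM_mul_wM k hk a b _ _ h1 h2

theorem coe_inv_wSL (k : Fin n) (hk : k ≠ Fin.rev k) (a b : K) (hab : a * b = -1)
    (h1 : D.φ a * b = 1) (h2 : D.φ b * a = 1) :
    (((wSL k hk a b hab)⁻¹ : SpecialLinearGroup (Fin n) K) : Matrix (Fin n) (Fin n) K) =
      wM k (D.φ a) (D.φ b) := by
  rw [coe_inv_of_mem D n (wSL_mem D k hk a b hab h1 h2), coe_wSL, adjJ_wM D k hk]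

/-- the standard choice: `a = -ζ⁻¹`, `b = ζ` with `ζ` skew -/
theorem skew_facts {ζ : K} (hζ : ζ ≠ 0) (hs : D.φ ζ = -ζ) :
    (-ζ⁻¹) * ζ = -1 ∧ D.φ (-ζ⁻¹) * ζ = 1 ∧ D.φ ζ * (-ζ⁻¹) = 1 ∧ D.φ (-ζ⁻¹) = ζ⁻¹ := by
  have e : D.φ (-ζ⁻¹) = ζ⁻¹ := by
    rw [map_neg, map_inv₀, hs, inv_neg, neg_neg]
  refine ⟨by field_simp, ?_, ?_, e⟩
  · rw [e]; field_simp
  · rw [hs]; field_simp

end Cfsg.Agent.Lib.Helper43.PsuW
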