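import Mathlib
import Cfsg.Agent.Lib.Helper43.PsuW

set_option autoImplicit false

/-!
# Piece IC of S5172: the element `w` with `UJ ∩ w⁻¹ UJ w ≤ RC`
-/

namespace Cfsg.Agent.Lib.Helper43.PsuIC

open Matrix Cfsg.Agent.Lib.Helper43.SUBase Cfsg.Agent.H84.PslDefs
  Cfsg.Agent.Lib.Helper46.PsuDefs Cfsg.Agent.Lib.Helper46.PsuStmt Cfsg.Agent.Lib.Helper43.PsuW

universe u

theorem main : IntC.{u} := by
  intro n K _ _ q D hn
  obtain ⟨ζ, hζ, hs⟩ := D.exists_skew
  obtain ⟨f1, f2, f3, f4⟩ := skew_facts D hζ hs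
  have hkn : n / 2 - 1 < n := by omega
  obtain ⟨k, hkv⟩ : ∃ k : Fin n, k.val = n / 2 - 1 := ⟨⟨n / 2 - 1, hkn⟩, rfl⟩
  have hrv : (Fin.rev k).val = n - n / 2 := by rw [Fin.val_rev]; omega
  have hk : k ≠ Fin.rev k := by
    intro h
    have := congrArg Fin.val h
    omega
  have hφ : D.φ ζ ≠ 0 := by rw [hs]; exact neg_ne_zero.2 hζ
  refine ⟨wSL k hk (-ζ⁻¹) ζ f1, wSL_mem D k hk _ _ f1 f2 f3, ?_, ?_⟩
  · intro i j hij
    show wM k (-ζ⁻¹) ζ i j = 0
    rw [wM_apply]
    by_cases h1 : i = k
    · rw [if_pos h1]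
      by_cases h2 : j = Fin.rev k
      · exfalso
        rw [h1, h2] at hij
        simp only [lamC] at hij
        rw [hrv, hkv] at hij
        split_ifs at hij <;> omega
      · rw [if_neg h2]
    · rw [if_neg h1]
      by_cases h2 : i = Fin.rev k
      · rw [if_pos h2]
        by_cases h3 : j = k
        · exfalso
          rw [h2, h3] at hij
          simp only [lamC] at hij
          rw [hrv, hkv] at hij
          split_ifs at hij <;> omega
        · rw [if_neg h3]
      · rw [if_neg h2]
        by_cases h3 : i = j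
        · exfalso; rw [h3] at hij; exact lt_irrefl _ hij
        · rw [if_neg h3]
  · intro u hu hc
    rw [mem_RC]
    refine ⟨hu, ?_⟩
    intro i j hij hi hj
    have hcU := ((mem_UJ D n _).1 hc).2.1
    have hcoe : ∀ x y : Fin n, (wSL k hk (-ζ⁻¹) ζ f1 * u * (wSL k hk (-ζ⁻¹) ζ f1)⁻¹) x y =
        (wM k (-ζ⁻¹) ζ * (u : Matrix (Fin n) (Fin n) K) * wM k (D.φ (-ζ⁻¹)) (D.φ ζ)) x y := by
      intro x y
      have e : ((wSL k hk (-ζ⁻¹) ζ f1 * u * (wSL k hk (-ζ⁻¹) ζ f1)⁻¹ :
          SpecialLinearGroup (Fin n) K) : Matrix (Fin n) (Fin n) K) =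
          wM k (-ζ⁻¹) ζ * (u : Matrix (Fin n) (Fin n) K) * wM k (D.φ (-ζ⁻¹)) (D.φ ζ) := by
        rw [Matrix.SpecialLinearGroup.coe_mul, Matrix.SpecialLinearGroup.coe_mul,
          coe_inv_wSL D k hk _ _ f1 f2 f3, coe_wSL]
      exact congrFun (congrFun e x) y
    have hivj : i.val < j.val := hij
    by_cases h1 : i = k
    · by_cases h2 : j = Fin.rev k
      · have hlt : k < Fin.rev k := by
          show k.val < (Fin.rev k).val
          omega
        have h := hcU (Fin.rev k) k hlt
        rw [hcoe, mul_wM_apply k hk, if_pos rfl, wM_mul_apply, if_neg hk.symm, if_pos rfl] at h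
        rw [h1, h2]
        rcases mul_eq_zero.1 h with h' | h'
        · exact (mul_eq_zero.1 h').resolve_left hζ
        · exact absurd h' hφ
      · have hjk : j ≠ k := by
          intro h
          rw [h1, h] at hij
          exact lt_irrefl _ hij
        have hlt : j < Fin.rev k := by
          show j.val < (Fin.rev k).val
          have : j.val ≠ (Fin.rev k).val := fun h => h2 (Fin.ext h)
          omega
        have h := hcU (Fin.rev k) j hlt
        rw [hcoe, mul_wM_apply k hk, if_neg hjk, if_neg h2, wM_mul_apply, if_neg hk.symm,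
          if_pos rfl] at h
        rw [h1]
        exact (mul_eq_zero.1 h).resolve_left hζ
    · have hik : k.val ≠ i.val := fun h => h1 (Fin.ext h.symm)
      have hj2 : j = Fin.rev k := by
        apply Fin.ext
        rw [hrv]
        omega
      have hik2 : i ≠ Fin.rev k := by
        intro h
        rw [h, hj2] at hij
        exact lt_irrefl _ hij
      have hlt : k < i := by
        show k.val < i.val
        omega
      have h := hcU i k hlt
      rw [hcoe, mul_wM_apply k hk, if_pos rfl, wM_mul_apply, if_neg h1, if_neg hik2] at h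
      rw [hj2]
      exact (mul_eq_zero.1 h).resolve_right hφ

end Cfsg.Agent.Lib.Helper43.PsuIC
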