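import Mathlib
import Cfsg.Agent.Lib.Helper43.PsuW

set_option autoImplicit false

/-!
# Piece SLT of S5172: the short root elements of the Levi factor lie in `T`
-/

namespace Cfsg.Agent.Lib.Helper43.PsuSLT

open Matrix Cfsg.Agent.Lib.Helper43.SUBase Cfsg.Agent.H84.PslDefs
  Cfsg.Agent.Lib.Helper46.PsuDefs Cfsg.Agent.Lib.Helper46.PsuStmt Cfsg.Agent.Lib.Helper43.PsuW

universe u

variable {K : Type u} [Field K] {n : ℕ} {q : ℕ} (D : QD K q)

theorem shortM_apply (i j : Fin n) (a : K) (x y : Fin n) :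
    shortM D n i j a x y = (if x = y then 1 else 0) + (if i = x ∧ j = y then a else 0)
      - (if Fin.rev j = x ∧ Fin.rev i = y then D.φ a else 0) := by
  simp only [shortM, Matrix.sub_apply, Matrix.add_apply, Matrix.one_apply, Matrix.single_apply]

theorem conj_short (i j : Fin n) (hij : i < j) (hj : j.val < n / 2) (ζ : K) (hζ : ζ ≠ 0)
    (hs : D.φ ζ = -ζ) (a : K) :
    wM j (-ζ⁻¹) ζ * shortM D n i (Fin.rev j) (-a * ζ⁻¹) * wM j (D.φ (-ζ⁻¹)) (D.φ ζ) =
      shortM D n i j a := by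
  obtain ⟨f1, f2, f3, f4⟩ := skew_facts D hζ hs
  have hiv : i.val < j.val := hij
  have hjv : (Fin.rev j).val = n - (j.val + 1) := Fin.val_rev j
  have hri : (Fin.rev i).val = n - (i.val + 1) := Fin.val_rev i
  have hk : j ≠ Fin.rev j := by intro h; have := congrArg Fin.val h; omega
  have h1 : i ≠ j := by intro h; have := congrArg Fin.val h; omega
  have h2 : i ≠ Fin.rev j := by intro h; have := congrArg Fin.val h; omega
  have h3 : i ≠ Fin.rev i := by intro h; have := congrArg Fin.val h; omega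
  have h4 : j ≠ Fin.rev i := by intro h; have := congrArg Fin.val h; omega
  have h5 : Fin.rev j ≠ Fin.rev i := by intro h; have := congrArg Fin.val h; omega
  have hc : D.φ (-a * ζ⁻¹) = D.φ a * ζ⁻¹ := by
    rw [map_mul, map_neg, map_inv₀, hs, inv_neg]
    ring
  ext x y
  rw [mul_wM_apply j hk]
  simp only [wM_mul_apply, shortM_apply, Fin.rev_rev, f4, hs, hc]
  by_cases hx1 : x = i
  · subst hx1
    by_cases hy1 : y = j
    · subst hy1
      simp [h1, h2, h3, h4, h5, hk, Ne.symm h1, Ne.symm h2, Ne.symm h3, Ne.symm h4, Ne.symm h5,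
        Ne.symm hk]
      field_simp
    · by_cases hy2 : y = Fin.rev j
      · subst hy2
        simp [h1, h2, h3, h4, h5, hk, Ne.symm h1, Ne.symm h2, Ne.symm h3, Ne.symm h4, Ne.symm h5,
          Ne.symm hk]
      · by_cases hy3 : y = x
        · subst hy3
          simp [h1, h2, h3, h4, h5, hk, Ne.symm h1, Ne.symm h2, Ne.symm h3, Ne.symm h4,
            Ne.symm h5, Ne.symm hk]
        · simp [h1, h2, h3, h4, h5, hk, Ne.symm h1, Ne.symm h2, Ne.symm h3, Ne.symm h4,
            Ne.symm h5, Ne.symm hk, hy1, hy2, hy3, Ne.symm hy1, Ne.symm hy2, Ne.symm hy3]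
  · by_cases hx2 : x = j
    · subst hx2
      by_cases hy1 : y = x
      · subst hy1
        simp [h1, h2, h3, h4, h5, hk, Ne.symm h1, Ne.symm h2, Ne.symm h3, Ne.symm h4, Ne.symm h5, Ne.symm hk]
        field_simp
      · by_cases hy2 : y = Fin.rev x
        · subst hy2
          simp [h1, h2, h3, h4, h5, hk, Ne.symm h1, Ne.symm h2, Ne.symm h3, Ne.symm h4, Ne.symm h5, Ne.symm hk]
        · by_cases hy3 : y = Fin.rev i
          · subst hy3
            simp [h1, h2, h3, h4, h5, hk, Ne.symm h1, Ne.symm h2, Ne.symm h3, Ne.symm h4, Ne.symm h5, Ne.symm hk]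
          · simp [h1, h2, h3, h4, h5, hk, Ne.symm h1, Ne.symm h2, Ne.symm h3, Ne.symm h4, Ne.symm h5, Ne.symm hk, hy1, hy2, hy3, Ne.symm hy1, Ne.symm hy2, Ne.symm hy3]
    · by_cases hx3 : x = Fin.rev j
      · subst hx3
        by_cases hy1 : y = j
        · subst hy1
          simp [h1, h2, h3, h4, h5, hk, Ne.symm h1, Ne.symm h2, Ne.symm h3, Ne.symm h4, Ne.symm h5, Ne.symm hk]
        · by_cases hy2 : y = Fin.rev j
          · subst hy2
            simp [h1, h2, h3, h4, h5, hk, Ne.symm h1, Ne.symm h2, Ne.symm h3, Ne.symm h4, Ne.symm h5, Ne.symm hk]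
            field_simp
          · by_cases hy3 : y = Fin.rev i
            · subst hy3
              simp [h1, h2, h3, h4, h5, hk, Ne.symm h1, Ne.symm h2, Ne.symm h3, Ne.symm h4, Ne.symm h5, Ne.symm hk]
              field_simp
            · simp [h1, h2, h3, h4, h5, hk, Ne.symm h1, Ne.symm h2, Ne.symm h3, Ne.symm h4, Ne.symm h5, Ne.symm hk, hy1, hy2, hy3, Ne.symm hy1, Ne.symm hy2, Ne.symm hy3]
      · by_cases hy1 : y = j
        · subst hy1
          simp [h1, h2, h3, h4, h5, hk, Ne.symm h1, Ne.symm h2, Ne.symm h3, Ne.symm h4, Ne.symm h5, Ne.symm hk, hx1, hx2, hx3, Ne.symm hx1, Ne.symm hx2, Ne.symm hx3]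
        · by_cases hy2 : y = Fin.rev j
          · subst hy2
            simp [h1, h2, h3, h4, h5, hk, Ne.symm h1, Ne.symm h2, Ne.symm h3, Ne.symm h4, Ne.symm h5, Ne.symm hk, hx1, hx2, hx3, Ne.symm hx1, Ne.symm hx2, Ne.symm hx3]
          · simp [h1, h2, h3, h4, h5, hk, Ne.symm h1, Ne.symm h2, Ne.symm h3, Ne.symm h4, Ne.symm h5, Ne.symm hk, hx1, hx2, hx3, Ne.symm hx1, Ne.symm hx2, Ne.symm hx3, hy1, hy2,
              Ne.symm hy1, Ne.symm hy2]

theorem main : ShortLeviInT.{u} := by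
  intro n K _ _ q D hn T hT hcl htop g hg hshape
  obtain ⟨i, j, a, hij, hj, hgM⟩ := hshape
  obtain ⟨ζ, hζ, hs⟩ := D.exists_skew
  obtain ⟨f1, f2, f3, f4⟩ := skew_facts D hζ hs
  have hiv : i.val < j.val := hij
  have hjv : (Fin.rev j).val = n - (j.val + 1) := Fin.val_rev j
  have hri : (Fin.rev i).val = n - (i.val + 1) := Fin.val_rev i
  have hk : j ≠ Fin.rev j := by intro h; have := congrArg Fin.val h; omega
  have hi1 : i < Fin.rev j := by
    show i.val < (Fin.rev j).val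
    omega
  have hi2 : Fin.rev j < Fin.rev i := by
    show (Fin.rev j).val < (Fin.rev i).val
    omega
  have hi3 : Fin.rev j ≠ Fin.rev (Fin.rev j) := by
    rw [Fin.rev_rev]; exact hk.symm
  obtain ⟨t, htU, htM⟩ := Cfsg.Agent.Lib.Helper46.PsuROOTS.short_exists D i (Fin.rev j)
    (-a * ζ⁻¹) hi1 hi2 hi3
  have htT : t ∈ T := htop t htU ⟨i, Fin.rev j, -a * ζ⁻¹, hi1, hi2, by omega, htM⟩
  have hw : wSL j hk (-ζ⁻¹) ζ f1 ∈ GJ D n := wSL_mem D j hk _ _ f1 f2 f3
  have hconj : wSL j hk (-ζ⁻¹) ζ f1 * t * (wSL j hk (-ζ⁻¹) ζ f1)⁻¹ = g := by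
    apply Subtype.ext
    show ((wSL j hk (-ζ⁻¹) ζ f1 * t * (wSL j hk (-ζ⁻¹) ζ f1)⁻¹ :
      SpecialLinearGroup (Fin n) K) : Matrix (Fin n) (Fin n) K) = (g : Matrix (Fin n) (Fin n) K)
    rw [Matrix.SpecialLinearGroup.coe_mul, Matrix.SpecialLinearGroup.coe_mul,
      coe_inv_wSL D j hk _ _ f1 f2 f3, coe_wSL, htM, hgM]
    exact conj_short D i j hij hj ζ hζ hs a
  have h := hcl t htT _ hw (by rw [hconj]; exact hg)
  rw [hconj] at h
  exact h

end Cfsg.Agent.Lib.Helper43.PsuSLT
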