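import Mathlib

set_option autoImplicit false

namespace Cfsg.Agent.Lib.Helper43.RankOne

open Matrix Module

variable {F : Type*} [Field F] {ι : Type*} [Fintype ι] [DecidableEq ι]

/-- a rank one matrix is an outer product -/
theorem exists_vecMulVec_of_rank_one (N : Matrix ι ι F) (h : N.rank = 1) :
    ∃ a lam : ι → F, a ≠ 0 ∧ lam ≠ 0 ∧ N = vecMulVec a lam := by
  have hr : finrank F (LinearMap.range N.mulVecLin) = 1 := h
  obtain ⟨a0, ha0, hspan⟩ := finrank_eq_one_iff'.mp hr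
  have hmem : ∀ j : ι, ∃ c : F, c • (a0 : ι → F) = N *ᵥ (Pi.single j 1) := by
    intro j
    obtain ⟨c, hc⟩ := hspan ⟨N *ᵥ (Pi.single j 1), ⟨Pi.single j 1, rfl⟩⟩
    exact ⟨c, congrArg Subtype.val hc⟩
  choose lam hlam using hmem
  have hN : N = vecMulVec (a0 : ι → F) lam := by
    ext i j
    have h1 := congrFun (hlam j) i
    simp only [Pi.smul_apply, smul_eq_mul, Matrix.mulVec_single_one, Matrix.col_apply] at h1
    rw [Matrix.vecMulVec_apply, ← h1, mul_comm]
  refine ⟨(a0 : ι → F), lam, ?_, ?_, hN⟩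
  · intro h0
    exact ha0 (Subtype.ext h0)
  · intro h0
    rw [hN, h0, Matrix.vecMulVec_zero, Matrix.rank_zero] at h
    exact zero_ne_one h

theorem one_add_vecMulVec_mulVec (a lam x : ι → F) :
    (1 + vecMulVec a lam) *ᵥ x = x + (lam ⬝ᵥ x) • a := by
  rw [Matrix.add_mulVec, Matrix.one_mulVec, Matrix.vecMulVec_mulVec]
  simp

end Cfsg.Agent.Lib.Helper43.RankOne
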