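import Mathlib
import Cfsg.Agent.Lib.Helper22.S56Stmt

/-!
# S1356 / QUOT: `D'` centralizes `O / N` (FrobMod in the quotient `X ⧸ N`)
-/

set_option autoImplicit false

namespace Cfsg.Agent.Lib.Helper43.S56QUOT

universe u

open Cfsg Cfsg.Agent.Lib.Helper93.S64Stmt Cfsg.Agent.Lib.Helper22.S56Stmt

theorem cyc_of_le {G : Type u} [Group G] {U U' : Subgroup G} (hc : IsCyclic ↥U) (h : U' ≤ U) :
    IsCyclic ↥U' := by
  haveI := hc
  haveI h1 : IsCyclic ↥(U'.subgroupOf U) := inferInstance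
  exact isCyclic_of_surjective (Subgroup.subgroupOfEquivOfLe h)
    (Subgroup.subgroupOfEquivOfLe h).surjective

theorem mem_sup_of_normalizer {G : Type u} [Group G] (D R : Subgroup G)
    (hRD : R ≤ Subgroup.normalizer (D : Set G)) {x : G} (hx : x ∈ D ⊔ R) :
    ∃ d ∈ D, ∃ r ∈ R, x = d * r := by
  let S : Subgroup G :=
    { carrier := {x | ∃ d ∈ D, ∃ r ∈ R, x = d * r}
      mul_mem' := by
        rintro _ _ ⟨d₁, hd₁, r₁, hr₁, rfl⟩ ⟨d₂, hd₂, r₂, hr₂, rfl⟩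
        refine ⟨d₁ * (r₁ * d₂ * r₁⁻¹), D.mul_mem hd₁ ?_, r₁ * r₂, R.mul_mem hr₁ hr₂, by group⟩
        exact (Subgroup.mem_normalizer_iff.mp (hRD hr₁) d₂).mp hd₂
      one_mem' := ⟨1, D.one_mem, 1, R.one_mem, by simp⟩
      inv_mem' := by
        rintro _ ⟨d, hd, r, hr, rfl⟩
        refine ⟨r⁻¹ * d⁻¹ * r⁻¹⁻¹, ?_, r⁻¹, R.inv_mem hr, by group⟩
        exact (Subgroup.mem_normalizer_iff.mp (hRD (R.inv_mem hr)) d⁻¹).mp (D.inv_mem hd) }
  have h : D ⊔ R ≤ S :=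
    sup_le (fun d hd => ⟨d, hd, 1, R.one_mem, by simp⟩) (fun r hr => ⟨1, D.one_mem, r, hr, by simp⟩)
  exact h hx

theorem mem_of_order_q {X : Type u} [Group X] [Finite X] (O : Subgroup X) [O.Normal] (q : ℕ)
    (hq : q.Prime) (hidx : ¬ q ∣ O.index) (g : X) (hg : g ^ q = 1) : g ∈ O := by
  rw [← QuotientGroup.eq_one_iff (N := O)]
  have h1 : ((g : X ⧸ O)) ^ q = 1 := by
    rw [← QuotientGroup.mk_pow, hg]
    rfl
  have h2 : orderOf (g : X ⧸ O) ∣ q := orderOf_dvd_of_pow_eq_one h1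
  have h3 : orderOf (g : X ⧸ O) ∣ O.index := by
    rw [Subgroup.index_eq_card]
    exact orderOf_dvd_natCard _
  have h4 : orderOf (g : X ⧸ O) ∣ Nat.gcd q O.index := Nat.dvd_gcd h2 h3
  have h5 : Nat.gcd q O.index = 1 := (Nat.Prime.coprime_iff_not_dvd hq).2 hidx
  rw [h5, Nat.dvd_one] at h4
  exact orderOf_eq_one_iff.mp h4

theorem main (hQP : QuotPrime.{u}) (hFM : FrobMod.{u}) : Quot.{u} := by
  intro X _ _ H R D N _ _ q hA hB hidx hCO hDH hDO hRD hNO hpow hcomm d hd o ho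
  haveI : Fact q.Prime := ⟨hB.qprime⟩
  have hq := hB.qprime
  have hOn : (Oq X H q).Normal := inferInstance
  have hOH : Oq X H q ≤ H := Oq_le X H q
  generalize Oq X H q = O at *
  haveI := hOn
  have hHR : H ⊓ R = ⊥ := Subgroup.inf_eq_bot_of_coprime hA.cop
  obtain ⟨π, hπdef⟩ : ∃ π : X →* X ⧸ N, π = QuotientGroup.mk' N := ⟨_, rfl⟩
  have hπ : Function.Surjective π := by
    rw [hπdef]
    exact QuotientGroup.mk'_surjective N
  have hker : ∀ x : X, π x = 1 ↔ x ∈ N := by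
    intro x
    rw [hπdef]
    exact QuotientGroup.eq_one_iff x
  have heq : ∀ a b : X, π a = π b ↔ a⁻¹ * b ∈ N := by
    intro a b
    rw [hπdef]
    exact QuotientGroup.eq
  obtain ⟨x₀, hx₀R, hx₀1⟩ : ∃ x ∈ R, x ≠ 1 := by
    by_contra hcon
    push_neg at hcon
    exact hA.ne ((Subgroup.eq_bot_iff_forall R).mpr hcon)
  have hπx₀ : π x₀ ≠ 1 := by
    intro h
    have h1 : x₀ ∈ N := (hker x₀).mp h
    have h2 : x₀ ∈ H ⊓ R := ⟨hOH (hNO h1), hx₀R⟩
    rw [hHR] at h2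
    exact hx₀1 (Subgroup.mem_bot.mp h2)
  obtain ⟨C, hCdef⟩ : ∃ C : Subgroup X, C = H ⊓ Subgroup.centralizer (R : Set X) := ⟨_, rfl⟩
  rw [← hCdef] at hCO
  have hQPx : ∀ y ∈ R.map π, y ≠ 1 →
      H.map π ⊓ Subgroup.centralizer ({y} : Set (X ⧸ N)) = C.map π := by
    intro y hy hy1
    rw [hCdef, hπdef]
    rw [hπdef] at hy
    exact hQP H R N (hNO.trans hOH) hA.cop hA.prime y hy hy1
  have hCmapR : C.map π ≤
      Subgroup.centralizer ((R.map π : Subgroup (X ⧸ N)) : Set (X ⧸ N)) := by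
    rintro _ ⟨c, hc, rfl⟩
    rw [Subgroup.mem_centralizer_iff]
    rintro _ ⟨r, hr, rfl⟩
    rw [hCdef] at hc
    have h1 : r * c = c * r := (Subgroup.mem_centralizer_iff.mp hc.2) r hr
    rw [← map_mul, ← map_mul, h1]
  have hVsub : ∀ y ∈ R.map π, y ≠ 1 →
      O.map π ⊓ Subgroup.centralizer ({y} : Set (X ⧸ N)) ≤ C.map π := by
    intro y hy hy1
    rw [← hQPx y hy hy1]
    exact inf_le_inf_right _ (Subgroup.map_mono hOH)
  have f1 : ∀ a ∈ O.map π, ∀ b ∈ O.map π, a * b = b * a := by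
    rintro _ ⟨a, ha, rfl⟩ _ ⟨b, hb, rfl⟩
    rw [← map_mul, ← map_mul, heq]
    have h1 := hcomm b⁻¹ (O.inv_mem hb) a⁻¹ (O.inv_mem ha)
    have e : (a * b)⁻¹ * (b * a) = b⁻¹ * a⁻¹ * b⁻¹⁻¹ * a⁻¹⁻¹ := by group
    rw [e]
    exact h1
  have f2 : ∀ a ∈ O.map π, a ^ q = 1 := by
    rintro _ ⟨a, ha, rfl⟩
    rw [← map_pow]
    exact (hker _).mpr (hpow a ha)
  haveI hVn : (O.map π).Normal := Subgroup.Normal.map hOn π hπ
  have hVtop : Subgroup.normalizer ((O.map π : Subgroup (X ⧸ N)) : Set (X ⧸ N)) = ⊤ :=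
    Subgroup.normalizer_eq_top (O.map π)
  have f3 : D.map π ≤ Subgroup.normalizer ((O.map π : Subgroup (X ⧸ N)) : Set (X ⧸ N)) := by
    rw [hVtop]
    exact le_top
  have f4 : R.map π ≤ Subgroup.normalizer ((O.map π : Subgroup (X ⧸ N)) : Set (X ⧸ N)) := by
    rw [hVtop]
    exact le_top
  have f5 : R.map π ≤ Subgroup.normalizer ((D.map π : Subgroup (X ⧸ N)) : Set (X ⧸ N)) := by
    rintro _ ⟨r, hr, rfl⟩
    rw [Subgroup.mem_normalizer_iff]
    intro y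
    have hr' := Subgroup.mem_normalizer_iff.mp (hRD hr)
    have hrinv' := Subgroup.mem_normalizer_iff.mp (hRD (R.inv_mem hr))
    constructor
    · rintro ⟨d', hd', rfl⟩
      exact ⟨r * d' * r⁻¹, (hr' d').mp hd', by simp⟩
    · rintro ⟨d', hd', hd'e⟩
      refine ⟨r⁻¹ * d' * r⁻¹⁻¹, (hrinv' d').mp hd', ?_⟩
      rw [inv_inv, map_mul, map_mul, map_inv, hd'e]
      group
  have f6 : R.map π ≠ ⊥ := by
    intro h
    have h1 : π x₀ ∈ R.map π := Subgroup.mem_map_of_mem π hx₀R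
    rw [h] at h1
    exact hπx₀ (Subgroup.mem_bot.mp h1)
  have f7 : ∀ r ∈ R.map π, r ≠ 1 →
      D.map π ⊓ Subgroup.centralizer ({r} : Set (X ⧸ N)) = ⊥ := by
    intro r hr hr1
    rw [eq_bot_iff]
    rintro k ⟨hkD, hkC⟩
    obtain ⟨d', hd', rfl⟩ := hkD
    have h1 : π d' ∈ H.map π ⊓ Subgroup.centralizer ({r} : Set (X ⧸ N)) :=
      ⟨Subgroup.mem_map_of_mem π (hDH hd'), hkC⟩
    rw [hQPx r hr hr1] at h1
    obtain ⟨c, hc, hce⟩ := h1
    have h2 : c⁻¹ * d' ∈ N := (heq c d').mp hce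
    have h3 : d' ∈ O := by
      have e : d' = c * (c⁻¹ * d') := by group
      rw [e]
      exact O.mul_mem (hCO hc) (hNO h2)
    have h4 : d' ∈ D ⊓ O := ⟨hd', h3⟩
    rw [hDO, Subgroup.mem_bot] at h4
    rw [Subgroup.mem_bot, h4, map_one]
  haveI := hA.solv
  have f8 : Group.IsSolvable ↥(D.map π ⊔ R.map π) := inferInstance
  have f9 : Odd (Nat.card ↥(D.map π ⊔ R.map π)) := by
    have h1 : Nat.card ↥(D.map π ⊔ R.map π) ∣ Nat.card (X ⧸ N) :=
      Subgroup.card_subgroup_dvd_card _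
    have h2 : Nat.card (X ⧸ N) ∣ Nat.card X := Subgroup.card_quotient_dvd_card N
    exact Odd.of_dvd_nat hA.odd (h1.trans h2)
  have hLq : ¬ q ∣ Nat.card ↥(D ⊔ R) := by
    intro hdiv
    obtain ⟨g, hg⟩ := exists_prime_orderOf_dvd_card' q hdiv
    have hgq : (g : X) ^ q = 1 := by
      have h1 := pow_orderOf_eq_one g
      rw [hg] at h1
      have h2 := congrArg Subtype.val h1
      simpa using h2
    have hgO : (g : X) ∈ O := mem_of_order_q O q hq hidx g hgq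
    obtain ⟨d', hd', r, hr, hgdr⟩ := mem_sup_of_normalizer D R hRD g.2
    have hrH : r ∈ H := by
      have e : r = d'⁻¹ * (g : X) := by
        rw [hgdr]
        group
      rw [e]
      exact H.mul_mem (H.inv_mem (hDH hd')) (hOH hgO)
    have hr1 : r = 1 := by
      have h2 : r ∈ H ⊓ R := ⟨hrH, hr⟩
      rw [hHR] at h2
      exact Subgroup.mem_bot.mp h2
    rw [hr1, mul_one] at hgdr
    have h3 : (g : X) ∈ D ⊓ O := ⟨hgdr ▸ hd', hgO⟩
    rw [hDO, Subgroup.mem_bot] at h3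
    have h4 : g = 1 := Subtype.ext h3
    rw [h4, orderOf_one] at hg
    exact (ne_of_lt hq.one_lt) hg
  have f10 : (Nat.card ↥(D.map π ⊔ R.map π)).Coprime q := by
    rw [Nat.coprime_comm]
    apply (Nat.Prime.coprime_iff_not_dvd hq).2
    intro hdiv
    apply hLq
    have h1 : D.map π ⊔ R.map π = (D ⊔ R).map π := (Subgroup.map_sup D R π).symm
    rw [h1] at hdiv
    exact hdiv.trans (Subgroup.card_map_dvd (D ⊔ R) π)
  have f11 : ∀ x ∈ R.map π, x ≠ 1 →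
      O.map π ⊓ Subgroup.centralizer ({x} : Set (X ⧸ N)) =
        O.map π ⊓ Subgroup.centralizer ((R.map π : Subgroup (X ⧸ N)) : Set (X ⧸ N)) := by
    intro x hx hx1
    apply le_antisymm
    · exact le_inf inf_le_left ((hVsub x hx hx1).trans hCmapR)
    · exact inf_le_inf_left _ (Subgroup.centralizer_le (Set.singleton_subset_iff.mpr hx))
  have f12 : IsCyclic ↥(O.map π ⊓
      Subgroup.centralizer ((R.map π : Subgroup (X ⧸ N)) : Set (X ⧸ N))) := by
    have hCcard : Nat.card ↥C = q := by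
      rw [hCdef]
      exact hB.card
    have hCcyc : IsCyclic ↥C := isCyclic_of_prime_card (p := q) hCcard
    have hCm : IsCyclic ↥(C.map π) := by
      haveI := hCcyc
      exact isCyclic_of_surjective (π.subgroupMap C) (π.subgroupMap_surjective C)
    apply cyc_of_le hCm
    have hx₀' : π x₀ ∈ R.map π := Subgroup.mem_map_of_mem π hx₀R
    exact (inf_le_inf_left _ (Subgroup.centralizer_le
      (Set.singleton_subset_iff.mpr hx₀'))).trans (hVsub (π x₀) hx₀' hπx₀)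
  have key := hFM (O.map π) (D.map π) (R.map π) q f1 f2 f3 f4 f5 f6 f7 f8 f9 f10 f11 f12
  have hdK : π d ∈ ⁅D.map π, D.map π⁆ := by
    rw [← Subgroup.map_commutator]
    exact Subgroup.mem_map_of_mem π hd
  have hc := Subgroup.mem_centralizer_iff.mp (key hdK) (π o) (Subgroup.mem_map_of_mem π ho)
  rw [← hker, map_mul, map_mul, map_mul, map_inv, map_inv, ← hc]
  group

end Cfsg.Agent.Lib.Helper43.S56QUOT
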