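import Mathlib
import Cfsg.Agent.Lib.Helper43.SUGeom
import Cfsg.Agent.Lib.Helper43.PSLnRoot

set_option autoImplicit false

namespace Cfsg.Agent.Lib.Helper43.SUSyl

open Matrix Cfsg.Agent.Lib.Helper43.SUBase Cfsg.Agent.Lib.Helper43.SUElt
  Cfsg.Agent.Lib.Helper43.SUAuts Cfsg.Agent.Lib.Helper43.SUGeom
open Cfsg.Agent.Lib.Helper43.PSLnRoot (zc zc_smul)

open scoped Pointwise

variable {F : Type*} [Field F] [Fintype F] {q n : ℕ} (D : QD F q) (p : ℕ) [Fact p.Prime]
  [CharP F p] (hF : Fintype.card F = q ^ 2) (hn : 3 ≤ n)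

/-- `U e` as a subgroup -/
def Usub {e : Fin n → F} (he : D.h e e = 0) : Subgroup (Cfsg.PSU n F q) where
  carrier := U D e
  mul_mem' := by
    rintro _ _ ⟨d, c, H, rfl⟩ ⟨d', c', H', rfl⟩
    exact ⟨_, _, Ok_mul D H H', by rw [← map_mul, E_mul D H H']⟩
  one_mem' := ⟨0, 0, Ok_zero D he, by rw [E_zero D he, map_one]⟩
  inv_mem' := by
    rintro _ ⟨d, c, H, rfl⟩
    exact ⟨_, _, Ok_inv D H, by rw [← map_inv, E_inv D H]⟩

theorem mem_Usub {e : Fin n → F} (he : D.h e e = 0) (x : Cfsg.PSU n F q) :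
    x ∈ Usub D he ↔ x ∈ U D e := Iff.rfl

theorem Usub_pgroup {e : Fin n → F} (he : D.h e e = 0) : IsPGroup p (Usub D he) := by
  rintro ⟨x, d, c, H, rfl⟩
  refine ⟨2, ?_⟩
  apply Subtype.ext
  rw [SubmonoidClass.coe_pow, Subgroup.coe_one]
  show pr (E D e d c) ^ (p ^ 2) = 1
  rw [← map_pow, E_pow_char D p H, map_one]

include hF hn p in
/-- the centraliser of `U e` in `PSU` is contained in the transvection group -/
theorem cent_U {e : Fin n → F} (he0 : e ≠ 0) (he : D.h e e = 0) {x : Cfsg.PSU n F q}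
    (H : ∀ y ∈ U D e, x * y = y * x) : x ∈ R D e := by
  obtain ⟨g, rfl⟩ := pr_surjective x
  obtain ⟨f, hff, hfe⟩ := exists_partner D he0 he
  have hef : D.h e f = 1 := h_comm_one D hfe
  obtain ⟨c₀, hc₀0, hc₀⟩ := D.exists_skew
  have hc₀' : c₀ + D.φ c₀ = 0 := by rw [hc₀]; ring
  obtain ⟨t, htN, hte⟩ := fix_of_comm D p hF hn he0 he hc₀' hc₀0
    (H _ ⟨0, c₀, Ok_T D he hc₀', rfl⟩)
  have ht0 : t ≠ 0 := by
    rintro rfl
    simp at htN
  have hφt0 : D.φ t ≠ 0 := by
    intro h0
    rw [h0, mul_zero] at htN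
    exact zero_ne_one htN
  -- `g` acts on `e^⊥/e` as the scalar `t`
  have key : ∀ d : Fin n → F, D.h d e = 0 → ∃ s : F, mv g d = t • d + s • e := by
    intro d hd
    obtain ⟨c, hc⟩ := D.exists_c d
    have Hd : Ok D e d c := ⟨he, hd, hc⟩
    have h1 : pr (E D (mv g e) (mv g d) c) = pr (E D e d c) := by
      rw [← conj_E D Hd g, MulAut.conj_apply, H _ ⟨d, c, Hd, rfl⟩, mul_inv_cancel_right]
    have h2 := pr_E_inj D p hF hn (Ok_conj D Hd g) Hd h1
    rw [hte] at h2
    have Hd' : Ok D e (mv g d) c := by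
      have h3 := Ok_conj D Hd g
      rw [hte] at h3
      refine ⟨he, ?_, h3.2.2⟩
      have h4 := h3.2.1
      rw [D.h_smul_right] at h4
      rcases mul_eq_zero.1 h4 with h5 | h5
      · exact absurd h5 hφt0
      · exact h5
    have Hd'' : Ok D e (D.φ t • mv g d) c := by
      have h3 := Ok_smul' D t Hd'
      rwa [htN, one_mul] at h3
    rw [E_smul D t Hd', htN, one_mul] at h2
    have h3 := congrArg (fun s => mv s f) h2
    simp only [mv_E_f D Hd'' hfe, mv_E_f D Hd hfe] at h3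
    refine ⟨t * (D.h f (D.φ t • mv g d) - D.h f d), ?_⟩
    have h4 : (t * D.φ t) • mv g d
        = t • d + (t * (D.h f (D.φ t • mv g d) - D.h f d)) • e := by
      linear_combination (norm := module) t • h3
    rw [htN, one_smul] at h4
    exact h4
  -- the vector `y = t⁻¹ g f`
  have hgfe : D.h (mv g f) e = t := by
    have h1 := h_mv D g f e
    rw [hte, D.h_smul_right, hfe] at h1
    have h2 : D.h (mv g f) e = (t * D.φ t) * D.h (mv g f) e := by rw [htN, one_mul]
    rw [h2, mul_assoc, h1, mul_one]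
  have hgff : D.h (mv g f) (mv g f) = 0 := by rw [h_mv, hff]
  obtain ⟨y, hy⟩ : ∃ y : Fin n → F, y = t⁻¹ • mv g f := ⟨_, rfl⟩
  have hye : D.h y e = 1 := by
    rw [hy, D.h_smul_left, hgfe, inv_mul_cancel₀ ht0]
  have hey : D.h e y = 1 := h_comm_one D hye
  have hyy : D.h y y = 0 := by
    rw [hy, D.h_smul_left, D.h_smul_right, hgff, mul_zero, mul_zero]
  have hty : mv g f = t • y := by
    rw [hy, smul_smul, mul_inv_cancel₀ ht0, one_smul]
  have H₀ : Ok D e (y - f) (D.h f y) := by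
    refine ⟨he, ?_, ?_⟩
    · rw [D.h_sub_left, hye, hfe, sub_self]
    · simp only [D.h_sub_left, D.h_sub_right, hyy, hff, D.h_symm]
      ring
  have huf : mv (E D e (y - f) (D.h f y)) f = y := by
    rw [mv_E_f D H₀ hfe, D.h_sub_right, hff]
    module
  have claim : ∀ x : Fin n → F, mv g x = t • mv (E D e (y - f) (D.h f y)) x := by
    intro x
    have hx' : D.h (x - D.h x e • f) e = 0 := by
      rw [D.h_sub_left, D.h_smul_left, hfe, mul_one, sub_self]
    have hx : x = D.h x e • f + (x - D.h x e • f) := by module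
    obtain ⟨s, hs⟩ := key _ hx'
    have h1 := h_mv D g (x - D.h x e • f) f
    rw [hs, hty] at h1
    simp only [D.h_add_left, D.h_smul_left, D.h_smul_right, hey] at h1
    have h2 : s = - (t * D.h (x - D.h x e • f) (y - f)) := by
      rw [D.h_sub_right]
      have h3 : s = (t * D.φ t) * s := by rw [htN, one_mul]
      rw [h3]
      linear_combination t * h1 - t * D.h (x - D.h x e • f) y * htN
    have h3 : mv g x = D.h x e • mv g f + mv g (x - D.h x e • f) := by
      rw [← mv_smul, ← mv_add, ← hx]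
    have h4 : mv (E D e (y - f) (D.h f y)) x
        = D.h x e • mv (E D e (y - f) (D.h f y)) f
          + mv (E D e (y - f) (D.h f y)) (x - D.h x e • f) := by
      rw [← mv_smul, ← mv_add, ← hx]
    rw [h3, h4, hs, h2, hty, huf, mv_E_perp D H₀ hx']
    module
  have hgu : pr g = pr (E D e (y - f) (D.h f y)) := pr_eq_of_scalar t claim
  rw [hgu] at H ⊢
  have comm : ∀ (d : Fin n → F) (c : F), Ok D e d c → D.h d (y - f) = D.h (y - f) d := by
    intro d c Hd
    have h1 := H _ ⟨d, c, Hd, rfl⟩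
    rw [← map_mul, ← map_mul, E_mul D H₀ Hd, E_mul D Hd H₀] at h1
    have h2 := pr_E_inj D p hF hn (Ok_mul D H₀ Hd) (Ok_mul D Hd H₀) h1
    have h3 := congrArg (fun s => mv s f) h2
    simp only [mv_E_f D (Ok_mul D H₀ Hd) hfe, mv_E_f D (Ok_mul D Hd H₀) hfe] at h3
    have h4 : (D.h (y - f) d - D.h d (y - f)) • e = 0 := by
      rw [D.h_add_right, D.h_add_right] at h3
      linear_combination (norm := module) h3
    rcases smul_eq_zero.1 h4 with h5 | h5
    · exact (sub_eq_zero.1 h5).symm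
    · exact absurd h5 he0
  have perp : ∀ d : Fin n → F, D.h d e = 0 → D.h d (y - f) = 0 := by
    intro d hd
    obtain ⟨x, hx⟩ := D.ne
    obtain ⟨c, hc⟩ := D.exists_c d
    obtain ⟨c', hc'⟩ := D.exists_c (x • d)
    have h1 := comm d c ⟨he, hd, hc⟩
    have h2 := comm (x • d) c' ⟨he, by rw [D.h_smul_left, hd, mul_zero], hc'⟩
    rw [D.h_smul_left, D.h_smul_right, ← h1] at h2
    have h3 : (x - D.φ x) * D.h d (y - f) = 0 := by linear_combination h2
    rcases mul_eq_zero.1 h3 with h4 | h4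
    · exact absurd (sub_eq_zero.1 h4).symm hx
    · exact h4
  have hd₀ : y - f = D.h (y - f) f • e := by
    have h0 : y - f - D.h (y - f) f • e = 0 := by
      apply D.eq_zero_of_h_right
      intro x
      have h1 := perp (x - D.h x e • f)
        (by rw [D.h_sub_left, D.h_smul_left, hfe, mul_one, sub_self])
      rw [D.h_sub_left, D.h_smul_left] at h1
      rw [D.h_sub_right, D.h_smul_right, D.h_symm]
      linear_combination h1
    exact sub_eq_zero.1 h0
  obtain ⟨a, ha⟩ : ∃ a : F, a = D.h (y - f) f := ⟨_, rfl⟩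
  rw [← ha] at hd₀
  have hcc : (D.h f y + a - D.φ a) + D.φ (D.h f y + a - D.φ a) = 0 := by
    have h1 := H₀.2.2
    rw [hd₀, D.h_smul_left, D.h_smul_right, he, mul_zero, mul_zero, add_zero] at h1
    rw [map_sub, map_add, D.inv]
    linear_combination h1
  have H1 : Ok D e 0 (D.h f y + a - D.φ a) := Ok_T D he hcc
  have h5 := E_shift D H1 a
  rw [zero_add] at h5
  have h6 : D.h f y + a - D.φ a - a + D.φ a = D.h f y := by ring
  rw [h6, ← hd₀] at h5
  rw [h5]
  exact ⟨_, hcc, rfl⟩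

instance : Finite (Cfsg.PSU n F q) := by
  unfold Cfsg.PSU
  infer_instance

include hF hn p in
/-- the centre of a Sylow `p`-subgroup containing `U e` is the transvection group -/
theorem zc_sylow {e : Fin n → F} (he0 : e ≠ 0) (he : D.h e e = 0)
    (P : Sylow p (Cfsg.PSU n F q)) (hP : Usub D he ≤ (P : Subgroup (Cfsg.PSU n F q))) :
    zc (P : Subgroup (Cfsg.PSU n F q)) = R D e := by
  apply Set.Subset.antisymm
  · rintro x ⟨-, hx⟩
    exact cent_U D p hF hn he0 he (fun y hy => hx y (hP hy))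
  · -- a nontrivial central element
    obtain ⟨c₀, hc₀0, hc₀⟩ := D.exists_skew
    have hc₀' : c₀ + D.φ c₀ = 0 := by rw [hc₀]; ring
    have hT1 : T D e c₀ ≠ 1 := by
      intro h1
      rw [← T_zero D he] at h1
      exact hc₀0 (T_inj D he0 he hc₀' (by simp) h1)
    have hPne : Nontrivial (P : Subgroup (Cfsg.PSU n F q)) := by
      refine ⟨⟨⟨pr (T D e c₀), hP ⟨0, c₀, Ok_T D he hc₀', rfl⟩⟩, 1, ?_⟩⟩
      intro h1
      have h2 : pr (T D e c₀) = pr (T D e 0) := by
        rw [T_zero D he, map_one]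
        exact congrArg Subtype.val h1
      exact hc₀0 (T_inj D he0 he hc₀' (by simp)
        (pr_T_inj D p hF hn he he hc₀' (by simp) h2))
    have hcn : Nontrivial (Subgroup.center (P : Subgroup (Cfsg.PSU n F q))) :=
      IsPGroup.center_nontrivial P.2
    obtain ⟨⟨⟨z, hzP⟩, hz⟩, hz1⟩ := exists_ne (1 : Subgroup.center (P : Subgroup (Cfsg.PSU n F q)))
    have hzc : ∀ y ∈ (P : Subgroup (Cfsg.PSU n F q)), z * y = y * z := by
      intro y hy
      have := (Subgroup.mem_center_iff.1 hz) ⟨y, hy⟩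
      exact (congrArg Subtype.val this).symm
    have hzR : z ∈ R D e := cent_U D p hF hn he0 he (fun y hy => hzc y (hP hy))
    obtain ⟨c, hc, rfl⟩ := hzR
    have hc0 : c ≠ 0 := by
      rintro rfl
      apply hz1
      apply Subtype.ext
      apply Subtype.ext
      show pr (T D e 0) = 1
      rw [T_zero D he, map_one]
    rintro x ⟨a, ha, rfl⟩
    refine ⟨hP ⟨0, a, Ok_T D he ha, rfl⟩, ?_⟩
    intro y hy
    obtain ⟨g, rfl⟩ := pr_surjective y
    obtain ⟨t, htN, hte⟩ := fix_of_comm D p hF hn he0 he hc hc0 (hzc _ hy).symm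
    have h1 : g * T D e a * g⁻¹ = T D e a := by
      rw [conj_T D he ha, hte, T_smul D he ha, htN, one_mul]
    rw [← map_mul, ← map_mul]
    congr 1
    calc T D e a * g = (g * T D e a * g⁻¹) * g := by rw [h1]
      _ = g * T D e a := by group

include hF hn p in
/-- every automorphism maps a transvection group to a transvection group -/
theorem perm {e : Fin n → F} (he0 : e ≠ 0) (he : D.h e e = 0) (α : MulAut (Cfsg.PSU n F q)) :
    ∃ e' : Fin n → F, e' ≠ 0 ∧ D.h e' e' = 0 ∧ α '' R D e = R D e' := by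
  classical
  obtain ⟨P, hP⟩ := (Usub_pgroup D p he).exists_le_sylow
  have h1 := zc_sylow D p hF hn he0 he P hP
  have h2 : α '' R D e = zc ((α • P : Sylow p (Cfsg.PSU n F q)) :
      Subgroup (Cfsg.PSU n F q)) := by
    rw [← h1, Sylow.pointwise_smul_def, zc_smul]
  obtain ⟨y, hy⟩ := MulAction.exists_smul_eq (Cfsg.PSU n F q) P (α • P)
  obtain ⟨g, rfl⟩ := pr_surjective y
  refine ⟨mv g e, fun h0 => he0 (mv_eq_zero h0), by rw [h_mv, he], ?_⟩
  rw [h2, ← hy, Sylow.coe_subgroup_smul, zc_smul, h1, conj_R D he]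

end Cfsg.Agent.Lib.Helper43.SUSyl
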