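import Mathlib
import Cfsg.Agent.Lib.Helper43.SUFrame
import Cfsg.Agent.Lib.Helper43.SUSyl

set_option autoImplicit false

namespace Cfsg.Agent.Lib.Helper43.SUCell1

open Matrix Cfsg.Agent.Lib.Helper43.SUBase Cfsg.Agent.Lib.Helper43.SUElt
  Cfsg.Agent.Lib.Helper43.SUAuts Cfsg.Agent.Lib.Helper43.SUGeom
  Cfsg.Agent.Lib.Helper43.SUFrame Cfsg.Agent.Lib.Helper43.SUSyl
open Cfsg.Agent.Lib.Helper43.SUAlg (Ok')

/-! ### general lemmas on images -/

theorem image_conj {G : Type*} [Group G] (γ : MulAut G) (x : G) (A : Set G) :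
    γ '' ((MulAut.conj x) '' A) = (MulAut.conj (γ x)) '' (γ '' A) := by
  rw [Set.image_image, Set.image_image]
  apply Set.image_congr
  intro y _
  rw [MulAut.conj_apply, MulAut.conj_apply, map_mul, map_mul, map_inv]

theorem inv_image_image {G : Type*} [Group G] (α : MulAut G) (A : Set G) :
    (α⁻¹ : MulAut G) '' (α '' A) = A := by
  rw [Set.image_image]
  have : (fun x => (α⁻¹ : MulAut G) (α x)) = id := by
    funext x
    exact MulAut.inv_apply_self G α x
  rw [this, Set.image_id]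

theorem image_inv_image {G : Type*} [Group G] (α : MulAut G) (A : Set G) :
    α '' ((α⁻¹ : MulAut G) '' A) = A := by
  rw [Set.image_image]
  have : (fun x => α ((α⁻¹ : MulAut G) x)) = id := by
    funext x
    exact MulAut.apply_inv_self G α x
  rw [this, Set.image_id]

theorem image_inv {G : Type*} [Group G] (α : MulAut G) {A B : Set G}
    (h : (α⁻¹ : MulAut G) '' A = B) : α '' B = A := by
  rw [← h, image_inv_image]

theorem inv_image {G : Type*} [Group G] (α : MulAut G) {A B : Set G}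
    (h : α '' A = B) : (α⁻¹ : MulAut G) '' B = A := by
  rw [← h, inv_image_image]

theorem conj_image {G : Type*} [Group G] (α : MulAut G) (x : G) (A : Set G) :
    (MulAut.conj (α x)) '' A = α '' ((MulAut.conj x) '' ((α⁻¹ : MulAut G) '' A)) := by
  rw [image_conj, image_inv_image]

variable {F : Type*} [Field F] {q : ℕ} (D : QD F q)

theorem Comm_image [Fintype F] {n : ℕ} (α : MulAut (Cfsg.PSU n F q))
    {A B : Set (Cfsg.PSU n F q)}
    (h : Comm A B) : Comm (α '' A) (α '' B) := by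
  rintro _ ⟨a, ha, rfl⟩ _ ⟨b, hb, rfl⟩
  rw [← map_mul, ← map_mul, h a ha b hb]

/-! ### linear algebra -/

theorem mem_span_pair_of_perp {n : ℕ} {u v w : Fin n → F}
    (h : ∀ x, D.h x u = 0 → D.h x v = 0 → D.h x w = 0) :
    ∃ a b : F, w = a • u + b • v := by
  let L : Fin 2 → ((Fin n → F) →ₗ[F] F) := ![D.hl u, D.hl v]
  have h1 : ⨅ i, LinearMap.ker (L i) ≤ LinearMap.ker (D.hl w) := by
    intro x hx
    rw [Submodule.mem_iInf] at hx
    have h0 := hx 0
    have h1 := hx 1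
    rw [LinearMap.mem_ker] at h0 h1 ⊢
    exact h x h0 h1
  have h2 := mem_span_of_iInf_ker_le_ker h1
  obtain ⟨c, hc⟩ := (Submodule.mem_span_range_iff_exists_fun F).1 h2
  refine ⟨D.φ (c 0), D.φ (c 1), ?_⟩
  rw [← sub_eq_zero]
  apply D.eq_zero_of_h_right
  intro x
  have h3 := LinearMap.congr_fun hc x
  rw [Fin.sum_univ_two] at h3
  simp only [LinearMap.add_apply, LinearMap.smul_apply, smul_eq_mul] at h3
  have h4 : L 0 x = D.h x u := rfl
  have h5 : L 1 x = D.h x v := rfl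
  have h6 : (D.hl w) x = D.h x w := rfl
  rw [h4, h5, h6] at h3
  simp only [D.h_sub_right, D.h_add_right, D.h_smul_right, D.inv]
  rw [← h3]
  ring

/-- a totally isotropic line is the perp-closure of two of its points -/
theorem mem_span_of_perp_closure {n : ℕ} {a b x : Fin n → F} (hx : D.h x x = 0)
    (H : ∀ v : Fin n → F, v ≠ 0 → D.h v v = 0 → D.h v a = 0 → D.h v b = 0 → D.h v x = 0)
    (hxa : D.h x a = 0) (hxb : D.h x b = 0) : ∃ r s : F, x = r • a + s • b := by
  apply mem_span_pair_of_perp D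
  intro z hza hzb
  by_contra hzx
  have hxz : D.h x z ≠ 0 := by
    intro h0
    apply hzx
    rw [← D.h_symm, h0, map_zero]
  obtain ⟨c, hc⟩ := D.exists_c z
  obtain ⟨s, hs⟩ : ∃ s : F, s = c / D.h x z := ⟨_, rfl⟩
  have hs1 : s * D.h x z = c := by rw [hs, div_mul_cancel₀ _ hxz]
  have hs2 : D.φ s * D.φ (D.h x z) = D.φ c := by rw [← map_mul, hs1]
  have hv : D.h (z + s • x) (z + s • x) = 0 := by
    have e1 : D.h z x = D.φ (D.h x z) := (D.h_symm x z).symm
    simp only [D.h_add_left, D.h_add_right, D.h_smul_left, D.h_smul_right, hx, e1]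
    linear_combination hc + hs1 + hs2
  have hvx : D.h (z + s • x) x = D.h z x := by
    rw [D.h_add_left, D.h_smul_left, hx, mul_zero, add_zero]
  have hv0 : z + s • x ≠ 0 := by
    intro h0
    rw [h0, D.h_zero_left] at hvx
    exact hzx hvx.symm
  have h1 := H _ hv0 hv (by rw [D.h_add_left, D.h_smul_left, hza, hxa]; ring)
    (by rw [D.h_add_left, D.h_smul_left, hzb, hxb]; ring)
  rw [hvx] at h1
  exact hzx h1

theorem quad_zero {A B C z₁ z₂ z₃ : F} (h12 : z₁ ≠ z₂) (h13 : z₁ ≠ z₃) (h23 : z₂ ≠ z₃)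
    (h1 : A * z₁ ^ 2 + B * z₁ + C = 0) (h2 : A * z₂ ^ 2 + B * z₂ + C = 0)
    (h3 : A * z₃ ^ 2 + B * z₃ + C = 0) : A = 0 ∧ B = 0 ∧ C = 0 := by
  have e1 : A * (z₁ + z₂) + B = 0 := by
    have : (z₁ - z₂) * (A * (z₁ + z₂) + B) = 0 := by linear_combination h1 - h2
    rcases mul_eq_zero.1 this with h | h
    · exact absurd (sub_eq_zero.1 h) h12
    · exact h
  have e2 : A * (z₁ + z₃) + B = 0 := by
    have : (z₁ - z₃) * (A * (z₁ + z₃) + B) = 0 := by linear_combination h1 - h3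
    rcases mul_eq_zero.1 this with h | h
    · exact absurd (sub_eq_zero.1 h) h13
    · exact h
  have hA : A = 0 := by
    have : A * (z₂ - z₃) = 0 := by linear_combination e1 - e2
    rcases mul_eq_zero.1 this with h | h
    · exact h
    · exact absurd (sub_eq_zero.1 h) h23
  have hB : B = 0 := by
    rw [hA] at e1
    linear_combination e1
  refine ⟨hA, hB, ?_⟩
  rw [hA, hB] at h1
  linear_combination h1

theorem exists_three [Fintype F] (hF : Fintype.card F = q ^ 2) :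
    ∃ z₁ z₂ z₃ : F, z₁ ≠ z₂ ∧ z₁ ≠ z₃ ∧ z₂ ≠ z₃ ∧ z₁ * D.φ z₁ = -1 ∧ z₂ * D.φ z₂ = -1 ∧
      z₃ * D.φ z₃ = -1 := by
  classical
  have hq := Cfsg.Agent.Lib.Helper5.HermCount.two_le hF
  have hfix : (-1 : F) ^ q = -1 := by
    rw [← D.hφ, map_neg, map_one]
  have h := Cfsg.Agent.Lib.Helper5.HermCount.card_norm_eq hF (-1) (neg_ne_zero.2 one_ne_zero) hfix
  rw [Nat.card_eq_fintype_card] at h
  have h2 : 2 < Fintype.card {x : F // x * x ^ q = -1} := by
    rw [h]
    omega
  obtain ⟨a, b, c, hab, hac, hbc⟩ := Fintype.two_lt_card_iff.1 h2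
  refine ⟨a.1, b.1, c.1, fun h => hab (Subtype.ext h), fun h => hac (Subtype.ext h),
    fun h => hbc (Subtype.ext h), ?_, ?_, ?_⟩
  · rw [D.hφ]
    exact a.2
  · rw [D.hφ]
    exact b.2
  · rw [D.hφ]
    exact c.2

theorem mv_pow_eigen {n : ℕ} {g : ↥(Cfsg.SU n F q)} {v : Fin n → F} {t : F}
    (h : mv g v = t • v) (N : ℕ) : mv (g ^ N) v = t ^ N • v := by
  induction N with
  | zero => rw [pow_zero, pow_zero, mv_one, one_smul]
  | succ N ih => rw [pow_succ, mv_mul, h, mv_smul, ih, smul_smul, pow_succ, mul_comm]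

/-- an element acting as a scalar of norm one on `e` and on `e^⊥/e` is a scalar multiple
of some `E e d c` -/
theorem scalar_E {n : ℕ} {e : Fin n → F} (he0 : e ≠ 0) (he : D.h e e = 0)
    {g : ↥(Cfsg.SU n F q)} {t : F} (htN : t * D.φ t = 1) (hte : mv g e = t • e)
    (key : ∀ d : Fin n → F, D.h d e = 0 → ∃ s : F, mv g d = t • d + s • e) :
    ∃ d c, Ok D e d c ∧ ∀ x, mv g x = t • mv (E D e d c) x := by
  obtain ⟨f, hff, hfe⟩ := exists_partner D he0 he
  have hef : D.h e f = 1 := h_comm_one D hfe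
  have ht0 : t ≠ 0 := by
    rintro rfl
    simp at htN
  have hgfe : D.h (mv g f) e = t := by
    have h1 := h_mv D g f e
    rw [hte, D.h_smul_right, hfe] at h1
    have h2 : D.h (mv g f) e = (t * D.φ t) * D.h (mv g f) e := by rw [htN, one_mul]
    rw [h2, mul_assoc, h1, mul_one]
  have hgff : D.h (mv g f) (mv g f) = 0 := by rw [h_mv, hff]
  obtain ⟨y, hy⟩ : ∃ y : Fin n → F, y = t⁻¹ • mv g f := ⟨_, rfl⟩
  have hye : D.h y e = 1 := by
    rw [hy, D.h_smul_left, hgfe, inv_mul_cancel₀ ht0]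
  have hey : D.h e y = 1 := h_comm_one D hye
  have hyy : D.h y y = 0 := by
    rw [hy, D.h_smul_left, D.h_smul_right, hgff, mul_zero, mul_zero]
  have hty : mv g f = t • y := by
    rw [hy, smul_smul, mul_inv_cancel₀ ht0, one_smul]
  have H₀ : Ok D e (y - f) (D.h f y) := by
    refine ⟨he, ?_, ?_⟩
    · rw [D.h_sub_left, hye, hfe, sub_self]
    · simp only [D.h_sub_left, D.h_sub_right, hyy, hff, D.h_symm]
      ring
  have huf : mv (E D e (y - f) (D.h f y)) f = y := by
    rw [mv_E_f D H₀ hfe, D.h_sub_right, hff]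
    module
  refine ⟨y - f, D.h f y, H₀, ?_⟩
  intro x
  have hx' : D.h (x - D.h x e • f) e = 0 := by
    rw [D.h_sub_left, D.h_smul_left, hfe, mul_one, sub_self]
  have hx : x = D.h x e • f + (x - D.h x e • f) := by module
  obtain ⟨s, hs⟩ := key _ hx'
  have h1 := h_mv D g (x - D.h x e • f) f
  rw [hs, hty] at h1
  simp only [D.h_add_left, D.h_smul_left, D.h_smul_right, hey] at h1
  have h2 : s = - (t * D.h (x - D.h x e • f) (y - f)) := by
    rw [D.h_sub_right]
    have h3 : s = (t * D.φ t) * s := by rw [htN, one_mul]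
    rw [h3]
    linear_combination t * h1 - t * D.h (x - D.h x e • f) y * htN
  have h3 : mv g x = D.h x e • mv g f + mv g (x - D.h x e • f) := by
    rw [← mv_smul, ← mv_add, ← hx]
  have h4 : mv (E D e (y - f) (D.h f y)) x
      = D.h x e • mv (E D e (y - f) (D.h f y)) f
        + mv (E D e (y - f) (D.h f y)) (x - D.h x e • f) := by
    rw [← mv_smul, ← mv_add, ← hx]
  rw [h3, h4, hs, h2, hty, huf, mv_E_perp D H₀ hx']
  module

/-! ### the unipotent radical is preserved -/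

variable {k : ℕ}

/-- the standard anisotropic vectors -/
def wv (j : Fin k) : Fin (k + 2) → F := ι (Pi.single j 1)

theorem h_wv_wv (j l : Fin k) :
    D.h (wv j : Fin (k + 2) → F) (wv l) = if j = l then 1 else 0 := by
  unfold wv
  rw [h_ι_ι, D.h_single_right, Pi.single_apply]
  by_cases h : j = l
  · rw [if_pos h, if_pos h.symm]
  · rw [if_neg h, if_neg (Ne.symm h)]

theorem h_right_wv (x : Fin (k + 2) → F) (l : Fin k) : D.h x (wv l) = πW x l := by
  unfold wv
  rw [h_ι_right, D.h_single_right]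

theorem ι_eq_sum (b : Fin k → F) : ι b = ∑ j, b j • (wv j : Fin (k + 2) → F) := by
  classical
  let ιL : (Fin k → F) →ₗ[F] (Fin (k + 2) → F) :=
    { toFun := ι, map_add' := ι_add, map_smul' := ι_smul }
  have h1 := congrArg ιL (pi_eq_sum_univ' b)
  rw [map_sum] at h1
  simp only [map_smul] at h1
  exact h1

variable {D}
variable (Fr : Frame D k)

section Fin

variable [Fintype F]

/-- the elements normalising `R e` that move every point of `e^⊥` to a perpendicular point -/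
def K' : Set (Cfsg.PSU (k + 2) F q) :=
  {x | (MulAut.conj x) '' R D Fr.e = R D Fr.e ∧
    ∀ v : Fin (k + 2) → F, v ≠ 0 → D.h v v = 0 → D.h v Fr.e = 0 →
      Comm ((MulAut.conj x) '' R D v) (R D v)}

theorem U_subset_K' : U D Fr.e ⊆ K' Fr := by
  rintro x ⟨d, c, H, rfl⟩
  refine ⟨?_, ?_⟩
  · rw [conj_R D Fr.he, mv_E_e D H]
  · intro v _ hv hve
    rw [conj_R D hv, mv_E_perp D H hve]
    have hev : D.h Fr.e v = 0 := h_comm_zero D hve
    apply comm_of_perp D _ hv
    · rw [D.h_sub_left, D.h_smul_left, hv, hev]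
      ring
    · simp only [D.h_sub_left, D.h_sub_right, D.h_smul_left, D.h_smul_right, hv, hve, hev, Fr.he]
      ring

variable [Fintype F] (hF : Fintype.card F = q ^ 2) (p : ℕ) [Fact p.Prime] [CharP F p]
  (hk : 1 ≤ k)

include hF p hk in
theorem K'_of_aut {α : MulAut (Cfsg.PSU (k + 2) F q)} (hα : α '' R D Fr.e = R D Fr.e)
    {x : Cfsg.PSU (k + 2) F q} (hx : x ∈ K' Fr) : α x ∈ K' Fr := by
  have hn : 3 ≤ k + 2 := by omega
  have hα' : (α⁻¹ : MulAut _) '' R D Fr.e = R D Fr.e := inv_image α hα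
  refine ⟨?_, ?_⟩
  · rw [conj_image, hα', hx.1, hα]
  · intro v hv0 hv hve
    obtain ⟨v', hv'0, hv', hv'R⟩ := perm D p hF hn hv0 hv (α⁻¹ : MulAut _)
    have h1 : Comm (R D v') (R D Fr.e) := by
      rw [← hv'R, ← hα']
      exact Comm_image _ (comm_of_perp D hv Fr.he hve)
    have hv'e : D.h v' Fr.e = 0 := perp_of_comm D p hF hn hv'0 Fr.e_ne hv' Fr.he h1
    have h2 := hx.2 v' hv'0 hv' hv'e
    have h3 := Comm_image α h2
    rw [conj_image, hv'R]
    rw [image_inv α hv'R] at h3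
    exact h3

include hF p hk in
theorem U_of_K' {x : Cfsg.PSU (k + 2) F q} (hx : x ∈ K' Fr) {m : ℕ}
    (hxm : x ^ (p ^ m) = 1) : x ∈ U D Fr.e := by
  classical
  have hn : 3 ≤ k + 2 := by omega
  obtain ⟨g, rfl⟩ := pr_surjective x
  obtain ⟨h1, h2⟩ := hx
  rw [conj_R D Fr.he] at h1
  have hge0 : mv g Fr.e ≠ 0 := fun h0 => Fr.e_ne (mv_eq_zero h0)
  have hgee : D.h (mv g Fr.e) (mv g Fr.e) = 0 := by rw [h_mv, Fr.he]
  obtain ⟨t, ht0, hte⟩ := parallel_of_R_eq D p hF hn hge0 hgee Fr.he h1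
  have hte' : mv g⁻¹ Fr.e = t⁻¹ • Fr.e := by
    apply mv_injective g
    rw [mv_mv_inv, mv_smul, hte, smul_smul, inv_mul_cancel₀ ht0, one_smul]
  obtain ⟨z₁, z₂, z₃, h12, h13, h23, hz₁, hz₂, hz₃⟩ := exists_three D hF
  have entry : ∀ j l : Fin k, j ≠ l → ∀ z : F, z * D.φ z = -1 →
      D.h (mv g (wv l)) (wv j) * z ^ 2
        + (D.h (mv g (wv j)) (wv j) - D.h (mv g (wv l)) (wv l)) * z
        + (- D.h (mv g (wv j)) (wv l)) = 0 := by
    intro j l hjl z hz
    have hjj : D.h (wv j : Fin (k + 2) → F) (wv j) = 1 := by rw [h_wv_wv, if_pos rfl]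
    have hll : D.h (wv l : Fin (k + 2) → F) (wv l) = 1 := by rw [h_wv_wv, if_pos rfl]
    have hjl' : D.h (wv j : Fin (k + 2) → F) (wv l) = 0 := by rw [h_wv_wv, if_neg hjl]
    have hlj' : D.h (wv l : Fin (k + 2) → F) (wv j) = 0 := by
      rw [h_wv_wv, if_neg (Ne.symm hjl)]
    have hv : D.h (wv j + z • wv l : Fin (k + 2) → F) (wv j + z • wv l) = 0 := by
      simp only [D.h_add_left, D.h_add_right, D.h_smul_left, D.h_smul_right, hjj, hll, hjl',
        hlj']
      linear_combination hz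
    have hv0 : (wv j + z • wv l : Fin (k + 2) → F) ≠ 0 := by
      intro h0
      have h3 := congrArg (fun y => D.h y (wv j)) h0
      simp only [D.h_add_left, D.h_smul_left, hjj, hlj', D.h_zero_left, mul_zero,
        add_zero] at h3
      exact one_ne_zero h3
    have hve : D.h (wv j + z • wv l : Fin (k + 2) → F) Fr.e = 0 := by
      unfold wv
      rw [D.h_add_left, D.h_smul_left, Fr.h_ι_e, Fr.h_ι_e]
      ring
    have h3 := h2 _ hv0 hv hve
    rw [conj_R D hv] at h3
    have h4 := perp_of_comm D p hF hn (fun h0 => hv0 (mv_eq_zero h0)) hv0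
      (by rw [h_mv, hv]) hv h3
    rw [mv_add, mv_smul] at h4
    simp only [D.h_add_left, D.h_add_right, D.h_smul_left, D.h_smul_right] at h4
    linear_combination z * h4
      - (D.h (mv g (wv j)) (wv l) + z * D.h (mv g (wv l)) (wv l)) * hz
  have offdiag : ∀ j l : Fin k, j ≠ l → D.h (mv g (wv j)) (wv l) = 0 ∧
      D.h (mv g (wv j)) (wv j) = D.h (mv g (wv l)) (wv l) := by
    intro j l hjl
    obtain ⟨-, hB, hC⟩ := quad_zero h12 h13 h23 (entry j l hjl z₁ hz₁) (entry j l hjl z₂ hz₂)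
      (entry j l hjl z₃ hz₃)
    exact ⟨by linear_combination -hC, sub_eq_zero.1 hB⟩
  obtain ⟨j₀, hj₀⟩ : ∃ j₀ : Fin k, j₀ = ⟨0, hk⟩ := ⟨_, rfl⟩
  obtain ⟨lam, hlam⟩ : ∃ lam : F, lam = D.h (mv g (wv j₀)) (wv j₀) := ⟨_, rfl⟩
  have hent : ∀ j l : Fin k, D.h (mv g (wv j)) (wv l) = if j = l then lam else 0 := by
    intro j l
    by_cases hjl : j = l
    · subst hjl
      rw [if_pos rfl, hlam]
      by_cases hj : j = j₀
      · rw [hj]
      · exact (offdiag j j₀ hj).2
    · rw [if_neg hjl]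
      exact (offdiag j l hjl).1
  have hlin : ∀ (b : Fin k → F) (l : Fin k), D.h (mv g (ι b)) (wv l) = lam * b l := by
    intro b l
    rw [ι_eq_sum b, mv_sum, D.h_sum_left]
    simp only [mv_smul, D.h_smul_left, hent]
    rw [Finset.sum_eq_single l]
    · rw [if_pos rfl, mul_comm]
    · intro j _ hj
      rw [if_neg hj, mul_zero]
    · intro hl
      exact absurd (Finset.mem_univ l) hl
  have hgι : ∀ b : Fin k → F, ∃ s : F, mv g (ι b) = lam • ι b + s • Fr.e := by
    intro b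
    have h3 : D.h (mv g (ι b)) Fr.e = 0 := by
      rw [h_mv_left, hte', D.h_smul_right, Fr.h_ι_e, mul_zero]
    have h4 : πW (mv g (ι b)) = lam • b := by
      funext l
      rw [← h_right_wv D, hlin]
      rfl
    have h5 := Fr.dec (mv g (ι b))
    rw [h3, zero_smul, add_zero, h4, ι_smul] at h5
    exact ⟨_, h5.trans (add_comm _ _)⟩
  have hN : lam * D.φ lam = 1 := by
    obtain ⟨s, hs⟩ := hgι (Pi.single j₀ 1)
    have h3 := h_mv D g (ι (Pi.single j₀ 1)) (ι (Pi.single j₀ 1))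
    rw [hs] at h3
    simp only [D.h_add_left, D.h_add_right, D.h_smul_left, D.h_smul_right, h_ι_ι, Fr.h_ι_e,
      Fr.h_e_ι, Fr.he, D.h_single_right, Pi.single_eq_same] at h3
    linear_combination h3
  have hlam0 : lam ≠ 0 := by
    rintro rfl
    simp at hN
  have htl : t = lam := by
    have h3 : pr (g ^ (p ^ m)) = pr 1 := by rw [map_pow, hxm, map_one]
    obtain ⟨μ, hμ⟩ := exists_scalar_of_pr_eq hF hn h3
    have h4 := hμ Fr.e
    rw [mv_pow_eigen hte, mv_one] at h4
    have h5 : ∀ N : ℕ, ∃ s : F, mv (g ^ N) (ι (Pi.single j₀ 1))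
        = lam ^ N • ι (Pi.single j₀ 1) + s • Fr.e := by
      intro N
      induction N with
      | zero => exact ⟨0, by rw [pow_zero, mv_one, pow_zero, one_smul, zero_smul, add_zero]⟩
      | succ N ih =>
        obtain ⟨s, hs⟩ := ih
        obtain ⟨s', hs'⟩ := hgι (Pi.single j₀ 1)
        refine ⟨lam * s + s' * t ^ N, ?_⟩
        rw [pow_succ, mv_mul, hs', mv_add, mv_smul, mv_smul, hs, mv_pow_eigen hte, pow_succ]
        module
    obtain ⟨s, hs⟩ := h5 (p ^ m)
    have h6 := hμ (ι (Pi.single j₀ 1))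
    rw [hs, mv_one] at h6
    have h7 := congrArg (fun y => D.h y (ι (Pi.single j₀ 1))) h6
    simp only [D.h_add_left, D.h_smul_left, h_ι_ι, Fr.h_e_ι, D.h_single_right,
      Pi.single_eq_same, mul_one, mul_zero, add_zero] at h7
    have h8 : t ^ (p ^ m) = μ := by
      have h9 : (t ^ (p ^ m) - μ) • Fr.e = 0 := by rw [sub_smul, h4, sub_self]
      rcases smul_eq_zero.1 h9 with h10 | h10
      · exact sub_eq_zero.1 h10
      · exact absurd h10 Fr.e_ne
    have h9 : (t / lam) ^ (p ^ m) = 1 := by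
      rw [div_pow, h8, h7]
      exact div_self (by rw [← h7]; exact pow_ne_zero _ hlam0)
    have h10 := eq_one_of_pow_char p h9
    field_simp at h10
    exact h10
  have key : ∀ d : Fin (k + 2) → F, D.h d Fr.e = 0 → ∃ s : F, mv g d = t • d + s • Fr.e := by
    intro d hd
    have h3 := Fr.dec d
    rw [hd, zero_smul, add_zero] at h3
    obtain ⟨b, hb⟩ : ∃ b : Fin k → F, b = πW d := ⟨_, rfl⟩
    obtain ⟨r, hr⟩ : ∃ r : F, r = D.h d Fr.f := ⟨_, rfl⟩
    rw [← hb, ← hr] at h3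
    rw [h3]
    obtain ⟨s, hs⟩ := hgι b
    refine ⟨s, ?_⟩
    rw [mv_add, mv_smul, hte, hs, htl]
    module
  have hN' : t * D.φ t = 1 := by
    rw [htl]
    exact hN
  obtain ⟨d₀, c₀, H₀, hsc⟩ := scalar_E D Fr.e_ne Fr.he hN' hte key
  exact ⟨d₀, c₀, H₀, pr_eq_of_scalar t hsc⟩

include hF p hk in
/-- an automorphism fixing the root group of `e` preserves the unipotent radical -/
theorem image_U_subset {α : MulAut (Cfsg.PSU (k + 2) F q)} (hα : α '' R D Fr.e = R D Fr.e) :
    α '' U D Fr.e ⊆ U D Fr.e := by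
  rintro _ ⟨x, hx, rfl⟩
  apply U_of_K' Fr hF p hk (K'_of_aut Fr hF p hk hα (U_subset_K' Fr hx)) (m := 2)
  obtain ⟨d, c, H, rfl⟩ := hx
  rw [← map_pow, ← map_pow, E_pow_char D p H, map_one, map_one]

include hF p hk in
theorem image_U {α : MulAut (Cfsg.PSU (k + 2) F q)} (hα : α '' R D Fr.e = R D Fr.e) :
    α '' U D Fr.e = U D Fr.e := by
  apply Set.Subset.antisymm (image_U_subset Fr hF p hk hα)
  have h1 := image_U_subset Fr hF p hk (inv_image α hα)
  intro x hx
  refine ⟨(α⁻¹ : MulAut _) x, h1 ⟨x, hx, rfl⟩, ?_⟩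
  exact MulAut.apply_inv_self _ α x

end Fin

end Cfsg.Agent.Lib.Helper43.SUCell1
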