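import Mathlib
import Cfsg.Agent.Lib.Helper43.SUCell1

set_option autoImplicit false

namespace Cfsg.Agent.Lib.Helper43.SUCell2

open Matrix Cfsg.Agent.Lib.Helper43.SUBase Cfsg.Agent.Lib.Helper43.SUElt
  Cfsg.Agent.Lib.Helper43.SUAuts Cfsg.Agent.Lib.Helper43.SUGeom
  Cfsg.Agent.Lib.Helper43.SUFrame Cfsg.Agent.Lib.Helper43.SUSyl
  Cfsg.Agent.Lib.Helper43.SUCell1
open Cfsg.Agent.Lib.Helper43.SUAlg (Ok')

variable {F : Type*} [Field F] [Fintype F] {q k : ℕ} {D : QD F q} (Fr : Frame D k)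
  (hF : Fintype.card F = q ^ 2) (p : ℕ) [Fact p.Prime] [CharP F p] (hk : 1 ≤ k)

/-- coordinates of an automorphism on the unipotent radical -/
def Coord (α : MulAut (Cfsg.PSU (k + 2) F q)) (A : (Fin k → F) → (Fin k → F))
    (Cc : (Fin k → F) → F → F) : Prop :=
  ∀ a c, Ok' D a c → Ok' D (A a) (Cc a c) ∧ α (pr (Fr.u a c)) = pr (Fr.u (A a) (Cc a c))

include hF p hk in
theorem u_inj {a a' : Fin k → F} {c c' : F} (H : Ok' D a c) (H' : Ok' D a' c')
    (h : pr (Fr.u a c) = pr (Fr.u a' c')) : a = a' ∧ c = c' := by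
  have hn : 3 ≤ k + 2 := by omega
  have h1 : Fr.u a c = Fr.u a' c' := pr_E_inj D p hF hn (Fr.Ok_u H) (Fr.Ok_u H') h
  have h2 := congrArg (fun g => mv g Fr.f) h1
  simp only [Fr.mv_u_f H, Fr.mv_u_f H'] at h2
  have h3 := congrArg πW h2
  simp only [πW_add, πW_smul, πW_ι, Fr.eW, Fr.fW, smul_zero, add_zero, zero_add] at h3
  refine ⟨h3, ?_⟩
  rw [h3] at h2
  have h4 : (c - c') • Fr.e = 0 := by
    rw [sub_smul]
    exact sub_eq_zero.2 (add_left_cancel h2)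
  rcases smul_eq_zero.1 h4 with h5 | h5
  · exact sub_eq_zero.1 h5
  · exact absurd h5 Fr.e_ne

include hF p hk in
theorem exists_coord {α : MulAut (Cfsg.PSU (k + 2) F q)} (hα : α '' R D Fr.e = R D Fr.e) :
    ∃ A Cc, Coord Fr α A Cc := by
  have hU := image_U Fr hF p hk hα
  have key : ∀ a : Fin k → F, ∃ a' : Fin k → F, ∀ c : F, Ok' D a c →
      ∃ c' : F, Ok' D a' c' ∧ α (pr (Fr.u a c)) = pr (Fr.u a' c') := by
    intro a
    obtain ⟨c₀, hc₀⟩ := D.exists_c a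
    have H₀ : Ok' D a c₀ := hc₀
    have h1 : α (pr (Fr.u a c₀)) ∈ U D Fr.e := by
      rw [← hU]
      exact ⟨_, (Fr.mem_U_iff _).2 ⟨a, c₀, H₀, rfl⟩, rfl⟩
    obtain ⟨a', c₀', H₀', h2⟩ := (Fr.mem_U_iff _).1 h1
    refine ⟨a', fun c H => ?_⟩
    have hz : D.φ (c - c₀) = -(c - c₀) := by
      unfold Ok' at H H₀
      rw [map_sub]
      linear_combination H - H₀
    have h3 : α (pr (Fr.u 0 (c - c₀))) ∈ R D Fr.e := by
      rw [← hα]
      refine ⟨_, ⟨c - c₀, by rw [hz]; ring, ?_⟩, rfl⟩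
      rw [Fr.u_zero_eq]
    obtain ⟨z', hz', h4⟩ := h3
    have Hz' : Ok' D (0 : Fin k → F) z' := Frame.Ok'_skew (by linear_combination hz')
    have h5 : Fr.u a c = Fr.u a c₀ * Fr.u 0 (c - c₀) := by
      rw [Fr.u_mul H₀ (Frame.Ok'_skew hz), add_zero, D.h_zero_left]
      congr 1
      ring
    refine ⟨c₀' + z', ?_, ?_⟩
    · have := Frame.Ok'_mul H₀' Hz'
      rwa [add_zero, D.h_zero_left, sub_zero] at this
    · rw [h5, map_mul, map_mul, h2, h4, ← Fr.u_zero_eq, ← map_mul, Fr.u_mul H₀' Hz', add_zero,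
        D.h_zero_left, sub_zero]
  choose A hA using key
  choose! Cc hCc using hA
  exact ⟨A, Cc, fun a c H => hCc a c H⟩

variable {Fr}
variable {α : MulAut (Cfsg.PSU (k + 2) F q)} {A : (Fin k → F) → (Fin k → F)}
  {Cc : (Fin k → F) → F → F}

include hF p hk in
theorem coord_mul (hC : Coord Fr α A Cc) {a b : Fin k → F} {c d : F} (H : Ok' D a c)
    (H' : Ok' D b d) : A (a + b) = A a + A b ∧
      Cc (a + b) (c + d - D.h b a) = Cc a c + Cc b d - D.h (A b) (A a) := by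
  obtain ⟨h1, h2⟩ := hC a c H
  obtain ⟨h3, h4⟩ := hC b d H'
  obtain ⟨h5, h6⟩ := hC _ _ (Frame.Ok'_mul H H')
  rw [← Fr.u_mul H H', map_mul, map_mul, h2, h4, ← map_mul, Fr.u_mul h1 h3] at h6
  exact u_inj Fr hF p hk h5 (Frame.Ok'_mul h1 h3) h6.symm

include hF p hk in
theorem coord_add (hC : Coord Fr α A Cc) (a b : Fin k → F) : A (a + b) = A a + A b := by
  obtain ⟨c, hc⟩ := D.exists_c a
  obtain ⟨d, hd⟩ := D.exists_c b
  have H : Ok' D a c := hc
  have H' : Ok' D b d := hd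
  exact (coord_mul hF p hk hC H H').1

include hF p hk in
theorem coord_zero (hC : Coord Fr α A Cc) : A 0 = 0 :=
  Cfsg.Agent.Lib.Helper43.SUAlg.map_zero_of_add (coord_add hF p hk hC)

include hF p hk in
theorem coord_skew (hC : Coord Fr α A Cc) {z : F} (hz : D.φ z = -z) :
    D.φ (Cc 0 z) = -(Cc 0 z) := by
  have h := (hC 0 z (Frame.Ok'_skew hz)).1
  rw [coord_zero hF p hk hC] at h
  exact Frame.skew_of_Ok' h

include hF p hk in
theorem coord_Z_inj (hC : Coord Fr α A Cc) {z : F} (hz : D.φ z = -z) (h0 : Cc 0 z = 0) :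
    z = 0 := by
  obtain ⟨h1, h2⟩ := hC 0 z (Frame.Ok'_skew hz)
  rw [coord_zero hF p hk hC, h0, Fr.u_zero, map_one] at h2
  have h3 : pr (Fr.u 0 z) = pr (Fr.u 0 0) := by
    rw [Fr.u_zero, map_one]
    exact (map_eq_one_iff α (MulEquiv.injective α)).1 h2
  exact (u_inj Fr hF p hk (Frame.Ok'_skew hz) Frame.Ok'_zero h3).2

include hF p hk in
theorem coord_comm (hC : Coord Fr α A Cc) (a b : Fin k → F) :
    Cc 0 (D.h a b - D.h b a) = D.h (A a) (A b) - D.h (A b) (A a) := by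
  obtain ⟨c, hc⟩ := D.exists_c a
  obtain ⟨d, hd⟩ := D.exists_c b
  have H : Ok' D a c := hc
  have H' : Ok' D b d := hd
  have hz : D.φ (D.h a b - D.h b a) = -(D.h a b - D.h b a) := by
    rw [map_sub, D.h_symm, D.h_symm]
    ring
  have h1 := (coord_mul hF p hk hC H H').2
  have h2 := (coord_mul hF p hk hC H' H).2
  have h3 := (coord_mul hF p hk hC (Frame.Ok'_mul H' H) (Frame.Ok'_skew hz)).2
  rw [add_zero, D.h_zero_left, sub_zero, h2, coord_zero hF p hk hC, D.h_zero_left, sub_zero] at h3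
  have e1 : d + c - D.h a b + (D.h a b - D.h b a) = c + d - D.h b a := by ring
  rw [e1, add_comm b a, h1] at h3
  linear_combination (-1 : F) * h3

include hF p hk in
theorem coord_inv {A' : (Fin k → F) → (Fin k → F)} {Cc' : (Fin k → F) → F → F}
    (hC : Coord Fr α A Cc) (hC' : Coord Fr (α⁻¹ : MulAut _) A' Cc') {a : Fin k → F} {c : F}
    (H : Ok' D a c) : A' (A a) = a ∧ Cc' (A a) (Cc a c) = c := by
  obtain ⟨h1, h2⟩ := hC a c H
  obtain ⟨h3, h4⟩ := hC' _ _ h1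
  have h5 : (α⁻¹ : MulAut _) (α (pr (Fr.u a c))) = pr (Fr.u a c) := MulAut.inv_apply_self _ α _
  rw [← h2, h5] at h4
  obtain ⟨h6, h7⟩ := u_inj Fr hF p hk H h3 h4
  exact ⟨h6.symm, h7.symm⟩

include hF p hk in
theorem coord_inv_left {A' : (Fin k → F) → (Fin k → F)} {Cc' : (Fin k → F) → F → F}
    (hC : Coord Fr α A Cc) (hC' : Coord Fr (α⁻¹ : MulAut _) A' Cc') (a : Fin k → F) :
    A' (A a) = a := by
  obtain ⟨c, hc⟩ := D.exists_c a
  have H : Ok' D a c := hc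
  exact (coord_inv hF p hk hC hC' H).1

theorem image_R_pt (hC : Coord Fr α A Cc) (hαf : α '' R D Fr.f = R D Fr.f) {a : Fin k → F}
    {c : F} (H : Ok' D a c) :
    α '' R D (Fr.f + ι a + c • Fr.e) = R D (Fr.f + ι (A a) + Cc a c • Fr.e) := by
  obtain ⟨h1, h2⟩ := hC a c H
  rw [← Fr.mv_u_f H, ← conj_R D Fr.hf, image_conj, h2, hαf, conj_R D Fr.hf, Fr.mv_u_f h1]

end Cfsg.Agent.Lib.Helper43.SUCell2
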