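import Mathlib
import Cfsg.Agent.Lib.Helper43.SUCell2

set_option autoImplicit false

namespace Cfsg.Agent.Lib.Helper43.SUCell3

open Matrix Cfsg.Agent.Lib.Helper43.SUBase Cfsg.Agent.Lib.Helper43.SUElt
  Cfsg.Agent.Lib.Helper43.SUAuts Cfsg.Agent.Lib.Helper43.SUGeom
  Cfsg.Agent.Lib.Helper43.SUFrame Cfsg.Agent.Lib.Helper43.SUSyl
  Cfsg.Agent.Lib.Helper43.SUCell1 Cfsg.Agent.Lib.Helper43.SUCell2
open Cfsg.Agent.Lib.Helper43.SUAlg (Ok' exists_sigma scalar_of_lines scalar_of_torus lines_aniso)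

variable {F : Type*} [Field F] {q k : ℕ} {D : QD F q}

/-! ### points opposite to `e` -/

theorem pt_iso (Fr : Frame D k) {b : Fin k → F} {d : F} (Hb : Ok' D b d) :
    D.h (Fr.f + ι b + d • Fr.e) (Fr.f + ι b + d • Fr.e) = 0 := by
  rw [← Fr.mv_u_f Hb, h_mv, Fr.hf]

theorem pt_ne (Fr : Frame D k) {b : Fin k → F} {d : F} (Hb : Ok' D b d) :
    Fr.f + ι b + d • Fr.e ≠ 0 := by
  rw [← Fr.mv_u_f Hb]
  exact fun h0 => Fr.f_ne (mv_eq_zero h0)

theorem pt_f (Fr : Frame D k) (b : Fin k → F) (d : F) :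
    D.h (Fr.f + ι b + d • Fr.e) Fr.f = d := by
  simp only [D.h_add_left, D.h_smul_left, Fr.hf, Fr.h_ι_f, Fr.hef]
  ring

theorem pt_e (Fr : Frame D k) (b : Fin k → F) (d : F) :
    D.h (Fr.f + ι b + d • Fr.e) Fr.e = 1 := by
  simp only [D.h_add_left, D.h_smul_left, Fr.hfe, Fr.h_ι_e, Fr.he]
  ring

theorem Ok'_iso {a : Fin k → F} (ha : D.h a a = 0) : Ok' D a 0 := by
  unfold Ok'
  rw [map_zero, ha]
  ring

/-! ### the torus -/

theorem tv_det {n : ℕ} (D : QD F q) (a b : Fin n → F) :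
    (1 + vecMulVec a (D.φ ∘ b)).det = 1 + D.h a b := by
  rw [Matrix.vecMulVec_eq (ι := Unit), Matrix.det_one_add_replicateCol_mul_replicateRow,
    D.dot_eq]

theorem exists_torus (Fr : Frame D k) (j₀ : Fin k) {t : F} (ht : t ≠ 0) :
    ∃ ρ : ↥(Cfsg.SU (k + 2) F q), mv ρ Fr.e = t • Fr.e ∧ mv ρ Fr.f = (D.φ t)⁻¹ • Fr.f ∧
      ∀ b : Fin k → F, mv ρ (ι b) = ι b + ((D.φ t / t - 1) * b j₀) • wv j₀ := by
  have hφt : D.φ t ≠ 0 := by
    intro h0
    have := congrArg D.φ h0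
    rw [D.inv, map_zero] at this
    exact ht this
  obtain ⟨s, hs⟩ : ∃ s : F, s = (D.φ t)⁻¹ := ⟨_, rfl⟩
  obtain ⟨l, hl⟩ : ∃ l : F, l = D.φ t / t := ⟨_, rfl⟩
  obtain ⟨w, hw⟩ : ∃ w : Fin (k + 2) → F, w = wv j₀ := ⟨_, rfl⟩
  have hst : s * D.φ t = 1 := by rw [hs, inv_mul_cancel₀ hφt]
  have hts : t * D.φ s = 1 := by rw [hs, map_inv₀, D.inv, mul_inv_cancel₀ ht]
  have hll : l * D.φ l = 1 := by
    rw [hl, map_div₀, D.inv]
    field_simp
  have htsl : t * s * l = 1 := by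
    rw [hs, hl]
    field_simp
  have hww : D.h w w = 1 := by rw [hw, h_wv_wv, if_pos rfl]
  have hwe : D.h w Fr.e = 0 := by rw [hw]; exact Fr.h_ι_e _
  have hwf : D.h w Fr.f = 0 := by rw [hw]; exact Fr.h_ι_f _
  have hew : D.h Fr.e w = 0 := by rw [hw]; exact Fr.h_e_ι _
  have hfw : D.h Fr.f w = 0 := by rw [hw]; exact Fr.h_f_ι _
  obtain ⟨M, hM⟩ : ∃ M : Matrix (Fin (k + 2)) (Fin (k + 2)) F,
      M = (1 + vecMulVec ((t - 1) • Fr.e) (D.φ ∘ Fr.f))
        * (1 + vecMulVec ((s - 1) • Fr.f) (D.φ ∘ Fr.e))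
        * (1 + vecMulVec ((l - 1) • w) (D.φ ∘ w)) := ⟨_, rfl⟩
  have hMx : ∀ x : Fin (k + 2) → F, M *ᵥ x
      = x + ((l - 1) * D.h x w) • w + ((s - 1) * D.h x Fr.e) • Fr.f
        + ((t - 1) * D.h x Fr.f) • Fr.e := by
    intro x
    rw [hM, ← Matrix.mulVec_mulVec, ← Matrix.mulVec_mulVec, tv_mulVec, tv_mulVec, tv_mulVec]
    simp only [D.h_add_left, D.h_smul_left, hwe, hwf, Fr.hf, mul_zero, add_zero]
    module
  have hdet : M.det = 1 := by
    rw [hM, Matrix.det_mul, Matrix.det_mul, tv_det, tv_det, tv_det, D.h_smul_left,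
      D.h_smul_left, D.h_smul_left, Fr.hef, Fr.hfe, hww]
    linear_combination htsl
  have hpres : ∀ u v, D.h (M *ᵥ u) (M *ᵥ v) = D.h u v := by
    intro u v
    have e1 : D.h w v = D.φ (D.h v w) := (D.h_symm v w).symm
    have e2 : D.h Fr.e v = D.φ (D.h v Fr.e) := (D.h_symm v Fr.e).symm
    have e3 : D.h Fr.f v = D.φ (D.h v Fr.f) := (D.h_symm v Fr.f).symm
    rw [hMx, hMx]
    simp only [D.h_add_left, D.h_add_right, D.h_smul_left, D.h_smul_right, map_mul, map_sub,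
      map_one, e1, e2, e3, hww, hwe, hwf, hew, hfw, Fr.he, Fr.hf, Fr.hef, Fr.hfe]
    linear_combination (D.h u w * D.φ (D.h v w)) * hll + (D.h u Fr.f * D.φ (D.h v Fr.e)) * hts
      + (D.h u Fr.e * D.φ (D.h v Fr.f)) * hst
  refine ⟨mkSU D M hdet hpres, ?_, ?_, ?_⟩
  · rw [mv_mkSU, hMx, hew, Fr.he, Fr.hef]
    module
  · rw [mv_mkSU, hMx, hfw, Fr.hfe, Fr.hf, ← hs]
    module
  · intro b
    rw [mv_mkSU, hMx, Fr.h_ι_e, Fr.h_ι_f, hw, h_right_wv, πW_ι, ← hl]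
    module

theorem exists_tau [Fintype F] (D : QD F q) (hF : Fintype.card F = q ^ 2) (hq : q ≠ 2) :
    ∃ t : F, t ≠ 0 ∧ D.φ (D.φ t ^ 2 / t) ≠ D.φ t ^ 2 / t := by
  classical
  have hq2 := Cfsg.Agent.Lib.Helper5.HermCount.two_le hF
  obtain ⟨g, hg⟩ := IsCyclic.exists_generator (α := Fˣ)
  have hord : orderOf g = q ^ 2 - 1 := by
    rw [orderOf_eq_card_of_forall_mem_zpowers hg, Nat.card_eq_fintype_card, Fintype.card_units,
      hF]
  have ht0 : (g : F) ≠ 0 := g.ne_zero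
  have hφ0 : D.φ (g : F) ≠ 0 := by
    intro h0
    have := congrArg D.φ h0
    rw [D.inv, map_zero] at this
    exact ht0 this
  refine ⟨(g : F), ht0, fun h => ?_⟩
  rw [map_div₀, map_pow, D.inv] at h
  have h1 : (g : F) ^ 3 = D.φ (g : F) ^ 3 := by
    field_simp at h
    linear_combination h
  rw [D.hφ, ← pow_mul] at h1
  have h3 : (g : F) ^ (q * 3) = (g : F) ^ (q * 3 - 3) * (g : F) ^ 3 := by
    rw [← pow_add]
    congr 1
    omega
  rw [h3] at h1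
  have h2 : g ^ (q * 3 - 3) = 1 := by
    apply Units.ext
    push_cast
    exact mul_right_cancel₀ (pow_ne_zero 3 ht0) (h1.symm.trans (one_mul _).symm)
  have hq3 : 3 ≤ q := by omega
  have h5 : 3 * q ≤ q ^ 2 := by
    rw [pow_two]
    exact Nat.mul_le_mul_right q hq3
  have h4 : q * 3 - 3 < orderOf g := by
    rw [hord]
    omega
  exact pow_ne_one_of_lt_orderOf (by omega) h4 h2

/-! ### consequences for the coordinates -/

variable [Fintype F] (hF : Fintype.card F = q ^ 2) (p : ℕ) [Fact p.Prime] [CharP F p]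
  (hk : 1 ≤ k)
variable {Fr : Frame D k} {α : MulAut (Cfsg.PSU (k + 2) F q)}
  {A : (Fin k → F) → (Fin k → F)} {Cc : (Fin k → F) → F → F}

include hF p hk in
theorem block (hC : Coord Fr α A Cc) (hαf : α '' R D Fr.f = R D Fr.f) :
    ∀ (a : Fin k → F) (c x : F), Ok' D a c → c ≠ 0 → x ≠ 0 → Ok' D (x • a) (x * c) →
      ∃ y : F, A (x • a) = y • A a ∧ Cc (x • a) (x * c) = y * Cc a c := by
  intro a c x H hc0 hx0 H'
  have hn : 3 ≤ k + 2 := by omega
  have hφx0 : D.φ x ≠ 0 := by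
    intro h0
    have := congrArg D.φ h0
    rw [D.inv, map_zero] at this
    exact hx0 this
  have hφc0 : D.φ c ≠ 0 := by
    intro h0
    have := congrArg D.φ h0
    rw [D.inv, map_zero] at this
    exact hc0 this
  obtain ⟨c₂, hc₂⟩ : ∃ c₂ : F, c₂ = (1 - x) / (x * c) := ⟨_, rfl⟩
  have e1 : c₂ * (x * c) = 1 - x := by rw [hc₂, div_mul_cancel₀ _ (mul_ne_zero hx0 hc0)]
  have e2 : D.φ c₂ * (D.φ x * D.φ c) = 1 - D.φ x := by
    rw [← map_mul, ← map_mul, e1, map_sub, map_one]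
  have hc₂c : c₂ * c = x⁻¹ - 1 := by
    rw [hc₂]
    field_simp
  have hskew : c₂ + D.φ c₂ = 0 := by
    have h0 : (c₂ + D.φ c₂) * (x * c * (D.φ x * D.φ c)) = 0 := by
      unfold Ok' at H H'
      rw [D.h_smul_left, D.h_smul_right, map_mul] at H'
      linear_combination (D.φ x * D.φ c) * e1 + (x * c) * e2 + H' - x * D.φ x * H
    rcases mul_eq_zero.1 h0 with h | h
    · exact h
    · exact absurd h (mul_ne_zero (mul_ne_zero hx0 hc0) (mul_ne_zero hφx0 hφc0))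
  have h3 : α (pr (T D Fr.f c₂)) ∈ R D Fr.f := by
    rw [← hαf]
    exact ⟨_, ⟨c₂, hskew, rfl⟩, rfl⟩
  obtain ⟨c₂', hskew', h4⟩ := h3
  obtain ⟨H1, -⟩ := hC a c H
  obtain ⟨H1', -⟩ := hC _ _ H'
  have hP := image_R_pt hC hαf H
  have hP' := image_R_pt hC hαf H'
  have hrel : mv (T D Fr.f c₂) (Fr.f + ι a + c • Fr.e)
      = x⁻¹ • (Fr.f + ι (x • a) + (x * c) • Fr.e) := by
    rw [mv_T D Fr.hf hskew, pt_f, hc₂c, ι_smul, smul_add, smul_add, smul_smul, smul_smul,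
      ← mul_assoc, inv_mul_cancel₀ hx0, one_mul, one_smul]
    module
  have h5 : R D (Fr.f + ι (x • a) + (x * c) • Fr.e)
      = (MulAut.conj (pr (T D Fr.f c₂))) '' R D (Fr.f + ι a + c • Fr.e) := by
    rw [conj_R D (pt_iso Fr H), hrel, R_smul D (pt_iso Fr H') (inv_ne_zero hx0)]
  have h6 : α '' R D (Fr.f + ι (x • a) + (x * c) • Fr.e)
      = α '' ((MulAut.conj (pr (T D Fr.f c₂))) '' R D (Fr.f + ι a + c • Fr.e)) := by rw [← h5]
  rw [hP', image_conj, h4, hP, conj_R D (pt_iso Fr H1), mv_T D Fr.hf hskew', pt_f] at h6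
  have hv : D.h (Fr.f + ι (A a) + Cc a c • Fr.e + (c₂' * Cc a c) • Fr.f)
      (Fr.f + ι (A a) + Cc a c • Fr.e + (c₂' * Cc a c) • Fr.f) = 0 := by
    have := h_mv D (T D Fr.f c₂') (Fr.f + ι (A a) + Cc a c • Fr.e)
      (Fr.f + ι (A a) + Cc a c • Fr.e)
    rw [mv_T D Fr.hf hskew', pt_f, pt_iso Fr H1] at this
    exact this
  obtain ⟨t, -, ht⟩ := parallel_of_R_eq D p hF hn (pt_ne Fr H1') (pt_iso Fr H1') hv h6
  refine ⟨t, ?_, ?_⟩
  · have h7 := congrArg πW ht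
    simp only [πW_add, πW_smul, πW_ι, Fr.eW, Fr.fW, smul_zero, add_zero, zero_add] at h7
    exact h7
  · have h8 := congrArg (fun y => D.h y Fr.f) ht
    simp only [D.h_add_left, D.h_smul_left, Fr.hf, Fr.h_ι_f, Fr.hef, mul_zero, mul_one, add_zero,
      zero_add] at h8
    exact h8

include hF p hk in
theorem Cc_iso (hC : Coord Fr α A Cc) (hαf : α '' R D Fr.f = R D Fr.f) {a : Fin k → F}
    (ha : D.h a a = 0) : Cc a 0 = 0 ∧ D.h (A a) (A a) = 0 := by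
  have hn : 3 ≤ k + 2 := by omega
  have H := Ok'_iso ha
  obtain ⟨H1, -⟩ := hC a 0 H
  have hP := image_R_pt hC hαf H
  have h1 : Comm (R D (Fr.f + ι a + (0 : F) • Fr.e)) (R D Fr.f) :=
    comm_of_perp D (pt_iso Fr H) Fr.hf (pt_f Fr a 0)
  have h2 := Comm_image α h1
  rw [hP, hαf] at h2
  have h3 := perp_of_comm D p hF hn (pt_ne Fr H1) Fr.f_ne (pt_iso Fr H1) Fr.hf h2
  rw [pt_f] at h3
  refine ⟨h3, ?_⟩
  unfold Ok' at H1
  rw [h3, map_zero] at H1
  linear_combination H1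

include hF p hk in
theorem image_R_iso (hC : Coord Fr α A Cc) (hαf : α '' R D Fr.f = R D Fr.f) {a : Fin k → F}
    (ha : D.h a a = 0) : α '' R D (Fr.f + ι a) = R D (Fr.f + ι (A a)) := by
  have hP := image_R_pt hC hαf (Ok'_iso ha)
  rw [(Cc_iso hF p hk hC hαf ha).1] at hP
  simp only [zero_smul, add_zero] at hP
  exact hP

theorem iso_pt (Fr : Frame D k) {a : Fin k → F} (ha : D.h a a = 0) :
    D.h (Fr.f + ι a) (Fr.f + ι a) = 0 := by
  have := pt_iso Fr (Ok'_iso ha)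
  simp only [zero_smul, add_zero] at this
  exact this

theorem iso_pt_ne (Fr : Frame D k) (a : Fin k → F) : Fr.f + ι a ≠ 0 := by
  intro h0
  have h1 := congrArg (fun y => D.h y Fr.e) h0
  simp only [D.h_add_left, Fr.hfe, Fr.h_ι_e, D.h_zero_left, add_zero] at h1
  exact one_ne_zero h1

include hF p hk in
theorem lines_iso (hC : Coord Fr α A Cc) (hαf : α '' R D Fr.f = R D Fr.f) {a : Fin k → F}
    (ha : D.h a a = 0) (x : F) : ∃ y : F, A (x • a) = y • A a := by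
  have hn : 3 ≤ k + 2 := by omega
  have hxa : D.h (x • a) (x • a) = 0 := by
    rw [D.h_smul_left, D.h_smul_right, ha, mul_zero, mul_zero]
  have hA := (Cc_iso hF p hk hC hαf ha).2
  have hAx := (Cc_iso hF p hk hC hαf hxa).2
  have hP := image_R_iso hF p hk hC hαf ha
  have hPx := image_R_iso hF p hk hC hαf hxa
  have hxb : D.h (Fr.f + ι (A (x • a))) (Fr.f + ι (A a)) = 0 := by
    have h1 : Comm (R D (Fr.f + ι (x • a))) (R D (Fr.f + ι a)) := by
      apply comm_of_perp D (iso_pt Fr hxa) (iso_pt Fr ha)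
      simp only [D.h_add_left, D.h_add_right, Fr.hf, Fr.h_ι_f, Fr.h_f_ι, h_ι_ι, D.h_smul_left, ha]
      ring
    have h2 := Comm_image α h1
    rw [hPx, hP] at h2
    exact perp_of_comm D p hF hn (iso_pt_ne Fr _) (iso_pt_ne Fr _) (iso_pt Fr hAx) (iso_pt Fr hA) h2
  have hxf : D.h (Fr.f + ι (A (x • a))) Fr.f = 0 := by
    rw [D.h_add_left, Fr.hf, Fr.h_ι_f, add_zero]
  have Hc : ∀ v : Fin (k + 2) → F, v ≠ 0 → D.h v v = 0 → D.h v Fr.f = 0 →
      D.h v (Fr.f + ι (A a)) = 0 → D.h v (Fr.f + ι (A (x • a))) = 0 := by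
    intro v hv0 hv hvf hva
    obtain ⟨v', hv'0, hv', hv'R⟩ := perm D p hF hn hv0 hv (α⁻¹ : MulAut _)
    have h1 : Comm (R D v') (R D Fr.f) := by
      have := Comm_image (α⁻¹ : MulAut _) (comm_of_perp D hv Fr.hf hvf)
      rwa [hv'R, inv_image α hαf] at this
    have h2 : Comm (R D v') (R D (Fr.f + ι a)) := by
      have := Comm_image (α⁻¹ : MulAut _) (comm_of_perp D hv (iso_pt Fr hA) hva)
      rwa [hv'R, inv_image α hP] at this
    have h3 := perp_of_comm D p hF hn hv'0 Fr.f_ne hv' Fr.hf h1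
    have h4 := perp_of_comm D p hF hn hv'0 (iso_pt_ne Fr _) hv' (iso_pt Fr ha) h2
    have h5 : D.h v' (Fr.f + ι (x • a)) = 0 := by
      rw [D.h_add_right, h3] at h4
      rw [D.h_add_right, h3, ι_smul, D.h_smul_right]
      rw [zero_add] at h4
      rw [h4, mul_zero, add_zero]
    have h6 := Comm_image α (comm_of_perp D hv' (iso_pt Fr hxa) h5)
    rw [image_inv α hv'R, hPx] at h6
    exact perp_of_comm D p hF hn hv0 (iso_pt_ne Fr _) hv (iso_pt Fr hAx) h6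
  obtain ⟨r, s, hrs⟩ := mem_span_of_perp_closure D (iso_pt Fr hAx) Hc hxf hxb
  refine ⟨s, ?_⟩
  have h7 := congrArg πW hrs
  simp only [πW_add, πW_smul, πW_ι, Fr.fW, smul_zero, add_zero, zero_add] at h7
  exact h7

include hF p hk in
theorem lines (hC : Coord Fr α A Cc) (hαf : α '' R D Fr.f = R D Fr.f) (a : Fin k → F) (x : F) :
    ∃ y : F, A (x • a) = y • A a := by
  by_cases ha : D.h a a = 0
  · exact lines_iso hF p hk hC hαf ha x
  · exact lines_aniso D (coord_add hF p hk hC) (block hF p hk hC hαf) a ha x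

include hF p hk in
theorem torus (hC : Coord Fr α A Cc) (hα : α '' R D Fr.e = R D Fr.e)
    (hαf : α '' R D Fr.f = R D Fr.f) (hk1 : k = 1) {t : F} (ht : t ≠ 0) :
    ∃ μ : F, ∀ a, A ((D.φ t ^ 2 / t) • a) = μ • A a := by
  classical
  have hn : 3 ≤ k + 2 := by omega
  have hφt : D.φ t ≠ 0 := by
    intro h0
    have := congrArg D.φ h0
    rw [D.inv, map_zero] at this
    exact ht this
  obtain ⟨j₀, hj₀⟩ : ∃ j₀ : Fin k, j₀ = ⟨0, hk⟩ := ⟨_, rfl⟩
  have hsub : ∀ j : Fin k, j = j₀ := by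
    intro j
    apply Fin.ext
    have := j.2
    rw [hj₀]
    show (j : ℕ) = 0
    omega
  have hb : ∀ b : Fin k → F, b = b j₀ • Pi.single j₀ 1 := by
    intro b
    funext j
    rw [hsub j]
    simp
  have hιb : ∀ b : Fin k → F, ι b = b j₀ • (wv j₀ : Fin (k + 2) → F) := by
    intro b
    conv_lhs => rw [hb b]
    rw [ι_smul]
    rfl
  obtain ⟨ρ, hρe, hρf, hρι⟩ := exists_torus Fr j₀ ht
  have hρι' : ∀ b : Fin k → F, mv ρ (ι b) = (D.φ t / t) • ι b := by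
    intro b
    rw [hρι, hιb b]
    module
  obtain ⟨g', hg'⟩ := pr_surjective (α (pr ρ))
  have h1 : R D (mv g' Fr.e) = R D Fr.e := by
    rw [← conj_R D Fr.he, hg', conj_image, inv_image α hα, conj_R D Fr.he, hρe,
      R_smul D Fr.he ht, hα]
  have h2 : R D (mv g' Fr.f) = R D Fr.f := by
    rw [← conj_R D Fr.hf, hg', conj_image, inv_image α hαf, conj_R D Fr.hf, hρf,
      R_smul D Fr.hf (inv_ne_zero hφt), hαf]
  obtain ⟨t', ht'0, ht'⟩ := parallel_of_R_eq D p hF hn (fun h0 => Fr.e_ne (mv_eq_zero h0))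
    (by rw [h_mv, Fr.he]) Fr.he h1
  obtain ⟨s', hs'0, hs'⟩ := parallel_of_R_eq D p hF hn (fun h0 => Fr.f_ne (mv_eq_zero h0))
    (by rw [h_mv, Fr.hf]) Fr.hf h2
  have ht'' : mv g'⁻¹ Fr.e = t'⁻¹ • Fr.e := by
    apply mv_injective g'
    rw [mv_mv_inv, mv_smul, ht', smul_smul, inv_mul_cancel₀ ht'0, one_smul]
  have hs'' : mv g'⁻¹ Fr.f = s'⁻¹ • Fr.f := by
    apply mv_injective g'
    rw [mv_mv_inv, mv_smul, hs', smul_smul, inv_mul_cancel₀ hs'0, one_smul]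
  have hperp : ∀ b : Fin k → F, mv g' (ι b) = ι (πW (mv g' (ι b))) := by
    intro b
    apply Fr.eq_ι_of_perp
    · rw [h_mv_left, ht'', D.h_smul_right, Fr.h_ι_e, mul_zero]
    · rw [h_mv_left, hs'', D.h_smul_right, Fr.h_ι_f, mul_zero]
  obtain ⟨l', hl'⟩ : ∃ l' : F, l' = πW (mv g' (wv j₀)) j₀ := ⟨_, rfl⟩
  have hg'ι : ∀ b : Fin k → F, mv g' (ι b) = l' • ι b := by
    intro b
    have h3 : mv g' (wv j₀) = l' • (wv j₀ : Fin (k + 2) → F) := by
      have h4 := hperp (Pi.single j₀ 1)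
      have h5 : (wv j₀ : Fin (k + 2) → F) = ι (Pi.single j₀ 1) := rfl
      rw [← h5] at h4
      rw [h4, hιb (πW (mv g' (wv j₀))), ← hl']
    rw [hιb b, mv_smul, h3, smul_smul, smul_smul, mul_comm]
  refine ⟨D.φ t' * l', fun a => ?_⟩
  obtain ⟨c, hc⟩ := D.exists_c a
  have H : Ok' D a c := hc
  obtain ⟨H1, h5⟩ := hC a c H
  -- the left side
  have H2 : Ok D Fr.e ((D.φ t / t) • ι a) c := by
    have h6 := Ok_conj D (Fr.Ok_u H) ρ
    rw [hρe, hρι'] at h6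
    have h7 := Ok_smul D t⁻¹ h6
    rwa [smul_smul, inv_mul_cancel₀ ht, one_smul] at h7
  have e6 : D.φ t • ((D.φ t / t) • ι a) = ι ((D.φ t ^ 2 / t) • a) := by
    rw [smul_smul, ← ι_smul]
    congr 2
    field_simp
  have H3 : Ok' D ((D.φ t ^ 2 / t) • a) (t * D.φ t * c) := by
    have h6 := (Ok_smul' D t H2).2.2
    rwa [e6, h_ι_ι] at h6
  have e7 : ρ * Fr.u a c * ρ⁻¹ = Fr.u ((D.φ t ^ 2 / t) • a) (t * D.φ t * c) := by
    unfold Frame.u
    rw [E_conj D (Fr.Ok_u H), hρe, hρι', E_smul D t H2, e6]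
  -- the right side
  have H4 : Ok D Fr.e (l' • ι (A a)) (Cc a c) := by
    have h6 := Ok_conj D (Fr.Ok_u H1) g'
    rw [ht', hg'ι] at h6
    have h7 := Ok_smul D t'⁻¹ h6
    rwa [smul_smul, inv_mul_cancel₀ ht'0, one_smul] at h7
  have e8 : D.φ t' • (l' • ι (A a)) = ι ((D.φ t' * l') • A a) := by
    rw [smul_smul, ← ι_smul]
  have H5 : Ok' D ((D.φ t' * l') • A a) (t' * D.φ t' * Cc a c) := by
    have h6 := (Ok_smul' D t' H4).2.2
    rwa [e8, h_ι_ι] at h6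
  have e9 : g' * Fr.u (A a) (Cc a c) * g'⁻¹
      = Fr.u ((D.φ t' * l') • A a) (t' * D.φ t' * Cc a c) := by
    unfold Frame.u
    rw [E_conj D (Fr.Ok_u H1), ht', hg'ι, E_smul D t' H4, e8]
  obtain ⟨H6, h10⟩ := hC _ _ H3
  have h11 : α (pr (ρ * Fr.u a c * ρ⁻¹)) = pr (g' * Fr.u (A a) (Cc a c) * g'⁻¹) := by
    rw [map_mul, map_mul, map_inv, map_mul, map_mul, map_inv, h5, ← hg', ← map_inv, ← map_mul,
      ← map_mul]
  rw [e7, e9, h10] at h11
  exact (u_inj Fr hF p hk H6 H5 h11).1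

include hF p hk in
/-- the coordinate map of an automorphism normalising `R e` and `R f` is semilinear -/
theorem exists_semilinear (hC : Coord Fr α A Cc) (hα : α '' R D Fr.e = R D Fr.e)
    (hαf : α '' R D Fr.f = R D Fr.f) (hs : ¬(k = 1 ∧ q = 2)) :
    ∃ σ : RingAut F, ∀ (x : F) (a : Fin k → F), A (x • a) = σ x • A a := by
  have hα' := inv_image α hα
  have hαf' := inv_image α hαf
  obtain ⟨A', Cc', hC'⟩ := exists_coord Fr hF p hk hα'
  have hadd := coord_add hF p hk hC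
  have hA' := coord_inv_left hF p hk hC hC'
  have hinj : Function.Injective A := Function.LeftInverse.injective hA'
  have hsc : ∀ x : F, ∃ μ : F, ∀ a, A (x • a) = μ • A a := by
    by_cases hk2 : 2 ≤ k
    · exact scalar_of_lines hk2 hadd hA' (lines hF p hk hC hαf) (lines hF p hk hC' hαf')
    · have hk1 : k = 1 := by omega
      have hq : q ≠ 2 := fun h => hs ⟨hk1, h⟩
      exact scalar_of_torus D hadd (fun t ht => torus hF p hk hC hα hαf hk1 ht)
        (exists_tau D hF hq)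
  exact exists_sigma hk hadd hinj hsc

end Cfsg.Agent.Lib.Helper43.SUCell3
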