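import Mathlib
import Cfsg.Agent.Lib.Helper43.SUAuts
import Cfsg.Agent.Lib.Helper43.H90Fin

set_option autoImplicit false

namespace Cfsg.Agent.Lib.Helper43.SUField

open Cfsg.Agent.Lib.Helper43.SUBase Cfsg.Agent.Lib.Helper43.SUAuts
  Cfsg.Agent.Lib.Helper43.H90GL Cfsg.Agent.Lib.Helper43.H90Fin

variable {F : Type*} [Field F] {q : ℕ}

/-- the fixed field of `σ` is a quadratic extension of its part fixed by the involution -/
structure Sub (D : QD F q) (σ : RingAut F) : Prop where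
  nfx : ∃ x, σ x = x ∧ D.φ x ≠ x
  nrm : ∀ a, σ a = a → D.φ a = a → ∃ c, σ c = c ∧ c * D.φ c = a

theorem pow_odd_eq {y : F} {q₀ : ℕ} (hy : y ^ (q₀ ^ 2) = y) (k : ℕ) :
    y ^ (q₀ ^ (2 * k + 1)) = y ^ q₀ := by
  induction k with
  | zero => rw [mul_zero, zero_add, pow_one]
  | succ k ih =>
    have h1 : q₀ ^ (2 * (k + 1) + 1) = q₀ ^ 2 * q₀ ^ (2 * k + 1) := by
      rw [← pow_add]
      congr 1
      ring
    rw [h1, pow_mul, hy, ih]

theorem sub_of_card [Finite F] (D : QD F q) (σ : RingAut F) {q₀ : ℕ} (hodd : Odd (orderOf σ))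
    (hq : q = q₀ ^ orderOf σ) (hc : Nat.card (fixF σ) = q₀ ^ 2) : Sub D σ := by
  haveI := Fintype.ofFinite (fixF σ)
  have hF₀ : Fintype.card (fixF σ) = q₀ ^ 2 := by rw [← Nat.card_eq_fintype_card, hc]
  obtain ⟨D₀⟩ := exists_qd hF₀
  obtain ⟨k, hk⟩ := hodd
  have key : ∀ x : fixF σ, ((D₀.φ x : fixF σ) : F) = D.φ (x : F) := by
    intro x
    have h1 := FiniteField.pow_card x
    rw [hF₀] at h1
    have h2 : (x : F) ^ (q₀ ^ 2) = x := congrArg Subtype.val h1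
    rw [D.hφ, D₀.hφ, hq, hk, pow_odd_eq h2 k]
    rfl
  constructor
  · obtain ⟨x, hx⟩ := D₀.ne
    refine ⟨(x : F), (mem_fixF σ _).1 x.2, fun h => hx ?_⟩
    apply Subtype.ext
    rw [key, h]
  · intro a ha hφa
    have h1 : D₀.φ (⟨a, (mem_fixF σ a).2 ha⟩ : fixF σ) = ⟨a, (mem_fixF σ a).2 ha⟩ := by
      apply Subtype.ext
      rw [key]
      exact hφa
    obtain ⟨c, hc⟩ := D₀.nm _ h1
    refine ⟨(c : F), (mem_fixF σ _).1 c.2, ?_⟩
    rw [← key]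
    exact congrArg Subtype.val hc

variable {D : QD F q} {σ : RingAut F}

theorem Sub.exists_skew (S : Sub D σ) : ∃ z, z ≠ 0 ∧ σ z = z ∧ D.φ z = -z := by
  obtain ⟨x, hx, hne⟩ := S.nfx
  refine ⟨x - D.φ x, fun h0 => hne (sub_eq_zero.1 h0).symm, ?_, ?_⟩
  · rw [map_sub, ← φ_map, hx]
  · rw [map_sub, D.inv]
    ring

/-- Hilbert 90 for the quadratic extension inside the fixed field -/
theorem Sub.quad_h90 (S : Sub D σ) {ε : F} (hσ : σ ε = ε) (hε : ε * D.φ ε = 1) :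
    ∃ η, η ≠ 0 ∧ σ η = η ∧ ε * D.φ η = η := by
  by_cases h : ε = -1
  · obtain ⟨z, hz0, hσz, hz⟩ := S.exists_skew
    refine ⟨z, hz0, hσz, ?_⟩
    rw [h, hz]
    ring
  · refine ⟨1 + ε, ?_, ?_, ?_⟩
    · intro h0
      apply h
      linear_combination h0
    · rw [map_add, map_one, hσ]
    · rw [map_add, map_one]
      linear_combination hε

theorem nm_φ (D : QD F q) (σ : RingAut F) (a : F) (k : ℕ) :
    nm σ (D.φ a) k = D.φ (nm σ a k) := by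
  unfold nm
  rw [map_prod]
  apply Finset.prod_congr rfl
  intro i _
  exact (φ_map D (σ ^ i) a).symm

theorem nm_inv (σ : RingAut F) (a : F) (k : ℕ) : nm σ a⁻¹ k = (nm σ a k)⁻¹ := by
  unfold nm
  rw [← Finset.prod_inv_distrib]
  apply Finset.prod_congr rfl
  intro i _
  rw [map_inv₀]

/-- Hilbert 90 for the norm one group -/
theorem Sub.h90_norm_one (S : Sub D σ) (hpos : 0 < orderOf σ) {l : F} (hl : l * D.φ l = 1)
    (hN : nm σ l (orderOf σ) = 1) : ∃ μ, μ * D.φ μ = 1 ∧ l * σ μ = μ := by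
  obtain ⟨μ₀, hμ₀, h1⟩ := h90 σ hpos l hN
  have hφμ₀ : D.φ μ₀ ≠ 0 := by
    intro h0
    have := congrArg D.φ h0
    rw [D.inv, map_zero] at this
    exact hμ₀ this
  have ha : σ (μ₀ * D.φ μ₀) = μ₀ * D.φ μ₀ := by
    have h2 : D.φ l * σ (D.φ μ₀) = D.φ μ₀ := by
      rw [← φ_map, ← map_mul, h1]
    rw [map_mul]
    calc σ μ₀ * σ (D.φ μ₀) = (l * D.φ l) * (σ μ₀ * σ (D.φ μ₀)) := by rw [hl, one_mul]
      _ = (l * σ μ₀) * (D.φ l * σ (D.φ μ₀)) := by ring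
      _ = μ₀ * D.φ μ₀ := by rw [h1, h2]
  have ha0 : μ₀ * D.φ μ₀ ≠ 0 := mul_ne_zero hμ₀ hφμ₀
  obtain ⟨c, hσc, hc⟩ := S.nrm (μ₀ * D.φ μ₀)⁻¹ (by rw [map_inv₀, ha])
    (by rw [map_inv₀, D.nm_fixed])
  refine ⟨μ₀ * c, ?_, ?_⟩
  · rw [map_mul]
    have h3 : μ₀ * c * (D.φ μ₀ * D.φ c) = (μ₀ * D.φ μ₀) * (c * D.φ c) := by ring
    rw [h3, hc, mul_inv_cancel₀ ha0]
  · rw [map_mul, hσc, ← mul_assoc, h1]

/-- surjectivity of the norm on the norm one group -/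
theorem Sub.norm_one_surj [Finite F] (S : Sub D σ) {t : F} (hσt : σ t = t)
    (ht : t * D.φ t = 1) : ∃ μ, μ * D.φ μ = 1 ∧ nm σ μ (orderOf σ) = t := by
  have hpos := orderOf_pos_ringAut σ
  have ht0 : t ≠ 0 := by
    rintro rfl
    rw [zero_mul] at ht
    exact zero_ne_one ht
  obtain ⟨μ₀, hμ₀, h1⟩ := norm_surj σ t ht0 hσt
  have hφμ₀ : D.φ μ₀ ≠ 0 := by
    intro h0
    have := congrArg D.φ h0
    rw [D.inv, map_zero] at this
    exact hμ₀ this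
  obtain ⟨a, ha⟩ : ∃ a : F, a = μ₀ * D.φ μ₀ := ⟨_, rfl⟩
  have ha0 : a ≠ 0 := by
    rw [ha]
    exact mul_ne_zero hμ₀ hφμ₀
  have hφa : D.φ a = a := by rw [ha, D.nm_fixed]
  have hNa : nm σ a (orderOf σ) = 1 := by
    rw [ha, nm_mul, nm_φ, h1, ht]
  obtain ⟨b, hb0, hb⟩ := h90 σ hpos a hNa
  have hφb : D.φ b ≠ 0 := by
    intro h0
    have := congrArg D.φ h0
    rw [D.inv, map_zero] at this
    exact hb0 this
  have hb' : a * σ (D.φ b) = D.φ b := by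
    have h2 := congrArg D.φ hb
    rw [map_mul, hφa, φ_map] at h2
    exact h2
  have hε1 : σ (D.φ b / b) = D.φ b / b := by
    rw [map_div₀]
    have hσb : σ b ≠ 0 := by
      intro h0
      rw [h0, mul_zero] at hb
      exact hb0 hb.symm
    rw [div_eq_div_iff hσb hb0]
    calc σ (D.φ b) * b = σ (D.φ b) * (a * σ b) := by rw [hb]
      _ = (a * σ (D.φ b)) * σ b := by ring
      _ = D.φ b * σ b := by rw [hb']
  have hε2 : D.φ b / b * D.φ (D.φ b / b) = 1 := by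
    rw [map_div₀, D.inv]
    field_simp
  obtain ⟨η, hη0, hση, hη⟩ := S.quad_h90 hε1 hε2
  obtain ⟨e, he⟩ : ∃ e : F, e = b * η := ⟨_, rfl⟩
  have he0 : e ≠ 0 := by
    rw [he]
    exact mul_ne_zero hb0 hη0
  have hφe : D.φ e = e := by
    rw [he, map_mul]
    have h2 : D.φ b * D.φ η = b * (D.φ b / b * D.φ η) := by
      field_simp
    rw [h2, hη]
  have hσe : a * σ e = e := by
    rw [he, map_mul, hση, ← mul_assoc, hb]
  obtain ⟨d, hd⟩ := D.nm e hφe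
  have hd0 : d ≠ 0 := by
    rintro rfl
    rw [zero_mul] at hd
    exact he0 hd.symm
  have hσd0 : σ d ≠ 0 := by
    intro h0
    rw [← map_zero σ] at h0
    exact hd0 (σ.injective h0)
  refine ⟨μ₀ * (σ d * d⁻¹), ?_, ?_⟩
  · have h3 : σ d * D.φ (σ d) = σ e := by
      rw [φ_map, ← map_mul, hd]
    have h4 : d⁻¹ * D.φ d⁻¹ = e⁻¹ := by
      rw [map_inv₀, ← _root_.mul_inv, hd]
    rw [map_mul, map_mul]
    have h5 : μ₀ * (σ d * d⁻¹) * (D.φ μ₀ * (D.φ (σ d) * D.φ d⁻¹))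
        = (μ₀ * D.φ μ₀) * (σ d * D.φ (σ d)) * (d⁻¹ * D.φ d⁻¹) := by ring
    rw [h5, h3, h4, ← ha, hσe, mul_inv_cancel₀ he0]
  · rw [nm_mul, nm_mul, nm_map, σ_nm σ d hd0, nm_inv, h1,
      mul_inv_cancel₀ (nm_ne_zero σ d hd0 _), mul_one]

end Cfsg.Agent.Lib.Helper43.SUField
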