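import Mathlib
import Cfsg.Agent.Lib.Helper43.SUCell3

set_option autoImplicit false

namespace Cfsg.Agent.Lib.Helper43.SUNorm

open Matrix Cfsg.Agent.Lib.Helper43.SUBase Cfsg.Agent.Lib.Helper43.SUElt
  Cfsg.Agent.Lib.Helper43.SUAuts Cfsg.Agent.Lib.Helper43.SUGeom
  Cfsg.Agent.Lib.Helper43.SUFrame Cfsg.Agent.Lib.Helper43.SUSyl
  Cfsg.Agent.Lib.Helper43.SUCell1 Cfsg.Agent.Lib.Helper43.SUCell2
  Cfsg.Agent.Lib.Helper43.SUCell3
open Cfsg.Agent.Lib.Helper43.SUAlg (Ok' similarity cc_eq φ_symm map_zero_of_add)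

variable {F : Type*} [Field F] {q k : ℕ} {D : QD F q}

theorem image_mul_aut {G : Type*} [Group G] (α β : MulAut G) (S : Set G) :
    (α * β) '' S = α '' (β '' S) := by
  rw [Set.image_image]
  rfl

theorem map_ι (σ : RingAut F) (a : Fin k → F) :
    (fun i => σ (ι a i)) = ι (fun j => σ (a j)) := by
  funext i
  refine Fin.addCases (fun j => ?_) (fun j => ?_) i
  · rw [ι_castAdd, ι_castAdd]
  · rw [ι_natAdd, ι_natAdd, map_zero]

/-- the image of a frame under a field automorphism -/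
def fmap (Fr : Frame D k) (σ : RingAut F) : Frame D k where
  e := fun i => σ (Fr.e i)
  f := fun i => σ (Fr.f i)
  he := by rw [h_map, Fr.he, map_zero]
  hf := by rw [h_map, Fr.hf, map_zero]
  hfe := by rw [h_map, Fr.hfe, map_one]
  eW := by
    funext j
    show σ (πW Fr.e j) = 0
    rw [Fr.eW]
    exact map_zero σ
  fW := by
    funext j
    show σ (πW Fr.f j) = 0
    rw [Fr.fW]
    exact map_zero σ
  dec := by
    intro x
    have h1 := Fr.dec (fun i => σ.symm (x i))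
    have hx : x = fun i => σ ((fun j => σ.symm (x j)) i) := by
      funext i
      exact (σ.apply_symm_apply (x i)).symm
    have h2 : D.h x (fun i => σ (Fr.f i)) = σ (D.h (fun i => σ.symm (x i)) Fr.f) := by
      conv_lhs => rw [hx]
      exact h_map D σ _ _
    have h3 : D.h x (fun i => σ (Fr.e i)) = σ (D.h (fun i => σ.symm (x i)) Fr.e) := by
      conv_lhs => rw [hx]
      exact h_map D σ _ _
    rw [h2, h3]
    funext i
    have h4 : x i = σ ((D.h (fun i => σ.symm (x i)) Fr.f • Fr.e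
        + D.h (fun i => σ.symm (x i)) Fr.e • Fr.f + ι (πW fun i => σ.symm (x i))) i) := by
      rw [← h1]
      exact (σ.apply_symm_apply (x i)).symm
    have h5 : σ (ι (πW fun i => σ.symm (x i)) i) = ι (πW x) i := by
      have h6 := congrFun (map_ι σ (πW fun i => σ.symm (x i))) i
      have h7 : (fun j => σ ((πW fun i => σ.symm (x i)) j)) = πW x := by
        funext j
        exact σ.apply_symm_apply _
      rw [h7] at h6
      exact h6
    rw [h4]
    simp only [Pi.add_apply, Pi.smul_apply, smul_eq_mul, map_add, map_mul]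
    rw [h5]

theorem fmap_e (Fr : Frame D k) (σ : RingAut F) : (fmap Fr σ).e = fun i => σ (Fr.e i) := rfl

theorem fmap_f (Fr : Frame D k) (σ : RingAut F) : (fmap Fr σ).f = fun i => σ (Fr.f i) := rfl

theorem h_dec (Fr : Frame D k) (x y : Fin (k + 2) → F) :
    D.h x y = D.h x Fr.f * D.φ (D.h y Fr.e) + D.h x Fr.e * D.φ (D.h y Fr.f)
      + D.h (πW x) (πW y) := by
  conv_lhs => rw [Fr.dec x, Fr.dec y]
  simp only [D.h_add_left, D.h_add_right, D.h_smul_left, D.h_smul_right, Fr.he, Fr.hf, Fr.hef,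
    Fr.hfe, Fr.h_ι_e, Fr.h_ι_f, Fr.h_e_ι, Fr.h_f_ι, h_ι_ι]
  ring

/-- the linear map attached to a semilinear similarity -/
def Gmap (Fr : Frame D k) (σ : RingAut F) (A : (Fin k → F) → (Fin k → F)) (t : F)
    (hadd : ∀ a b, A (a + b) = A a + A b)
    (hsl : ∀ (x : F) (a : Fin k → F), A (x • a) = σ x • A a) :
    (Fin (k + 2) → F) →ₗ[F] (Fin (k + 2) → F) where
  toFun y := (t * D.h y (fmap Fr σ).f) • Fr.e + ((D.φ t)⁻¹ * D.h y (fmap Fr σ).e) • Fr.f
    + (D.φ t)⁻¹ • ι (A (fun j => σ.symm (πW y j)))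
  map_add' y y' := by
    have h1 : (fun j => σ.symm (πW (y + y') j))
        = (fun j => σ.symm (πW y j)) + (fun j => σ.symm (πW y' j)) := by
      funext j
      exact map_add σ.symm _ _
    simp only [D.h_add_left, h1, hadd, ι_add]
    module
  map_smul' c y := by
    have h1 : (fun j => σ.symm (πW (c • y) j)) = σ.symm c • (fun j => σ.symm (πW y j)) := by
      funext j
      exact map_mul σ.symm _ _
    simp only [D.h_smul_left, h1, hsl, RingEquiv.apply_symm_apply, ι_smul, RingHom.id_apply]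
    module

theorem Gmap_apply (Fr : Frame D k) (σ : RingAut F) (A : (Fin k → F) → (Fin k → F)) (t : F)
    (hadd : ∀ a b, A (a + b) = A a + A b)
    (hsl : ∀ (x : F) (a : Fin k → F), A (x • a) = σ x • A a) (y : Fin (k + 2) → F) :
    Gmap Fr σ A t hadd hsl y
      = (t * D.h y (fmap Fr σ).f) • Fr.e + ((D.φ t)⁻¹ * D.h y (fmap Fr σ).e) • Fr.f
        + (D.φ t)⁻¹ • ι (A (fun j => σ.symm (πW y j))) := rfl

theorem Gmap_pres (Fr : Frame D k) (σ : RingAut F) (A : (Fin k → F) → (Fin k → F)) (t : F)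
    (hadd : ∀ a b, A (a + b) = A a + A b)
    (hsl : ∀ (x : F) (a : Fin k → F), A (x • a) = σ x • A a) {ν : F}
    (ht : t * D.φ t = σ ν) (hν0 : ν ≠ 0)
    (hsim : ∀ a b, D.h (A a) (A b) = σ (ν * D.h a b)) (y y' : Fin (k + 2) → F) :
    D.h (Gmap Fr σ A t hadd hsl y) (Gmap Fr σ A t hadd hsl y') = D.h y y' := by
  have hσν : σ ν ≠ 0 := by
    intro h0
    rw [← map_zero σ] at h0
    exact hν0 (σ.injective h0)
  have ht0 : t ≠ 0 := by
    rintro rfl
    rw [zero_mul] at ht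
    exact hσν ht.symm
  have hφt : D.φ t ≠ 0 := by
    intro h0
    rw [h0, mul_zero] at ht
    exact hσν ht.symm
  obtain ⟨s, hs⟩ : ∃ s : F, s = (D.φ t)⁻¹ := ⟨_, rfl⟩
  have hst : s * D.φ t = 1 := by rw [hs, inv_mul_cancel₀ hφt]
  have hts : t * D.φ s = 1 := by rw [hs, map_inv₀, D.inv, mul_inv_cancel₀ ht0]
  have e1 : D.h (A (fun j => σ.symm (πW y j))) (A (fun j => σ.symm (πW y' j)))
      = t * D.φ t * D.h (πW y) (πW y') := by
    rw [hsim, map_mul, ← ht, ← h_map D σ]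
    have h7 : (fun j => σ (σ.symm (πW y j))) = πW y := by
      funext j
      exact σ.apply_symm_apply _
    have h8 : (fun j => σ (σ.symm (πW y' j))) = πW y' := by
      funext j
      exact σ.apply_symm_apply _
    rw [h7, h8]
  rw [h_dec (fmap Fr σ) y y', Gmap_apply, Gmap_apply, ← hs]
  simp only [D.h_add_left, D.h_add_right, D.h_smul_left, D.h_smul_right, Fr.he, Fr.hf, Fr.hef,
    Fr.hfe, Fr.h_ι_e, Fr.h_ι_f, Fr.h_e_ι, Fr.h_f_ι, h_ι_ι, e1, map_mul]
  linear_combination (D.h y (fmap Fr σ).f * D.φ (D.h y' (fmap Fr σ).e)) * hts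
    + (D.h y (fmap Fr σ).e * D.φ (D.h y' (fmap Fr σ).f)) * hst
    + D.h (πW y) (πW y') * ((t * D.φ s) * hst + hts)

theorem exists_GU (Fr : Frame D k) (σ : RingAut F) (A : (Fin k → F) → (Fin k → F)) (t : F)
    (hadd : ∀ a b, A (a + b) = A a + A b)
    (hsl : ∀ (x : F) (a : Fin k → F), A (x • a) = σ x • A a) {ν : F}
    (ht : t * D.φ t = σ ν) (hν0 : ν ≠ 0)
    (hsim : ∀ a b, D.h (A a) (A b) = σ (ν * D.h a b)) :
    ∃ g : ↥(Cfsg.GU (k + 2) F q), ∀ y, gv g y = Gmap Fr σ A t hadd hsl y := by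
  have hMv : ∀ y, LinearMap.toMatrix' (Gmap Fr σ A t hadd hsl) *ᵥ y
      = Gmap Fr σ A t hadd hsl y := by
    intro y
    rw [← Matrix.toLin'_apply, Matrix.toLin'_toMatrix']
  refine ⟨Cfsg.Agent.Lib.Helper45.GUCard.mkGU D.φ D.hφ
    (LinearMap.toMatrix' (Gmap Fr σ A t hadd hsl)) ?_, ?_⟩
  · intro u v
    rw [hMv, hMv]
    exact Gmap_pres Fr σ A t hadd hsl ht hν0 hsim u v
  · intro y
    exact hMv y

variable [Fintype F] (hF : Fintype.card F = q ^ 2) (p : ℕ) [Fact p.Prime] [CharP F p]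
  (hk : 1 ≤ k)
variable {Fr : Frame D k} {α : MulAut (Cfsg.PSU (k + 2) F q)}

include hF p hk in
/-- an automorphism normalising `R e` and `R f` agrees on `U e` with a semilinear one -/
theorem exists_norm (hα : α '' R D Fr.e = R D Fr.e) (hαf : α '' R D Fr.f = R D Fr.f)
    (hs : ¬(k = 1 ∧ q = 2)) :
    ∃ (g : ↥(Cfsg.GU (k + 2) F q)) (σ : RingAut F) (α' : MulAut (Cfsg.PSU (k + 2) F q)),
      α' = (cGU g * cσ σ)⁻¹ * α ∧ α' '' R D Fr.e = R D Fr.e ∧ α' '' R D Fr.f = R D Fr.f ∧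
      ∀ a c, Ok' D a c → α' (pr (Fr.u a c)) = pr (Fr.u a c) := by
  obtain ⟨A, Cc, hC⟩ := exists_coord Fr hF p hk hα
  obtain ⟨σ, hsl⟩ := exists_semilinear hF p hk hC hα hαf hs
  have hadd := coord_add hF p hk hC
  obtain ⟨ν, hν0, hνφ, hsim, hZ⟩ := similarity D (Z := fun z => Cc 0 z) hk hsl
    (coord_comm hF p hk hC) (fun z hz h0 => coord_Z_inj hF p hk hC hz h0)
  have hσν : D.φ (σ ν) = σ ν := by rw [φ_map, hνφ]
  obtain ⟨t, ht⟩ := D.nm (σ ν) hσν
  have hσν0 : σ ν ≠ 0 := by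
    intro h0
    rw [← map_zero σ] at h0
    exact hν0 (σ.injective h0)
  have ht0 : t ≠ 0 := by
    rintro rfl
    rw [zero_mul] at ht
    exact hσν0 ht.symm
  have hφt : D.φ t ≠ 0 := by
    intro h0
    rw [h0, mul_zero] at ht
    exact hσν0 ht.symm
  obtain ⟨g, hg⟩ := exists_GU Fr σ A t hadd hsl ht hν0 hsim
  have hA0 : A 0 = 0 := map_zero_of_add hadd
  have hσ0 : (fun j => σ.symm ((0 : Fin k → F) j)) = 0 := by
    funext j
    exact map_zero σ.symm
  have hge : gv g (fun i => σ (Fr.e i)) = t • Fr.e := by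
    rw [hg, Gmap_apply, ← fmap_e, (fmap Fr σ).hef, (fmap Fr σ).he, (fmap Fr σ).eW, hσ0, hA0,
      ι_zero]
    module
  have hgf : gv g (fun i => σ (Fr.f i)) = (D.φ t)⁻¹ • Fr.f := by
    rw [hg, Gmap_apply, ← fmap_f, (fmap Fr σ).hfe, (fmap Fr σ).hf, (fmap Fr σ).fW, hσ0, hA0,
      ι_zero]
    module
  have hgι : ∀ a : Fin k → F, gv g (fun i => σ (ι a i)) = (D.φ t)⁻¹ • ι (A a) := by
    intro a
    have h1 : (fun j => σ.symm (πW (ι (fun j => σ (a j))) j)) = a := by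
      rw [πW_ι]
      funext j
      exact σ.symm_apply_apply _
    rw [hg, Gmap_apply, map_ι, (fmap Fr σ).h_ι_f, (fmap Fr σ).h_ι_e, h1]
    module
  obtain ⟨α₁, hα₁⟩ : ∃ α₁ : MulAut (Cfsg.PSU (k + 2) F q), α₁ = cGU g * cσ σ := ⟨_, rfl⟩
  have hN1 : ∀ a c, Ok' D a c → α₁ (pr (Fr.u a c)) = pr (Fr.u (A a) (σ ν * σ c)) := by
    intro a c H
    have H1 := Ok_map D (Fr.Ok_u H) σ
    have H2 := Ok_gv D H1 g
    rw [hge, hgι] at H2
    have H3 := Ok_smul D t⁻¹ H2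
    rw [smul_smul, inv_mul_cancel₀ ht0, one_smul] at H3
    have e1 : D.φ t • ((D.φ t)⁻¹ • ι (A a)) = ι (A a) := by
      rw [smul_smul, mul_inv_cancel₀ hφt, one_smul]
    rw [hα₁, MulAut.mul_apply]
    unfold Frame.u
    rw [cσ_E D (Fr.Ok_u H) σ, cGU_E D H1 g, hge, hgι, E_smul D t H3, e1, ht]
  have hN2 : α₁ '' R D Fr.e = R D Fr.e := by
    rw [hα₁, image_mul_aut, cσ_R D Fr.he, cGU_R D (by rw [h_map, Fr.he, map_zero]), hge,
      R_smul D Fr.he ht0]
  have hN3 : α₁ '' R D Fr.f = R D Fr.f := by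
    rw [hα₁, image_mul_aut, cσ_R D Fr.hf, cGU_R D (by rw [h_map, Fr.hf, map_zero]), hgf,
      R_smul D Fr.hf (inv_ne_zero hφt)]
  obtain ⟨α', hα'⟩ : ∃ α' : MulAut (Cfsg.PSU (k + 2) F q), α' = α₁⁻¹ * α := ⟨_, rfl⟩
  have hα'e : α' '' R D Fr.e = R D Fr.e := by
    rw [hα', image_mul_aut, hα, inv_image α₁ hN2]
  have hα'f : α' '' R D Fr.f = R D Fr.f := by
    rw [hα', image_mul_aut, hαf, inv_image α₁ hN3]
  -- coordinates of `α'`
  have hC' : Coord Fr α' id (fun a c => ν⁻¹ * σ.symm (Cc a c)) := by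
    intro a c H
    obtain ⟨H1, h2⟩ := hC a c H
    have e2 : σ ν * σ (ν⁻¹ * σ.symm (Cc a c)) = Cc a c := by
      rw [map_mul, σ.apply_symm_apply, ← mul_assoc, ← map_mul, mul_inv_cancel₀ hν0, map_one,
        one_mul]
    have H3 : Ok' D a (ν⁻¹ * σ.symm (Cc a c)) := by
      unfold Ok' at H1 ⊢
      rw [hsim] at H1
      have h3 := congrArg σ.symm H1
      rw [map_add, map_add, σ.symm_apply_apply, map_zero, ← φ_symm D σ.symm] at h3
      rw [map_mul, map_inv₀, hνφ]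
      have h4 : ν⁻¹ * (σ.symm (Cc a c) + D.φ (σ.symm (Cc a c)) + ν * D.h a a) = 0 := by
        rw [h3, mul_zero]
      rw [mul_add, mul_add, ← mul_assoc, inv_mul_cancel₀ hν0, one_mul] at h4
      exact h4
    refine ⟨H3, ?_⟩
    have h5 := hN1 a _ H3
    rw [e2] at h5
    rw [hα', MulAut.mul_apply, h2, ← h5]
    exact MulAut.inv_apply_self _ α₁ _
  have hCc : ∀ a c, Ok' D a c → ν⁻¹ * σ.symm (Cc a c) = c := by
    apply cc_eq D (Cc := fun a c => ν⁻¹ * σ.symm (Cc a c))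
    · intro a c H
      exact (hC' a c H).1
    · intro a c b d H H'
      exact (coord_mul hF p hk hC' H H').2
    · intro z hz
      show ν⁻¹ * σ.symm (Cc 0 z) = z
      rw [hZ z hz, σ.symm_apply_apply, ← mul_assoc, inv_mul_cancel₀ hν0, one_mul]
    · intro a c x H hc0 hx0 H'
      exact block hF p hk hC' hα'f a c x H hc0 hx0 H'
  refine ⟨g, σ, α', ?_, hα'e, hα'f, ?_⟩
  · rw [hα', hα₁]
  · intro a c H
    have h6 : α' (pr (Fr.u a c)) = pr (Fr.u a (ν⁻¹ * σ.symm (Cc a c))) := (hC' a c H).2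
    rw [hCc a c H] at h6
    exact h6

end Cfsg.Agent.Lib.Helper43.SUNorm
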