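import Mathlib
import Cfsg.Agent.Lib.Helper43.SUNorm

set_option autoImplicit false

namespace Cfsg.Agent.Lib.Helper43.SUFinal

open Matrix Cfsg.Agent.Lib.Helper43.SUBase Cfsg.Agent.Lib.Helper43.SUElt
  Cfsg.Agent.Lib.Helper43.SUAuts Cfsg.Agent.Lib.Helper43.SUGeom
  Cfsg.Agent.Lib.Helper43.SUFrame Cfsg.Agent.Lib.Helper43.SUSyl
  Cfsg.Agent.Lib.Helper43.SUCell1 Cfsg.Agent.Lib.Helper43.SUCell2
  Cfsg.Agent.Lib.Helper43.SUCell3 Cfsg.Agent.Lib.Helper43.SUNorm
open Cfsg.Agent.Lib.Helper43.SUAlg (Ok')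

variable {F : Type*} [Field F] {q k : ℕ} {D : QD F q}

/-- isotropic vectors opposite to `e` -/
theorem pt_of_iso (Fr : Frame D k) {v : Fin (k + 2) → F} (hv : D.h v v = 0)
    (hve : D.h v Fr.e = 1) :
    Ok' D (πW v) (D.h v Fr.f) ∧ v = Fr.f + ι (πW v) + D.h v Fr.f • Fr.e := by
  constructor
  · have h1 := h_dec Fr v v
    rw [hv, hve, map_one] at h1
    unfold Ok'
    rw [h1]
    ring
  · have h2 := Fr.dec v
    rw [hve, one_smul] at h2
    conv_lhs => rw [h2]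
    abel

/-- a linear map fixing all isotropic points is a scalar -/
theorem scalar_of_fix_iso_lin (Fr : Frame D k) {L : (Fin (k + 2) → F) → (Fin (k + 2) → F)}
    (hadd : ∀ x y, L (x + y) = L x + L y) (hsm : ∀ (c : F) x, L (c • x) = c • L x)
    (H : ∀ v : Fin (k + 2) → F, v ≠ 0 → D.h v v = 0 → ∃ t : F, L v = t • v) :
    ∃ c : F, ∀ x, L x = c • x := by
  obtain ⟨l, hl⟩ := H Fr.e Fr.e_ne Fr.he
  obtain ⟨m, hm⟩ := H Fr.f Fr.f_ne Fr.hf
  obtain ⟨z, hz0, hz⟩ := D.exists_skew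
  have Hz : Ok' D (0 : Fin k → F) z := Frame.Ok'_skew hz
  have hml : m = l := by
    obtain ⟨t, ht⟩ := H _ (pt_ne Fr Hz) (pt_iso Fr Hz)
    rw [ι_zero, add_zero, hadd, hsm, hl, hm] at ht
    have h1 := congrArg (fun y => D.h y Fr.e) ht
    have h2 := congrArg (fun y => D.h y Fr.f) ht
    simp only [D.h_add_left, D.h_smul_left, Fr.he, Fr.hf, Fr.hef, Fr.hfe, mul_zero, mul_one,
      add_zero, zero_add] at h1 h2
    have h3 : z * (l - t) = 0 := by linear_combination h2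
    rcases mul_eq_zero.1 h3 with h4 | h4
    · exact absurd h4 hz0
    · rw [h1]
      exact (sub_eq_zero.1 h4).symm
  rw [hml] at hm
  have hι : ∀ a : Fin k → F, L (ι a) = l • ι a := by
    intro a
    obtain ⟨c, hc⟩ := D.exists_c a
    have H1 : Ok' D a c := hc
    have H2 : Ok' D a (c + z) := by
      unfold Ok' at H1 ⊢
      rw [map_add, hz]
      linear_combination H1
    obtain ⟨t₁, ht₁⟩ := H _ (pt_ne Fr H1) (pt_iso Fr H1)
    obtain ⟨t₂, ht₂⟩ := H _ (pt_ne Fr H2) (pt_iso Fr H2)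
    rw [hadd, hadd, hsm, hl, hm] at ht₁ ht₂
    have E1 : L (ι a) = t₁ • (Fr.f + ι a + c • Fr.e) - l • Fr.f - (c * l) • Fr.e := by
      rw [← ht₁]
      module
    have E2 : L (ι a)
        = t₂ • (Fr.f + ι a + (c + z) • Fr.e) - l • Fr.f - ((c + z) * l) • Fr.e := by
      rw [← ht₂]
      module
    have E3 := E1.symm.trans E2
    have h1 := congrArg (fun y => D.h y Fr.e) E3
    have h2 := congrArg (fun y => D.h y Fr.f) E3
    simp only [D.h_add_left, D.h_sub_left, D.h_smul_left, Fr.he, Fr.hf, Fr.hef, Fr.hfe,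
      Fr.h_ι_e, Fr.h_ι_f, mul_zero, mul_one, add_zero, zero_add, sub_zero] at h1 h2
    have h3 : t₁ = t₂ := by linear_combination h1
    rw [h3] at h2
    have h4 : z * (t₂ - l) = 0 := by linear_combination -h2
    rcases mul_eq_zero.1 h4 with h5 | h5
    · exact absurd h5 hz0
    · rw [E2, sub_eq_zero.1 h5]
      module
  refine ⟨l, fun x => ?_⟩
  conv_lhs => rw [Fr.dec x]
  rw [hadd, hadd, hsm, hsm, hl, hm, hι]
  conv_rhs => rw [Fr.dec x]
  module

/-- an element of `SU` fixing all isotropic points is a scalar -/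
theorem scalar_of_fix_iso (Fr : Frame D k) {s : ↥(Cfsg.SU (k + 2) F q)}
    (H : ∀ v : Fin (k + 2) → F, v ≠ 0 → D.h v v = 0 → ∃ t : F, mv s v = t • v) :
    ∃ c : F, ∀ x, mv s x = c • x :=
  scalar_of_fix_iso_lin Fr (mv_add s) (mv_smul s) H

variable [Fintype F] (hF : Fintype.card F = q ^ 2) (p : ℕ) [Fact p.Prime] [CharP F p]
  (hk : 1 ≤ k)
variable {Fr : Frame D k} {α : MulAut (Cfsg.PSU (k + 2) F q)}

include hF p hk in
/-- rigidity: an automorphism fixing `U e` pointwise and normalising `R f` is trivial -/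
theorem rigid (hαf : α '' R D Fr.f = R D Fr.f)
    (hU : ∀ a c, Ok' D a c → α (pr (Fr.u a c)) = pr (Fr.u a c)) : α = 1 := by
  classical
  have hn : 3 ≤ k + 2 := by omega
  have hC : Coord Fr α id (fun _ c => c) := fun a c H => ⟨H, hU a c H⟩
  -- stability of the points opposite to `e`
  have hpt : ∀ a c, Ok' D a c →
      α '' R D (Fr.f + ι a + c • Fr.e) = R D (Fr.f + ι a + c • Fr.e) :=
    fun a c H => image_R_pt hC hαf H
  have hst : ∀ v : Fin (k + 2) → F, D.h v v = 0 → D.h v Fr.e ≠ 0 → α '' R D v = R D v := by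
    intro v hv hve
    have hv' : D.h ((D.h v Fr.e)⁻¹ • v) ((D.h v Fr.e)⁻¹ • v) = 0 := by
      rw [D.h_smul_left, D.h_smul_right, hv, mul_zero, mul_zero]
    have hv'e : D.h ((D.h v Fr.e)⁻¹ • v) Fr.e = 1 := by
      rw [D.h_smul_left, inv_mul_cancel₀ hve]
    obtain ⟨H1, h2⟩ := pt_of_iso Fr hv' hv'e
    rw [← R_smul D hv (inv_ne_zero hve), h2]
    exact hpt _ _ H1
  -- `R f` is fixed pointwise
  have hRf : ∀ z : F, z + D.φ z = 0 → α (pr (T D Fr.f z)) = pr (T D Fr.f z) := by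
    intro z hz
    have h1 : α (pr (T D Fr.f z)) ∈ R D Fr.f := by
      rw [← hαf]
      exact ⟨_, ⟨z, hz, rfl⟩, rfl⟩
    obtain ⟨z', hz', h2⟩ := h1
    obtain ⟨j₀, -⟩ : ∃ j₀ : Fin k, j₀ = ⟨0, hk⟩ := ⟨_, rfl⟩
    obtain ⟨c₁, hc₁⟩ := D.exists_c (Pi.single j₀ (1 : F))
    have H1 : Ok' D (Pi.single j₀ (1 : F)) c₁ := hc₁
    rw [Cfsg.Agent.Lib.Helper43.SUAlg.h_single_single] at hc₁
    have hc₁0 : c₁ ≠ 0 := by
      rintro rfl
      rw [map_zero] at hc₁
      simp at hc₁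
    have hne : 1 + z * c₁ ≠ 0 := by
      intro h0
      have h3 : D.φ (1 + z * c₁) = 0 := by rw [h0, map_zero]
      rw [map_add, map_one, map_mul] at h3
      have hz0 : z = 0 := by linear_combination z * hc₁ - h0 + h3 - D.φ c₁ * hz
      rw [hz0] at h0
      simp at h0
    obtain ⟨y, hy⟩ : ∃ y : Fin (k + 2) → F, y = Fr.f + ι (Pi.single j₀ (1 : F)) + c₁ • Fr.e :=
      ⟨_, rfl⟩
    have hyy : D.h y y = 0 := by rw [hy]; exact pt_iso Fr H1
    have hyf : D.h y Fr.f = c₁ := by rw [hy]; exact pt_f Fr _ _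
    have hye : D.h y Fr.e = 1 := by rw [hy]; exact pt_e Fr _ _
    have hRy : α '' R D y = R D y := by rw [hy]; exact hpt _ _ H1
    have h4 : D.h (mv (T D Fr.f z) y) (mv (T D Fr.f z) y) = 0 := by rw [h_mv, hyy]
    have h5 : D.h (mv (T D Fr.f z) y) Fr.e = 1 + z * c₁ := by
      rw [mv_T D Fr.hf hz, D.h_add_left, D.h_smul_left, hye, hyf, Fr.hfe]
      ring
    have h6 := hst _ h4 (by rw [h5]; exact hne)
    rw [← conj_R D hyy, image_conj, h2, hRy, conj_R D hyy, conj_R D hyy] at h6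
    have h7 : mv (T D Fr.f z') y ≠ 0 := fun h0 => by
      have := mv_eq_zero h0
      rw [this, D.h_zero_left] at hye
      exact zero_ne_one hye
    obtain ⟨t, -, ht⟩ := parallel_of_R_eq D p hF hn h7 (by rw [h_mv, hyy])
      (by rw [h_mv, hyy]) h6
    rw [mv_T D Fr.hf hz', mv_T D Fr.hf hz, hyf] at ht
    have h8 := congrArg (fun x => D.h x Fr.f) ht
    have h9 := congrArg (fun x => D.h x Fr.e) ht
    simp only [D.h_add_left, D.h_smul_left, hyf, hye, Fr.hf, Fr.hfe, mul_zero, mul_one,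
      add_zero] at h8 h9
    have ht1 : t = 1 := by
      have h10 : c₁ * (t - 1) = 0 := by linear_combination -h8
      rcases mul_eq_zero.1 h10 with h11 | h11
      · exact absurd h11 hc₁0
      · exact sub_eq_zero.1 h11
    rw [ht1] at h9
    have hzz : z' = z := by
      have h10 : c₁ * (z' - z) = 0 := by linear_combination h9
      rcases mul_eq_zero.1 h10 with h11 | h11
      · exact absurd h11 hc₁0
      · exact sub_eq_zero.1 h11
    rw [h2, hzz]
  -- the root groups of the points opposite to `e` are fixed pointwise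
  have hfix : ∀ v : Fin (k + 2) → F, D.h v v = 0 → D.h v Fr.e ≠ 0 → ∀ y ∈ R D v, α y = y := by
    intro v hv hve y hy
    have hv' : D.h ((D.h v Fr.e)⁻¹ • v) ((D.h v Fr.e)⁻¹ • v) = 0 := by
      rw [D.h_smul_left, D.h_smul_right, hv, mul_zero, mul_zero]
    have hv'e : D.h ((D.h v Fr.e)⁻¹ • v) Fr.e = 1 := by
      rw [D.h_smul_left, inv_mul_cancel₀ hve]
    obtain ⟨H1, h2⟩ := pt_of_iso Fr hv' hv'e
    rw [← R_smul D hv (inv_ne_zero hve), h2, ← Fr.mv_u_f H1, ← conj_R D Fr.hf] at hy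
    obtain ⟨x, ⟨z, hz, rfl⟩, rfl⟩ := hy
    rw [MulAut.conj_apply, map_mul, map_mul, map_inv, hU _ _ H1, hRf z hz]
  -- all root groups are stable
  have hall : ∀ v : Fin (k + 2) → F, v ≠ 0 → D.h v v = 0 → α '' R D v = R D v := by
    intro v hv0 hv
    by_cases hve : D.h v Fr.e = 0
    · have key : ∃ x : Fin (k + 2) → F, D.h x x = 0 ∧ D.h x Fr.e ≠ 0 ∧ D.h v x ≠ 0 := by
        by_cases hvf : D.h v Fr.f = 0
        · have h1 := Fr.eq_ι_of_perp hve hvf
          have hb0 : πW v ≠ 0 := by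
            intro h0
            rw [h0, ι_zero] at h1
            exact hv0 h1
          obtain ⟨a, ha⟩ := exists_dual D hb0
          obtain ⟨c, hc⟩ := D.exists_c a
          have H1 : Ok' D a c := hc
          refine ⟨Fr.f + ι a + c • Fr.e, pt_iso Fr H1, by rw [pt_e]; exact one_ne_zero, ?_⟩
          rw [h1]
          simp only [D.h_add_right, D.h_smul_right, Fr.h_ι_f, Fr.h_ι_e, h_ι_ι, mul_zero,
            add_zero, zero_add]
          rw [h_comm_one D ha]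
          exact one_ne_zero
        · exact ⟨Fr.f, Fr.hf, by rw [Fr.hfe]; exact one_ne_zero, hvf⟩
      obtain ⟨x, hxx, hxe, hvx⟩ := key
      obtain ⟨z, hz0, hz⟩ := D.exists_skew
      have hz' : z + D.φ z = 0 := by rw [hz]; ring
      have h2 : D.h (mv (T D x z) v) (mv (T D x z) v) = 0 := by rw [h_mv, hv]
      have h3 : D.h (mv (T D x z) v) Fr.e ≠ 0 := by
        rw [mv_T D hxx hz', D.h_add_left, D.h_smul_left, hve, zero_add]
        exact mul_ne_zero (mul_ne_zero hz0 hvx) hxe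
      have h4 := hst _ h2 h3
      rw [← conj_R D hv, image_conj, hfix x hxx hxe _ ⟨z, hz', rfl⟩] at h4
      exact (Set.image_eq_image (MulEquiv.injective _)).1 h4
    · exact hst v hv hve
  -- conclusion
  ext y
  obtain ⟨g, rfl⟩ := pr_surjective y
  obtain ⟨g', hg'⟩ := pr_surjective (α (pr g))
  rw [MulAut.one_apply, ← hg']
  have hsc : ∀ v : Fin (k + 2) → F, v ≠ 0 → D.h v v = 0 →
      ∃ t : F, mv (g⁻¹ * g') v = t • v := by
    intro v hv0 hv
    have h1 : R D (mv g' v) = R D (mv g v) := by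
      rw [← conj_R D hv, hg', ← hall v hv0 hv, ← image_conj, conj_R D hv,
        hall _ (fun h0 => hv0 (mv_eq_zero h0)) (by rw [h_mv, hv])]
    obtain ⟨t, -, ht⟩ := parallel_of_R_eq D p hF hn (fun h0 => hv0 (mv_eq_zero h0))
      (by rw [h_mv, hv]) (by rw [h_mv, hv]) h1
    exact ⟨t, by rw [mv_mul, ht, mv_smul, mv_inv_mv]⟩
  obtain ⟨c, hc⟩ := scalar_of_fix_iso Fr hsc
  apply pr_eq_of_scalar c
  intro x
  rw [← mv_smul, ← hc x, mv_mul, mv_mv_inv]

include hF p hk in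
/-- normalisation: up to an inner automorphism, `R e` and `R f` are preserved -/
theorem exists_normal (Fr : Frame D k) (α : MulAut (Cfsg.PSU (k + 2) F q)) :
    ∃ (s : ↥(Cfsg.SU (k + 2) F q)) (γ : MulAut (Cfsg.PSU (k + 2) F q)),
      γ = MulAut.conj (pr s) * α ∧ γ '' R D Fr.e = R D Fr.e ∧ γ '' R D Fr.f = R D Fr.f := by
  have hn : 3 ≤ k + 2 := by omega
  obtain ⟨e', he'0, he', hRe⟩ := perm D p hF hn Fr.e_ne Fr.he α
  obtain ⟨g, t, ht0, hg⟩ := exists_map D he'0 Fr.e_ne he' Fr.he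
  obtain ⟨β, hβ⟩ : ∃ β : MulAut (Cfsg.PSU (k + 2) F q), β = MulAut.conj (pr g) * α := ⟨_, rfl⟩
  have hβe : β '' R D Fr.e = R D Fr.e := by
    rw [hβ, image_mul_aut, hRe, conj_R D he', hg, R_smul D Fr.he ht0]
  obtain ⟨f', hf'0, hf', hRf⟩ := perm D p hF hn Fr.f_ne Fr.hf β
  have hf'e : D.h f' Fr.e ≠ 0 := by
    intro h0
    have h1 := Comm_image (β⁻¹ : MulAut _) (comm_of_perp D hf' Fr.he h0)
    rw [inv_image β hRf, inv_image β hβe] at h1
    have h2 := perp_of_comm D p hF hn Fr.f_ne Fr.e_ne Fr.hf Fr.he h1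
    rw [Fr.hfe] at h2
    exact one_ne_zero h2
  have hf'' : D.h ((D.h f' Fr.e)⁻¹ • f') ((D.h f' Fr.e)⁻¹ • f') = 0 := by
    rw [D.h_smul_left, D.h_smul_right, hf', mul_zero, mul_zero]
  have hf''e : D.h ((D.h f' Fr.e)⁻¹ • f') Fr.e = 1 := by
    rw [D.h_smul_left, inv_mul_cancel₀ hf'e]
  obtain ⟨d, c, H, hE⟩ := exists_E_map D Fr.he hf'' Fr.hf hf''e Fr.hfe
  refine ⟨E D Fr.e d c * g, MulAut.conj (pr (E D Fr.e d c)) * β, ?_, ?_, ?_⟩
  · rw [hβ, map_mul, map_mul, mul_assoc]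
  · rw [image_mul_aut, hβe, conj_R D Fr.he, mv_E_e D H]
  · rw [image_mul_aut, hRf, ← R_smul D hf' (inv_ne_zero hf'e), conj_R D hf'', hE]

include hF p hk in
/-- every automorphism of `PSU_n(q)` is induced by a semilinear unitary map -/
theorem core_frame (Fr : Frame D k) (hs : ¬(k = 1 ∧ q = 2))
    (α : MulAut (Cfsg.PSU (k + 2) F q)) :
    ∃ (g : ↥(Cfsg.GU (k + 2) F q)) (σ : RingAut F), α = cGU g * cσ σ := by
  obtain ⟨s, γ, hγ, hγe, hγf⟩ := exists_normal hF p hk Fr α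
  obtain ⟨g, σ, α', hα', -, hα'f, hU⟩ := exists_norm hF p hk hγe hγf hs
  have h1 := rigid hF p hk hα'f hU
  rw [h1] at hα'
  have h2 : γ = cGU g * cσ σ := (inv_mul_eq_one.1 hα'.symm).symm
  refine ⟨(toGU s)⁻¹ * g, σ, ?_⟩
  rw [map_mul, map_inv, cGU_toGU, mul_assoc, ← h2, hγ, inv_mul_cancel_left]

end Cfsg.Agent.Lib.Helper43.SUFinal
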