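import Mathlib
import Cfsg.Prelude.Def_LieTypeDatum
import Cfsg.Agent.Lib.Helper43.SUFinal
import Cfsg.Agent.Lib.Helper43.PSLnOut

set_option autoImplicit false

namespace Cfsg.Agent.Lib.Helper43.SUInn

open Matrix Cfsg.Agent.Lib.Helper43.SUBase Cfsg.Agent.Lib.Helper43.SUElt
  Cfsg.Agent.Lib.Helper43.SUAuts Cfsg.Agent.Lib.Helper43.SUGeom
  Cfsg.Agent.Lib.Helper43.SUFrame Cfsg.Agent.Lib.Helper43.SUSyl
  Cfsg.Agent.Lib.Helper43.SUCell1 Cfsg.Agent.Lib.Helper43.SUCell2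
  Cfsg.Agent.Lib.Helper43.SUCell3 Cfsg.Agent.Lib.Helper43.SUNorm
  Cfsg.Agent.Lib.Helper43.SUFinal
open Cfsg.Agent.Lib.Helper43.SUAlg (Ok')
open Cfsg.Agent.Lib.Helper43.PSLnOut (charP_of_card)

variable {F : Type*} [Field F] {q n : ℕ}

/-! ### the predicates of the statements -/

theorem isInduced_iff (g : ↥(Cfsg.GU n F q)) (σ : RingAut F) (β : MulAut (Cfsg.PSU n F q)) :
    Cfsg.IsInducedBySemilinearPSU (g : GL (Fin n) F) σ β ↔ β = cGU g * cσ σ := by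
  constructor
  · intro h
    ext y : 1
    obtain ⟨s, rfl⟩ := pr_surjective y
    rw [MulAut.mul_apply, cσ_pr, cGU_pr]
    exact h s (cjFun g (mapFun σ s)) rfl
  · rintro rfl s s' hs
    show (cGU g * cσ σ : MulAut (Cfsg.PSU n F q)) (pr s) = pr s'
    rw [MulAut.mul_apply, cσ_pr, cGU_pr]
    congr 1
    apply sm_ext
    rw [sm_cjFun, sm_mapFun]
    exact hs.symm

theorem isFieldOf_iff (σ : RingAut F) (β : MulAut (Cfsg.PSU n F q)) :
    Cfsg.IsFieldAutPSUOf σ β ↔ β = cσ σ := by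
  constructor
  · intro h
    ext y : 1
    obtain ⟨s, rfl⟩ := pr_surjective y
    rw [cσ_pr]
    exact h s (mapFun σ s) rfl
  · rintro rfl s s' hs
    show cσ σ (pr s) = pr s'
    rw [cσ_pr]
    congr 1
    apply sm_ext
    rw [sm_mapFun]
    exact hs.symm

theorem isInnerDiag_iff (β : MulAut (Cfsg.PSU n F q)) :
    Cfsg.IsInnerDiagonalAutPSU β ↔ ∃ g : ↥(Cfsg.GU n F q), β = cGU g := by
  constructor
  · rintro ⟨g, hg, h⟩
    refine ⟨⟨g, hg⟩, ?_⟩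
    have h1 := (isInduced_iff ⟨g, hg⟩ (1 : RingAut F) β).1 h
    rw [h1, map_one, mul_one]
  · rintro ⟨g, rfl⟩
    refine ⟨g, g.2, ?_⟩
    have h1 := (isInduced_iff g (1 : RingAut F) (cGU g)).2 (by rw [map_one, mul_one])
    exact h1

theorem inndiag_eq : Cfsg.inndiagPSU n F q = (cGU (F := F) (n := n) (q := q)).range := by
  unfold Cfsg.inndiagPSU Cfsg.autSubgroupOf
  have h : {β : MulAut (Cfsg.PSU n F q) | Cfsg.IsInnerDiagonalAutPSU β} =
      ((cGU (F := F) (n := n) (q := q)).range : Set _) := by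
    ext β
    rw [Set.mem_ofPred_eq, isInnerDiag_iff]
    constructor
    · rintro ⟨g, rfl⟩
      exact ⟨g, rfl⟩
    · rintro ⟨g, rfl⟩
      exact ⟨g, rfl⟩
  rw [h, Subgroup.closure_eq]

theorem mem_inndiag_iff (β : MulAut (Cfsg.PSU n F q)) :
    β ∈ Cfsg.inndiagPSU n F q ↔ ∃ g : ↥(Cfsg.GU n F q), β = cGU g := by
  rw [inndiag_eq]
  constructor
  · rintro ⟨g, rfl⟩
    exact ⟨g, rfl⟩
  · rintro ⟨g, rfl⟩
    exact ⟨g, rfl⟩

theorem cGU_mem_inndiag (g : ↥(Cfsg.GU n F q)) : cGU g ∈ Cfsg.inndiagPSU n F q :=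
  (mem_inndiag_iff _).2 ⟨g, rfl⟩

theorem mem_inn_iff (β : MulAut (Cfsg.PSU n F q)) :
    β ∈ Cfsg.Inn (Cfsg.PSU n F q) ↔ ∃ s : ↥(Cfsg.SU n F q), β = cGU (toGU s) := by
  constructor
  · rintro ⟨y, rfl⟩
    obtain ⟨s, rfl⟩ := pr_surjective y
    exact ⟨s, (cGU_toGU s).symm⟩
  · rintro ⟨s, rfl⟩
    exact ⟨pr s, (cGU_toGU s).symm⟩

theorem inn_le_inndiag : Cfsg.Inn (Cfsg.PSU n F q) ≤ Cfsg.inndiagPSU n F q := by
  intro β hβ
  obtain ⟨s, rfl⟩ := (mem_inn_iff β).1 hβ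
  exact cGU_mem_inndiag _

/-! ### the classification for general `n` -/

theorem core [Fintype F] {p f : ℕ} [Fact p.Prime] (hq : q = p ^ f) (hf : 1 ≤ f)
    (hF : Fintype.card F = q ^ 2) (hn : 3 ≤ n) (hs : ¬(n = 3 ∧ q = 2))
    (α : MulAut (Cfsg.PSU n F q)) :
    ∃ (g : ↥(Cfsg.GU n F q)) (σ : RingAut F), α = cGU g * cσ σ := by
  obtain ⟨k, rfl⟩ : ∃ k, n = k + 2 := ⟨n - 2, by omega⟩
  have hk : 1 ≤ k := by omega
  have hs' : ¬(k = 1 ∧ q = 2) := fun h => hs ⟨by omega, h.2⟩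
  have hF' : Fintype.card F = p ^ (2 * f) := by rw [hF, hq, ← pow_mul, mul_comm]
  haveI : CharP F p := charP_of_card (by omega) hF'
  obtain ⟨Fr⟩ := exists_frame (qd hF) k
  exact core_frame hF p hk Fr hs' α

/-! ### field automorphisms on `GU` -/

/-- entrywise application of a field automorphism on `GU` -/
noncomputable def mapGU (D : QD F q) (σ : RingAut F) (g : ↥(Cfsg.GU n F q)) :
    ↥(Cfsg.GU n F q) :=
  Cfsg.Agent.Lib.Helper45.GUCard.mkGU D.φ D.hφ ((gm g).map σ) (by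
    intro u v
    have hu : u = fun k => σ (σ.symm (u k)) := by funext k; simp
    have hv : v = fun k => σ (σ.symm (v k)) := by funext k; simp
    rw [hu, hv, map_mulVec', map_mulVec', herm_map, herm_map]
    congr 1
    exact g.2 _ _)

theorem gm_mapGU (D : QD F q) (σ : RingAut F) (g : ↥(Cfsg.GU n F q)) :
    gm (mapGU D σ g) = (gm g).map σ := rfl

theorem gv_mapGU (D : QD F q) (σ : RingAut F) (g : ↥(Cfsg.GU n F q)) (x : Fin n → F) :
    gv (mapGU D σ g) (fun k => σ (x k)) = fun k => σ (gv g x k) :=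
  map_mulVec' σ (gm g) x

theorem gv_mapGU_inv (D : QD F q) (σ : RingAut F) (g : ↥(Cfsg.GU n F q)) (x : Fin n → F) :
    gv (mapGU D σ g)⁻¹ (fun k => σ (x k)) = fun k => σ (gv g⁻¹ x k) := by
  apply gv_injective (mapGU D σ g)
  rw [gv_gv_inv, gv_mapGU, gv_gv_inv]

theorem cσ_mul_cGU (D : QD F q) (σ : RingAut F) (g : ↥(Cfsg.GU n F q)) :
    cσ σ * cGU g = cGU (mapGU D σ g) * cσ σ := by
  ext y : 1
  obtain ⟨s, rfl⟩ := pr_surjective y
  rw [MulAut.mul_apply, MulAut.mul_apply, cGU_pr, cσ_pr, cσ_pr, cGU_pr]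
  congr 1
  apply su_ext
  intro x
  have hx : x = fun k => σ (σ.symm (x k)) := by
    funext k
    simp
  rw [hx, mv_mapFun, mv_cjFun, mv_cjFun, gv_mapGU_inv, mv_mapFun, gv_mapGU]

/-- `Inndiag(PSU_n(q))` is normal in the automorphism group -/
theorem inndiag_normal [Fintype F] {p f : ℕ} [Fact p.Prime] (hq : q = p ^ f) (hf : 1 ≤ f)
    (hF : Fintype.card F = q ^ 2) (hn : 3 ≤ n) (hs : ¬(n = 3 ∧ q = 2)) :
    (Cfsg.inndiagPSU n F q).Normal := by
  constructor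
  intro β hβ α
  obtain ⟨g, rfl⟩ := (mem_inndiag_iff β).1 hβ
  obtain ⟨h, ρ, rfl⟩ := core hq hf hF hn hs α
  have h1 : cGU h * cσ ρ * cGU g * (cGU h * cσ ρ)⁻¹ =
      cGU (h * mapGU (qd hF) ρ g * h⁻¹) := by
    rw [map_mul, map_mul, map_inv]
    calc cGU h * cσ ρ * cGU g * (cGU h * cσ ρ)⁻¹
        = cGU h * (cσ ρ * cGU g) * (cσ ρ)⁻¹ * (cGU h)⁻¹ := by group
      _ = cGU h * cGU (mapGU (qd hF) ρ g) * (cGU h)⁻¹ := by
          rw [cσ_mul_cGU (qd hF)]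
          group
  rw [h1]
  exact cGU_mem_inndiag _

/-! ### field automorphisms are not inner-diagonal -/

section Frame

variable {k : ℕ} {D : QD F q} [Fintype F] (hF : Fintype.card F = q ^ 2) (p : ℕ) [Fact p.Prime]
  [CharP F p] (hk : 1 ≤ k)

include hF p hk in
theorem cGU_eq_cσ_frame (Fr : Frame D k) {h : ↥(Cfsg.GU (k + 2) F q)} {τ : RingAut F}
    (H : cGU h = cσ τ) : τ = 1 := by
  classical
  have hn : 3 ≤ k + 2 := by omega
  have h1 : R D (gv h Fr.e) = R D (fun i => τ (Fr.e i)) := by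
    rw [← cGU_R D Fr.he, H, cσ_R D Fr.he]
  have hge : D.h (gv h Fr.e) (gv h Fr.e) = 0 := by rw [h_gv, Fr.he]
  have hge0 : gv h Fr.e ≠ 0 := by
    intro h0
    apply Fr.e_ne
    apply gv_injective h
    rw [h0, gv_zero]
  obtain ⟨t, ht0, ht⟩ := parallel_of_R_eq D p hF hn hge0 hge (fmap Fr τ).he h1
  have hφt : D.φ t ≠ 0 := by
    intro h0
    have := congrArg D.φ h0
    rw [D.inv, map_zero] at this
    exact ht0 this
  have key : ∀ a : Fin k → F, D.φ t • πW (gv h (ι a)) = fun j => τ (a j) := by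
    intro a
    obtain ⟨c, hc⟩ := D.exists_c a
    have H0 : Ok' D a c := hc
    have H1 := Fr.Ok_u H0
    have h2 := cGU_E D H1 h
    rw [H, cσ_E D H1 τ] at h2
    have H2 := Ok_gv D H1 h
    have H3 := Ok_map D H1 τ
    have h3 := pr_E_inj D p hF hn H3 H2 h2
    rw [ht] at h3 H2
    have H4 := Ok_smul D t⁻¹ H2
    rw [smul_smul, inv_mul_cancel₀ ht0, one_smul] at H4
    rw [E_smul D t H4] at h3
    have h4 := congrArg (fun g => mv g (fmap Fr τ).f) h3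
    beta_reduce at h4
    rw [mv_E_f D H3 (fmap Fr τ).hfe, mv_E_f D (Ok_smul' D t H4) (fmap Fr τ).hfe] at h4
    have h5 := congrArg πW h4
    rw [map_ι] at h5
    have h6 : πW (fun i => τ (Fr.e i)) = 0 := (fmap Fr τ).eW
    have h6' : πW (fmap Fr τ).e = 0 := (fmap Fr τ).eW
    simp only [πW_add, πW_smul, πW_ι, (fmap Fr τ).fW, h6, h6', smul_zero, add_zero,
      zero_add] at h5
    exact h5.symm
  obtain ⟨j₀, -⟩ : ∃ j₀ : Fin k, j₀ = ⟨0, hk⟩ := ⟨_, rfl⟩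
  ext x
  have h7 := key (x • Pi.single j₀ (1 : F))
  rw [ι_smul, gv_smul, πW_smul, smul_comm, key] at h7
  have h8 := congrFun h7 j₀
  simp only [Pi.smul_apply, Pi.single_eq_same, smul_eq_mul, mul_one, map_one] at h8
  exact h8.symm

end Frame

theorem cGU_eq_cσ [Fintype F] {p f : ℕ} [Fact p.Prime] (hq : q = p ^ f) (hf : 1 ≤ f)
    (hF : Fintype.card F = q ^ 2) (hn : 3 ≤ n) {h : ↥(Cfsg.GU n F q)} {τ : RingAut F}
    (H : cGU h = cσ τ) : τ = 1 := by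
  obtain ⟨k, rfl⟩ : ∃ k, n = k + 2 := ⟨n - 2, by omega⟩
  have hk : 1 ≤ k := by omega
  have hF' : Fintype.card F = p ^ (2 * f) := by rw [hF, hq, ← pow_mul, mul_comm]
  haveI : CharP F p := charP_of_card (by omega) hF'
  obtain ⟨Fr⟩ := exists_frame (qd hF) k
  exact cGU_eq_cσ_frame hF p hk Fr H

theorem cσ_injective [Fintype F] {p f : ℕ} [Fact p.Prime] (hq : q = p ^ f) (hf : 1 ≤ f)
    (hF : Fintype.card F = q ^ 2) (hn : 3 ≤ n) :
    Function.Injective (cσ : RingAut F → MulAut (Cfsg.PSU n F q)) := by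
  rw [injective_iff_map_eq_one]
  intro σ h
  have h1 : cGU (1 : ↥(Cfsg.GU n F q)) = cσ σ := by rw [map_one, h]
  exact cGU_eq_cσ hq hf hF hn h1

theorem orderOf_cσ [Fintype F] {p f : ℕ} [Fact p.Prime] (hq : q = p ^ f) (hf : 1 ≤ f)
    (hF : Fintype.card F = q ^ 2) (hn : 3 ≤ n) (σ : RingAut F) :
    orderOf (cσ σ : MulAut (Cfsg.PSU n F q)) = orderOf σ :=
  orderOf_injective cσ (cσ_injective hq hf hF hn) σ

/-- uniqueness of the decomposition -/
theorem decomp_unique [Fintype F] {p f : ℕ} [Fact p.Prime] (hq : q = p ^ f) (hf : 1 ≤ f)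
    (hF : Fintype.card F = q ^ 2) (hn : 3 ≤ n) {g g' : ↥(Cfsg.GU n F q)} {σ σ' : RingAut F}
    (H : cGU g * cσ σ = cGU g' * cσ σ') : σ = σ' ∧ cGU g = cGU g' := by
  have h1 : cGU (g'⁻¹ * g) = cσ (σ' * σ⁻¹) := by
    rw [map_mul, map_mul, map_inv, map_inv, inv_mul_eq_iff_eq_mul, ← mul_assoc, ← H]
    group
  have h2 := cGU_eq_cσ hq hf hF hn h1
  have h3 : σ = σ' := (mul_inv_eq_one.1 h2).symm
  refine ⟨h3, ?_⟩
  rw [h3] at H
  exact mul_right_cancel H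

end Cfsg.Agent.Lib.Helper43.SUInn
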