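import Mathlib
import Cfsg.Prelude.Def_LieTypeDatum
import Cfsg.Agent.Lib.Helper43.SUInn
import Cfsg.Agent.Lib.Helper45.SUCard

set_option autoImplicit false

namespace Cfsg.Agent.Lib.Helper43.SUOut

open Matrix Cfsg.Agent.Lib.Helper43.SUBase Cfsg.Agent.Lib.Helper43.SUElt
  Cfsg.Agent.Lib.Helper43.SUAuts Cfsg.Agent.Lib.Helper43.SUGeom
  Cfsg.Agent.Lib.Helper43.SUFrame Cfsg.Agent.Lib.Helper43.SUSyl
  Cfsg.Agent.Lib.Helper43.SUFinal Cfsg.Agent.Lib.Helper43.SUInn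
open Cfsg.Agent.Lib.Helper43.PSLnOut (charP_of_card ringAut_cyclic_card)

variable {F : Type*} [Field F] {q n : ℕ}

/-! ### the kernel of `cGU` -/

theorem cGU_scalar {h : ↥(Cfsg.GU n F q)} {c : F} (H : ∀ x, gv h x = c • x) : cGU h = 1 := by
  ext y : 1
  obtain ⟨s, rfl⟩ := pr_surjective y
  rw [cGU_pr, MulAut.one_apply]
  congr 1
  apply su_ext
  intro x
  rw [mv_cjFun, H, ← mv_smul, ← H, gv_gv_inv]

theorem cGU_eq_one [Fintype F] {p f : ℕ} [Fact p.Prime] (hq : q = p ^ f) (hf : 1 ≤ f)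
    (hF : Fintype.card F = q ^ 2) (hn : 3 ≤ n) {h : ↥(Cfsg.GU n F q)} (H : cGU h = 1) :
    ∃ c : F, ∀ x, gv h x = c • x := by
  obtain ⟨k, rfl⟩ : ∃ k, n = k + 2 := ⟨n - 2, by omega⟩
  have hF' : Fintype.card F = p ^ (2 * f) := by rw [hF, hq, ← pow_mul, mul_comm]
  haveI : CharP F p := charP_of_card (by omega) hF'
  obtain ⟨Fr⟩ := exists_frame (qd hF) k
  apply scalar_of_fix_iso_lin Fr (gv_add h) (gv_smul h)
  intro v hv0 hv
  have h1 : R (qd hF) (gv h v) = R (qd hF) v := by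
    rw [← cGU_R (qd hF) hv, H, MulAut.coe_one, Set.image_id]
  have h2 : gv h v ≠ 0 := by
    intro h0
    apply hv0
    apply gv_injective h
    rw [h0, gv_zero]
  obtain ⟨t, -, ht⟩ := parallel_of_R_eq (qd hF) p hF hn h2 (by rw [h_gv, hv]) hv h1
  exact ⟨t, ht⟩

theorem gm_ext {A B : Matrix (Fin n) (Fin n) F} (H : ∀ x, A *ᵥ x = B *ᵥ x) : A = B := by
  apply Matrix.toLin'.injective
  apply LinearMap.ext
  intro x
  rw [Matrix.toLin'_apply, Matrix.toLin'_apply]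
  exact H x

theorem cGU_mem_inn_iff [Fintype F] {p f : ℕ} [Fact p.Prime] (hq : q = p ^ f) (hf : 1 ≤ f)
    (hF : Fintype.card F = q ^ 2) (hn : 3 ≤ n) (g : ↥(Cfsg.GU n F q)) :
    cGU g ∈ Cfsg.Inn (Cfsg.PSU n F q) ↔ ∃ c : F, c * c ^ q = 1 ∧ (gm g).det = c ^ n := by
  classical
  obtain ⟨D, hD⟩ : ∃ D : QD F q, D = qd hF := ⟨_, rfl⟩
  constructor
  · intro hg
    obtain ⟨s, hs⟩ := (mem_inn_iff _).1 hg
    have h1 : cGU ((toGU s)⁻¹ * g) = 1 := by
      rw [map_mul, map_inv, ← hs, inv_mul_cancel]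
    obtain ⟨c, hc⟩ := cGU_eq_one hq hf hF hn h1
    have h2 : ∀ x, gv g x = c • mv s x := by
      intro x
      have h3 : g = toGU s * ((toGU s)⁻¹ * g) := by rw [mul_inv_cancel_left]
      rw [h3, gv_mul, hc, gv_smul, gv_toGU]
    have h4 : gm g = c • sm s := by
      apply gm_ext
      intro x
      rw [Matrix.smul_mulVec]
      exact h2 x
    refine ⟨c, ?_, ?_⟩
    · have h5 := h_gv D g (Pi.single ⟨0, by omega⟩ 1) (Pi.single ⟨0, by omega⟩ 1)
      rw [h2, D.h_smul_left, D.h_smul_right, h_mv,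
        Cfsg.Agent.Lib.Helper43.SUAlg.h_single_single, mul_one, D.hφ] at h5
      exact h5
    · rw [h4, Matrix.det_smul, Fintype.card_fin, sm_det, mul_one]
  · rintro ⟨c, hc, hdet⟩
    have hc0 : c ≠ 0 := by
      rintro rfl
      rw [zero_mul] at hc
      exact zero_ne_one hc
    have hcφ : c * D.φ c = 1 := by rw [D.hφ]; exact hc
    have hci : c⁻¹ * D.φ c⁻¹ = 1 := by
      rw [map_inv₀, ← _root_.mul_inv, hcφ, inv_one]
    have hMx : ∀ x, (c⁻¹ • gm g) *ᵥ x = c⁻¹ • gv g x := by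
      intro x
      rw [Matrix.smul_mulVec]
      rfl
    have hdet1 : (c⁻¹ • gm g).det = 1 := by
      rw [Matrix.det_smul, Fintype.card_fin, hdet, inv_pow, inv_mul_cancel₀ (pow_ne_zero n hc0)]
    have hpres : ∀ u v, D.h ((c⁻¹ • gm g) *ᵥ u) ((c⁻¹ • gm g) *ᵥ v) = D.h u v := by
      intro u v
      rw [hMx, hMx, D.h_smul_left, D.h_smul_right, h_gv, ← mul_assoc, hci, one_mul]
    obtain ⟨s, hs⟩ : ∃ s : ↥(Cfsg.SU n F q), s = mkSU D (c⁻¹ • gm g) hdet1 hpres := ⟨_, rfl⟩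
    have hsx : ∀ x, gv g x = c • mv s x := by
      intro x
      rw [hs, mv_mkSU, hMx, smul_smul, mul_inv_cancel₀ hc0, one_smul]
    have h1 : ∀ x, gv ((toGU s)⁻¹ * g) x = c • x := by
      intro x
      rw [gv_mul, hsx, gv_smul, ← gv_toGU, gv_inv_gv]
    have h2 := cGU_scalar h1
    rw [map_mul, map_inv, inv_mul_eq_one] at h2
    rw [← h2]
    exact (mem_inn_iff _).2 ⟨s, rfl⟩

/-! ### the determinant on `GU` -/

/-- the group of elements of norm one -/
def μ (F : Type*) [Field F] (q : ℕ) : Subgroup Fˣ := (powMonoidHom (q + 1) : Fˣ →* Fˣ).ker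

theorem mem_μ_iff (c : Fˣ) : c ∈ μ F q ↔ (c : F) * (c : F) ^ q = 1 := by
  unfold μ
  rw [MonoidHom.mem_ker, powMonoidHom_apply, pow_succ', Units.ext_iff]
  push_cast
  rfl

theorem card_μ [Fintype F] (hF : Fintype.card F = q ^ 2) : Nat.card ↥(μ F q) = q + 1 := by
  classical
  have hq := Cfsg.Agent.Lib.Helper5.HermCount.two_le hF
  unfold μ
  rw [IsCyclic.card_powMonoidHom_ker, Nat.card_eq_fintype_card, Fintype.card_units, hF]
  have h1 : q ^ 2 - 1 = (q + 1) * (q - 1) := by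
    zify [Nat.one_le_pow 2 q (by omega), (by omega : 1 ≤ q)]
    ring
  rw [h1, Nat.gcd_mul_right_left]

/-- the determinant, as a homomorphism to the norm one group -/
noncomputable def detμ [Fintype F] (hF : Fintype.card F = q ^ 2) :
    ↥(Cfsg.GU n F q) →* ↥(μ F q) where
  toFun g := ⟨Matrix.GeneralLinearGroup.det (g : GL (Fin n) F), by
    rw [mem_μ_iff]
    exact Cfsg.Agent.Lib.Helper45.SUCard.det_mul_det_pow (qd hF).φ (qd hF).hφ (gm g) g.2⟩
  map_one' := by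
    apply Subtype.ext
    exact map_one _
  map_mul' g h := by
    apply Subtype.ext
    exact map_mul _ _ _

theorem detμ_coe [Fintype F] (hF : Fintype.card F = q ^ 2) (g : ↥(Cfsg.GU n F q)) :
    (((detμ hF g : ↥(μ F q)) : Fˣ) : F) = (gm g).det := rfl

theorem detμ_surjective [Fintype F] (hF : Fintype.card F = q ^ 2) (hn : 1 ≤ n) :
    Function.Surjective (detμ (n := n) hF) := by
  classical
  rintro ⟨c, hc⟩
  rw [mem_μ_iff] at hc
  obtain ⟨D, hD⟩ : ∃ D : QD F q, D = qd hF := ⟨_, rfl⟩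
  let d : Fin n → F := Function.update (fun _ => (1 : F)) ⟨0, hn⟩ (c : F)
  have hd : ∀ i, d i * d i ^ q = 1 := by
    intro i
    by_cases hi : i = ⟨0, hn⟩
    · subst hi
      simp [d, hc]
    · simp [d, Function.update_of_ne hi]
  have hDg : ∀ u v, Cfsg.hermForm n F q (Matrix.diagonal d *ᵥ u) (Matrix.diagonal d *ᵥ v) =
      Cfsg.hermForm n F q u v := by
    intro u v
    unfold Cfsg.hermForm
    apply Finset.sum_congr rfl
    intro i _
    rw [Matrix.mulVec_diagonal, Matrix.mulVec_diagonal, mul_pow]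
    linear_combination (u i * v i ^ q) * hd i
  refine ⟨Cfsg.Agent.Lib.Helper45.GUCard.mkGU D.φ D.hφ (Matrix.diagonal d) hDg, ?_⟩
  apply Subtype.ext
  apply Units.ext
  show (Matrix.diagonal d).det = (c : F)
  rw [Matrix.det_diagonal]
  simp [d, Finset.prod_update_of_mem]

theorem cGU_mem_inn_iff' [Fintype F] {p f : ℕ} [Fact p.Prime] (hq : q = p ^ f) (hf : 1 ≤ f)
    (hF : Fintype.card F = q ^ 2) (hn : 3 ≤ n) (g : ↥(Cfsg.GU n F q)) :
    cGU g ∈ Cfsg.Inn (Cfsg.PSU n F q) ↔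
      detμ hF g ∈ (powMonoidHom n : ↥(μ F q) →* ↥(μ F q)).range := by
  rw [cGU_mem_inn_iff hq hf hF hn]
  constructor
  · rintro ⟨c, hc, hdet⟩
    have hc0 : c ≠ 0 := by
      rintro rfl
      rw [zero_mul] at hc
      exact zero_ne_one hc
    refine ⟨⟨Units.mk0 c hc0, (mem_μ_iff _).2 hc⟩, ?_⟩
    apply Subtype.ext
    apply Units.ext
    show c ^ n = (gm g).det
    exact hdet.symm
  · rintro ⟨c, hc⟩
    refine ⟨((c : Fˣ) : F), (mem_μ_iff _).1 c.2, ?_⟩
    have h1 := congrArg (fun x : ↥(μ F q) => ((x : Fˣ) : F)) hc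
    exact h1.symm

/-! ### the outer automorphism group -/

section Out

variable [Fintype F] {p f : ℕ} [Fact p.Prime] (hq : q = p ^ f) (hf : 1 ≤ f)
  (hF : Fintype.card F = q ^ 2) (hn : 3 ≤ n) (hs : ¬(n = 3 ∧ q = 2))

include hq hf hF hn hs in
theorem normal_range_cGU : (cGU (F := F) (n := n) (q := q)).range.Normal := by
  rw [← inndiag_eq]
  exact inndiag_normal hq hf hF hn hs

include hq hf hF hn hs in
/-- `Aut(PSU_n(q)) / PGU_n(q) ≅ Aut(F)` -/
theorem exists_kappa [(cGU (F := F) (n := n) (q := q)).range.Normal] :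
    ∃ e : RingAut F ≃* MulAut (Cfsg.PSU n F q) ⧸ (cGU (F := F) (n := n) (q := q)).range,
      ∀ σ : RingAut F, e σ = QuotientGroup.mk (cσ σ) := by
  obtain ⟨κ, hκ⟩ : ∃ κ : RingAut F →*
      MulAut (Cfsg.PSU n F q) ⧸ (cGU (F := F) (n := n) (q := q)).range,
      κ = (QuotientGroup.mk' _).comp cσ := ⟨_, rfl⟩
  have happ : ∀ σ, κ σ = QuotientGroup.mk (cσ σ) := by
    intro σ
    rw [hκ]
    rfl
  have hinj : Function.Injective κ := by
    rw [injective_iff_map_eq_one]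
    intro σ h
    rw [happ] at h
    obtain ⟨g, hg⟩ := (QuotientGroup.eq_one_iff _).1 h
    exact cGU_eq_cσ hq hf hF hn hg
  have hsurj : Function.Surjective κ := by
    intro y
    obtain ⟨α, rfl⟩ := QuotientGroup.mk_surjective y
    obtain ⟨g, σ, h⟩ := core hq hf hF hn hs α
    refine ⟨σ, ?_⟩
    have hg1 : (QuotientGroup.mk (cGU g) :
        MulAut (Cfsg.PSU n F q) ⧸ (cGU (F := F) (n := n) (q := q)).range) = 1 :=
      (QuotientGroup.eq_one_iff (N := (cGU (F := F) (n := n) (q := q)).range) (cGU g)).2 ⟨g, rfl⟩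
    rw [happ, h, QuotientGroup.mk_mul, hg1, one_mul]
  exact ⟨MulEquiv.ofBijective κ ⟨hinj, hsurj⟩, happ⟩

include hq hf hF hn hs in
/-- the structure of `Out(PSU_n(q))` -/
theorem exists_out_hom : ∃ φ : Cfsg.Out (Cfsg.PSU n F q) →* Multiplicative (ZMod (2 * f)),
    Function.Surjective φ ∧ IsCyclic φ.ker ∧ Nat.card φ.ker = Nat.gcd n (q + 1) := by
  classical
  haveI hnorm : (cGU (F := F) (n := n) (q := q)).range.Normal :=
    normal_range_cGU hq hf hF hn hs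
  obtain ⟨e₁, -⟩ := exists_kappa hq hf hF hn hs
  have hF' : Fintype.card F = p ^ (2 * f) := by rw [hF, hq, ← pow_mul, mul_comm]
  obtain ⟨hcyc, hcard⟩ := ringAut_cyclic_card (by omega : 1 ≤ 2 * f) hF'
  obtain ⟨e₂⟩ : Nonempty (RingAut F ≃* Multiplicative (ZMod (2 * f))) := by
    rw [← hcard]
    exact ⟨(zmodCyclicMulEquiv hcyc).symm⟩
  have hle : Cfsg.Inn (Cfsg.PSU n F q) ≤ (cGU (F := F) (n := n) (q := q)).range := by
    rw [← inndiag_eq]
    exact inn_le_inndiag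
  let ρ : Cfsg.Out (Cfsg.PSU n F q) →*
      MulAut (Cfsg.PSU n F q) ⧸ (cGU (F := F) (n := n) (q := q)).range :=
    QuotientGroup.map (Cfsg.Inn (Cfsg.PSU n F q))
      (cGU (F := F) (n := n) (q := q)).range (MonoidHom.id _) (fun x hx => hle hx)
  have hρ : ∀ α : MulAut (Cfsg.PSU n F q),
      ρ (QuotientGroup.mk α) = QuotientGroup.mk α := fun α => rfl
  have hρsurj : Function.Surjective ρ := by
    intro y
    obtain ⟨α, rfl⟩ := QuotientGroup.mk_surjective y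
    exact ⟨QuotientGroup.mk α, hρ α⟩
  let φ : Cfsg.Out (Cfsg.PSU n F q) →* Multiplicative (ZMod (2 * f)) :=
    e₂.toMonoidHom.comp (e₁.symm.toMonoidHom.comp ρ)
  have hφ : ∀ y, φ y = e₂ (e₁.symm (ρ y)) := fun y => rfl
  let χ : ↥(Cfsg.GU n F q) →* Cfsg.Out (Cfsg.PSU n F q) := (QuotientGroup.mk' _).comp cGU
  have hχ : ∀ g, χ g = QuotientGroup.mk (cGU g) := fun g => rfl
  have hker : φ.ker = χ.range := by
    ext y
    rw [MonoidHom.mem_ker, hφ, MulEquiv.map_eq_one_iff, MulEquiv.map_eq_one_iff]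
    obtain ⟨α, rfl⟩ := QuotientGroup.mk_surjective y
    rw [hρ, QuotientGroup.eq_one_iff]
    constructor
    · rintro ⟨g, rfl⟩
      exact ⟨g, rfl⟩
    · rintro ⟨g, hg⟩
      have h1 : (QuotientGroup.mk (cGU g) : Cfsg.Out (Cfsg.PSU n F q)) = QuotientGroup.mk α := hg
      rw [QuotientGroup.eq] at h1
      have h2 : α = cGU g * ((cGU g)⁻¹ * α) := by group
      rw [h2]
      exact mul_mem ⟨g, rfl⟩ (hle h1)
  have hχker : χ.ker = (powMonoidHom n : ↥(μ F q) →* ↥(μ F q)).range.comap (detμ hF) := by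
    ext g
    rw [MonoidHom.mem_ker, Subgroup.mem_comap, ← cGU_mem_inn_iff' hq hf hF hn, hχ,
      QuotientGroup.eq_one_iff]
  have hcardker : Nat.card φ.ker = Nat.gcd n (q + 1) := by
    rw [hker, ← Subgroup.index_ker, hχker,
      Subgroup.index_comap_of_surjective _ (detμ_surjective hF (by omega)),
      IsCyclic.index_powMonoidHom_range, card_μ hF, Nat.gcd_comm]
  refine ⟨φ, e₂.surjective.comp (e₁.symm.surjective.comp hρsurj), ?_, hcardker⟩
  rw [hker]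
  obtain ⟨t₀, ht₀⟩ := (inferInstance : IsCyclic ↥(μ F q)).exists_zpow_surjective
  obtain ⟨g₀, hg₀⟩ := detμ_surjective (n := n) hF (by omega) t₀
  refine ⟨⟨⟨χ g₀, g₀, rfl⟩, ?_⟩⟩
  rintro ⟨_, g, rfl⟩
  obtain ⟨k, hk⟩ := ht₀ (detμ hF g)
  have hk' : t₀ ^ k = detμ hF g := hk
  refine ⟨k, ?_⟩
  apply Subtype.ext
  show (((⟨χ g₀, g₀, rfl⟩ : χ.range) ^ k : χ.range) : Cfsg.Out (Cfsg.PSU n F q)) = χ g
  rw [Subgroup.coe_zpow]
  show χ g₀ ^ k = χ g
  rw [← map_zpow]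
  have h3 : g * (g₀ ^ k)⁻¹ ∈ χ.ker := by
    rw [hχker, Subgroup.mem_comap, map_mul, map_inv, map_zpow, hg₀, hk', mul_inv_cancel]
    exact one_mem _
  have h5 := MonoidHom.mem_ker.1 h3
  rw [map_mul, map_inv, mul_inv_eq_one] at h5
  exact h5.symm

include hq hf hF hn in
theorem conj_injective :
    Function.Injective (MulAut.conj : Cfsg.PSU n F q →* MulAut (Cfsg.PSU n F q)) := by
  rw [injective_iff_map_eq_one]
  intro y hy
  obtain ⟨s, rfl⟩ := pr_surjective y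
  rw [← cGU_toGU] at hy
  obtain ⟨c, hc⟩ := cGU_eq_one hq hf hF hn hy
  have h1 : pr s = pr (1 : ↥(Cfsg.SU n F q)) := by
    apply pr_eq_of_scalar c
    intro x
    rw [mv_one, ← gv_toGU, hc]
  rw [h1, map_one]

include hq hf hF hn hs in
theorem card_aut : Nat.card (MulAut (Cfsg.PSU n F q))
    = Nat.gcd n (q + 1) * (2 * f) * Nat.card (Cfsg.PSU n F q) := by
  obtain ⟨φ, hsurj, -, hcard⟩ := exists_out_hom hq hf hF hn hs
  have h1 := Subgroup.card_mul_index φ.ker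
  have h2 : φ.ker.index = 2 * f := by
    rw [Subgroup.index_ker, MonoidHom.range_eq_top.2 hsurj, Subgroup.card_top]
    show Nat.card (ZMod (2 * f)) = 2 * f
    exact Nat.card_zmod (2 * f)
  have h3 := Subgroup.card_mul_index (Cfsg.Inn (Cfsg.PSU n F q))
  have h4 : Nat.card (Cfsg.Inn (Cfsg.PSU n F q)) = Nat.card (Cfsg.PSU n F q) :=
    (Nat.card_congr (MonoidHom.ofInjective (conj_injective hq hf hF hn)).toEquiv).symm
  have h5 : (Cfsg.Inn (Cfsg.PSU n F q)).index = Nat.card (Cfsg.Out (Cfsg.PSU n F q)) := rfl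
  rw [← h3, h4, h5, ← h1, hcard, h2]
  ring

end Out

end Cfsg.Agent.Lib.Helper43.SUOut
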