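import Mathlib
import Cfsg.Agent.Lib.Helper43.SUField
import Cfsg.Agent.Lib.Helper43.SUOut
import Cfsg.Agent.Lib.Helper43.HermClass

set_option autoImplicit false

namespace Cfsg.Agent.Lib.Helper43.SUDescent

open Matrix Cfsg.Agent.Lib.Helper43.SUBase Cfsg.Agent.Lib.Helper43.SUAuts
  Cfsg.Agent.Lib.Helper43.SUInn Cfsg.Agent.Lib.Helper43.SUOut
  Cfsg.Agent.Lib.Helper43.SUField
  Cfsg.Agent.Lib.Helper43.H90GL Cfsg.Agent.Lib.Helper43.H90Fin
  Cfsg.Agent.Lib.Helper40.HermAdj Cfsg.Agent.Lib.Helper43.HermClass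

variable {F : Type*} [Field F] {q n : ℕ}

/-! ### the unitary group through adjoints -/

theorem adj_gm (D : QD F q) (g : ↥(Cfsg.GU n F q)) : adj D.φ (gm g) * gm g = 1 :=
  (preserves_iff D.φ D.hφ (gm g)).1 g.2

theorem gm_adj (D : QD F q) (g : ↥(Cfsg.GU n F q)) : gm g * adj D.φ (gm g) = 1 :=
  _root_.mul_eq_one_comm.1 (adj_gm D g)

/-- an element of `GU` from a unitary matrix -/
noncomputable def ofAdj (D : QD F q) (M : Matrix (Fin n) (Fin n) F) (h : adj D.φ M * M = 1) :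
    ↥(Cfsg.GU n F q) :=
  Cfsg.Agent.Lib.Helper45.GUCard.mkGU D.φ D.hφ M ((preserves_iff D.φ D.hφ M).2 h)

theorem gm_ofAdj (D : QD F q) (M : Matrix (Fin n) (Fin n) F) (h : adj D.φ M * M = 1) :
    gm (ofAdj D M h) = M := rfl

theorem gu_ext {g h : ↥(Cfsg.GU n F q)} (H : gm g = gm h) : g = h :=
  Subtype.ext (Units.ext H)

theorem adj_smul' (φ : F →+* F) (l : F) (M : Matrix (Fin n) (Fin n) F) :
    adj φ (l • M) = φ l • adj φ M := by
  ext i j
  rw [adj_apply, Matrix.smul_apply, Matrix.smul_apply, adj_apply, smul_eq_mul, smul_eq_mul,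
    map_mul]

theorem adj_map (D : QD F q) (σ : RingAut F) (M : Matrix (Fin n) (Fin n) F) :
    adj D.φ (M.map σ) = (adj D.φ M).map σ := by
  ext i j
  rw [adj_apply, Matrix.map_apply, Matrix.map_apply, adj_apply, φ_map]

/-- scalars of norm one -/
noncomputable def scalarGU (D : QD F q) (c : F) (hc : c * D.φ c = 1) : ↥(Cfsg.GU n F q) :=
  ofAdj D (c • (1 : Matrix (Fin n) (Fin n) F)) (by
    rw [adj_smul', adj_one, Matrix.smul_mul, Matrix.mul_smul, Matrix.one_mul, smul_smul,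
      mul_comm, hc, one_smul])

theorem gm_scalarGU (D : QD F q) (c : F) (hc : c * D.φ c = 1) :
    gm (scalarGU (n := n) D c hc) = c • (1 : Matrix (Fin n) (Fin n) F) := rfl

theorem gv_scalarGU (D : QD F q) (c : F) (hc : c * D.φ c = 1) (x : Fin n → F) :
    gv (scalarGU (n := n) D c hc) x = c • x := by
  unfold gv
  rw [gm_scalarGU, Matrix.smul_mulVec, Matrix.one_mulVec]

theorem cGU_scalarGU (D : QD F q) (c : F) (hc : c * D.φ c = 1) :
    cGU (scalarGU (n := n) D c hc) = 1 :=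
  cGU_scalar (gv_scalarGU D c hc)

theorem gm_mul_scalarGU (D : QD F q) (c : F) (hc : c * D.φ c = 1) (g : ↥(Cfsg.GU n F q)) :
    gm (scalarGU D c hc * g) = c • gm g := by
  rw [gm_mul, gm_scalarGU, Matrix.smul_mul, Matrix.one_mul]

/-! ### descent of hermitian forms -/

variable {D : QD F q} {σ : RingAut F}

/-- a nondegenerate hermitian matrix fixed by `σ` is `P P^*` with `P` fixed by `σ` -/
theorem herm_descent (S : Sub D σ) (H : Matrix (Fin n) (Fin n) F) (hσ : H.map σ = H)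
    (hH : adj D.φ H = H) (hdet : IsUnit H) :
    ∃ P : Matrix (Fin n) (Fin n) F, P.map σ = P ∧ IsUnit P ∧ P * adj D.φ P = H := by
  classical
  obtain ⟨ι₀, hι₀⟩ : ∃ ι₀ : ↥(fixF σ) →+* F, ∀ b, ι₀ b = (b : F) :=
    ⟨(fixF σ).subtype, fun _ => rfl⟩
  have hmemφ : ∀ x : ↥(fixF σ), D.φ (x : F) ∈ fixF σ := by
    intro x
    rw [mem_fixF, ← φ_map, (mem_fixF σ _).1 x.2]
  obtain ⟨φ₀, hφ₀⟩ : ∃ φ₀ : ↥(fixF σ) →+* ↥(fixF σ), ∀ x, ((φ₀ x : fixF σ) : F) = D.φ (x : F) :=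
    ⟨(D.φ.comp (fixF σ).subtype).codRestrict (fixF σ) hmemφ, fun _ => rfl⟩
  have hσσ : ∀ a, φ₀ (φ₀ a) = a := by
    intro a
    apply Subtype.ext
    rw [hφ₀, hφ₀, D.inv]
  have hne : ∃ a, φ₀ a ≠ a := by
    obtain ⟨x, hx, hne⟩ := S.nfx
    refine ⟨⟨x, (mem_fixF σ x).2 hx⟩, fun h => hne ?_⟩
    have := congrArg Subtype.val h
    rw [hφ₀] at this
    exact this
  have hN : ∀ t : ↥(fixF σ), t ≠ 0 → φ₀ t = t → ∃ μ : ↥(fixF σ), μ ≠ 0 ∧ μ * φ₀ μ = t := by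
    intro t ht0 ht
    have h1 : D.φ (t : F) = t := by
      rw [← hφ₀, ht]
    obtain ⟨c, hσc, hc⟩ := S.nrm (t : F) ((mem_fixF σ _).1 t.2) h1
    refine ⟨⟨c, (mem_fixF σ c).2 hσc⟩, ?_, ?_⟩
    · intro h0
      have h2 : c = 0 := congrArg Subtype.val h0
      rw [h2, zero_mul] at hc
      exact ht0 (Subtype.ext hc.symm)
    · apply Subtype.ext
      show c * ((φ₀ ⟨c, _⟩ : fixF σ) : F) = t
      rw [hφ₀]
      exact hc
  have hmem : ∀ i j, H i j ∈ fixF σ := by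
    intro i j
    rw [mem_fixF]
    exact congrFun (congrFun hσ i) j
  obtain ⟨H₀, hH₀⟩ : ∃ H₀ : Matrix (Fin n) (Fin n) ↥(fixF σ), H₀.map ι₀ = H :=
    ⟨Matrix.of fun i j => ⟨H i j, hmem i j⟩, by
      ext i j
      rw [Matrix.map_apply, hι₀]
      rfl⟩
  have hadjmap : ∀ M : Matrix (Fin n) (Fin n) ↥(fixF σ),
      (adj φ₀ M).map ι₀ = adj D.φ (M.map ι₀) := by
    intro M
    ext i j
    rw [Matrix.map_apply, adj_apply, adj_apply, Matrix.map_apply, hι₀, hι₀, hφ₀]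
  have hinj : Function.Injective (fun M : Matrix (Fin n) (Fin n) ↥(fixF σ) => M.map ι₀) :=
    Matrix.map_injective ι₀.injective
  have hG : adj φ₀ H₀ = H₀ := by
    apply hinj
    show (adj φ₀ H₀).map ι₀ = H₀.map ι₀
    rw [hadjmap, hH₀, hH]
  have hdetmap : ∀ M : Matrix (Fin n) (Fin n) ↥(fixF σ), (M.map ι₀).det = ι₀ M.det := by
    intro M
    exact (RingHom.map_det ι₀ M).symm
  have hdet₀ : IsUnit H₀ := by
    rw [Matrix.isUnit_iff_isUnit_det, isUnit_iff_ne_zero]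
    intro h0
    have h1 := hdetmap H₀
    rw [h0, map_zero, hH₀] at h1
    exact ((Matrix.isUnit_iff_isUnit_det H).1 hdet).ne_zero h1
  obtain ⟨P₀, hP₀, hP₀2⟩ := herm_class φ₀ hσσ hne hN H₀ hG hdet₀
  refine ⟨P₀.map ι₀, ?_, ?_, ?_⟩
  · ext i j
    rw [Matrix.map_apply, Matrix.map_apply, hι₀]
    exact (mem_fixF σ _).1 (P₀ i j).2
  · rw [Matrix.isUnit_iff_isUnit_det, isUnit_iff_ne_zero, hdetmap]
    intro h0
    exact ((Matrix.isUnit_iff_isUnit_det P₀).1 hP₀).ne_zero ((map_eq_zero ι₀).1 h0)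
  · rw [← hadjmap, ← Matrix.map_mul, hP₀2, hH₀]

/-- from a solution of `g σ(B) = B` in `GL` to a solution in `GU` -/
theorem descent (S : Sub D σ) (g : ↥(Cfsg.GU n F q)) (B : Matrix (Fin n) (Fin n) F)
    (hB : IsUnit B) (hB2 : gm g * B.map σ = B) :
    ∃ h : ↥(Cfsg.GU n F q), g * mapGU D σ h = h := by
  obtain ⟨u, rfl⟩ := hB
  obtain ⟨B, hB⟩ : ∃ B : Matrix (Fin n) (Fin n) F, B = (u : Matrix (Fin n) (Fin n) F) :=
    ⟨_, rfl⟩
  obtain ⟨Bi, hBi⟩ : ∃ Bi : Matrix (Fin n) (Fin n) F,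
      Bi = ((u⁻¹ : (Matrix (Fin n) (Fin n) F)ˣ) : Matrix (Fin n) (Fin n) F) := ⟨_, rfl⟩
  rw [← hB] at hB2
  have e1 : B * Bi = 1 := by rw [hB, hBi, Units.mul_inv]
  have e2 : Bi * B = 1 := by rw [hB, hBi, Units.inv_mul]
  have e3 : B.map σ = gm g⁻¹ * B := by
    calc B.map σ = gm g⁻¹ * (gm g * B.map σ) := by
          rw [← Matrix.mul_assoc, gm_inv_mul, Matrix.one_mul]
      _ = gm g⁻¹ * B := by rw [hB2]
  have e4 : Bi.map σ = Bi * gm g := by
    have h1 : Bi.map σ * B.map σ = 1 := by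
      rw [← Matrix.map_mul, e2]
      exact Matrix.map_one _ (map_zero σ) (map_one σ)
    calc Bi.map σ = Bi.map σ * (B.map σ * (Bi * gm g)) := by
          rw [e3, Matrix.mul_assoc, ← Matrix.mul_assoc B, e1, Matrix.one_mul, gm_inv_mul,
            Matrix.mul_one]
      _ = Bi * gm g := by rw [← Matrix.mul_assoc, h1, Matrix.one_mul]
  obtain ⟨H, hH⟩ : ∃ H : Matrix (Fin n) (Fin n) F, H = Bi * adj D.φ Bi := ⟨_, rfl⟩
  have hHσ : H.map σ = H := by
    rw [hH, Matrix.map_mul, ← adj_map, e4, adj_mul]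
    calc Bi * gm g * (adj D.φ (gm g) * adj D.φ Bi)
        = Bi * (gm g * adj D.φ (gm g)) * adj D.φ Bi := by simp only [Matrix.mul_assoc]
      _ = Bi * adj D.φ Bi := by rw [gm_adj, Matrix.mul_one]
  have hHadj : adj D.φ H = H := by
    rw [hH, adj_mul, adj_adj D.φ D.inv]
  have hHu : IsUnit H := by
    have h1 : H * (adj D.φ B * B) = 1 := by
      rw [hH]
      calc Bi * adj D.φ Bi * (adj D.φ B * B) = Bi * (adj D.φ Bi * adj D.φ B) * B := by
            simp only [Matrix.mul_assoc]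
        _ = 1 := by rw [← adj_mul, e1, adj_one, Matrix.mul_one, e2]
    exact IsUnit.of_mul_eq_one _ h1
  obtain ⟨P, hPσ, -, hP⟩ := herm_descent S H hHσ hHadj hHu
  have h2 : (B * P) * adj D.φ (B * P) = 1 := by
    rw [adj_mul]
    calc B * P * (adj D.φ P * adj D.φ B) = B * (P * adj D.φ P) * adj D.φ B := by
          simp only [Matrix.mul_assoc]
      _ = 1 := by
          rw [hP, hH]
          calc B * (Bi * adj D.φ Bi) * adj D.φ B = (B * Bi) * (adj D.φ Bi * adj D.φ B) := by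
                simp only [Matrix.mul_assoc]
            _ = 1 := by rw [e1, ← adj_mul, e1, adj_one, Matrix.one_mul]
  refine ⟨ofAdj D (B * P) (_root_.mul_eq_one_comm.1 h2), ?_⟩
  apply gu_ext
  rw [gm_mul, gm_mapGU, gm_ofAdj, Matrix.map_mul, hPσ, ← Matrix.mul_assoc, hB2]

end Cfsg.Agent.Lib.Helper43.SUDescent
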