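import Mathlib
import Cfsg.Agent.Lib.Helper43.SUDescent
import Cfsg.Agent.Lib.Helper43.FrobInv

set_option autoImplicit false

namespace Cfsg.Agent.Lib.Helper43.SUCoset

open Matrix Cfsg.Agent.Lib.Helper43.SUBase Cfsg.Agent.Lib.Helper43.SUAuts
  Cfsg.Agent.Lib.Helper43.SUInn Cfsg.Agent.Lib.Helper43.SUOut
  Cfsg.Agent.Lib.Helper43.SUField Cfsg.Agent.Lib.Helper43.SUDescent
  Cfsg.Agent.Lib.Helper43.H90GL Cfsg.Agent.Lib.Helper43.H90Fin
  Cfsg.Agent.Lib.Helper40.HermAdj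
open Cfsg.Agent.Lib.Helper43.PSLnOut (charP_of_card)

variable {F : Type*} [Field F] {q n : ℕ}

/-! ### the fixed field of an automorphism of odd order -/

theorem sub_of_odd [Fintype F] {p f : ℕ} [Fact p.Prime] (hq : q = p ^ f)
    (hF : Fintype.card F = q ^ 2) (D : QD F q) (σ : RingAut F) (hodd : Odd (orderOf σ)) :
    orderOf σ ∣ f ∧ Sub D σ ∧ Nat.card (fixF σ) = (p ^ (f / orderOf σ)) ^ 2 := by
  have hcard : Nat.card F = p ^ (2 * f) := by
    rw [Nat.card_eq_fintype_card, hF, hq, ← pow_mul, mul_comm]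
  obtain ⟨h1, h2⟩ := Cfsg.Agent.Lib.Helper43.FrobInv.card_fixF_eq p (2 * f) hcard σ
  have hdvd : orderOf σ ∣ f :=
    (Nat.Coprime.dvd_mul_left (Nat.Coprime.symm (Nat.coprime_two_left.2 hodd))).1 h1
  obtain ⟨k, hk⟩ := hdvd
  have hpos := orderOf_pos_ringAut σ
  have h3 : f / orderOf σ = k := by
    rw [hk, Nat.mul_div_cancel_left k hpos]
  have h4 : 2 * f / orderOf σ = 2 * k := by
    rw [hk, ← mul_assoc, mul_comm 2, mul_assoc, Nat.mul_div_cancel_left _ hpos]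
  have h5 : Nat.card (fixF σ) = (p ^ k) ^ 2 := by
    rw [h2, h4, ← pow_mul, mul_comm]
  refine ⟨⟨k, hk⟩, ?_, by rw [h3]; exact h5⟩
  apply sub_of_card D σ hodd _ h5
  rw [hq, hk, ← pow_mul, mul_comm]

/-! ### field automorphisms on `GU` -/

theorem mapGU_mul (D : QD F q) (σ : RingAut F) (g h : ↥(Cfsg.GU n F q)) :
    mapGU D σ (g * h) = mapGU D σ g * mapGU D σ h := by
  apply gu_ext
  rw [gm_mul, gm_mapGU, gm_mapGU, gm_mapGU, gm_mul, Matrix.map_mul]

theorem mapGU_one (D : QD F q) (σ : RingAut F) : mapGU D σ (1 : ↥(Cfsg.GU n F q)) = 1 := by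
  apply gu_ext
  rw [gm_mapGU, gm_one]
  exact Matrix.map_one _ (map_zero σ) (map_one σ)

theorem map_map_pow (D : QD F q) (σ : RingAut F) (k : ℕ) (g : ↥(Cfsg.GU n F q)) :
    mapGU D σ (mapGU D (σ ^ k) g) = mapGU D (σ ^ (k + 1)) g := by
  apply gu_ext
  ext i j
  show σ ((σ ^ k) (gm g i j)) = (σ ^ (k + 1)) (gm g i j)
  rw [pow_succ_apply]

theorem map_pow_zero (D : QD F q) (σ : RingAut F) (g : ↥(Cfsg.GU n F q)) :
    mapGU D (σ ^ 0) g = g := by
  apply gu_ext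
  ext i j
  rfl

theorem map_pow_orderOf (D : QD F q) (σ : RingAut F) (g : ↥(Cfsg.GU n F q)) :
    mapGU D (σ ^ orderOf σ) g = g := by
  apply gu_ext
  ext i j
  show (σ ^ orderOf σ) (gm g i j) = _
  rw [pow_orderOf_apply]

/-- twisted powers `g σ(g) ⋯ σ^{k-1}(g)` -/
noncomputable def tw (D : QD F q) (σ : RingAut F) (g : ↥(Cfsg.GU n F q)) :
    ℕ → ↥(Cfsg.GU n F q)
  | 0 => 1
  | k + 1 => tw D σ g k * mapGU D (σ ^ k) g

theorem tw_zero (D : QD F q) (σ : RingAut F) (g : ↥(Cfsg.GU n F q)) : tw D σ g 0 = 1 := rfl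

theorem tw_succ (D : QD F q) (σ : RingAut F) (g : ↥(Cfsg.GU n F q)) (k : ℕ) :
    tw D σ g (k + 1) = tw D σ g k * mapGU D (σ ^ k) g := rfl

theorem tw_succ' (D : QD F q) (σ : RingAut F) (g : ↥(Cfsg.GU n F q)) (k : ℕ) :
    tw D σ g (k + 1) = g * mapGU D σ (tw D σ g k) := by
  induction k with
  | zero => rw [tw_succ, tw_zero, one_mul, map_pow_zero, mapGU_one, mul_one]
  | succ k ih =>
    have h1 : tw D σ g (k + 1 + 1) = tw D σ g (k + 1) * mapGU D (σ ^ (k + 1)) g := rfl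
    rw [h1]
    nth_rewrite 1 [ih]
    rw [mul_assoc, ← map_map_pow, ← mapGU_mul]
    rfl

theorem pow_eq (D : QD F q) (σ : RingAut F) (g : ↥(Cfsg.GU n F q)) (k : ℕ) :
    (cGU g * cσ σ) ^ k = cGU (tw D σ g k) * cσ (σ ^ k) := by
  induction k with
  | zero => rw [pow_zero, tw_zero, map_one, pow_zero, map_one, mul_one]
  | succ k ih =>
    rw [pow_succ', ih, tw_succ', map_mul, pow_succ', map_mul]
    calc cGU g * cσ σ * (cGU (tw D σ g k) * cσ (σ ^ k))
        = cGU g * (cσ σ * cGU (tw D σ g k)) * cσ (σ ^ k) := by group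
      _ = cGU g * cGU (mapGU D σ (tw D σ g k)) * (cσ σ * cσ (σ ^ k)) := by
          rw [cσ_mul_cGU D]
          group

theorem gm_tw_scalar (D : QD F q) (σ : RingAut F) (μ : F) (hμ : μ * D.φ μ = 1)
    (g : ↥(Cfsg.GU n F q)) (k : ℕ) :
    gm (tw D σ (scalarGU D μ hμ * g) k) = nm σ μ k • gm (tw D σ g k) := by
  induction k with
  | zero => rw [tw_zero, tw_zero, nm_zero, one_smul]
  | succ k ih =>
    rw [tw_succ, tw_succ, gm_mul, gm_mul, ih, gm_mapGU, gm_mapGU, gm_mul_scalarGU, nm_succ]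
    have h1 : (μ • gm g).map (σ ^ k) = (σ ^ k) μ • (gm g).map (σ ^ k) := by
      ext i j
      rw [Matrix.map_apply, Matrix.smul_apply, Matrix.smul_apply, Matrix.map_apply, smul_eq_mul,
        smul_eq_mul, map_mul]
    rw [h1, Matrix.smul_mul, Matrix.mul_smul, smul_smul]

theorem conj_of_eq (x₀ : MulAut (Cfsg.PSU n F q)) (h h' g : ↥(Cfsg.GU n F q))
    (h1 : x₀ * cGU h = cGU h' * x₀) (h2 : g * h' = h) :
    cGU g * x₀ = cGU h * x₀ * (cGU h)⁻¹ := by
  have h3 : x₀ * (cGU h)⁻¹ = (cGU h')⁻¹ * x₀ := by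
    rw [eq_inv_mul_iff_mul_eq, ← mul_assoc, ← h1, mul_assoc, mul_inv_cancel, mul_one]
  rw [mul_assoc, h3, ← mul_assoc, ← h2, map_mul, mul_inv_cancel_right]

/-- elements of prime order in the coset of a field automorphism are conjugate to it -/
theorem field_conj [Fintype F] {p f : ℕ} [Fact p.Prime] (hq : q = p ^ f) (hf : 1 ≤ f)
    (hF : Fintype.card F = q ^ 2) (hn : 3 ≤ n) {D : QD F q} {σ : RingAut F} (S : Sub D σ)
    (g : ↥(Cfsg.GU n F q)) (h : (cGU g * cσ σ) ^ orderOf σ = 1) :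
    ∃ h : ↥(Cfsg.GU n F q), cGU g * cσ σ = cGU h * cσ σ * (cGU h)⁻¹ := by
  have hpos := orderOf_pos_ringAut σ
  rw [pow_eq D, pow_orderOf_eq_one, map_one, mul_one] at h
  obtain ⟨t, ht⟩ := cGU_eq_one hq hf hF hn h
  have htm : gm (tw D σ g (orderOf σ)) = t • (1 : Matrix (Fin n) (Fin n) F) := by
    apply gm_ext
    intro x
    rw [Matrix.smul_mulVec, Matrix.one_mulVec]
    exact ht x
  obtain ⟨i₀, -⟩ : ∃ i₀ : Fin n, i₀ = ⟨0, by omega⟩ := ⟨_, rfl⟩
  have htN : t * D.φ t = 1 := by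
    have h1 := adj_gm D (tw D σ g (orderOf σ))
    rw [htm, adj_smul', adj_one, Matrix.smul_mul, Matrix.mul_smul, Matrix.one_mul, smul_smul] at h1
    have h2 := congrFun (congrFun h1 i₀) i₀
    rw [Matrix.smul_apply, Matrix.one_apply_eq, smul_eq_mul, mul_one] at h2
    rw [mul_comm]
    exact h2
  have ht0 : t ≠ 0 := by
    rintro rfl
    rw [zero_mul] at htN
    exact zero_ne_one htN
  have hg0 : gm g ≠ 0 := by
    intro h0
    have h1 := gm_inv_mul g
    rw [h0, Matrix.mul_zero] at h1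
    have h2 := congrFun (congrFun h1 i₀) i₀
    rw [Matrix.zero_apply, Matrix.one_apply_eq] at h2
    exact zero_ne_one h2
  have hσt : σ t = t := by
    have h2 : gm (tw D σ g (orderOf σ + 1)) = t • gm g := by
      rw [tw_succ, map_pow_orderOf, gm_mul, htm, Matrix.smul_mul, Matrix.one_mul]
    have h3 : gm (tw D σ g (orderOf σ + 1)) = σ t • gm g := by
      rw [tw_succ', gm_mul, gm_mapGU, htm]
      have h4 : (t • (1 : Matrix (Fin n) (Fin n) F)).map σ = σ t • (1 : Matrix (Fin n) (Fin n) F) := by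
        ext i j
        rw [Matrix.map_apply, Matrix.smul_apply, Matrix.smul_apply, smul_eq_mul, smul_eq_mul,
          map_mul, Matrix.one_apply]
        split_ifs
        · rw [map_one]
        · rw [map_zero]
      rw [h4, Matrix.mul_smul, Matrix.mul_one]
    have h5 : (t - σ t) • gm g = 0 := by rw [sub_smul, ← h2, ← h3, sub_self]
    rcases smul_eq_zero.1 h5 with h6 | h6
    · exact (sub_eq_zero.1 h6).symm
    · exact absurd h6 hg0
  obtain ⟨μ, hμ, hμ2⟩ := S.norm_one_surj (t := t⁻¹) (by rw [map_inv₀, hσt])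
    (by rw [map_inv₀, ← _root_.mul_inv, htN, inv_one])
  have h6 : gm (tw D σ (scalarGU D μ hμ * g) (orderOf σ)) = 1 := by
    rw [gm_tw_scalar, hμ2, htm, smul_smul, inv_mul_cancel₀ ht0, one_smul]
  obtain ⟨B, hB, hB2⟩ := h90_matrix σ hpos (gm (scalarGU D μ hμ * g))
    (fun k => gm (tw D σ (scalarGU D μ hμ * g) k)) rfl
    (fun k => by rw [tw_succ']; rfl) h6
  obtain ⟨h, hh⟩ := descent S _ B hB hB2
  refine ⟨h, ?_⟩
  have h8 := conj_of_eq (cσ σ) h _ _ (cσ_mul_cGU D σ h) hh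
  rw [map_mul, cGU_scalarGU, one_mul] at h8
  exact h8

/-- normal form of a field automorphism -/
theorem field_normal_form (x : MulAut (Cfsg.PSU n F q)) (hx : Cfsg.IsFieldAutClassPSU x) :
    ∃ (α : MulAut (Cfsg.PSU n F q)) (σ : RingAut F), σ ≠ 1 ∧ Odd (orderOf σ) ∧
      x = α * cσ σ * α⁻¹ := by
  obtain ⟨α, φ, σ, hσ, hodd, h, heq⟩ := hx
  have h1 : φ = cσ σ := (isFieldOf_iff σ _).1 h
  refine ⟨α⁻¹, σ, hσ, hodd, ?_⟩
  rw [← h1, ← heq]
  group

end Cfsg.Agent.Lib.Helper43.SUCoset
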