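import Mathlib
import Cfsg.Prelude.Def_LieTypeDatum
import Cfsg.Agent.Lib.Helper43.SUCoset
import Cfsg.Agent.Lib.Helper43.SpFieldCent
import Cfsg.Agent.Lib.Helper43.SplitCountN
import Cfsg.Agent.Lib.Helper43.CycIndex

set_option autoImplicit false

namespace Cfsg.Agent.Lib.Helper43.SUFieldCent

open Matrix Cfsg.Agent.Lib.Helper43.SUBase Cfsg.Agent.Lib.Helper43.SUAuts
  Cfsg.Agent.Lib.Helper43.SUInn Cfsg.Agent.Lib.Helper43.SUOut
  Cfsg.Agent.Lib.Helper43.SUField Cfsg.Agent.Lib.Helper43.SUDescent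
  Cfsg.Agent.Lib.Helper43.SUCoset
  Cfsg.Agent.Lib.Helper43.H90GL Cfsg.Agent.Lib.Helper43.H90Fin
  Cfsg.Agent.Lib.Helper40.HermAdj Cfsg.Agent.Lib.Helper43.SplitCount
  Cfsg.Agent.Lib.Helper43.CycIndex
open Cfsg.Agent.Lib.Helper43.SpFieldCent (nm_eq_one)

variable {F : Type*} [Field F] {q n : ℕ}

theorem gm_ne_zero (hn : 1 ≤ n) (g : ↥(Cfsg.GU n F q)) : gm g ≠ 0 := by
  intro h0
  have h1 := gm_inv_mul g
  rw [h0, Matrix.mul_zero] at h1
  have h2 := congrFun (congrFun h1 ⟨0, hn⟩) ⟨0, hn⟩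
  rw [Matrix.zero_apply, Matrix.one_apply_eq] at h2
  exact zero_ne_one h2

/-! ### the centraliser of a field automorphism in `GU` -/

theorem commute_cσ_iff [Fintype F] {p f : ℕ} [Fact p.Prime] (hq : q = p ^ f) (hf : 1 ≤ f)
    (hF : Fintype.card F = q ^ 2) (hn : 3 ≤ n) (D : QD F q) (σ : RingAut F)
    (c : ↥(Cfsg.GU n F q)) :
    Commute (cGU c) (cσ σ) ↔ ∃ l : F, (gm c).map σ = l • gm c := by
  constructor
  · intro h
    have h1 : cGU c * cσ σ = cσ σ * cGU c := h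
    rw [cσ_mul_cGU D] at h1
    have h2 : cGU (mapGU D σ c * c⁻¹) = 1 := by
      rw [map_mul, map_inv, ← mul_right_cancel h1, mul_inv_cancel]
    obtain ⟨l, hl⟩ := cGU_eq_one hq hf hF hn h2
    refine ⟨l, ?_⟩
    apply gm_ext
    intro x
    have h3 := hl (gv c x)
    rw [gv_mul, gv_inv_gv] at h3
    rw [Matrix.smul_mulVec]
    exact h3
  · rintro ⟨l, hl⟩
    show cGU c * cσ σ = cσ σ * cGU c
    rw [cσ_mul_cGU D]
    have h2 : cGU (mapGU D σ c * c⁻¹) = 1 := by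
      apply cGU_scalar (c := l)
      intro x
      rw [gv_mul]
      show (gm c).map σ *ᵥ gv c⁻¹ x = l • x
      rw [hl, Matrix.smul_mulVec]
      show l • gv c (gv c⁻¹ x) = l • x
      rw [gv_gv_inv]
    rw [map_mul, map_inv, mul_inv_eq_one] at h2
    rw [h2]

theorem exists_fixed [Fintype F] {p f : ℕ} [Fact p.Prime] (hq : q = p ^ f) (hf : 1 ≤ f)
    (hF : Fintype.card F = q ^ 2) (hn : 3 ≤ n) {D : QD F q} {σ : RingAut F} (S : Sub D σ)
    (c : ↥(Cfsg.GU n F q)) (h : Commute (cGU c) (cσ σ)) :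
    ∃ (a : F) (ha : a * D.φ a = 1) (c₁ : ↥(Cfsg.GU n F q)), mapGU D σ c₁ = c₁ ∧
      scalarGU D a ha * c = c₁ := by
  obtain ⟨l, hl⟩ := (commute_cσ_iff hq hf hF hn D σ c).1 h
  have hpos := orderOf_pos_ringAut σ
  have hN := nm_eq_one σ (gm c) (gm_ne_zero (by omega) c) l hl
  have hl1 : l * D.φ l = 1 := by
    have h1 := adj_gm D (mapGU D σ c)
    rw [gm_mapGU, hl, adj_smul', Matrix.smul_mul, Matrix.mul_smul, adj_gm, smul_smul] at h1
    have h2 := congrFun (congrFun h1 ⟨0, by omega⟩) ⟨0, by omega⟩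
    rw [Matrix.smul_apply, Matrix.one_apply_eq, smul_eq_mul, mul_one] at h2
    rw [mul_comm]
    exact h2
  obtain ⟨a, ha, ha2⟩ := S.h90_norm_one hpos hl1 hN
  refine ⟨a, ha, scalarGU D a ha * c, ?_, rfl⟩
  apply gu_ext
  rw [gm_mapGU, gm_mul_scalarGU]
  ext i j
  rw [Matrix.map_apply, Matrix.smul_apply, smul_eq_mul, map_mul]
  have h2 := congrFun (congrFun hl i) j
  rw [Matrix.map_apply, Matrix.smul_apply, smul_eq_mul] at h2
  rw [h2, ← mul_assoc, mul_comm (σ a), ha2]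

theorem commute_of_fixed (D : QD F q) (σ : RingAut F) (c : ↥(Cfsg.GU n F q))
    (h : mapGU D σ c = c) : Commute (cGU c) (cσ σ) := by
  show cGU c * cσ σ = cσ σ * cGU c
  rw [cσ_mul_cGU D, h]

/-! ### determinants -/

theorem detμ_toGU [Fintype F] (hF : Fintype.card F = q ^ 2) (s : ↥(Cfsg.SU n F q)) :
    detμ hF (toGU s) = 1 := by
  apply Subtype.ext
  apply Units.ext
  show (gm (toGU s)).det = 1
  exact sm_det s

theorem norm_of_mem (D : QD F q) (a : ↥(μ F q)) :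
    ((a : Fˣ) : F) * D.φ ((a : Fˣ) : F) = 1 := by
  rw [D.hφ]
  exact (mem_μ_iff _).1 a.2

theorem detμ_scalarGU [Fintype F] (hF : Fintype.card F = q ^ 2) (D : QD F q) (a : ↥(μ F q)) :
    detμ hF (scalarGU (n := n) D ((a : Fˣ) : F) (norm_of_mem D a)) = a ^ n := by
  apply Subtype.ext
  apply Units.ext
  show (gm (scalarGU (n := n) D ((a : Fˣ) : F) (norm_of_mem D a))).det = _
  rw [gm_scalarGU, Matrix.det_smul, Fintype.card_fin, Matrix.det_one, mul_one,
    Subgroup.coe_pow, Units.val_pow_eq_pow_val]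

theorem det_fixed (D : QD F q) (σ : RingAut F) (c : ↥(Cfsg.GU n F q))
    (h : mapGU D σ c = c) : σ (gm c).det = (gm c).det := by
  have h1 := (RingEquiv.toRingHom σ).map_det (gm c)
  have h2 : (RingEquiv.toRingHom σ).mapMatrix (gm c) = gm (mapGU D σ c) := rfl
  rw [h2, h] at h1
  exact h1

theorem exists_diag (D : QD F q) (hn : 1 ≤ n) (σ : RingAut F) (z : F) (hz : z * D.φ z = 1)
    (hσ : σ z = z) : ∃ c : ↥(Cfsg.GU n F q), mapGU D σ c = c ∧ (gm c).det = z := by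
  classical
  obtain ⟨d, hd⟩ : ∃ d : Fin n → F, d = Function.update (fun _ => (1 : F)) ⟨0, hn⟩ z :=
    ⟨_, rfl⟩
  have hd1 : ∀ i, D.φ (d i) * d i = 1 := by
    intro i
    by_cases hi : i = ⟨0, hn⟩
    · subst hi
      rw [hd, Function.update_self, mul_comm]
      exact hz
    · rw [hd, Function.update_of_ne hi, map_one, mul_one]
  have hd2 : ∀ i, σ (d i) = d i := by
    intro i
    by_cases hi : i = ⟨0, hn⟩
    · subst hi
      rw [hd, Function.update_self]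
      exact hσ
    · rw [hd, Function.update_of_ne hi, map_one]
  have hadj : adj D.φ (Matrix.diagonal d) * Matrix.diagonal d = 1 := by
    have h1 : adj D.φ (Matrix.diagonal d) = Matrix.diagonal (fun i => D.φ (d i)) := by
      ext i j
      rw [adj_apply]
      by_cases hij : i = j
      · subst hij
        rw [Matrix.diagonal_apply_eq, Matrix.diagonal_apply_eq]
      · rw [Matrix.diagonal_apply_ne _ (Ne.symm hij), Matrix.diagonal_apply_ne _ hij, map_zero]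
    rw [h1, Matrix.diagonal_mul_diagonal]
    have h2 : (fun i => D.φ (d i) * d i) = fun _ => (1 : F) := funext hd1
    rw [h2, Matrix.diagonal_one]
  refine ⟨ofAdj D (Matrix.diagonal d) hadj, ?_, ?_⟩
  · apply gu_ext
    rw [gm_mapGU, gm_ofAdj]
    ext i j
    rw [Matrix.map_apply]
    by_cases hij : i = j
    · subst hij
      rw [Matrix.diagonal_apply_eq, hd2]
    · rw [Matrix.diagonal_apply_ne _ hij, map_zero]
  · rw [gm_ofAdj, Matrix.det_diagonal, hd, Finset.prod_update_of_mem (Finset.mem_univ _)]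
    simp

/-! ### the split class count -/

/-- the number of `Inn`-classes in the `Inndiag`-class of `x₀`, through determinants of the
centraliser -/
theorem splitCount_eq [Fintype F] {p f : ℕ} [Fact p.Prime] (hq : q = p ^ f) (hf : 1 ≤ f)
    (hF : Fintype.card F = q ^ 2) (hn : 3 ≤ n) (x₀ : MulAut (Cfsg.PSU n F q))
    (N : Subgroup ↥(μ F q))
    (h1 : ∀ c : ↥(Cfsg.GU n F q), Commute (cGU c) x₀ → detμ hF c ∈ N)
    (h2 : ∀ u ∈ N, ∃ c : ↥(Cfsg.GU n F q), Commute (cGU c) x₀ ∧ detμ hF c = u) :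
    Cfsg.splitClassCount (Cfsg.inndiagPSU n F q) (Cfsg.Inn (Cfsg.PSU n F q)) x₀ = N.index := by
  rw [← Subgroup.index_comap_of_surjective N (detμ_surjective hF (by omega : 1 ≤ n))]
  apply splitClassCount_eq_index _ _ _ (cGU (F := F) (n := n) (q := q))
  · intro h
    rw [mem_inndiag_iff]
    constructor
    · rintro ⟨g, rfl⟩
      exact ⟨g, rfl⟩
    · rintro ⟨g, rfl⟩
      exact ⟨g, rfl⟩
  · intro g g'
    rw [Subgroup.mem_comap]
    constructor
    · rintro ⟨k, hk, heq⟩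
      obtain ⟨s, rfl⟩ := (mem_inn_iff k).1 hk
      have hc : Commute (cGU (g'⁻¹ * toGU s * g)) x₀ := by
        show _ * _ = _ * _
        rw [map_mul, map_mul, map_inv]
        calc (cGU g')⁻¹ * cGU (toGU s) * cGU g * x₀
            = (cGU g')⁻¹ * (cGU (toGU s) * (cGU g * x₀ * (cGU g)⁻¹)
              * (cGU (toGU s))⁻¹) * (cGU (toGU s) * cGU g) := by group
          _ = x₀ * ((cGU g')⁻¹ * cGU (toGU s) * cGU g) := by
              rw [← heq]; group
      have h3 := N.inv_mem (h1 _ hc)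
      rw [map_mul, map_mul, map_inv, detμ_toGU, mul_one] at h3
      rw [map_mul, map_inv]
      have h4 : ((detμ hF g')⁻¹ * detμ hF g)⁻¹ = (detμ hF g)⁻¹ * detμ hF g' := by group
      rw [← h4]
      exact h3
    · intro h
      have h3 := N.inv_mem h
      obtain ⟨c, hc, hdet⟩ := h2 _ h3
      have h4 : detμ hF (g' * c * g⁻¹) = 1 := by
        rw [map_mul, map_mul, hdet, map_inv, map_mul, map_inv]
        group
      have h5 : cGU (g' * c * g⁻¹) ∈ Cfsg.Inn (Cfsg.PSU n F q) := by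
        rw [cGU_mem_inn_iff' hq hf hF hn, h4]
        exact one_mem _
      refine ⟨cGU (g' * c * g⁻¹), h5, ?_⟩
      rw [map_mul, map_mul, map_inv]
      have h6 : cGU c * x₀ = x₀ * cGU c := hc
      calc cGU g' * x₀ * (cGU g')⁻¹ = cGU g' * (x₀ * cGU c) * (cGU c)⁻¹ * (cGU g')⁻¹ := by
            group
        _ = cGU g' * cGU c * (cGU g)⁻¹ * (cGU g * x₀ * (cGU g)⁻¹) *
            (cGU g' * cGU c * (cGU g)⁻¹)⁻¹ := by rw [← h6]; group

/-- the elements of the norm one group fixed by `σ` -/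
def fixμ (σ : RingAut F) : Subgroup ↥(μ F q) := ((thU σ).ker).subgroupOf (μ F q)

theorem mem_fixμ (σ : RingAut F) (u : ↥(μ F q)) :
    u ∈ fixμ σ ↔ σ ((u : Fˣ) : F) = ((u : Fˣ) : F) := by
  unfold fixμ
  rw [Subgroup.mem_subgroupOf, mem_ker_thU]

theorem splitCount_field [Fintype F] {p f : ℕ} [Fact p.Prime] (hq : q = p ^ f) (hf : 1 ≤ f)
    (hF : Fintype.card F = q ^ 2) (hn : 3 ≤ n) {D : QD F q} {σ : RingAut F} (S : Sub D σ) :
    Cfsg.splitClassCount (Cfsg.inndiagPSU n F q) (Cfsg.Inn (Cfsg.PSU n F q)) (cσ σ) =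
      ((powMonoidHom n : ↥(μ F q) →* ↥(μ F q)).range ⊔ fixμ σ).index := by
  apply splitCount_eq hq hf hF hn
  · intro c hc
    obtain ⟨a, ha, c₁, h1, h2⟩ := exists_fixed hq hf hF hn S c hc
    have ha0 : a ≠ 0 := by
      rintro rfl
      rw [zero_mul] at ha
      exact zero_ne_one ha
    obtain ⟨a', ha'⟩ : ∃ a' : ↥(μ F q), ((a' : Fˣ) : F) = a :=
      ⟨⟨Units.mk0 a ha0, (mem_μ_iff _).2 (by rw [Units.val_mk0, ← D.hφ]; exact ha)⟩, rfl⟩
    subst ha'
    have h3 : detμ hF c = (a'⁻¹) ^ n * detμ hF c₁ := by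
      rw [← h2, map_mul, detμ_scalarGU, ← mul_assoc, ← mul_pow, inv_mul_cancel, one_pow, one_mul]
    rw [h3]
    refine Subgroup.mul_mem_sup ⟨a'⁻¹, rfl⟩ ?_
    rw [mem_fixμ]
    exact det_fixed D σ c₁ h1
  · intro u hu
    obtain ⟨y, ⟨a, rfl⟩, z, hz, rfl⟩ := Subgroup.mem_sup.1 hu
    rw [mem_fixμ] at hz
    obtain ⟨c, hc1, hc2⟩ := exists_diag (n := n) D (by omega) σ _ (norm_of_mem D z) hz
    refine ⟨scalarGU D ((a : Fˣ) : F) (norm_of_mem D a) * c, ?_, ?_⟩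
    · rw [map_mul, cGU_scalarGU, one_mul]
      exact commute_of_fixed D σ c hc1
    · rw [map_mul, detμ_scalarGU, powMonoidHom_apply]
      congr 1
      apply Subtype.ext
      apply Units.ext
      exact hc2

/-! ### the subfield -/

section Subfield

variable {K : Type*} [Field K] {q₀ : ℕ}

theorem compat [Fintype K] (D : QD F q) (DK : QD K q₀) (hK : Fintype.card K = q₀ ^ 2)
    (φ' : K →+* F) {r : ℕ} (hr : Odd r) (hq : q = q₀ ^ r) (x : K) :
    D.φ (φ' x) = φ' (DK.φ x) := by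
  obtain ⟨k, rfl⟩ := hr
  have h1 := FiniteField.pow_card x
  rw [hK] at h1
  have h2 : (φ' x) ^ (q₀ ^ 2) = φ' x := by rw [← map_pow, h1]
  rw [D.hφ, DK.hφ, hq, pow_odd_eq h2 k, map_pow]

theorem adj_mapK (D : QD F q) (DK : QD K q₀) (φ' : K →+* F)
    (hc : ∀ x, D.φ (φ' x) = φ' (DK.φ x)) (M : Matrix (Fin n) (Fin n) K) :
    adj D.φ (M.map φ') = (adj DK.φ M).map φ' := by
  ext i j
  rw [adj_apply, Matrix.map_apply, Matrix.map_apply, adj_apply, hc]

/-- the embedding of the unitary group over the subfield -/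
noncomputable def mapK (D : QD F q) (DK : QD K q₀) (φ' : K →+* F)
    (hc : ∀ x, D.φ (φ' x) = φ' (DK.φ x)) : ↥(Cfsg.GU n K q₀) →* ↥(Cfsg.GU n F q) where
  toFun h := ofAdj D ((gm h).map φ') (by
    rw [adj_mapK D DK φ' hc, ← Matrix.map_mul, adj_gm]
    exact Matrix.map_one _ (map_zero φ') (map_one φ'))
  map_one' := by
    apply gu_ext
    rw [gm_ofAdj, gm_one, gm_one]
    exact Matrix.map_one _ (map_zero φ') (map_one φ')
  map_mul' g h := by
    apply gu_ext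
    rw [gm_ofAdj, gm_mul, gm_mul, gm_ofAdj, gm_ofAdj, Matrix.map_mul]

theorem gm_mapK (D : QD F q) (DK : QD K q₀) (φ' : K →+* F)
    (hc : ∀ x, D.φ (φ' x) = φ' (DK.φ x)) (h : ↥(Cfsg.GU n K q₀)) :
    gm (mapK D DK φ' hc h) = (gm h).map φ' := rfl

theorem map_ι (D : QD F q) (DK : QD K q₀) (φ' : K →+* F)
    (hc : ∀ x, D.φ (φ' x) = φ' (DK.φ x)) (σ : RingAut F) (hφ : ∀ b, σ (φ' b) = φ' b)
    (h : ↥(Cfsg.GU n K q₀)) : mapGU D σ (mapK D DK φ' hc h) = mapK D DK φ' hc h := by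
  apply gu_ext
  rw [gm_mapGU, gm_mapK]
  ext i j
  exact hφ _

theorem exists_ι (D : QD F q) (DK : QD K q₀) (φ' : K →+* F)
    (hc : ∀ x, D.φ (φ' x) = φ' (DK.φ x)) (σ : RingAut F)
    (hφ : ∀ a, σ a = a → ∃ b, φ' b = a) (c : ↥(Cfsg.GU n F q)) (hc1 : mapGU D σ c = c) :
    ∃ h, mapK D DK φ' hc h = c := by
  have hmem : ∀ i j, ∃ b, φ' b = gm c i j := by
    intro i j
    apply hφ
    have h1 := congrArg (fun g : ↥(Cfsg.GU n F q) => gm g i j) hc1
    exact h1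
  choose M hM using hmem
  have hmap : (Matrix.of M).map φ' = gm c := by
    ext i j
    exact hM i j
  have hadj : adj DK.φ (Matrix.of M) * Matrix.of M = 1 := by
    apply Matrix.map_injective φ'.injective
    show (adj DK.φ (Matrix.of M) * Matrix.of M).map φ' = (1 : Matrix (Fin n) (Fin n) K).map φ'
    rw [Matrix.map_mul, ← adj_mapK D DK φ' hc, hmap, adj_gm]
    exact (Matrix.map_one _ (map_zero φ') (map_one φ')).symm
  exact ⟨ofAdj DK (Matrix.of M) hadj, gu_ext hmap⟩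

theorem range_eq [Fintype F] {p f : ℕ} [Fact p.Prime] (hq : q = p ^ f) (hf : 1 ≤ f)
    (hF : Fintype.card F = q ^ 2) (hn : 3 ≤ n) {D : QD F q} {σ : RingAut F} (S : Sub D σ)
    (DK : QD K q₀) (φ' : K →+* F) (hc : ∀ x, D.φ (φ' x) = φ' (DK.φ x))
    (hφ : ∀ a, σ a = a ↔ ∃ b, φ' b = a) :
    (cGU.comp (mapK (n := n) D DK φ' hc)).range =
      Cfsg.inndiagPSU n F q ⊓ Subgroup.centralizer {cσ σ} := by
  ext y
  constructor
  · rintro ⟨h, rfl⟩
    refine Subgroup.mem_inf.2 ⟨cGU_mem_inndiag _, ?_⟩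
    rw [Subgroup.mem_centralizer_singleton_iff]
    exact (commute_of_fixed D σ _ (map_ι D DK φ' hc σ (fun b => (hφ _).2 ⟨b, rfl⟩) h)).eq
  · intro hy
    obtain ⟨hy1, hy2⟩ := Subgroup.mem_inf.1 hy
    obtain ⟨c, rfl⟩ := (mem_inndiag_iff y).1 hy1
    rw [Subgroup.mem_centralizer_singleton_iff] at hy2
    obtain ⟨a, ha, c₁, h1, h2⟩ := exists_fixed hq hf hF hn S c hy2
    obtain ⟨h, hh⟩ := exists_ι D DK φ' hc σ (fun a ha => (hφ a).1 ha) c₁ h1
    refine ⟨h, ?_⟩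
    rw [MonoidHom.comp_apply, hh, ← h2, map_mul, cGU_scalarGU, one_mul]

theorem ker_eq [Fintype F] {p f : ℕ} [Fact p.Prime] (hq : q = p ^ f) (hf : 1 ≤ f)
    (hF : Fintype.card F = q ^ 2) (hn : 3 ≤ n) (D : QD F q)
    (DK : QD K q₀) (φ' : K →+* F) (hc : ∀ x, D.φ (φ' x) = φ' (DK.φ x)) :
    (cGU.comp (mapK (n := n) D DK φ' hc)).ker =
      (Cfsg.Geo.scalars (Fin n) K).subgroupOf (Cfsg.GU n K q₀) := by
  ext h
  rw [MonoidHom.mem_ker, MonoidHom.comp_apply, Subgroup.mem_subgroupOf,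
    Cfsg.Geo.mem_scalars_iff]
  have hn1 : 1 ≤ n := by omega
  constructor
  · intro hk
    obtain ⟨l, hl⟩ := cGU_eq_one hq hf hF hn hk
    have h1 : (gm h).map φ' = l • (1 : Matrix (Fin n) (Fin n) F) := by
      apply gm_ext
      intro x
      rw [Matrix.smul_mulVec, Matrix.one_mulVec]
      exact hl x
    have hoff : ∀ i j, i ≠ j → gm h i j = 0 := by
      intro i j hij
      have h2 := congrFun (congrFun h1 i) j
      rw [Matrix.map_apply, Matrix.smul_apply, Matrix.one_apply_ne hij, smul_zero] at h2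
      exact (map_eq_zero φ').1 h2
    have hdiag : ∀ i, φ' (gm h i i) = l := by
      intro i
      have h2 := congrFun (congrFun h1 i) i
      rw [Matrix.map_apply, Matrix.smul_apply, Matrix.one_apply_eq, smul_eq_mul, mul_one] at h2
      exact h2
    have hl0 : l ≠ 0 := by
      rintro rfl
      rw [zero_smul] at h1
      exact gm_ne_zero hn1 (mapK D DK φ' hc h) h1
    have hne : gm h ⟨0, hn1⟩ ⟨0, hn1⟩ ≠ 0 := by
      intro h0
      have h2 := hdiag ⟨0, hn1⟩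
      rw [h0, map_zero] at h2
      exact hl0 h2.symm
    refine ⟨Units.mk0 _ hne, ?_⟩
    show gm h = _
    ext i j
    by_cases hij : i = j
    · subst hij
      rw [Matrix.smul_apply, Matrix.one_apply_eq, smul_eq_mul, mul_one]
      apply φ'.injective
      rw [Units.val_mk0, hdiag, hdiag]
    · rw [hoff i j hij, Matrix.smul_apply, Matrix.one_apply_ne hij, smul_zero]
  · rintro ⟨c, hc'⟩
    apply cGU_scalar (c := φ' c)
    intro x
    show (gm h).map φ' *ᵥ x = φ' c • x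
    have h1 : gm h = (c : K) • (1 : Matrix (Fin n) (Fin n) K) := hc'
    have h2 : ((c : K) • (1 : Matrix (Fin n) (Fin n) K)).map φ' =
        φ' c • (1 : Matrix (Fin n) (Fin n) F) := by
      ext i j
      rw [Matrix.map_apply, Matrix.smul_apply, Matrix.smul_apply, smul_eq_mul, smul_eq_mul,
        map_mul, Matrix.one_apply, Matrix.one_apply]
      split_ifs
      · rw [map_one]
      · rw [map_zero]
    rw [h1, h2, Matrix.smul_mulVec, Matrix.one_mulVec]

/-- the centraliser of a field automorphism in `Inndiag` is `PGU` over the fixed field -/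
theorem centralizer_field [Fintype F] {p f : ℕ} [Fact p.Prime] (hq : q = p ^ f) (hf : 1 ≤ f)
    (hF : Fintype.card F = q ^ 2) (hn : 3 ≤ n) {D : QD F q} {σ : RingAut F} (S : Sub D σ)
    (DK : QD K q₀) (φ' : K →+* F) (hc : ∀ x, D.φ (φ' x) = φ' (DK.φ x))
    (hφ : ∀ a, σ a = a ↔ ∃ b, φ' b = a) :
    Nonempty (↥(Cfsg.inndiagPSU n F q ⊓ Subgroup.centralizer {cσ σ}) ≃* Cfsg.PGU n K q₀) := by
  obtain ⟨e1⟩ : Nonempty (↥(Cfsg.GU n K q₀) ⧸ (cGU.comp (mapK (n := n) D DK φ' hc)).ker ≃*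
      ↥(cGU.comp (mapK (n := n) D DK φ' hc)).range) :=
    ⟨QuotientGroup.quotientKerEquivRange (cGU.comp (mapK (n := n) D DK φ' hc))⟩
  obtain ⟨e2⟩ : Nonempty (↥(cGU.comp (mapK (n := n) D DK φ' hc)).range ≃*
      ↥(Cfsg.inndiagPSU n F q ⊓ Subgroup.centralizer {cσ σ})) :=
    ⟨MulEquiv.subgroupCongr (range_eq hq hf hF hn S DK φ' hc hφ)⟩
  obtain ⟨e3⟩ : Nonempty (↥(Cfsg.GU n K q₀) ⧸ (cGU.comp (mapK (n := n) D DK φ' hc)).ker ≃*
      Cfsg.PGU n K q₀) :=
    ⟨QuotientGroup.quotientMulEquivOfEq (ker_eq hq hf hF hn D DK φ' hc)⟩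
  exact ⟨(e2.symm.trans e1.symm).trans e3⟩

/-- the number of fixed elements of norm one -/
theorem card_fixμ [Fintype K] (hK : Fintype.card K = q₀ ^ 2) (D : QD F q) (DK : QD K q₀)
    (σ : RingAut F) (φ' : K →+* F) (hc : ∀ x, D.φ (φ' x) = φ' (DK.φ x))
    (hφ : ∀ a, σ a = a ↔ ∃ b, φ' b = a) :
    Nat.card ↥(fixμ (q := q) σ) = q₀ + 1 := by
  rw [← card_μ hK]
  symm
  have hmem : ∀ u : ↥(μ K q₀), Units.map φ'.toMonoidHom (u : Kˣ) ∈ μ F q := by
    intro u
    rw [mem_μ_iff]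
    show φ' ((u : Kˣ) : K) * φ' ((u : Kˣ) : K) ^ q = 1
    rw [← D.hφ, hc, DK.hφ, ← map_mul, (mem_μ_iff _).1 u.2, map_one]
  have hfix : ∀ u : ↥(μ K q₀), (⟨Units.map φ'.toMonoidHom (u : Kˣ), hmem u⟩ : ↥(μ F q)) ∈
      fixμ (q := q) σ := by
    intro u
    rw [mem_fixμ]
    exact (hφ _).2 ⟨_, rfl⟩
  apply Nat.card_eq_of_bijective (fun u : ↥(μ K q₀) => (⟨⟨Units.map φ'.toMonoidHom (u : Kˣ), hmem u⟩,
    hfix u⟩ : ↥(fixμ (q := q) σ)))
  constructor
  · intro u v huv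
    have h1 := congrArg (fun w : ↥(fixμ (q := q) σ) => (((w : ↥(μ F q)) : Fˣ) : F)) huv
    apply Subtype.ext
    apply Units.ext
    exact φ'.injective h1
  · rintro ⟨v, hv⟩
    rw [mem_fixμ] at hv
    obtain ⟨b, hb⟩ := (hφ _).1 hv
    have hb0 : b ≠ 0 := by
      rintro rfl
      rw [map_zero] at hb
      exact (v : Fˣ).ne_zero hb.symm
    have hbμ : Units.mk0 b hb0 ∈ μ K q₀ := by
      rw [mem_μ_iff, Units.val_mk0]
      apply φ'.injective
      rw [map_mul, ← DK.hφ, ← hc, hb, map_one]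
      exact norm_of_mem D v
    refine ⟨⟨Units.mk0 b hb0, hbμ⟩, ?_⟩
    apply Subtype.ext
    apply Subtype.ext
    apply Units.ext
    exact hb

theorem splitCount_field_card [Fintype F] {p f : ℕ} [Fact p.Prime] (hq : q = p ^ f) (hf : 1 ≤ f)
    (hF : Fintype.card F = q ^ 2) (hn : 3 ≤ n) {D : QD F q} {σ : RingAut F} (S : Sub D σ)
    [Fintype K] (hK : Fintype.card K = q₀ ^ 2) (DK : QD K q₀) (φ' : K →+* F)
    (hc : ∀ x, D.φ (φ' x) = φ' (DK.φ x)) (hφ : ∀ a, σ a = a ↔ ∃ b, φ' b = a)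
    (hdvd : q₀ + 1 ∣ q + 1) :
    Cfsg.splitClassCount (Cfsg.inndiagPSU n F q) (Cfsg.Inn (Cfsg.PSU n F q)) (cσ σ) =
      Nat.gcd n ((q + 1) / (q₀ + 1)) := by
  rw [splitCount_field hq hf hF hn S]
  apply index_sup_pow
  rw [card_fixμ hK D DK σ φ' hc hφ, card_μ hF]
  exact Nat.mul_div_cancel' hdvd

end Subfield

end Cfsg.Agent.Lib.Helper43.SUFieldCent
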