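import Mathlib

set_option autoImplicit false

namespace Cfsg.Agent.Lib.Helper43.SpAdj

open Matrix

variable {l : Type*} [DecidableEq l] [Fintype l] {R : Type*} [CommRing R]

/-- the adjoint of a matrix with respect to the standard symplectic form -/
def adj (X : Matrix (l ⊕ l) (l ⊕ l) R) : Matrix (l ⊕ l) (l ⊕ l) R :=
  (-J l R) * Xᵀ * J l R

theorem adj_one : adj (1 : Matrix (l ⊕ l) (l ⊕ l) R) = 1 := by
  unfold adj
  rw [Matrix.transpose_one, Matrix.mul_one, Matrix.neg_mul, J_squared, neg_neg]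

theorem adj_add (X Y : Matrix (l ⊕ l) (l ⊕ l) R) : adj (X + Y) = adj X + adj Y := by
  unfold adj
  rw [Matrix.transpose_add, Matrix.mul_add, Matrix.add_mul]

theorem adj_neg (X : Matrix (l ⊕ l) (l ⊕ l) R) : adj (-X) = -adj X := by
  unfold adj
  rw [Matrix.transpose_neg, Matrix.mul_neg, Matrix.neg_mul (-J l R * Xᵀ)]

theorem adj_sub (X Y : Matrix (l ⊕ l) (l ⊕ l) R) : adj (X - Y) = adj X - adj Y := by
  rw [sub_eq_add_neg, adj_add, adj_neg, ← sub_eq_add_neg]

theorem adj_zero : adj (0 : Matrix (l ⊕ l) (l ⊕ l) R) = 0 := by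
  unfold adj
  simp

theorem adj_smul (c : R) (X : Matrix (l ⊕ l) (l ⊕ l) R) : adj (c • X) = c • adj X := by
  unfold adj
  rw [Matrix.transpose_smul, Matrix.mul_smul, Matrix.smul_mul]

theorem adj_mul (X Y : Matrix (l ⊕ l) (l ⊕ l) R) : adj (X * Y) = adj Y * adj X := by
  unfold adj
  rw [Matrix.transpose_mul]
  have h : J l R * (-J l R) = 1 := by rw [Matrix.mul_neg, J_squared, neg_neg]
  calc -J l R * (Yᵀ * Xᵀ) * J l R = -J l R * Yᵀ * 1 * Xᵀ * J l R := by
        rw [Matrix.mul_one, Matrix.mul_assoc (-J l R) Yᵀ Xᵀ]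
    _ = -J l R * Yᵀ * J l R * (-J l R * Xᵀ * J l R) := by
        rw [← h]
        simp only [Matrix.mul_assoc]

theorem adj_adj (X : Matrix (l ⊕ l) (l ⊕ l) R) : adj (adj X) = X := by
  unfold adj
  rw [Matrix.transpose_mul, Matrix.transpose_mul, Matrix.transpose_transpose, Matrix.transpose_neg,
    J_transpose, neg_neg]
  have h : J l R * J l R = -1 := J_squared l R
  calc -J l R * (-J l R * (X * J l R)) * J l R
      = (J l R * J l R) * X * (J l R * J l R) := by
        simp only [Matrix.mul_assoc, Matrix.neg_mul, Matrix.mul_neg, neg_neg]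
    _ = X := by rw [h]; simp

theorem adj_pow (X : Matrix (l ⊕ l) (l ⊕ l) R) (k : ℕ) : adj (X ^ k) = adj X ^ k := by
  induction k with
  | zero => simp [adj_one]
  | succ k ih => rw [pow_succ, adj_mul, ih, pow_succ']

theorem adj_sum {ι : Type*} (s : Finset ι) (f : ι → Matrix (l ⊕ l) (l ⊕ l) R) :
    adj (∑ i ∈ s, f i) = ∑ i ∈ s, adj (f i) := by
  classical
  induction s using Finset.induction_on with
  | empty => simp [adj_zero]
  | insert a s ha ih => rw [Finset.sum_insert ha, Finset.sum_insert ha, adj_add, ih]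

theorem mem_symplectic_iff (X : Matrix (l ⊕ l) (l ⊕ l) R) :
    X ∈ symplecticGroup l R ↔ adj X * X = 1 := by
  rw [SymplecticGroup.mem_iff']
  unfold adj
  constructor
  · intro h
    rw [Matrix.mul_assoc, Matrix.mul_assoc, ← Matrix.mul_assoc Xᵀ, h, Matrix.neg_mul, J_squared,
      neg_neg]
  · intro h
    have h1 : J l R * (-J l R * Xᵀ * J l R * X) = J l R := by rw [h, Matrix.mul_one]
    have h2 : J l R * (-J l R * Xᵀ * J l R * X) = Xᵀ * J l R * X := by
      have h3 : J l R * (-J l R) = 1 := by rw [Matrix.mul_neg, J_squared, neg_neg]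
      calc J l R * (-J l R * Xᵀ * J l R * X) = (J l R * (-J l R)) * Xᵀ * J l R * X := by
            simp only [Matrix.mul_assoc]
        _ = Xᵀ * J l R * X := by rw [h3, Matrix.one_mul]
    rw [← h2]
    exact h1

theorem coe_inv (A : symplecticGroup l R) :
    ((A⁻¹ : symplecticGroup l R) : Matrix (l ⊕ l) (l ⊕ l) R) =
      adj (A : Matrix (l ⊕ l) (l ⊕ l) R) := rfl

end Cfsg.Agent.Lib.Helper43.SpAdj
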