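import Mathlib
import Cfsg.Agent.Lib.Helper43.PolyMatMore
import Cfsg.Agent.Lib.Helper43.SpAdj
import Cfsg.Agent.Lib.Helper43.Cayley

set_option autoImplicit false

namespace Cfsg.Agent.Lib.Helper43.SkewNilp

open Matrix Cfsg.Agent.Lib.Helper43.RegNilpComm Cfsg.Agent.Lib.Helper43.PolyMatMore
  Cfsg.Agent.Lib.Helper43.SpAdj Cfsg.Agent.Lib.Helper43.Cayley

variable {F : Type*} [Field F] {l : Type*} [Fintype l] [DecidableEq l]

/-- the commutant of `M` -/
abbrev Cen (M : Matrix (l ⊕ l) (l ⊕ l) F) : Subalgebra F (Matrix (l ⊕ l) (l ⊕ l) F) :=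
  Subalgebra.centralizer F ({M} : Set (Matrix (l ⊕ l) (l ⊕ l) F))

theorem mem_Cen (M X : Matrix (l ⊕ l) (l ⊕ l) F) : X ∈ Cen M ↔ Commute X M := by
  rw [Subalgebra.mem_centralizer_iff]
  constructor
  · intro h
    exact (h M rfl).symm
  · intro h g hg
    rw [Set.mem_singleton_iff] at hg
    subst hg
    exact h.eq.symm

/-- hypotheses: `M` is a regular nilpotent matrix, skew for the symplectic adjoint -/
structure Hyp (M : Matrix (l ⊕ l) (l ⊕ l) F) : Prop where
  hnil : M ^ Fintype.card (l ⊕ l) = 0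
  hreg : M.rank = Fintype.card (l ⊕ l) - 1
  hpos : 0 < Fintype.card (l ⊕ l)
  hskew : adj M = -M
  h2 : (2 : F) ≠ 0

variable {M : Matrix (l ⊕ l) (l ⊕ l) F}

theorem exists_polyMat (h : Hyp M) (X : Matrix (l ⊕ l) (l ⊕ l) F) (hX : Commute X M) :
    ∃ p, X = polyMat M p :=
  exists_polyMat_of_commute M h.hnil h.hreg h.hpos X hX

theorem commute_of_commute (h : Hyp M) (X Y : Matrix (l ⊕ l) (l ⊕ l) F) (hX : Commute X M)
    (hY : Commute Y M) : X * Y = Y * X := by
  obtain ⟨p, rfl⟩ := exists_polyMat h X hX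
  obtain ⟨p', rfl⟩ := exists_polyMat h Y hY
  exact (commute_polyMat_polyMat M p p').eq

theorem adj_commute (h : Hyp M) (X : Matrix (l ⊕ l) (l ⊕ l) F) (hX : Commute X M) :
    Commute (adj X) M := by
  have h1 : adj (X * M) = adj (M * X) := by rw [hX.eq]
  rw [adj_mul, adj_mul, h.hskew] at h1
  show adj X * M = M * adj X
  have h2 : -(M * adj X) = -(adj X * M) := by
    rw [← Matrix.neg_mul, ← Matrix.mul_neg]
    exact h1
  exact (neg_injective h2).symm

/-- the sign twist on coefficients -/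
def sgn {N : ℕ} (p : Fin N → F) : Fin N → F := fun i => (-1) ^ (i : ℕ) * p i

theorem adj_polyMat (h : Hyp M) (p : Fin (Fintype.card (l ⊕ l)) → F) :
    adj (polyMat M p) = polyMat M (sgn p) := by
  have h1 : adj (polyMat M p) = polyMat (-M) p := by
    unfold polyMat
    rw [adj_sum]
    apply Finset.sum_congr rfl
    intro i _
    rw [adj_smul, adj_pow, h.hskew]
  rw [h1, polyMat_neg_left]
  rfl

/-- the commutant is a commutative ring -/
@[reducible] def commRing (h : Hyp M) : CommRing (Cen M) :=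
  { (inferInstance : Ring (Cen M)) with
    mul_comm := fun a b => Subtype.ext
      (commute_of_commute h a.1 b.1 ((mem_Cen M a.1).1 a.2) ((mem_Cen M b.1).1 b.2)) }

/-- the commutant as a type with its commutative ring structure -/
def CenT (_h : Hyp M) : Type _ := Cen M

instance instCommRingCenT (h : Hyp M) : CommRing (CenT h) := commRing h

instance instFiniteCenT (h : Hyp M) [Finite F] : Finite (CenT h) :=
  inferInstanceAs (Finite (Cen M))

/-- the underlying matrix -/
def CenT.val {h : Hyp M} (x : CenT h) : Matrix (l ⊕ l) (l ⊕ l) F := Subtype.val (p := fun X => X ∈ Cen M) x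

theorem CenT.val_mem {h : Hyp M} (x : CenT h) : Commute x.val M :=
  (mem_Cen M _).1 (Subtype.property (p := fun X => X ∈ Cen M) x)

/-- constructor -/
def CenT.mk (h : Hyp M) (X : Matrix (l ⊕ l) (l ⊕ l) F) (hX : Commute X M) : CenT h :=
  (⟨X, (mem_Cen M X).2 hX⟩ : Cen M)

theorem CenT.val_mk (h : Hyp M) (X : Matrix (l ⊕ l) (l ⊕ l) F) (hX : Commute X M) :
    (CenT.mk h X hX).val = X := rfl

theorem CenT.ext {h : Hyp M} {x y : CenT h} (hxy : x.val = y.val) : x = y :=
  Subtype.ext (p := fun X => X ∈ Cen M) hxy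

theorem CenT.val_one (h : Hyp M) : (1 : CenT h).val = 1 := rfl
theorem CenT.val_mul {h : Hyp M} (x y : CenT h) : (x * y).val = x.val * y.val := rfl
theorem CenT.val_add {h : Hyp M} (x y : CenT h) : (x + y).val = x.val + y.val := rfl
theorem CenT.val_sub {h : Hyp M} (x y : CenT h) : (x - y).val = x.val - y.val := rfl
theorem CenT.val_neg {h : Hyp M} (x : CenT h) : (-x).val = -x.val := rfl
theorem CenT.val_zero (h : Hyp M) : (0 : CenT h).val = 0 := rfl

/-- the adjoint as a ring endomorphism of the commutant -/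
def sigma (h : Hyp M) : CenT h →+* CenT h where
  toFun x := CenT.mk h (adj x.val) (adj_commute h x.val x.val_mem)
  map_one' := CenT.ext (by rw [CenT.val_mk, CenT.val_one, adj_one])
  map_mul' x y := CenT.ext (by
    rw [CenT.val_mk, CenT.val_mul, CenT.val_mul, CenT.val_mk, CenT.val_mk, adj_mul]
    exact commute_of_commute h _ _ (adj_commute h y.val y.val_mem)
      (adj_commute h x.val x.val_mem))
  map_zero' := CenT.ext (by rw [CenT.val_mk, CenT.val_zero, adj_zero])
  map_add' x y := CenT.ext (by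
    rw [CenT.val_mk, CenT.val_add, CenT.val_add, CenT.val_mk, CenT.val_mk, adj_add])

theorem sigma_val (h : Hyp M) (x : CenT h) : (sigma h x).val = adj x.val := rfl

theorem isUnit_of_isUnit_val {h : Hyp M} (x : CenT h) (hx : IsUnit x.val) : IsUnit x := by
  obtain ⟨W, hW⟩ := hx.exists_right_inv
  have hW' : W * x.val = 1 := mul_eq_one_comm.1 hW
  have hmem : Commute W M := commute_of_inverse M x.val W x.val_mem hW hW'
  rw [isUnit_iff_exists]
  exact ⟨CenT.mk h W hmem, CenT.ext hW, CenT.ext hW'⟩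

theorem isUnit_val_of_isUnit {h : Hyp M} (x : CenT h) (hx : IsUnit x) : IsUnit x.val := by
  rw [isUnit_iff_exists] at hx ⊢
  obtain ⟨y, h1, h2⟩ := hx
  exact ⟨y.val, congrArg CenT.val h1, congrArg CenT.val h2⟩

theorem one_add_polyMat (h : Hyp M) (p : Fin (Fintype.card (l ⊕ l)) → F) :
    1 + polyMat M p = polyMat M (Pi.single ⟨0, h.hpos⟩ 1 + p) := by
  rw [polyMat_add, polyMat_single_zero, one_smul]

theorem one_sub_polyMat (h : Hyp M) (p : Fin (Fintype.card (l ⊕ l)) → F) :
    1 - polyMat M p = polyMat M (Pi.single ⟨0, h.hpos⟩ 1 + -p) := by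
  rw [polyMat_add, polyMat_single_zero, one_smul, polyMat_neg, sub_eq_add_neg]

theorem isUnit_one_add_iff (h : Hyp M) (p : Fin (Fintype.card (l ⊕ l)) → F) :
    IsUnit (1 + polyMat M p) ↔ 1 + p ⟨0, h.hpos⟩ ≠ 0 := by
  rw [one_add_polyMat h, isUnit_polyMat_iff M h.hnil _ h.hpos]
  simp

theorem isUnit_one_sub_iff (h : Hyp M) (p : Fin (Fintype.card (l ⊕ l)) → F) :
    IsUnit (1 - polyMat M p) ↔ 1 - p ⟨0, h.hpos⟩ ≠ 0 := by
  rw [one_sub_polyMat h, isUnit_polyMat_iff M h.hnil _ h.hpos]
  simp [sub_eq_add_neg]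

theorem sq_const_of_unitary (h : Hyp M) (p : Fin (Fintype.card (l ⊕ l)) → F)
    (hp : adj (polyMat M p) * polyMat M p = 1) :
    p ⟨0, h.hpos⟩ = 1 ∨ p ⟨0, h.hpos⟩ = -1 := by
  obtain ⟨w, hw0, hw⟩ := exists_ker_ne_zero M h.hnil h.hpos
  have h1 := congrArg (fun X : Matrix (l ⊕ l) (l ⊕ l) F => X *ᵥ w) hp
  simp only [← Matrix.mulVec_mulVec, Matrix.one_mulVec] at h1
  rw [polyMat_mulVec_ker M p h.hpos w hw, Matrix.mulVec_smul, adj_polyMat h,
    polyMat_mulVec_ker M _ h.hpos w hw, smul_smul] at h1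
  have h3 : (p ⟨0, h.hpos⟩ * sgn p ⟨0, h.hpos⟩ - 1) • w = 0 := by
    rw [sub_smul, h1, one_smul, sub_self]
  have h4 : p ⟨0, h.hpos⟩ * sgn p ⟨0, h.hpos⟩ - 1 = 0 := by
    rcases smul_eq_zero.1 h3 with h5 | h5
    · exact h5
    · exact absurd h5 hw0
  have h5 : p ⟨0, h.hpos⟩ * p ⟨0, h.hpos⟩ = 1 := by
    have h6 : sgn p ⟨0, h.hpos⟩ = p ⟨0, h.hpos⟩ := by simp [sgn]
    rw [h6] at h4
    exact sub_eq_zero.1 h4
  exact mul_self_eq_one_iff.1 h5

theorem sgn_eq_neg_iff (h2 : (2 : F) ≠ 0) {N : ℕ} (p : Fin N → F) :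
    sgn p = -p ↔ ∀ i : Fin N, Even (i : ℕ) → p i = 0 := by
  constructor
  · intro h i hi
    have h1 := congrFun h i
    simp only [sgn, hi.neg_one_pow, one_mul, Pi.neg_apply] at h1
    have h3 : (2 : F) * p i = 0 := by linear_combination h1
    exact (mul_eq_zero.1 h3).resolve_left h2
  · intro h
    funext i
    rcases Nat.even_or_odd (i : ℕ) with hi | hi
    · simp [sgn, h i hi]
    · simp [sgn, hi.neg_one_pow]

theorem card_even_zero [Fintype F] (N m : ℕ) (hN : N = 2 * m) :
    Nat.card {p : Fin N → F // ∀ i : Fin N, Even (i : ℕ) → p i = 0} = Fintype.card F ^ m := by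
  subst hN
  classical
  let e : {p : Fin (2 * m) → F // ∀ i : Fin (2 * m), Even (i : ℕ) → p i = 0} ≃ (Fin m → F) :=
    { toFun := fun p j => p.1 ⟨2 * (j : ℕ) + 1, by have := j.2; omega⟩
      invFun := fun f => ⟨fun i => if h : (i : ℕ) % 2 = 1 then
          f ⟨(i : ℕ) / 2, by have := i.2; omega⟩ else 0, by
        intro i hi
        have h1 : ¬ ((i : ℕ) % 2 = 1) := by
          rw [Nat.even_iff] at hi
          omega
        simp [h1]⟩
      left_inv := by
        intro p
        apply Subtype.ext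
        funext i
        by_cases h : (i : ℕ) % 2 = 1
        · simp only [h, dif_pos]
          exact congrArg p.1 (Fin.ext (by
            show 2 * ((i : ℕ) / 2) + 1 = (i : ℕ)
            omega))
        · simp only [h, dif_neg, not_false_eq_true]
          exact (p.2 i (by rw [Nat.even_iff]; omega)).symm
      right_inv := by
        intro f
        funext j
        have h : (2 * (j : ℕ) + 1) % 2 = 1 := by omega
        simp only [h, dif_pos]
        exact congrArg f (Fin.ext (by
          show (2 * (j : ℕ) + 1) / 2 = (j : ℕ)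
          omega)) }
  rw [Nat.card_congr e, Nat.card_eq_fintype_card, Fintype.card_fun, Fintype.card_fin]

/-- The number of `X` commuting with a skew regular nilpotent `M` and with `adj X * X = 1`. -/
theorem card_unitary_centralizer [Fintype F] (h : Hyp M) (m : ℕ)
    (hcard : Fintype.card (l ⊕ l) = 2 * m) :
    Nat.card {X : Matrix (l ⊕ l) (l ⊕ l) F // Commute X M ∧ adj X * X = 1} =
      2 * Fintype.card F ^ m := by
  classical
  have h2' : IsUnit (2 : CenT h) := by
    apply isUnit_of_isUnit_val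
    have h1 : (2 : CenT h).val = algebraMap F (Matrix (l ⊕ l) (l ⊕ l) F) 2 := by
      rw [map_ofNat]
      rfl
    rw [h1]
    exact (IsUnit.mk0 (2 : F) h.h2).map _
  have rep : ∀ x : CenT h, ∃ p, x.val = polyMat M p := fun x =>
    exists_polyMat h x.val x.val_mem
  have hY : ∀ y : CenT h, sigma h y = -y → IsUnit (1 + y) := by
    intro y hy
    obtain ⟨p, hp⟩ := rep y
    have h1 : adj y.val = -y.val := congrArg CenT.val hy
    rw [hp, adj_polyMat h, ← polyMat_neg] at h1
    have h3 := polyMat_injective M h.hnil h.hreg h.hpos h1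
    have h4 : p ⟨0, h.hpos⟩ = 0 :=
      (sgn_eq_neg_iff h.h2 p).1 h3 ⟨0, h.hpos⟩ (by simp)
    apply isUnit_of_isUnit_val
    rw [CenT.val_add, CenT.val_one, hp, isUnit_one_add_iff h, h4, add_zero]
    exact one_ne_zero
  have hK : ∀ x : CenT h, sigma h x * x = 1 →
      ∃ p, x.val = polyMat M p ∧ (p ⟨0, h.hpos⟩ = 1 ∨ p ⟨0, h.hpos⟩ = -1) := by
    intro x hx
    obtain ⟨p, hp⟩ := rep x
    have h1 : adj x.val * x.val = 1 := congrArg CenT.val hx
    rw [hp] at h1
    exact ⟨p, hp, sq_const_of_unitary h p h1⟩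
  have hK1 : ∀ x : CenT h, sigma h x * x = 1 → IsUnit (1 + x) ∨ IsUnit (1 - x) := by
    intro x hx
    obtain ⟨p, hp, h1 | h1⟩ := hK x hx
    · left
      apply isUnit_of_isUnit_val
      rw [CenT.val_add, CenT.val_one, hp, isUnit_one_add_iff h, h1, one_add_one_eq_two]
      exact h.h2
    · right
      apply isUnit_of_isUnit_val
      rw [CenT.val_sub, CenT.val_one, hp, isUnit_one_sub_iff h, h1, sub_neg_eq_add,
        one_add_one_eq_two]
      exact h.h2
  have hK2 : ∀ x : CenT h, sigma h x * x = 1 → ¬ (IsUnit (1 + x) ∧ IsUnit (1 - x)) := by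
    rintro x hx ⟨hu1, hu2⟩
    obtain ⟨p, hp, h1⟩ := hK x hx
    have hu1' := isUnit_val_of_isUnit (1 + x) hu1
    have hu2' := isUnit_val_of_isUnit (1 - x) hu2
    rw [CenT.val_add, CenT.val_one, hp, isUnit_one_add_iff h] at hu1'
    rw [CenT.val_sub, CenT.val_one, hp, isUnit_one_sub_iff h] at hu2'
    rcases h1 with h1 | h1
    · rw [h1, sub_self] at hu2'
      exact hu2' rfl
    · rw [h1, add_neg_cancel] at hu1'
      exact hu1' rfl
  have hACL := card_unitary (sigma h) h2' hY hK1 hK2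
  have hKcard : Nat.card {x : CenT h // sigma h x * x = 1} =
      Nat.card {X : Matrix (l ⊕ l) (l ⊕ l) F // Commute X M ∧ adj X * X = 1} := by
    apply Nat.card_eq_of_bijective (fun x : {x : CenT h // sigma h x * x = 1} =>
      (⟨x.1.val, x.1.val_mem, congrArg CenT.val x.2⟩ :
        {X : Matrix (l ⊕ l) (l ⊕ l) F // Commute X M ∧ adj X * X = 1}))
    constructor
    · intro x x' hxx
      have h1 := congrArg Subtype.val hxx
      exact Subtype.ext (CenT.ext h1)
    · rintro ⟨X, hX1, hX2⟩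
      exact ⟨⟨CenT.mk h X hX1, CenT.ext hX2⟩, rfl⟩
  have hmemY : ∀ p : {p : Fin (Fintype.card (l ⊕ l)) → F //
      ∀ i : Fin (Fintype.card (l ⊕ l)), Even (i : ℕ) → p i = 0},
      sigma h (CenT.mk h (polyMat M p.1) (commute_polyMat M p.1)) =
        -(CenT.mk h (polyMat M p.1) (commute_polyMat M p.1)) := by
    intro p
    apply CenT.ext
    rw [sigma_val, CenT.val_neg, CenT.val_mk, adj_polyMat h, (sgn_eq_neg_iff h.h2 p.1).2 p.2,
      polyMat_neg]
  have hYcard : Nat.card {p : Fin (Fintype.card (l ⊕ l)) → F //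
      ∀ i : Fin (Fintype.card (l ⊕ l)), Even (i : ℕ) → p i = 0} =
      Nat.card {y : CenT h // sigma h y = -y} := by
    apply Nat.card_eq_of_bijective (fun p : {p : Fin (Fintype.card (l ⊕ l)) → F //
        ∀ i : Fin (Fintype.card (l ⊕ l)), Even (i : ℕ) → p i = 0} =>
      (⟨CenT.mk h (polyMat M p.1) (commute_polyMat M p.1), hmemY p⟩ :
        {y : CenT h // sigma h y = -y}))
    constructor
    · intro p p' hpp
      have h1 : polyMat M p.1 = polyMat M p'.1 := congrArg (fun y => y.1.val) hpp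
      exact Subtype.ext (polyMat_injective M h.hnil h.hreg h.hpos h1)
    · rintro ⟨y, hy⟩
      obtain ⟨p, hp⟩ := rep y
      have h1 : adj y.val = -y.val := congrArg CenT.val hy
      rw [hp, adj_polyMat h, ← polyMat_neg] at h1
      have h3 := polyMat_injective M h.hnil h.hreg h.hpos h1
      refine ⟨⟨p, (sgn_eq_neg_iff h.h2 p).1 h3⟩, ?_⟩
      apply Subtype.ext
      apply CenT.ext
      exact hp.symm
  rw [← hKcard, hACL, ← hYcard, card_even_zero _ m hcard]

end Cfsg.Agent.Lib.Helper43.SkewNilp
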