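import Mathlib
import Cfsg.Agent.Lib.Helper41.SpFStmt

set_option autoImplicit false

/-! S5975 piece EMB: the embedding `Sp_{2m'}(L) → Sp_{2d}(F) ∩ C(φ L)` from a symplectic
`L`-basis. -/

namespace Cfsg.Agent.Lib.Helper43.SpFEMB

open Matrix Polynomial
open Cfsg.Agent.Lib.Helper40.SympConj (sadj)
open Cfsg.Agent.Lib.Helper41.SpFStmt

universe u

theorem main : Emb.{u} := by
  intro F _ d L _ _ φ m' b τ hbij hform
  classical
  -- `E` as an `F`-linear equivalence
  let E₀ : (Fin m' ⊕ Fin m' → L) →ₗ[F] (Fin d ⊕ Fin d → F) :=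
    { toFun := fun c => ∑ j, φ (c j) *ᵥ b j
      map_add' := fun c c' => by
        simp only [Pi.add_apply, map_add, Matrix.add_mulVec, Finset.sum_add_distrib]
      map_smul' := fun t c => by
        simp only [Pi.smul_apply, map_smul, Matrix.smul_mulVec, RingHom.id_apply,
          Finset.smul_sum] }
  let E : (Fin m' ⊕ Fin m' → L) ≃ₗ[F] (Fin d ⊕ Fin d → F) := LinearEquiv.ofBijective E₀ hbij
  have hE : ∀ c, E c = ∑ j, φ (c j) *ᵥ b j := fun c => rfl
  -- the map on matrices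
  obtain ⟨T, hT⟩ : ∃ T : Matrix (Fin m' ⊕ Fin m') (Fin m' ⊕ Fin m') L →
      ((Fin d ⊕ Fin d → F) →ₗ[F] (Fin d ⊕ Fin d → F)), ∀ M c, T M (E c) = E (M *ᵥ c) := by
    refine ⟨fun M => E.toLinearMap ∘ₗ (M.mulVecLin.restrictScalars F) ∘ₗ E.symm.toLinearMap,
      ?_⟩
    intro M c
    show E (M.mulVecLin (E.symm (E c))) = E (M *ᵥ c)
    rw [LinearEquiv.symm_apply_apply, Matrix.mulVecLin_apply]
  let Ψ₀ : Matrix (Fin m' ⊕ Fin m') (Fin m' ⊕ Fin m') L →*
      Matrix (Fin d ⊕ Fin d) (Fin d ⊕ Fin d) F :=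
    { toFun := fun M => LinearMap.toMatrix' (T M)
      map_one' := by
        have h1 : T 1 = LinearMap.id := by
          apply LinearMap.ext
          intro v
          obtain ⟨c, rfl⟩ := E.surjective v
          rw [hT, Matrix.one_mulVec, LinearMap.id_apply]
        rw [h1, LinearMap.toMatrix'_id]
      map_mul' := fun M N => by
        have h1 : T (M * N) = T M ∘ₗ T N := by
          apply LinearMap.ext
          intro v
          obtain ⟨c, rfl⟩ := E.surjective v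
          rw [LinearMap.comp_apply, hT, hT, hT, Matrix.mulVec_mulVec]
        rw [h1, LinearMap.toMatrix'_comp] }
  have hΨ₀ : ∀ M c, Ψ₀ M *ᵥ E c = E (M *ᵥ c) := by
    intro M c
    show LinearMap.toMatrix' (T M) *ᵥ E c = _
    rw [← Matrix.toLin'_apply, Matrix.toLin'_toMatrix', hT]
  let Ψ : ↥(Cfsg.spGL m' L) →* GL (Fin d ⊕ Fin d) F :=
    (Units.map Ψ₀).comp (Cfsg.spGL m' L).subtype
  have hΨ : ∀ (M : ↥(Cfsg.spGL m' L)) c,
      (Ψ M).val *ᵥ E c = E ((M : GL (Fin m' ⊕ Fin m') L).val *ᵥ c) := fun M c => hΨ₀ _ c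
  have hφE : ∀ (a : L) c, φ a *ᵥ E c = E (a • c) := by
    intro a c
    rw [hE, hE, Matrix.mulVec_sum]
    apply Finset.sum_congr rfl
    intro j _
    rw [Matrix.mulVec_mulVec, ← map_mul]
    rfl
  refine ⟨Ψ, ?_, ?_⟩
  · intro M N hMN
    apply Subtype.ext
    apply Units.ext
    apply Matrix.toLin'.injective
    apply LinearMap.ext
    intro c
    rw [Matrix.toLin'_apply, Matrix.toLin'_apply]
    apply E.injective
    rw [← hΨ, ← hΨ, hMN]
  · intro M
    constructor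
    · show ∀ u v, Cfsg.sympForm d F ((Ψ M).val *ᵥ u) ((Ψ M).val *ᵥ v) = Cfsg.sympForm d F u v
      intro u v
      obtain ⟨c, rfl⟩ := E.surjective u
      obtain ⟨c', rfl⟩ := E.surjective v
      have hM : ∀ u v, Cfsg.sympForm m' L ((M : GL (Fin m' ⊕ Fin m') L).val *ᵥ u)
          ((M : GL (Fin m' ⊕ Fin m') L).val *ᵥ v) = Cfsg.sympForm m' L u v := M.2
      rw [hΨ, hΨ, hE, hE, hE, hE, hform, hform, hM]
    · intro a
      apply Matrix.toLin'.injective
      apply LinearMap.ext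
      intro v
      obtain ⟨c, rfl⟩ := E.surjective v
      rw [Matrix.toLin'_apply, Matrix.toLin'_apply, ← Matrix.mulVec_mulVec,
        ← Matrix.mulVec_mulVec, hφE, hΨ, hΨ, hφE, Matrix.mulVec_smul]

end Cfsg.Agent.Lib.Helper43.SpFEMB
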