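import Mathlib
import Cfsg.Agent.Lib.Helper41.SpFStmt
import Cfsg.Agent.S0752

set_option autoImplicit false

/-! S5975 piece KB: a symplectic `L`-basis for a field `L` of self-adjoint matrices. -/

namespace Cfsg.Agent.Lib.Helper43.SpFKB

open Matrix Polynomial
open Cfsg.Agent.Lib.Helper40.SympConj (sadj)
open Cfsg.Agent.Lib.Helper41.SpFStmt

universe u

section
variable {F : Type u} [Field F] {d : ℕ}

/-- the symplectic form as a bilinear form -/
noncomputable def fB (d : ℕ) (F : Type u) [Field F] :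
    LinearMap.BilinForm F (Fin d ⊕ Fin d → F) :=
  Matrix.toBilin' (J (Fin d) F)

theorem fB_apply (u v : Fin d ⊕ Fin d → F) : fB d F u v = Cfsg.sympForm d F u v := by
  unfold fB Cfsg.sympForm
  rw [Matrix.toBilin'_apply']

theorem symp_nondeg (w : Fin d ⊕ Fin d → F) (h : ∀ v, Cfsg.sympForm d F w v = 0) : w = 0 := by
  funext i
  have h1 := h ((-J (Fin d) F) *ᵥ Pi.single i 1)
  unfold Cfsg.sympForm at h1
  rw [Matrix.mulVec_mulVec, Cfsg.Agent.Lib.Helper40.SympConj.J_mul_neg_J, Matrix.one_mulVec,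
    dotProduct_single_one] at h1
  exact h1

theorem fB_adj (M : Mat d F) (hM : sadj M = M) (u v : Fin d ⊕ Fin d → F) :
    fB d F u (M *ᵥ v) = fB d F (M *ᵥ u) v := by
  rw [fB_apply, fB_apply]
  unfold Cfsg.sympForm
  rw [Cfsg.Agent.Lib.Helper40.SympConj.adjoint_rel, hM]

theorem J_entry (m : ℕ) (L : Type u) [Field L] (i i' : Fin m) :
    J (Fin m) L (Sum.inl i) (Sum.inr i') = -(if i = i' then (1 : L) else 0) ∧
    J (Fin m) L (Sum.inr i) (Sum.inl i') = (if i = i' then (1 : L) else 0) ∧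
    J (Fin m) L (Sum.inl i) (Sum.inl i') = 0 ∧ J (Fin m) L (Sum.inr i) (Sum.inr i') = 0 := by
  refine ⟨?_, ?_, ?_, ?_⟩ <;> simp [Matrix.J, Matrix.one_apply]

end

theorem main : KB.{u} := by
  intro F _ d L _ _ φ hφ hsa halt
  classical
  -- `V` as an `L`-module
  let ρ : L →+* Module.End F (Fin d ⊕ Fin d → F) :=
    ((Matrix.toLinAlgEquiv' : Mat d F ≃ₐ[F] _).toAlgHom.comp φ).toRingHom
  letI instL : Module L (Fin d ⊕ Fin d → F) := Module.compHom _ ρ
  have hsmul : ∀ (c : L) (v : Fin d ⊕ Fin d → F), c • v = φ c *ᵥ v := fun c v => rfl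
  haveI : IsScalarTower F L (Fin d ⊕ Fin d → F) := ⟨fun a c v => by
    rw [hsmul, hsmul, map_smul, Matrix.smul_mulVec]⟩
  haveI hfinL : FiniteDimensional F L := Module.Finite.of_injective φ.toLinearMap hφ
  haveI : FiniteDimensional L (Fin d ⊕ Fin d → F) :=
    Module.Finite.of_restrictScalars_finite F L (Fin d ⊕ Fin d → F)
  -- the functional `τ`
  obtain ⟨τ, hτ⟩ := LinearMap.exists_leftInverse_of_injective (Algebra.linearMap F L)
    (LinearMap.ker_eq_bot.mpr (algebraMap F L).injective)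
  have hτ1 : τ 1 = 1 := by
    have h1 := LinearMap.congr_fun hτ 1
    simpa using h1
  -- the trace pairing is perfect
  let Θ : L →ₗ[F] Module.Dual F L := (LinearMap.mul F L).compr₂ τ
  have hΘ : ∀ a c : L, Θ a c = τ (a * c) := fun a c => rfl
  have hΘinj : Function.Injective Θ := by
    rw [← LinearMap.ker_eq_bot, LinearMap.ker_eq_bot']
    intro a ha
    by_contra hne
    have h1 : Θ a a⁻¹ = 0 := by rw [ha]; rfl
    rw [hΘ, mul_inv_cancel₀ hne, hτ1] at h1
    exact one_ne_zero h1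
  let Θe : L ≃ₗ[F] Module.Dual F L :=
    LinearMap.linearEquivOfInjective Θ hΘinj Subspace.dual_finrank_eq.symm
  have hΘe : ∀ a, Θe a = Θ a := fun a => rfl
  have hinj : ∀ a a' : L, (∀ c, τ (a * c) = τ (a' * c)) → a = a' := by
    intro a a' h
    apply hΘinj
    ext c
    rw [hΘ, hΘ, h c]
  -- the `L`-valued form
  let ψ : (Fin d ⊕ Fin d → F) → (Fin d ⊕ Fin d → F) → Module.Dual F L := fun u v =>
    { toFun := fun c => fB d F (φ c *ᵥ u) v
      map_add' := fun c c' => by rw [map_add, Matrix.add_mulVec, map_add, LinearMap.add_apply]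
      map_smul' := fun t c => by
        rw [map_smul, Matrix.smul_mulVec, map_smul, LinearMap.smul_apply, RingHom.id_apply] }
  let B : (Fin d ⊕ Fin d → F) → (Fin d ⊕ Fin d → F) → L := fun u v => Θe.symm (ψ u v)
  have hB : ∀ u v c, τ (B u v * c) = fB d F (φ c *ᵥ u) v := by
    intro u v c
    have h1 : Θe (B u v) = ψ u v := Θe.apply_symm_apply _
    rw [hΘe] at h1
    have h2 := LinearMap.congr_fun h1 c
    rw [hΘ] at h2
    exact h2
  let BL : LinearMap.BilinForm L (Fin d ⊕ Fin d → F) := LinearMap.mk₂ L B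
    (fun u u' v => by
      apply hinj
      intro c
      rw [add_mul, map_add, hB, hB, hB, Matrix.mulVec_add, map_add, LinearMap.add_apply])
    (fun a u v => by
      apply hinj
      intro c
      rw [smul_eq_mul, mul_comm a, mul_assoc, hB, hB, hsmul, Matrix.mulVec_mulVec, ← map_mul,
        mul_comm c a])
    (fun u v v' => by
      apply hinj
      intro c
      rw [add_mul, map_add, hB, hB, hB, map_add])
    (fun a u v => by
      apply hinj
      intro c
      rw [smul_eq_mul, mul_comm a, mul_assoc, hB, hB, hsmul, fB_adj _ (hsa a),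
        Matrix.mulVec_mulVec, ← map_mul])
  have hBL : ∀ u v, BL u v = B u v := fun u v => rfl
  have hA : BL.IsAlt := by
    intro u
    rw [hBL]
    apply hinj
    intro c
    rw [hB, fB_apply, halt, zero_mul, map_zero]
  have hf : ∀ u v, Cfsg.sympForm d F u v = τ (BL u v) := by
    intro u v
    have h1 := hB u v 1
    rw [mul_one, map_one, Matrix.one_mulVec, fB_apply] at h1
    rw [hBL, h1]
  obtain ⟨m', k, b, h1, h2, h3, h4⟩ := Cfsg.Agent.S0752.result BL hA
  have hk : k = 0 := by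
    by_contra hk
    have hj : 0 < k := Nat.pos_of_ne_zero hk
    apply b.ne_zero (Sum.inr ⟨0, hj⟩)
    apply symp_nondeg
    intro v
    rw [hf, h4, map_zero]
  subst hk
  let e : (Fin m' ⊕ Fin m') ⊕ Fin 0 ≃ Fin m' ⊕ Fin m' :=
    (Equiv.sumEmpty _ _).trans (Equiv.sumComm _ _)
  let b' : Module.Basis (Fin m' ⊕ Fin m') L (Fin d ⊕ Fin d → F) := b.reindex e
  have hb'l : ∀ i, b' (Sum.inl i) = b (Sum.inl (Sum.inr i)) := fun i => by
    rw [Module.Basis.reindex_apply]; rfl
  have hb'r : ∀ i, b' (Sum.inr i) = b (Sum.inl (Sum.inl i)) := fun i => by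
    rw [Module.Basis.reindex_apply]; rfl
  have hG : ∀ j k, BL (b' j) (b' k) = J (Fin m') L j k := by
    intro j k
    rcases j with i | i <;> rcases k with i' | i'
    · rw [hb'l, hb'l, h3, (J_entry m' L i i').2.2.1]
    · rw [hb'l, hb'r, ← LinearMap.IsAlt.neg hA, h1, (J_entry m' L i i').1]
      by_cases hii : i = i'
      · rw [if_pos hii, if_pos hii.symm]
      · rw [if_neg hii, if_neg (fun h => hii h.symm)]
    · rw [hb'r, hb'l, h1, (J_entry m' L i i').2.1]
    · rw [hb'r, hb'r, h2, (J_entry m' L i i').2.2.2]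
  have hE : ∀ c : Fin m' ⊕ Fin m' → L, ∑ j, φ (c j) *ᵥ b' j = b'.equivFun.symm c := by
    intro c
    rw [Module.Basis.equivFun_symm_apply]
    rfl
  refine ⟨m', ⇑b', τ, ?_, ?_⟩
  · have h5 : (fun c : Fin m' ⊕ Fin m' → L => ∑ j, φ (c j) *ᵥ b' j) = ⇑b'.equivFun.symm := by
      funext c
      exact hE c
    rw [h5]
    exact b'.equivFun.symm.bijective
  · intro c c'
    have h6 : ∀ j k, Cfsg.sympForm d F (φ (c j) *ᵥ b' j) (φ (c' k) *ᵥ b' k)
        = τ (c j * (J (Fin m') L j k * c' k)) := by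
      intro j k
      rw [← fB_apply, fB_adj _ (hsa _), Matrix.mulVec_mulVec, ← map_mul, ← hB, ← hBL, hG]
      congr 1
      ring
    rw [← fB_apply, map_sum]
    simp_rw [map_sum, LinearMap.sum_apply, fB_apply, h6]
    rw [Finset.sum_comm]
    simp_rw [← map_sum]
    congr 1
    unfold Cfsg.sympForm
    rw [dotProduct]
    apply Finset.sum_congr rfl
    intro j _
    rw [Matrix.mulVec, dotProduct, Finset.mul_sum]

end Cfsg.Agent.Lib.Helper43.SpFKB
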