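import Mathlib
import Cfsg.Agent.Lib.Helper41.TMStmt
import Cfsg.Agent.Lib.Helper43.GenBlocks
import Cfsg.Agent.Lib.Helper44.NegPairs

set_option autoImplicit false

/-! S5987 piece FIXND (minus form, all `q`): the fixed space of an isometry of order prime to `p`
is nondegenerate (generic `Helper43.GenBlocks.fix_nd`). -/

universe u

open scoped Matrix

namespace Cfsg.Agent.Lib.Helper43.TMFIXND

open Cfsg.Agent.Lib.Helper41.TMStmt
open Cfsg.Agent.Lib.Helper37.HypStmt (cc IPos)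
open Cfsg.Agent.Lib.Helper45.OMiStmt (M Aniso FxM NDegM StabM)
open Cfsg.Agent.Lib.Helper41.TMTwoStmt (TSubM PlusM FixTSM)
open Cfsg.Agent.Lib.Helper43.GenBlocks Cfsg.Agent.Lib.Helper44.NegPairs
open Cfsg.Agent.Lib.Helper44.QSpace Cfsg.Agent.Lib.Helper44.WittND

theorem main : Top.{u} → FixND.{u} := by
  intro hTop F _ _ a₀ b₀ hab p _ _ d r _ hrp x hx hxr
  have hr : r.Prime := Fact.out
  have hr0 : (r : F) ≠ 0 := by
    rw [Ne, CharP.cast_eq_zero_iff F p]
    intro h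
    exact hrp ((Nat.prime_dvd_prime_iff_eq Fact.out hr).mp h).symm
  obtain ⟨Q, hQ⟩ : ∃ Q : QuadraticForm F (M d → F), Q = minusQ (d - 1) F a₀ b₀ := ⟨_, rfl⟩
  have hTop1 : Cfsg.Geo.IsNondegenerateOn (QuadraticMap.polar (⇑Q)) ⊤ := by
    rw [hQ]
    exact (hTop F a₀ b₀ hab d).1
  have hS : Sep Q := by
    intro w hw
    exact ndsub_of_ndeg Q ⊤ hTop1 w Submodule.mem_top (fun y _ => hw y)
  have hx' : ∀ v : M d → F, Q ((x : Matrix (M d) (M d) F) *ᵥ v) = Q v := by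
    intro v
    rw [hQ]
    exact hx v v
  obtain ⟨φ, φ', h1, h2, hφr, hφa, hφQ⟩ := setup_mat Q r x hx' hxr
  have hND : NDsub Q (FxM (x : Matrix (M d) (M d) F)) := by
    intro u hu hrad
    have hu' : φ u = u := by
      rw [hφa]
      exact (Cfsg.Agent.Lib.Helper45.OMiStmt.mem_FxM _ u).mp hu
    apply fix_nd r hr0 Q hS φ hφr hφQ u hu'
    intro y hy
    apply hrad y
    rw [Cfsg.Agent.Lib.Helper45.OMiStmt.mem_FxM, ← hφa]
    exact hy
  have h3 := ndeg_of_ndsub Q _ hND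
  rw [hQ] at h3
  exact h3

end Cfsg.Agent.Lib.Helper43.TMFIXND
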