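import Mathlib
import Cfsg.Agent.Lib.Helper44.TSStmt
import Cfsg.Agent.Lib.Helper43.HypBFCore

set_option autoImplicit false

/-! S5972 piece PAIRE: two orthogonal blocks with the same irreducible factor contain an invariant
totally singular subspace (Chevalley–Warning route). -/

namespace Cfsg.Agent.Lib.Helper43.TSPAIRE

open Module QuadraticMap Polynomial
open Cfsg.Agent.Lib.Helper44.QSpace Cfsg.Agent.Lib.Helper44.OTyp2
open Cfsg.Agent.Lib.Helper40.RecipPoly Cfsg.Agent.Lib.Helper44.NegPairs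
open Cfsg.Agent.Lib.Helper37.HypStmt Cfsg.Agent.Lib.Helper37.HypStmt2
open Cfsg.Agent.Lib.Helper44.TSStmt Cfsg.Agent.Lib.Helper43.HypBFCore

universe u

theorem exists_ne_of_dvd_card {α : Type*} {inst : Fintype α} {p : ℕ} (hp : 2 ≤ p)
    (h : p ∣ @Fintype.card α inst) (a : α) : ∃ b, b ≠ a := by
  have hpos : 0 < @Fintype.card α inst := Fintype.card_pos_iff.mpr ⟨a⟩
  have h1 := Nat.le_of_dvd hpos h
  exact Fintype.exists_ne_of_one_lt_card (by omega) a

section abstract
variable {F : Type*} [Field F] [Fintype F] {V : Type*} [AddCommGroup V] [Module F V]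
  [FiniteDimensional F V]

/-- a nonzero vector `w` of `M` with `B (w, φ^a w) = 0` for `a < k`, when `2 k < dim M` -/
theorem exists_isotropic {p : ℕ} [Fact p.Prime] [CharP F p] (Q : QuadraticForm F V)
    (φ : Module.End F V) (M : Submodule F V) (k : ℕ) (hk : 2 * k < finrank F M) :
    ∃ w ∈ M, w ≠ 0 ∧ ∀ a, a < k → polar Q w ((φ ^ a) w) = 0 := by
  classical
  obtain ⟨n, hn⟩ : ∃ n, n = finrank F M := ⟨_, rfl⟩
  obtain ⟨b⟩ : Nonempty (Basis (Fin n) F M) := ⟨Module.finBasisOfFinrankEq F M hn.symm⟩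
  obtain ⟨L, hL⟩ : ∃ L : (Fin n → F) →ₗ[F] V, L = M.subtype ∘ₗ b.equivFun.symm.toLinearMap :=
    ⟨_, rfl⟩
  have hLM : ∀ c, L c ∈ M := by
    intro c
    rw [hL]
    exact (b.equivFun.symm c).2
  have hLinj : ∀ c, L c = 0 → c = 0 := by
    intro c hc
    rw [hL] at hc
    have h3 : b.equivFun.symm c = 0 := Subtype.ext hc
    have h4 := congrArg b.equivFun h3
    rw [LinearEquiv.apply_symm_apply, map_zero] at h4
    exact h4
  obtain ⟨G, hG0⟩ : ∃ G : ℕ → Matrix (Fin n) (Fin n) F, G = fun a =>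
      LinearMap.BilinForm.toMatrix' ((polarBilin Q).compl₁₂ L ((φ ^ a) ∘ₗ L)) := ⟨_, rfl⟩
  have hG : ∀ a,
      G a = LinearMap.BilinForm.toMatrix' ((polarBilin Q).compl₁₂ L ((φ ^ a) ∘ₗ L)) := by
    intro a
    rw [hG0]
  have hGval : ∀ a c, ∑ j, ∑ l, c j * G a j l * c l = polar Q (L c) ((φ ^ a) (L c)) := by
    intro a c
    rw [← Matrix.toBilin'_apply, hG, Matrix.toBilin'_toMatrix']
    rfl
  obtain ⟨f, hf0⟩ : ∃ f : ℕ → MvPolynomial (Fin n) F, f = fun a =>
      ∑ j, ∑ l, MvPolynomial.X j * MvPolynomial.C (G a j l) * MvPolynomial.X l := ⟨_, rfl⟩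
  have hf : ∀ a,
      f a = ∑ j, ∑ l, MvPolynomial.X j * MvPolynomial.C (G a j l) * MvPolynomial.X l := by
    intro a
    rw [hf0]
  have hfeval : ∀ a c, MvPolynomial.eval c (f a) = polar Q (L c) ((φ ^ a) (L c)) := by
    intro a c
    rw [hf, ← hGval]
    simp only [map_sum, map_mul, MvPolynomial.eval_X, MvPolynomial.eval_C]
  have hfdeg : ∀ a, (f a).totalDegree ≤ 2 := by
    intro a
    rw [hf]
    apply MvPolynomial.totalDegree_finsetSum_le
    intro j _
    apply MvPolynomial.totalDegree_finsetSum_le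
    intro l _
    calc (MvPolynomial.X j * MvPolynomial.C (G a j l) * MvPolynomial.X l :
          MvPolynomial (Fin n) F).totalDegree
        ≤ (MvPolynomial.X j * MvPolynomial.C (G a j l) : MvPolynomial (Fin n) F).totalDegree
          + (MvPolynomial.X l : MvPolynomial (Fin n) F).totalDegree :=
          MvPolynomial.totalDegree_mul _ _
      _ ≤ ((MvPolynomial.X j : MvPolynomial (Fin n) F).totalDegree
            + (MvPolynomial.C (G a j l) : MvPolynomial (Fin n) F).totalDegree)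
          + (MvPolynomial.X l : MvPolynomial (Fin n) F).totalDegree :=
          Nat.add_le_add_right (MvPolynomial.totalDegree_mul _ _) _
      _ = 2 := by
          rw [MvPolynomial.totalDegree_X, MvPolynomial.totalDegree_C, MvPolynomial.totalDegree_X]
  have hsum : (∑ a : Fin k, (f (a : ℕ)).totalDegree) < Fintype.card (Fin n) := by
    have h3 : (∑ a : Fin k, (f (a : ℕ)).totalDegree) ≤ ∑ _a : Fin k, 2 :=
      Finset.sum_le_sum (fun a _ => hfdeg a)
    rw [Finset.sum_const, Finset.card_univ, Fintype.card_fin, smul_eq_mul] at h3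
    rw [Fintype.card_fin]
    omega
  have hcw := char_dvd_card_solutions_of_fintype_sum_lt (K := F) (σ := Fin n) p
    (f := fun a : Fin k => f (a : ℕ)) hsum
  have h0 : ∀ a : Fin k, MvPolynomial.eval (0 : Fin n → F) (f (a : ℕ)) = 0 := by
    intro a
    rw [hfeval, map_zero]
    simp [polar]
  obtain ⟨⟨c, hc⟩, hne⟩ := exists_ne_of_dvd_card (Fact.out : p.Prime).two_le hcw ⟨0, h0⟩
  have hc0 : c ≠ 0 := by
    intro h
    apply hne
    exact Subtype.ext h
  refine ⟨L c, hLM c, fun h => hc0 (hLinj c h), fun a ha => ?_⟩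
  have h3 := hc ⟨a, ha⟩
  rw [hfeval] at h3
  exact h3

theorem pair_abs {p : ℕ} [Fact p.Prime] [CharP F p] (h2F : (2 : F) ≠ 0)
    (Q : QuadraticForm F V) (φ φ' : Module.End F V) (h1 : φ * φ' = 1) (h2 : φ' * φ = 1)
    (hφ : ∀ v, Q (φ v) = Q v) (i : ℕ)
    (hInv : ∀ R : Submodule F V, (∀ v ∈ R, φ v ∈ R) → (∀ v ∈ R, φ v = v → v = 0) →
      i ∣ finrank F R)
    (P : F[X]) (hPm : P.Monic) (hPdeg : P.natDegree = i) (hi : 2 ≤ i)
    (hP0 : (1 : F) + P.coeff 0 ≠ 0) (hL : IsCoprime P (X - C 1))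
    (M : Submodule F V) (hM : ∀ v ∈ M, φ v ∈ M) (hMk : ∀ v ∈ M, aeval φ P v = 0)
    (hMdim : 2 * i - 1 ≤ finrank F M) :
    ∃ U : Submodule F V, U ≤ M ∧ (∀ v ∈ U, φ v ∈ U) ∧ (∀ u ∈ U, Q u = 0) ∧ finrank F U = i := by
  obtain ⟨w, hwM, hw0, hβ⟩ := exists_isotropic (p := p) Q φ M (i - 1) (by omega)
  have hPw : aeval φ P w = 0 := hMk w hwM
  have hiso : ∀ a b : V, polar Q (φ a) (φ b) = polar Q a b := by
    intro a b
    unfold polar
    rw [← map_add, hφ, hφ, hφ]
  have hisopow : ∀ (n : ℕ) (a b : V), polar Q ((φ ^ n) a) ((φ ^ n) b) = polar Q a b := by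
    intro n
    induction n with
    | zero =>
      intro a b
      rw [pow_zero, Module.End.one_apply, Module.End.one_apply]
    | succ n ih =>
      intro a b
      rw [pow_succ', Module.End.mul_apply, Module.End.mul_apply, hiso, ih]
  -- the last value
  have hlast : polar Q w ((φ ^ (i - 1)) w) = 0 := by
    have h3 : aeval φ P w = (φ ^ P.natDegree) w
        + ∑ j ∈ Finset.range P.natDegree, P.coeff j • (φ ^ j) w := by
      conv_lhs => rw [hPm.as_sum]
      rw [map_add, map_pow, aeval_X, LinearMap.add_apply, map_sum, LinearMap.sum_apply]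
      congr 1
      apply Finset.sum_congr rfl
      intro j _
      rw [map_mul, aeval_C, map_pow, aeval_X, Module.End.mul_apply, Module.algebraMap_end_apply]
    rw [hPw, hPdeg] at h3
    have h4 : polar Q (φ w) ((φ ^ i) w
        + ∑ j ∈ Finset.range i, P.coeff j • (φ ^ j) w) = 0 := by
      rw [← h3]
      simp [polar]
    obtain ⟨i', rfl⟩ : ∃ i', i = i' + 1 := ⟨i - 1, by omega⟩
    rw [polar_add_right, Finset.sum_range_succ', polar_add_right] at h4
    have e1 : polar Q (φ w) ((φ ^ (i' + 1)) w) = polar Q w ((φ ^ i') w) := by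
      rw [pow_succ', Module.End.mul_apply, hiso]
    have e2 : polar Q (φ w) (∑ j ∈ Finset.range i', P.coeff (j + 1) • (φ ^ (j + 1)) w) = 0 := by
      have h5 : ∀ j ∈ Finset.range i', P.coeff (j + 1) • (φ ^ (j + 1)) w
          = P.coeff (j + 1) • φ ((φ ^ j) w) := by
        intro j _
        rw [pow_succ', Module.End.mul_apply]
      rw [Finset.sum_congr rfl h5]
      have h6 : ∀ (s : Finset ℕ), (∀ j ∈ s, j < i') →
          polar Q (φ w) (∑ j ∈ s, P.coeff (j + 1) • φ ((φ ^ j) w)) = 0 := by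
        intro s
        induction s using Finset.induction_on with
        | empty =>
          intro _
          simp [polar]
        | insert j s hjs ih =>
          intro hs
          rw [Finset.sum_insert hjs, polar_add_right, polar_smul_right, hiso,
            hβ j (by
              have := hs j (Finset.mem_insert_self j s)
              omega),
            smul_zero, zero_add]
          exact ih (fun j' hj' => hs j' (Finset.mem_insert_of_mem hj'))
      exact h6 _ (fun j hj => Finset.mem_range.mp hj)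
    have e3 : polar Q (φ w) (P.coeff 0 • (φ ^ 0) w) = P.coeff 0 * polar Q w (φ w) := by
      rw [pow_zero, Module.End.one_apply, polar_smul_right, smul_eq_mul, polar_comm]
    rw [e1, e2, e3, zero_add] at h4
    simp only [Nat.add_sub_cancel]
    by_cases hi3 : 1 < i'
    · have h7 := hβ 1 (by omega)
      rw [pow_one] at h7
      rw [h7, mul_zero, add_zero] at h4
      exact h4
    · have hi1 : i' = 1 := by omega
      subst hi1
      rw [pow_one] at h4 ⊢
      have h8 : (1 + P.coeff 0) * polar Q w (φ w) = 0 := by linear_combination h4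
      exact (mul_eq_zero.mp h8).resolve_left hP0
  have hβ' : ∀ a, a < i → polar Q w ((φ ^ a) w) = 0 := by
    intro a ha
    by_cases h : a < i - 1
    · exact hβ a h
    · have : a = i - 1 := by omega
      rw [this]
      exact hlast
  obtain ⟨U, hU⟩ : ∃ U, U = cyc φ P.natDegree w := ⟨_, rfl⟩
  have hUM : U ≤ M := hU ▸ cyc_le φ M hM _ w hwM
  have hUinv : ∀ v ∈ U, φ v ∈ U := hU ▸ cyc_inv φ P hPm w hPw
  have hUle : finrank F U ≤ i := by
    rw [hU, ← hPdeg]
    exact finrank_cyc_le φ _ w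
  have hwU : w ∈ U := by
    rw [hU]
    exact mem_cyc_self φ _ (by omega) w
  have hgen : ∀ a b : Fin P.natDegree,
      polar Q ((φ ^ (a : ℕ)) w) ((φ ^ (b : ℕ)) w) = 0 := by
    intro a b
    have key : ∀ s t : ℕ, s ≤ t → t < i → polar Q ((φ ^ s) w) ((φ ^ t) w) = 0 := by
      intro s t hst ht
      obtain ⟨e, rfl⟩ := Nat.exists_eq_add_of_le hst
      rw [pow_add, Module.End.mul_apply, hisopow]
      exact hβ' e (by omega)
    have ha : (a : ℕ) < i := by
      have := a.2
      omega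
    have hb : (b : ℕ) < i := by
      have := b.2
      omega
    rcases le_total (a : ℕ) (b : ℕ) with h | h
    · exact key _ _ h hb
    · rw [polar_comm]
      exact key _ _ h ha
  have hUU : ∀ u ∈ U, ∀ u' ∈ U, polar Q u u' = 0 := by
    intro u hu
    rw [hU] at hu
    refine Submodule.span_induction ?_ ?_ ?_ ?_ hu
    · rintro _ ⟨a, rfl⟩ u' hu'
      rw [hU] at hu'
      refine Submodule.span_induction ?_ ?_ ?_ ?_ hu'
      · rintro _ ⟨b, rfl⟩
        exact hgen a b
      · simp [polar]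
      · intro y z _ _ hy hz
        rw [polar_add_right, hy, hz, add_zero]
      · intro c y _ hy
        rw [polar_smul_right, hy, smul_zero]
    · intro u' _
      simp [polar]
    · intro y z _ _ hy hz u' hu'
      rw [polar_add_left, hy u' hu', hz u' hu', add_zero]
    · intro c y _ hy u' hu'
      rw [polar_smul_left, hy u' hu', smul_zero]
  have hUfix : ∀ v ∈ U, φ v = v → v = 0 := by
    intro v hv hfix
    obtain ⟨a, b, hab⟩ := hL
    have h3 : aeval φ (a * P + b * (X - C 1)) v = v := by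
      rw [hab, map_one, Module.End.one_apply]
    rw [map_add, LinearMap.add_apply, map_mul, Module.End.mul_apply, hMk v (hUM hv), map_zero,
      zero_add, map_mul, Module.End.mul_apply, map_sub, aeval_X, aeval_C, map_one,
      LinearMap.sub_apply, Module.End.one_apply, hfix, sub_self, map_zero] at h3
    exact h3.symm
  refine ⟨U, hUM, hUinv, ?_, ?_⟩
  · intro u hu
    have h3 := hUU u hu u hu
    rw [polar_self'] at h3
    exact (mul_eq_zero.mp h3).resolve_left h2F
  · have hdvd := hInv U hUinv hUfix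
    have hpos : 0 < finrank F U := by
      rcases Nat.eq_zero_or_pos (finrank F U) with h | h
      · exfalso
        have hbot : U = ⊥ := Submodule.finrank_eq_zero.mp h
        rw [hbot] at hwU
        exact hw0 ((Submodule.mem_bot F).mp hwU)
      · exact h
    have := Nat.le_of_dvd hpos hdvd
    omega

end abstract

theorem main : InvDim.{u} → PairE.{u} := by
  intro hInvDim F _ _ p _ _ hodd d r _ hr2 hrp hev x hx hxr P hP B₁ B₂ hS₁ hS₂ hN₁ hN₂ hF₁ hF₂
    hd₁ hd₂ horth hK₁ hK₂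
  classical
  have hr : r.Prime := Fact.out
  obtain ⟨φ, φ', h1, h2, hφr, hφa, hφQ, hInv⟩ := setup p d r hrp hInvDim x hx hxr
  have hφeq : φ = Matrix.toLin' (x : Matrix (I d) (I d) F) :=
    LinearMap.ext fun v => by rw [hφa v, Matrix.toLin'_apply]
  obtain ⟨hB₁, hB₁fix, hB₁nd⟩ := transl d (x : Matrix (I d) (I d) F) φ hφa B₁ hS₁ hN₁ hF₁
  obtain ⟨hB₂, hB₂fix, hB₂nd⟩ := transl d (x : Matrix (I d) (I d) F) φ hφa B₂ hS₂ hN₂ hF₂
  obtain ⟨hPm, hPirr, hPcyc⟩ := hP
  have hr0 : (r : F) ≠ 0 := by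
    rw [Ne, CharP.cast_eq_zero_iff F p]
    intro h
    exact hrp ((Nat.prime_dvd_prime_iff_eq Fact.out hr).mp h).symm
  have hPdvd : P ∣ X ^ r - C (1 : F) := by
    have h3 := cyclotomic_prime_mul_X_sub_one F r
    rw [map_one, ← h3]
    exact Dvd.dvd.mul_right hPcyc _
  have hP1 : P ≠ X - C 1 := by
    intro h
    have h3 : (cyclotomic r F).eval 1 = 0 := by
      obtain ⟨R, hR⟩ := hPcyc
      rw [hR, h, eval_mul, eval_sub, eval_X, eval_C, sub_self, zero_mul]
    rw [eval_one_cyclotomic_prime] at h3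
    exact hr0 h3
  -- the degree of `P`
  have hnd : ¬ r ∣ Fintype.card F := by
    obtain ⟨k, hk1, hk⟩ := FiniteField.card F p
    rw [hk]
    intro h
    exact hrp ((Nat.prime_dvd_prime_iff_eq hr hk1).mp (hr.dvd_of_dvd_pow h))
  have hord : orderOf ((Fintype.card F : ℕ) : ZMod r) ∣ r - 1 := by
    apply orderOf_dvd_of_pow_eq_one
    apply ZMod.pow_card_sub_one_eq_one
    rw [Ne, ZMod.natCast_eq_zero_iff]
    exact hnd
  obtain ⟨t, ht⟩ := hord
  obtain ⟨S, -, -, hS, hdiv⟩ := Cfsg.Agent.S2568.cyclo_facts (F := F) (p := p) r _ t hr hrp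
    rfl (by rw [ht, mul_comm])
  have hPdeg : P.natDegree = orderOf ((Fintype.card F : ℕ) : ZMod r) := by
    rcases (hdiv P hPirr hPm).mp hPdvd with h | h
    · exact absurd h hP1
    · exact (hS P h).2.2
  obtain ⟨i, hi⟩ : ∃ i, i = orderOf ((Fintype.card F : ℕ) : ZMod r) := ⟨_, rfl⟩
  rw [← hi] at hPdeg hInv hev hd₁ hd₂ ⊢
  have hipos : 0 < i := hPdeg ▸ hPirr.natDegree_pos
  have hi2 : 2 ≤ i := by
    obtain ⟨j, hj⟩ := hev
    omega
  obtain ⟨hP0, hrev1, -, -, -, -, -, -, hL, -, hself, -⟩ :=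
    recip_facts (p := p) r hr2 P hPirr hPm hPdvd hP1
  rw [← hi] at hself
  have hrs := hself hev hipos
  rw [hrs] at hrev1
  have hPe1 : P.eval 1 ≠ 0 := by
    intro h0
    have h3 : X - C (1 : F) ∣ P := dvd_iff_isRoot.mpr h0
    have h4 := hL.isUnit_of_dvd' h3 dvd_rfl
    exact (irreducible_X_sub_C (1 : F)).not_isUnit h4
  have hc1 : P.coeff 0 = 1 := by
    have h3 := reverse_eval_one P
    rw [hrev1, eval_mul, eval_C] at h3
    have h4 : (P.coeff 0 - 1) * P.eval 1 = 0 := by linear_combination h3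
    rcases mul_eq_zero.mp h4 with h | h
    · exact sub_eq_zero.mp h
    · exact absurd h hPe1
  have h2F : (2 : F) ≠ 0 := two_ne_zero_of_odd hodd
  -- the sum of the two blocks
  have hinf : B₁ ⊓ B₂ = ⊥ := by
    rw [Submodule.eq_bot_iff]
    rintro v ⟨hv1, hv2⟩
    by_contra hv0
    obtain ⟨y, hy, hne⟩ := hB₁nd v hv1 hv0
    apply hne
    have h3 := horth y hy v hv2
    rw [polar_comm]
    exact h3
  have hdim : finrank F ↥(B₁ ⊔ B₂) = 2 * i := by
    have h3 := Submodule.finrank_sup_add_finrank_inf_eq B₁ B₂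
    rw [hinf, finrank_bot, hd₁, hd₂] at h3
    omega
  have hMinv : ∀ v ∈ B₁ ⊔ B₂, φ v ∈ B₁ ⊔ B₂ := by
    intro v hv
    obtain ⟨a, ha, c, hc, rfl⟩ := Submodule.mem_sup.mp hv
    rw [map_add]
    exact Submodule.add_mem _ (Submodule.mem_sup_left (hB₁ a ha))
      (Submodule.mem_sup_right (hB₂ c hc))
  have hMk : ∀ v ∈ B₁ ⊔ B₂, aeval φ P v = 0 := by
    intro v hv
    obtain ⟨a, ha, c, hc, rfl⟩ := Submodule.mem_sup.mp hv
    rw [map_add, hφeq, hK₁ a ha, hK₂ c hc, add_zero]
  obtain ⟨U, hUM, hUinv, hUts, hUdim⟩ := pair_abs (p := p) h2F (oddQ d F) φ φ' h1 h2 hφQ i hInv P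
    hPm hPdeg hi2 (by rw [hc1]; norm_num; exact h2F) hL (B₁ ⊔ B₂) hMinv hMk (by rw [hdim]; omega)
  refine ⟨U, hUM, ?_, hUts, hUdim⟩
  apply Submodule.map_le_iff_le_comap.mpr
  intro v hv
  rw [Submodule.mem_comap, Matrix.toLin'_apply, ← hφa]
  exact hUinv v hv

end Cfsg.Agent.Lib.Helper43.TSPAIRE
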